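import Cfsg.Statements.S5433
import Cfsg.Agent.TT.Large

set_option autoImplicit false
open Cfsg

namespace Cfsg.Agent.S5433

open Cfsg.Agent.GT Cfsg.Agent.TT Subgroup

/-- Let Q be a large extraspecial 2-subgroup of the finite group G (extraspecial; centralizer equal to its centre; normal in the centralizer of its centre; normalizing no non-trivial subgroup of odd order), and L a normal subgroup of G containing Q. Then G is the product of L and the normalizer of Q. -/
theorem result {G : Type*} [Group G] [Finite G] (Q : Subgroup G) (hQ : Cfsg.IsLargeExtraspecial Q) (L : Subgroup G) [L.Normal] (hQL : Q ≤ L) : L ⊔ Subgroup.normalizer (Q : Set G) = ⊤ := by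
  obtain ⟨z, h⟩ := LQ.of_large hQ
  obtain ⟨T, hT, hQT⟩ := exists_syl_ge Nat.prime_two h.isPGroup hQL
  have h1 := frattini_arg Nat.prime_two hT le_top le_norm_of_normal
  have hT2 := syl_isPGroup Nat.prime_two hT
  have h2 : T ⊓ C[T] ≤ zpowers z := by
    rw [← h.cent_eq]; exact inf_le_right.trans (cent_anti hQT)
  obtain ⟨y, hy, hy1⟩ := exists_ne_one_of_ne_bot (center_ne_bot_of_nilpotent
    (nilpotent_of_isPGroup Nat.prime_two hT2) (ne_bot_of_mem (hQT h.mem) h.ne))
  have hyz : y = z := (h.mem_zp.1 (h2 hy)).resolve_left hy1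
  rw [eq_top_iff, ← h1]
  refine sup_le_sup_left ?_ _
  rintro g ⟨-, hg⟩
  apply h.nQ
  have h3 := conj_mem_of_mem_norm (le_norm_inf le_rfl (norm_le_norm_cent T) hg) hy
  rw [hyz] at h3
  rcases h.mem_zp.1 (h2 h3) with e | e
  · exact absurd (by simpa using e) h.ne
  · exact mem_cent1.2 (commute_iff_conj.2 e)

end Cfsg.Agent.S5433
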