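import Cfsg.Statements.S0283
import Cfsg.Agent.Cl.UStd

set_option autoImplicit false
open Cfsg

namespace Cfsg.Agent.S0283

open Cfsg.Agent.Cl.Uni

/-- PSU_n(q) is simple for n at least 3 and (n, q) other than (3, 2). -/
theorem result {F : Type*} [Field F] [Fintype F] {q : ℕ} (hF : Fintype.card F = q ^ 2) (n : ℕ) (hn : 3 ≤ n) (h : ¬ (n = 3 ∧ q = 2)) : IsSimpleGroup (Cfsg.PSU n F q) := by
  obtain ⟨_, H⟩ := exists_isFrob hF
  exact H.simple_psu hn h

end Cfsg.Agent.S0283
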