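import Cfsg.Statements.S0244
import Mathlib

set_option autoImplicit false
open Cfsg

namespace Cfsg.Agent.S0244

/-- Sp_2 = SL_2: a matrix on Fin 1 ⊕ Fin 1 lies in Mathlib's symplectic group iff its determinant is 1. -/
theorem result {R : Type*} [CommRing R] (A : Matrix (Fin 1 ⊕ Fin 1) (Fin 1 ⊕ Fin 1) R) : A ∈ Matrix.symplecticGroup (Fin 1) R ↔ A.det = 1 := by
  refine ⟨fun h => SymplecticGroup.det_eq_one h, fun h => ?_⟩
  have hd : A.det = A (.inl 0) (.inl 0) * A (.inr 0) (.inr 0) -
      A (.inl 0) (.inr 0) * A (.inr 0) (.inl 0) := by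
    rw [← Matrix.det_reindex_self (finSumFinEquiv : Fin 1 ⊕ Fin 1 ≃ Fin 2), Matrix.det_fin_two]
    rfl
  rw [hd] at h
  rw [SymplecticGroup.mem_iff]
  ext i j
  rcases i with i | i <;> rcases j with j | j <;>
    obtain rfl : i = 0 := Subsingleton.elim _ _ <;>
    obtain rfl : j = 0 := Subsingleton.elim _ _ <;>
    simp [Matrix.mul_apply, Matrix.J, Fintype.sum_sum_type]
  · ring
  · linear_combination -h
  · linear_combination h
  · ring

end Cfsg.Agent.S0244
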