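import Cfsg.Statements.S0254
import Cfsg.Agent.Cl.Simple360

set_option autoImplicit false
open Cfsg

namespace Cfsg.Agent.S0254

/-- PSL_2(9) is isomorphic to A_6. -/
theorem result {F : Type*} [Field F] [Fintype F] (hF : Fintype.card F = 9) : Nonempty (Matrix.ProjectiveSpecialLinearGroup (Fin 2) F ≃* alternatingGroup (Fin 6)) := by
  classical
  have := Matrix.ProjectiveSpecialLinearGroup.rank_two_simple (F := F)
    (by rw [Nat.card_eq_fintype_card, hF]; norm_num)
  refine Cfsg.Agent.Cl.simple_card_360_alt ?_
  have h := Cfsg.Agent.Cl.card_psl_two_of_odd hF (by decide)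
  omega

end Cfsg.Agent.S0254
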