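import Cfsg.Statements.S0255
import Cfsg.Agent.Cl.SimpleUniq

set_option autoImplicit false
open Cfsg

namespace Cfsg.Agent.S0255

/-- PSL_2(7) is isomorphic to PSL_3(2). -/
theorem result {F K : Type*} [Field F] [Fintype F] [Field K] [Fintype K] (hF : Fintype.card F = 7) (hK : Fintype.card K = 2) : Nonempty (Matrix.ProjectiveSpecialLinearGroup (Fin 2) F ≃* Matrix.ProjectiveSpecialLinearGroup (Fin 3) K) := by
  classical
  have := Matrix.ProjectiveSpecialLinearGroup.rank_two_simple (F := F)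
    (by rw [Nat.card_eq_fintype_card, hF]; norm_num)
  have := Cfsg.Agent.Cl.psl_isSimpleGroup (ι := Fin 3) (F := K) (by simp)
  have h1 := Cfsg.Agent.Cl.card_psl_two_of_odd hF (by decide)
  have h2 := Cfsg.Agent.Cl.card_psl_mul (F := K) 3 (by norm_num)
  rw [hK, Fin.prod_univ_three] at h2
  obtain ⟨e1⟩ := Cfsg.Agent.Cl.simple_card_168
    (G := Matrix.ProjectiveSpecialLinearGroup (Fin 2) F) (by omega)
  obtain ⟨e2⟩ := Cfsg.Agent.Cl.simple_card_168
    (G := Matrix.ProjectiveSpecialLinearGroup (Fin 3) K) (by simpa using h2)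
  exact ⟨e1.trans e2.symm⟩

end Cfsg.Agent.S0255
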