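import Cfsg.Statements.S0282
import Cfsg.Agent.Cl.USmall

set_option autoImplicit false
open Cfsg

namespace Cfsg.Agent.S0282

open Cfsg.Agent.Cl Cfsg.Agent.Cl.Uni

/-- PSU_3(2) is a solvable group of order 72. -/
theorem result {F : Type*} [Field F] [Fintype F] (hF : Fintype.card F = 4) : Nat.card (Cfsg.PSU 3 F 2) = 72 ∧ Group.IsSolvable (Cfsg.PSU 3 F 2) := by
  obtain ⟨_, H⟩ := exists_isFrob (F := F) (q := 2) hF
  have h := H.card_psu (n := 3) (by norm_num)
  have h72 : Nat.card (Cfsg.PSU 3 F 2) = 72 := by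
    simp [Finset.prod_range_succ, Nat.even_iff] at h
    omega
  have : Finite (Cfsg.PSU 3 F 2) := Nat.finite_of_card_ne_zero (by omega)
  exact ⟨h72, isSolvable_of_card_dvd_72 _ (by rw [h72])⟩

end Cfsg.Agent.S0282
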