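import Cfsg.Statements.S0295
import Cfsg.Agent.Cl.OOrders

set_option autoImplicit false
open Cfsg

namespace Cfsg.Agent.S0295

open Cfsg.Agent.Cl.Orth

/-- PΩ_{2m+1}(q) is simple for q odd and m at least 3. -/
theorem result {F : Type*} [Field F] [Fintype F] (hodd : Odd (Fintype.card F)) (m : ℕ) (hm : 3 ≤ m) : IsSimpleGroup (Cfsg.POmega F (Cfsg.quadFormOdd m F)) := by
  have h2 := two_ne_zero_of_odd hodd
  have := simple_HS (m := m) (bnondeg_Q1 h2) (by omega) (by omega)
  exact (pomegaEquiv (oOdd m F)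
    (commutator_HS (bnondeg_Q1 h2) (by omega) (by omega))).isSimpleGroup

end Cfsg.Agent.S0295
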