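import Cfsg.Statements.S0484
import Cfsg.Agent.B84.Red
import Cfsg.Agent.B84.ThB2
import Cfsg.Agent.B84H.E
import Cfsg.Agent.B84C.E

set_option autoImplicit false
open Cfsg

namespace Cfsg.Agent.S0484

open Cfsg.Agent.GT Subgroup

/-- If a finite simple group has an involution whose centralizer is isomorphic to the quotient of the general linear
group of dimension 2 over a finite field of odd order by a central subgroup of odd order, then it is isomorphic to the
projective special linear group of dimension 3 over that field, or is simple of order 7920. -/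
theorem result {G : Type*} [Group G] [Finite G]
    [IsSimpleGroup G] {F : Type*} [Field F] [Fintype F] (hF : Odd (Fintype.card F)) (Z : Subgroup (GL (Fin 2) F))
    [Z.Normal] (hZc : Z ≤ Subgroup.center (GL (Fin 2) F)) (hZo : Odd (Nat.card Z)) (t : G) (ht : orderOf t = 2)
    (hC : Nonempty (Subgroup.centralizer ({t} : Set G) ≃* (GL (Fin 2) F ⧸ Z))) :
    Nonempty (G ≃* Matrix.ProjectiveSpecialLinearGroup (Fin 3) F) ∨ Cfsg.IsM11 G := by
  obtain ⟨φ, g, h⟩ := B84.exists_hy hF Z hZc hZo ht hC.some
  haveI := Fintype.ofFinite G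
  have q4 : Fintype.card F % 4 = 1 ∨ Fintype.card F % 4 = 3 := by have := Nat.odd_iff.1 hF; omega
  have d := h.dvd_of fun Q _ _ ψ k h' d1 => by
    haveI := Fintype.ofFinite Q
    refine q4.elim (B84C.C4_one h') fun q => ?_
    by_cases hc : ∀ a b, Odd (orderOf (ψ (B84.dg a b))) → Commute k (ψ (B84.dg a b))
    · exact B84H.hard h' q d1 hc
    push Not at hc
    obtain ⟨a, b, o, n⟩ := hc
    obtain ⟨l, m, hm, hl, hk, r⟩ := B84V.exists_regular h' d1 o n
    exact B84C.regular_dvd h' hm hl hk (r _ (by simp)) (r _ (by simp)) (r _ (by simp)) (r _ (by simp))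
  have lt := q4.elim (B84C.C1_one h) (B84V.C1_three h)
  rcases h.loc d lt with b | ⟨q | q, n⟩
  · exact Or.inl (h.thmB b lt)
  · refine Or.inr ⟨inferInstance, ?_⟩
    haveI := Fact.mk (B84.Hy.prime_p (F := F))
    have p : ringChar F = 3 := (Nat.prime_dvd_prime_iff_eq B84.Hy.prime_p Nat.prime_three).1
      (q ▸ Cl.char_dvd_card (F := F) _)
    have k : φ.ker = ⊥ := eq_bot_iff.2 fun A e => by
      obtain ⟨c, o, rfl⟩ := h.ker A e
      have := orderOf_dvd_natCard c
      rw [Nat.card_units, Nat.card_eq_fintype_card, q] at this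
      rw [orderOf_eq_one_iff.1 (((Nat.dvd_prime Nat.prime_two).1 this).resolve_right fun e => by
        rw [e] at o; exact absurd o (by decide)), B84.dg_one]
      exact one_mem _
    have c := h.card_H
    rw [k, Subgroup.card_bot, mul_one, Cl.card_gl_two, q] at c
    rw [← Subgroup.card_mul_index (Subgroup.centralizer {φ (B84.dg (-1) (-1))}), c,
      B84V.C2_three h q (p ▸ d) (by rwa [q] at n)]
    norm_num
  · exact (n (q ▸ B84C.C3 h q)).elim

end Cfsg.Agent.S0484
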