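import Cfsg.Statements.S0485
import Cfsg.Agent.B85C.F
import Cfsg.Agent.B85D.Psi

set_option autoImplicit false
open Cfsg

namespace Cfsg.Agent.S0485

/-- If a finite simple group has an involution whose centralizer is isomorphic to the quotient of the general unitary
group of dimension 2 for an odd prime power q (realised over the field with q² elements) by a central subgroup of odd
order, then it is isomorphic to the projective special unitary group of dimension 3 for the same q. -/
theorem result {G : Type*} [Group G] [Finite G]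
    [IsSimpleGroup G] {F : Type*} [Field F] [Fintype F] (q : ℕ) (hq : Odd q) (hF : Fintype.card F = q ^ 2)
    (Z : Subgroup (Cfsg.GU 2 F q)) [Z.Normal] (hZc : Z ≤ Subgroup.center (Cfsg.GU 2 F q)) (hZo : Odd (Nat.card Z))
    (t : G) (ht : orderOf t = 2) (hC : Nonempty (Subgroup.centralizer ({t} : Set G) ≃* (Cfsg.GU 2 F q ⧸ Z))) :
    Nonempty (G ≃* Cfsg.PSU 3 F q) := by
  have ps : B85C.PSI := fun H C K X G _ _ _ _ _ _ _ _ _ _ m φ g h q4 => by
    obtain ⟨η, η', x, s1, s2, -, -, -, v1, v2, v3, v4, E, b, z⟩ := B85D.exists_psi h q4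
    exact ⟨η, η', x, s1, s2, v1, v2, v3, v4, E, b, fun y n => (z y n).2⟩
  exact B85.main (B85C.cCa ps) (B85C.cCb ps) q hq hF Z hZc hZo t ht hC

end Cfsg.Agent.S0485
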