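import Cfsg.Statements.S0489
import Cfsg.Agent.Cls.TwoGenC

set_option autoImplicit false
open Cfsg

namespace Cfsg.Agent.S0489

open Cfsg.Agent.Char
open scoped ComplexConjugate

/-- A finite group in which every two elements generate a solvable subgroup is solvable. -/
theorem result {G : Type*} [Group G] [Finite G]
    (h : ∀ a b : G, Group.IsSolvable (Subgroup.closure ({a, b} : Set G))) : Group.IsSolvable G := by
  exact TwoGen.solvable_of_two_generated G h

end Cfsg.Agent.S0489
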