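import Cfsg.Statements.S0493
import Cfsg.Agent.BS.Small3

set_option autoImplicit false
open Cfsg

namespace Cfsg.Agent.S0493

/-- A finite simple group of order at most 100 that is not cyclic has order 60. -/
theorem result {G : Type*} [Group G] [Finite G] [IsSimpleGroup G]
    (hG : ¬ IsCyclic G) (h : Nat.card G ≤ 100) : Nat.card G = 60 := by
  have h1 : ¬ IsMulCommutative G := fun hc => hG (by
    letI : CommGroup G := { (inferInstance : Group G) with mul_comm := hc.is_comm.comm }
    exact IsSimpleGroup.isCyclic)
  have := Cfsg.Agent.BS.simple_card_le_1092 h1 (by omega)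
  omega

end Cfsg.Agent.S0493
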