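import Cfsg.Statements.S0498
import Cfsg.Agent.Cl.SimpleUniq

set_option autoImplicit false
open Cfsg

namespace Cfsg.Agent.S0498

/-- A simple group of order 660, respectively 1092, is isomorphic to the projective special linear group of dimension 2
over the field with 11, respectively 13, elements. -/
theorem result {G : Type*} [Group G] [Finite G] [IsSimpleGroup G] (p : ℕ)
    (hp : p = 11 ∨ p = 13) (h : 2 * Nat.card G = p * (p ^ 2 - 1)) {F : Type*} [Field F] [Fintype F]
    (hF : Fintype.card F = p) : Nonempty (G ≃* Matrix.ProjectiveSpecialLinearGroup (Fin 2) F) := by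
  classical
  rcases hp with rfl | rfl
  · have := Matrix.ProjectiveSpecialLinearGroup.rank_two_simple (F := F)
      (by rw [Nat.card_eq_fintype_card, hF]; norm_num)
    have h1 := Cfsg.Agent.Cl.card_psl_two_of_odd hF (by decide)
    obtain ⟨e1⟩ := Cfsg.Agent.Cl.simple_card_660 (G := G) (by omega)
    obtain ⟨e2⟩ := Cfsg.Agent.Cl.simple_card_660
      (G := Matrix.ProjectiveSpecialLinearGroup (Fin 2) F) (by omega)
    exact ⟨e1.trans e2.symm⟩
  · have := Matrix.ProjectiveSpecialLinearGroup.rank_two_simple (F := F)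
      (by rw [Nat.card_eq_fintype_card, hF]; norm_num)
    have h1 := Cfsg.Agent.Cl.card_psl_two_of_odd hF (by decide)
    obtain ⟨e1⟩ := Cfsg.Agent.Cl.simple_card_1092 (G := G) (by omega)
    obtain ⟨e2⟩ := Cfsg.Agent.Cl.simple_card_1092
      (G := Matrix.ProjectiveSpecialLinearGroup (Fin 2) F) (by omega)
    exact ⟨e1.trans e2.symm⟩

end Cfsg.Agent.S0498
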