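import Cfsg.Statements.S0499
import Cfsg.Agent.Cls.FrobNC

set_option autoImplicit false
open Cfsg

namespace Cfsg.Agent.S0499

/-- A non-abelian finite simple group of even order has order divisible by 12, 16 or 56. -/
theorem result {G : Type*} [Group G] [Finite G] [IsSimpleGroup G]
    (hG : ¬ IsMulCommutative G) (h2 : Even (Nat.card G)) :
    12 ∣ Nat.card G ∨ 16 ∣ Nat.card G ∨ 56 ∣ Nat.card G := by
  open Cfsg.Agent.GT Cfsg.Agent.Cls in
  have : Fact (Nat.Prime 2) := ⟨Nat.prime_two⟩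
  have hF : ¬ FrobCond 2 (⊤ : Subgroup G) := by
    intro h
    have h1 := frobenius_normal_compl Nat.prime_two h
    have hn : (piCoreOf {2}ᶜ (⊤ : Subgroup G)).Normal :=
      normal_iff_top_le_norm.2 (self_le_norm_piCoreOf _ _)
    rcases hn.eq_bot_or_eq_top with h2' | h2'
    · rw [h2'] at h1
      have h3 := h1.isPi_compl_of_eq_bot
      rw [compl_compl] at h3
      have h4 : IsPGroup 2 G := GT.isPGroup_top_iff.1 (h3.isPGroup Nat.prime_two)
      have h5 : Group.IsSolvable G := by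
        have := h4.isNilpotent
        infer_instance
      exact hG ⟨⟨IsSimpleGroup.comm_iff_isSolvable.2 h5⟩⟩
    · have h3 := h1.isPi
      rw [h2', isPiSubgroup_single_compl_iff Nat.prime_two, Subgroup.card_top] at h3
      exact h3 h2.two_dvd
  unfold FrobCond at hF
  push Not at hF
  obtain ⟨q, Q, B, hq, hq2, -, hQ, -, hB, hn, hc⟩ := hF
  obtain ⟨n, hQn⟩ := PG.exists_card_eq_pow hQ
  obtain ⟨k, hk1, hkn, hd⟩ := PG.exists_dvd_pow_sub_one hq hq2 hQ hQn.le hB hn hc
  have hqG : q ∣ Nat.card G := by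
    have : Fact q.Prime := ⟨hq⟩
    refine (PG.dvd_card_of_ne_bot hB ?_).trans (Subgroup.card_subgroup_dvd_card B)
    rintro rfl
    exact hc bot_le
  have h2k : 2 ^ k ∣ Nat.card G :=
    (pow_dvd_pow 2 hkn).trans (hQn ▸ Subgroup.card_subgroup_dvd_card Q)
  by_cases h4 : 4 ≤ k
  · exact Or.inr (Or.inl ((pow_dvd_pow 2 h4).trans h2k))
  have : k = 1 ∨ k = 2 ∨ k = 3 := by omega
  rcases this with rfl | rfl | rfl
  · exact absurd (Nat.dvd_one.1 hd) hq.one_lt.ne'
  · obtain rfl : q = 3 := (Nat.prime_dvd_prime_iff_eq hq Nat.prime_three).1 hd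
    exact Or.inl (Nat.Coprime.mul_dvd_of_dvd_of_dvd (by norm_num : Nat.Coprime 3 4) hqG h2k)
  · obtain rfl : q = 7 := (Nat.prime_dvd_prime_iff_eq hq (by norm_num : Nat.Prime 7)).1 hd
    exact Or.inr (Or.inr
      (Nat.Coprime.mul_dvd_of_dvd_of_dvd (by norm_num : Nat.Coprime 7 8) hqG h2k))

end Cfsg.Agent.S0499
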