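import Cfsg.Statements.S0502
import Cfsg.Agent.Cls.Four

set_option autoImplicit false
open Cfsg

namespace Cfsg.Agent.S0502

/-- If a finite 2-group has a normal elementary abelian subgroup of order at least 8, then any two of its Klein
four-subgroups are joined by a chain of Klein four-subgroups with consecutive members commuting elementwise. -/
theorem result {P : Type*} [Group P] [Finite P] (hP : IsPGroup 2 P)
    (E : Subgroup P) [E.Normal] (hE : IsMulCommutative E) (hE2 : ∀ e ∈ E, e ^ 2 = 1) (hE8 : 8 ≤ Nat.card E) :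
    Cfsg.IsFourConnected P := by
  open Subgroup Cfsg.Agent.GT Cfsg.Agent.Cls in
  have : Fact (Nat.Prime 2) := ⟨Nat.prime_two⟩
  have hp := Nat.prime_two
  have hP' : IsPGroup 2 (⊤ : Subgroup P) := GT.isPGroup_top_iff.2 hP
  have hEe : IsElementaryAbelian 2 E := ⟨hE, hE2⟩
  obtain ⟨z, hzE, hzc, hz1, hz2⟩ := PG.exists_mem_cent_orderOf_p hP' (hP'.to_le le_top)
    (le_norm_of_normal (H := E)) (ne_bot_iff_one_lt_card.2 (by omega))
  have hZ := PG.pnElem_one_zpowers hp (mem_top z) hz1 hz2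
  have hZc : ∀ X : Subgroup P, X ≤ C[zpowers z] := fun X =>
    le_cent_symm ((zpowers_le.2 hzc).trans (cent_anti le_top))
  have key : ∀ U : Subgroup P, PnElem 2 2 ⊤ U →
      ∃ W : Subgroup P, PnElem 2 2 E W ∧ Relation.ReflTransGen FourAdj U W := by
    intro U hU
    obtain ⟨u, hu, hu'⟩ := SetLike.not_le_iff_exists.1 (fun h : U ≤ zpowers z =>
      PG.pnElem_two_not_isCyclic hp hU (isCyclic_of_le inferInstance h))
    have hu2 : u ^ 2 = 1 := PG.elemAb_pow hU.elem hu
    have hV := PG.pnElem_two_sup hp hZ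
      (PG.pnElem_one_zpowers hp (mem_top u) (fun e => hu' (e ▸ one_mem _)) hu2)
      (fun e => hu' (e ▸ mem_zpowers u)) (le_cent_symm (hZc _))
    have h1 := card_le_sq_cent1 hEe (le_norm_of_normal (mem_top u)) hu2
    have h2 : 2 ^ 1 < Nat.card ↥(E ⊓ C1[u]) := by
      by_contra h
      push Not at h
      have := Nat.mul_le_mul h h
      omega
    obtain ⟨W, hW, hWc⟩ := PG.exists_le_card_eq_pow (hP'.to_le le_top)
      (PG.pow_succ_le_card_of_lt (hP'.to_le le_top) h2)
    have hW' : PnElem 2 2 E W :=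
      ⟨hW.trans inf_le_left, PG.elemAb_of_le hEe (hW.trans inf_le_left), hWc⟩
    refine ⟨W, hW', .head (fourAdj_iff.2 ⟨hU, hV, ?_⟩) (.single (fourAdj_iff.2 ⟨hV, hW'.top, ?_⟩))⟩
    · exact sup_le (le_cent_symm (hZc _)) ((zpowers_le.2 hu).trans hU.le_cent)
    · rw [cent_sup, cent_zpowers u]
      exact le_inf (hZc _) (hW.trans inf_le_right)
  rw [isFourConnected_iff]
  intro U V hU hV
  obtain ⟨W, hW, h1⟩ := key U hU
  obtain ⟨W', hW', h2⟩ := key V hV
  exact (h1.tail (fourAdj_iff.2 ⟨hW.top, hW'.top,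
    hW'.le.trans ((PG.elemAb_le_cent hEe).trans (cent_anti hW.le))⟩)).trans (fourConn_symm h2)

end Cfsg.Agent.S0502
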