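import Cfsg.Statements.S0504
import Cfsg.Agent.SE.Red2
import Cfsg.Agent.SE.PC4
import Cfsg.Agent.SE.Asm
import Cfsg.Agent.SE.KK
import Cfsg.Agent.SE.T3
import Cfsg.Agent.SE.ST1
import Cfsg.Agent.SE.Q1b
import Cfsg.Agent.SE.Q5
import Cfsg.Agent.SE.Two
import Cfsg.Agent.SE.Up

set_option autoImplicit false
open Cfsg

namespace Cfsg.Agent.S0504

/-- Let G be a finite group containing an elementary abelian subgroup of order 8, with no nontrivial normal subgroup of
odd order, not of component type, and with a Sylow 2-subgroup whose commuting graph of Klein four-subgroups is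
connected. Then every 2-local subgroup H of G satisfies C_H(O₂(H)) ≤ O₂(H). -/
theorem result {G : Type*} [Group G] [Finite G]
    (h3 : ¬ Cfsg.PRankLE 2 2 G) (hO : Cfsg.oddCore G = ⊥) (hc : ¬ Cfsg.IsComponentType G) (S : Sylow 2 G)
    (hS : Cfsg.IsFourConnected (S : Subgroup G)) : Cfsg.IsCharacteristicTwoType G :=
  Cfsg.Agent.SE.Rd.red1 (Cfsg.Agent.SE.tz (Cfsg.Agent.SE.pNI_of Cfsg.Agent.SE.pKP Cfsg.Agent.SE.pTwo Cfsg.Agent.SE.pFm
    (Cfsg.Agent.SE.pST Cfsg.Agent.SE.Q1b.pQ1 Cfsg.Agent.SE.pQ5) Cfsg.Agent.SE.pUp)) h3 hO hc S hS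

end Cfsg.Agent.S0504
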