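import Cfsg.Statements.S0505
import Cfsg.Agent.GT.Fitting
import Cfsg.Agent.GT.SylowRel
import Cfsg.Agent.GT.Rel

set_option autoImplicit false
open Cfsg

namespace Cfsg.Agent.S0505

open Cfsg.Agent.GT Subgroup

/-- Let G be a finite group of even order in which the centralizer of every involution is solvable and has trivial
core (no nontrivial normal subgroup of odd order). Then G is of characteristic 2 type. -/
theorem result {G : Type*} [Group G] [Finite G]
    (h2 : Even (Nat.card G))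
    (hs : ∀ t : G, orderOf t = 2 → Group.IsSolvable (Subgroup.centralizer ({t} : Set G)))
    (hc : ∀ t : G, orderOf t = 2 → Cfsg.oddCore (Subgroup.centralizer ({t} : Set G)) = ⊥) :
    Cfsg.IsCharacteristicTwoType G := by
  refine ⟨h2, fun T hT hT1 => ?_⟩
  have hp : Nat.Prime 2 := Nat.prime_two
  obtain ⟨t, ht, ht2⟩ : ∃ t ∈ T ⊓ C[T], orderOf t = 2 := by
    have hZ : T ⊓ C[T] ≠ ⊥ := inf_cent_ne_bot_of_isPGroup hp hT hT le_normalizer hT1
    obtain ⟨r, hr, hd⟩ := exists_prime_dvd_card hZ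
    have : r = 2 := (isPi_of_isPGroup hp hT).inf_left r hr hd
    exact exists_mem_orderOf_eq hp (this ▸ hd)
  have hsC := hs t ht2
  have hO : piCoreOf {2}ᶜ C1[t] = ⊥ := by
    rw [← map_subtype_pPrimeCore hp, show pPrimeCore 2 ↥C1[t] = ⊥ from hc t ht2, Subgroup.map_bot]
  have hTC : T ≤ C1[t] := mem_cent_iff_le_cent1.1 ht.2
  have hCT : C[T] ≤ C1[t] := cent_le_cent1 ht.1
  have h1 : piCoreOf {2}ᶜ C[T] = ⊥ := by
    have := piCoreOf_compl_cent_eq_bot hp hsC hTC hT hO
    rwa [inf_eq_right.2 hCT] at this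
  set Q := piCoreOf {2} N[T] with hQ
  have hTQ : T ≤ Q := le_piCoreOf_single hp le_normalizer le_rfl hT
  set X := N[T] ⊓ C[Q] with hX
  have hXC : X ≤ C[T] := inf_le_right.trans (cent_anti hTQ)
  have hNX : N[T] ≤ N[X] :=
    le_norm_inf le_normalizer (le_norm_cent (self_le_norm_piCoreOf _ _))
  have hXs : Group.IsSolvable X := isSolvable_of_le hsC (hXC.trans hCT)
  have h3 : piCoreOf {2}ᶜ X = ⊥ := piCoreOf_eq_bot_of_normal hXC ((cent_le_norm T).trans hNX) h1
  have h4 : piCoreOf {2} X ≤ Q := piCoreOf_le_of_normal inf_le_left hNX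
  have h5 : X ≤ Q :=
    (le_inf le_rfl (inf_le_right.trans (cent_anti h4))).trans ((inf_cent_piCoreOf_le hXs h3).trans h4)
  intro x hx
  have e : (pCore 2 ↥N[T]).map (N[T]).subtype = Q := map_subtype_pCore hp _
  have hx' : (x : G) ∈ X := by
    refine ⟨x.2, ?_⟩
    rw [← e]
    rintro _ ⟨y, hy, rfl⟩
    exact congrArg Subtype.val (hx y hy)
  have := h5 hx'
  rw [← e] at this
  obtain ⟨y, hy, hyx⟩ := this
  exact (Subtype.ext hyx : y = x) ▸ hy

end Cfsg.Agent.S0505
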