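import Cfsg.Statements.S0508
import Cfsg.Agent.Cls.BSW7

set_option autoImplicit false
open Cfsg

namespace Cfsg.Agent.S0508

/-- Let G be a finite simple group with a dihedral Sylow 2-subgroup S (of order at least 4), t an involution in the
centre of S, C the centralizer of t and O the core of C (its largest normal subgroup of odd order). Suppose that: if O
is nontrivial then the centralizer of O in S is cyclic of index 2 in S; every element of S not centralizing O inverts
every element of O; and the normalizer of every nontrivial subgroup of O lies in C. Then G is isomorphic to a projective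
special linear group of dimension 2 over a field of odd order. -/
theorem result {G : Type*} [Group G] [Finite G] [IsSimpleGroup G] (S : Sylow 2 G) (n : ℕ)
    (hn : 2 ≤ n) (hS : Nonempty ((S : Subgroup G) ≃* DihedralGroup n)) (t : G) (ht : orderOf t = 2)
    (htS : t ∈ (S : Subgroup G))
    (htZ : ∀ s ∈ (S : Subgroup G), s * t = t * s) (O : Subgroup G)
    (hO : O = (Cfsg.oddCore (Subgroup.centralizer ({t} : Set G))).map (Subgroup.centralizer ({t} : Set G)).subtype)
    (ha : O ≠ ⊥ → IsCyclic ((S : Subgroup G) ⊓ Subgroup.centralizer (O : Set G) : Subgroup G) ∧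
      ((S : Subgroup G) ⊓ Subgroup.centralizer (O : Set G)).relIndex (S : Subgroup G) = 2)
    (hb : ∀ s ∈ (S : Subgroup G), s ∉ Subgroup.centralizer (O : Set G) → ∀ y ∈ O, s * y * s⁻¹ = y⁻¹)
    (hc : ∀ Y : Subgroup G, Y ≤ O → Y ≠ ⊥ → Subgroup.normalizer (Y : Set G) ≤ Subgroup.centralizer ({t} : Set G)) :
    ∃ (F : Type) (_ : Field F) (_ : Fintype F), Odd (Fintype.card F) ∧ Nonempty (G ≃* Matrix.ProjectiveSpecialLinearGroup (Fin 2) F) := by
  open Subgroup Cfsg.Agent.GT Cfsg.Agent.Cls in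
  obtain ⟨e⟩ := hS
  obtain ⟨A, hA⟩ := exists_dih (by omega) e
  have hS := syl_top_of_sylow Nat.prime_two S
  have h4 : 4 ≤ Nat.card (S : Subgroup G) := by
    rw [Nat.card_congr e.toEquiv, DihedralGroup.nat_card]; omega
  have hG : ¬ IsMulCommutative G := not_comm_of_four_dvd (by
    have := Fact.mk Nat.prime_two
    obtain ⟨k, hk⟩ := IsPGroup.iff_card.1 S.isPGroup'
    refine Dvd.dvd.trans ?_ (card_subgroup_dvd_card (S : Subgroup G))
    rw [hk] at h4 ⊢
    exact pow_dvd_pow 2 ((Nat.pow_le_pow_iff_right (by norm_num)).1 (show 2 ^ 2 ≤ 2 ^ k from h4)))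
  have htZ' : (S : Subgroup G) ≤ C1[t] := fun s hs => mem_cent1.2 (htZ s hs)
  rw [map_subtype_pPrimeCore Nat.prime_two] at hO
  have hc' : ∀ y ∈ O, y ≠ 1 → C1[y] ≤ C1[t] := fun y hy hy1 =>
    (cent_zpowers y ▸ cent_le_norm _).trans (hc _ (zpowers_le.2 hy) (zpowers_ne_bot.2 hy1))
  by_cases hO1 : O = ⊥
  · obtain ⟨B, hB, htB⟩ := hA.exists_mem h4 ht htS htZ'
    exact (hB.bsw hG hS ht htB htZ' hO (by simp [hO1]) (fun s _ _ y hy => by
      rw [hO1, mem_bot] at hy; simp [hy]) hc').psl2 hG
  · obtain ⟨h1, h2⟩ := ha hO1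
    have h3 := card_mul_relIndex (inf_le_left : (S : Subgroup G) ⊓ C[O] ≤ S)
    rw [h2, mul_comm] at h3
    exact ((hA.of_cyclic h1 inf_le_left h3.symm).bsw hG hS ht
      ⟨htS, mem_cent_iff_le_cent1.2 (hO ▸ piCoreOf_le _ _)⟩ htZ' hO inf_le_right
      (fun s hs hs' => hb s hs fun e => hs' ⟨hs, e⟩) hc').psl2 hG

end Cfsg.Agent.S0508
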