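import Cfsg.Statements.S0514
import Cfsg.Agent.Cls.TwoGroups

set_option autoImplicit false
open Cfsg

namespace Cfsg.Agent.S0514

/-- In a finite group whose Sylow 2-subgroups are dihedral of order at least 4, the centralizer of any involution has a
normal subgroup of odd order whose index in the centralizer is a power of 2. -/
theorem result {X : Type*} [Group X] [Finite X]
    (S : Sylow 2 X) (n : ℕ) (hn : 2 ≤ n) (hS : Nonempty ((S : Subgroup X) ≃* DihedralGroup n)) (t : X)
    (ht : orderOf t = 2) :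
    ∃ N : Subgroup (Subgroup.centralizer ({t} : Set X)), N.Normal ∧ Odd (Nat.card N) ∧ ∃ k : ℕ, N.index = 2 ^ k := by
  open Subgroup Cfsg.Agent.GT Cfsg.Agent.Cls in
  have : Fact (Nat.Prime 2) := ⟨Nat.prime_two⟩
  obtain ⟨e⟩ := hS
  obtain ⟨A, hA, hAS, hc, h1⟩ := exists_of_dihedral (by omega) e
  have hF : FrobCond 2 C1[t] := by
    intro q Q B hq hq2 hQ hQp hB hBp hn
    have ht2 : t ^ 2 ^ 1 = 1 := by rw [pow_one, ← ht, pow_orderOf_eq_one]
    have hQt : IsPGroup 2 ↥(Q ⊔ zpowers t) :=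
      hQp.to_sup_of_normal_right' (PG.isPGroup_zpowers_of_pow_eq_one ht2)
        (le_norm_of_cent (by rwa [cent_zpowers]))
    obtain ⟨g, -, hg⟩ := syl_exists_le_conj Nat.prime_two (syl_top_of_sylow Nat.prime_two S) hQt le_top
    refine (le_cent_of_dihedral (S := cj[g] (S : Subgroup X)) (A := cj[g] A)
      (GT.isPGroup_conj_iff.2 S.isPGroup') (GT.isCyclic_conj_iff.2 hA) (conj_mono g hAS)
      (by rw [card_conj, card_conj, hc]) ?_ hg
      (le_norm_sup hn (le_norm_of_cent (by rwa [cent_zpowers])))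
      (PG.coprime_card_of_isPGroup_of_ne Nat.prime_two hq hq2 hBp)
      (mem_sup_right (mem_zpowers t)) ht hB).trans (cent_anti le_sup_left)
    intro s hs hs'
    rw [mem_conj] at hs hs'
    have := h1 _ hs hs'
    rwa [show g⁻¹ * s * g = g⁻¹ * s * g⁻¹⁻¹ by rw [inv_inv], conj_pow, conj_eq_one_iff] at this
  have h2 := frobenius_normal_compl Nat.prime_two hF
  refine ⟨(piCoreOf {2}ᶜ C1[t]).subgroupOf C1[t], normal_subgroupOf (self_le_norm_piCoreOf _ _), ?_,
    ?_⟩
  · rw [card_subgroupOf h2.le, ← Nat.not_even_iff_odd, even_iff_two_dvd]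
    exact (isPiSubgroup_single_compl_iff Nat.prime_two).1 h2.isPi
  · exact (piNat_single_iff Nat.prime_two (relIndex_pos _ _).ne').1 (piNat_compl_compl.1 h2.idx)

end Cfsg.Agent.S0514
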