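import Cfsg.Statements.S0515
import Cfsg.Agent.Sig.A5
import Cfsg.Agent.PF.OddOrder

set_option autoImplicit false
open Cfsg

namespace Cfsg.Agent.S0515

open Subgroup Cfsg.Agent.GT Cfsg.Agent.Sig

/-- Inside a finite group, let A be an elementary abelian p-subgroup of order at least p^3 normalizing a subgroup K of
order prime to p. If the centralizer in K of every non-identity element of A is solvable, then K is solvable. -/
theorem result {X : Type*} [Group X] [Finite X]
    (p : ℕ) [Fact p.Prime] (A K : Subgroup X) (hA : IsMulCommutative A) (hAp : ∀ a ∈ A, a ^ p = 1)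
    (hA3 : p ^ 3 ≤ Nat.card A) (hK : (Nat.card K).Coprime p) (hAK : A ≤ Subgroup.normalizer (K : Set X))
    (hC : ∀ a ∈ A, a ≠ 1 → Group.IsSolvable ((K ⊓ Subgroup.centralizer ({a} : Set X) : Subgroup X))) :
    Group.IsSolvable K := by
  have hp : p.Prime := Fact.out
  by_cases h2 : p = 2
  · subst h2
    exact PF.odd_order_solvable (Nat.coprime_two_right.1 hK)
  have hAP : IsPGroup p A := isPGroup_of_elementary ⟨hA, hAp⟩
  obtain ⟨n, hn⟩ := (IsPGroup.iff_card (p := p)).1 hAP
  have h3 : 3 ≤ n := (Nat.pow_le_pow_iff_right hp.one_lt).1 (hn ▸ hA3)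
  obtain ⟨A', hA'⟩ := Sylow.exists_subgroup_card_pow_prime (G := A) p (n := 3)
    (hn ▸ pow_dvd_pow p h3)
  have hle : A'.map A.subtype ≤ A := map_subtype_le _
  have hE : PnElem p 3 ⊤ (A'.map A.subtype) :=
    ⟨le_top, ⟨isMulCommutative_of_le hA hle, fun x hx => hAp x (hle hx)⟩, by
      rw [card_map_of_injective A.subtype_injective, hA']⟩
  have hKp : ¬ p ∣ Nat.card K := (Nat.Prime.coprime_iff_not_dvd hp).1 hK.symm
  have F : SF p (A'.map A.subtype) fun a => K ⊓ C1[a] :=
    ⟨hp, h2, hE, fun _ _ _ => inf_le_right,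
      fun a ha _ => le_norm_inf (hle.trans hAK)
        (le_norm_cent1 (hE.le_cent.trans (cent_le_cent1 ha))),
      fun a ha h1 => hC a (hle ha) h1, fun _ _ _ hd => hKp (hd.trans (card_dvd_of_le inf_le_left)),
      fun _ _ _ _ _ _ => inf_le_inf_right _ inf_le_left⟩
  obtain ⟨M, hM, h⟩ := F.complete
  refine solv_of_le hM.solv (coprime_abelian_gen_cent1 hE.comm (F.not_cyclic le_rfl ?_)
    (hle.trans hAK) ?_ h)
  · rw [hE.card]
    calc p = p ^ 1 := (pow_one p).symm
      _ < p ^ 3 := Nat.pow_lt_pow_right hp.one_lt (by omega)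
  · rw [hE.card]; exact hK.pow_right _

end Cfsg.Agent.S0515
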