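import Cfsg.Statements.S0516
import Cfsg.Agent.BS.RankTwo
import Cfsg.Agent.PF.OddOrder

set_option autoImplicit false
open Cfsg

namespace Cfsg.Agent.S0516

/-- In a non-abelian finite simple group of 2-rank at most 2, a Sylow 2-subgroup is dihedral (of order at least 4),
quasi-dihedral, wreathed, or isomorphic to a Sylow 2-subgroup of the projective special unitary group of dimension 3
over the field with 16 elements. -/
theorem result {G : Type*} [Group G] [Finite G] [IsSimpleGroup G]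
    (hG : ¬ IsMulCommutative G) (h2 : Cfsg.PRankLE 2 2 G) (S : Sylow 2 G) {F : Type*} [Field F] [Fintype F]
    (hF : Fintype.card F = 16) (P : Sylow 2 (Cfsg.PSU 3 F 4)) :
    (∃ n : ℕ, 2 ≤ n ∧ Nonempty ((S : Subgroup G) ≃* DihedralGroup n)) ∨ Cfsg.IsQuasiDihedral (S : Subgroup G) ∨
      Cfsg.IsWreathed (S : Subgroup G) ∨ Nonempty ((S : Subgroup G) ≃* (P : Subgroup (Cfsg.PSU 3 F 4))) := by
  refine Cfsg.Agent.BS.rank_two hG h2 (Cfsg.Agent.GT.syl_top_of_sylow Nat.prime_two S)
    ((Cfsg.Agent.GT.syl_ne_bot_iff Nat.prime_two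
      (Cfsg.Agent.GT.syl_top_of_sylow Nat.prime_two S)).2 ?_) hF P
  rw [Subgroup.card_top, ← even_iff_two_dvd, ← Nat.not_odd_iff_even]
  exact fun h => hG ⟨⟨IsSimpleGroup.comm_iff_isSolvable.2 (Cfsg.Agent.PF.odd_order_solvable h)⟩⟩

end Cfsg.Agent.S0516
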