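import Cfsg.Statements.S0519
import Cfsg.Agent.Cls.TwoGroups

set_option autoImplicit false
open Cfsg

namespace Cfsg.Agent.S0519

/-- Let P be a finite p-group in which every abelian normal subgroup is cyclic, but which has a non-cyclic abelian
subgroup. Then p = 2 and P is generalized quaternion, dihedral of order at least 16, or quasi-dihedral. -/
theorem result {P : Type*} [Group P] [Finite P] (p : ℕ) [Fact p.Prime]
    (hP : IsPGroup p P) (hn : ∀ A : Subgroup P, A.Normal → IsMulCommutative A → IsCyclic A)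
    (hm : ∃ B : Subgroup P, IsMulCommutative B ∧ ¬ IsCyclic B) :
    p = 2 ∧ ((∃ n : ℕ, Nonempty (P ≃* QuaternionGroup n)) ∨ (∃ n : ℕ, 8 ≤ n ∧ Nonempty (P ≃* DihedralGroup n)) ∨
      Cfsg.IsQuasiDihedral P) := by
  open Subgroup Cfsg.Agent.GT Cfsg.Agent.Cls in
  have hp : p.Prime := Fact.out
  have hP' : IsPGroup p (⊤ : Subgroup P) := GT.isPGroup_top_iff.2 hP
  obtain ⟨B, hB, hB'⟩ := hm
  have hc : ¬ IsCyclic (⊤ : Subgroup P) := fun h => hB' (isCyclic_of_le h le_top)
  obtain rfl : p = 2 := by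
    by_contra hp2
    obtain ⟨E, -, h2, h3, h4⟩ := PG.exists_normal_elemAb_sq' hp2 hP' hc
    exact PG.not_isCyclic_of_elemAb_sq hp h3 h4
      (hn E (normal_iff_top_le_norm.2 h2) (PG.elemAb_comm h3))
  refine ⟨rfl, Or.inr ?_⟩
  obtain ⟨a, -, n, ho, hcard, h1, h2⟩ := two_group_cyclic_normal hP'
    (fun A _ h1 h2 => hn A (normal_iff_top_le_norm.2 h1) h2) hc
  rw [card_top] at hcard
  obtain ⟨V, hV⟩ := PG.exists_pnElem_of_not_pRankLE hp
    (fun h => hB' (PG.isCyclic_of_comm_of_pRankLE_one (hP'.to_le le_top) hB h))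
  obtain ⟨y, hy, hy'⟩ := SetLike.not_le_iff_exists.1 (fun h : V ≤ zpowers a =>
    PG.pnElem_two_not_isCyclic hp hV (isCyclic_of_le inferInstance h))
  have hy2 : y ^ 2 = 1 := PG.elemAb_pow hV.elem hy
  rcases h2 y (mem_top y) hy' with h3 | ⟨hn1, h3⟩
  · left
    obtain ⟨e⟩ := nonempty_dihedral_equiv' (mem_top a) (mem_top y) hy' h3 hy2
      (fun c hc hc' => h1 y (mem_top y) c hc hy' hc')
    refine ⟨orderOf a, ?_, ⟨topEquiv.symm.trans e⟩⟩
    rcases n with _ | n
    · exfalso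
      have h4 : (⊤ : Subgroup P) ≤ N[V] := PG.le_norm_of_card_eq_mul hP' le_top
        (by rw [card_top, hcard, hV.card]; rfl)
      exact PG.pnElem_two_not_isCyclic hp hV (hn V (normal_iff_top_le_norm.2 h4) hV.comm)
    · rw [ho]
      exact Nat.pow_le_pow_right two_pos (by omega : 3 ≤ n + 1 + 2)
  · right
    exact ⟨n + 2, by omega, hcard, a, y, ho,
      PG.orderOf_eq_prime' hp hy2 (fun e => hy' (e ▸ one_mem _)), h3⟩

end Cfsg.Agent.S0519
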