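import Cfsg.Statements.S0520
import Cfsg.Agent.Cls.Four

set_option autoImplicit false
open Cfsg

namespace Cfsg.Agent.S0520

/-- Let G be a finite group of 2-rank at least 2 and S a Sylow 2-subgroup whose commuting graph of Klein four-subgroups is
connected. Then the commuting graph of Klein four-subgroups of G is disconnected if and only if the 2-generated core — the
subgroup generated by the normalizers N_G(Q) of the subgroups Q of S that contain a Klein four-group — is a proper
subgroup of G. -/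
theorem result {G : Type*} [Group G] [Finite G] (h2 : ¬ Cfsg.PRankLE 2 1 G)
    (S : Sylow 2 G) (hS : Cfsg.IsFourConnected (S : Subgroup G)) :
    ¬ Cfsg.IsFourConnected G ↔
      (⨆ Q : {Q : Subgroup G // Q ≤ (S : Subgroup G) ∧ ¬ Cfsg.PRankLE 2 1 Q},
          Subgroup.normalizer ((Q : Subgroup G) : Set G)) ≠ ⊤ := by
  open Subgroup Cfsg.Agent.GT Cfsg.Agent.Cls in
  have : Fact (Nat.Prime 2) := ⟨Nat.prime_two⟩
  have hp := Nat.prime_two
  have hS' := syl_top_of_sylow hp S
  have hS2 : ¬ PRankLE 2 1 (S : Subgroup G) := by rwa [PG.pRankLE_sylow_iff]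
  obtain ⟨U, hU⟩ := PG.exists_pnElem_of_not_pRankLE hp hS2
  set Γ := ⨆ Q : {Q : Subgroup G // Q ≤ (S : Subgroup G) ∧ ¬ Cfsg.PRankLE 2 1 Q},
    Subgroup.normalizer ((Q : Subgroup G) : Set G) with hΓ
  have hN : ∀ Q : Subgroup G, Q ≤ S → ¬ PRankLE 2 1 Q → N[Q] ≤ Γ := fun Q h1 h2 =>
    le_iSup (fun Q : {Q : Subgroup G // Q ≤ (S : Subgroup G) ∧ ¬ Cfsg.PRankLE 2 1 Q} =>
      Subgroup.normalizer ((Q : Subgroup G) : Set G)) ⟨Q, h1, h2⟩
  rw [not_iff_not, isFourConnected_iff]
  constructor
  · intro h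
    have hSΓ : IsPiHallOf {2} (S : Subgroup G) Γ :=
      hS'.of_le (le_normalizer.trans (hN _ le_rfl hS2)) le_top
    have hN' : ∀ Q : Subgroup G, Q ≤ Γ → IsPGroup 2 Q → ¬ PRankLE 2 1 Q → N[Q] ≤ Γ := by
      intro Q h1 h2 h3
      obtain ⟨g, hg, hg'⟩ := syl_exists_conj_le hp hSΓ h2 h1
      have := hN _ hg' (by rwa [GT.pRankLE_conj_iff])
      rw [← conj_normalizer, ← conj_eq_self_of_mem hg, conj_le_conj_iff] at this
      exact this
    have h1 : ∀ V : Subgroup G, Relation.ReflTransGen FourAdj U V → V ≤ Γ := by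
      intro V hV
      induction hV with
      | refl => exact hU.le.trans hSΓ.le
      | tail _ h ih =>
        rw [fourAdj_iff] at h
        exact h.2.2.trans ((cent_le_norm _).trans
          (hN' _ ih h.1.isPGroup (PG.pnElem_not_pRankLE_self hp h.1)))
    rw [eq_top_iff]
    intro g _
    have hT := hS'.conj_of_mem (mem_top g)
    have hTp := syl_isPGroup hp hT
    have hUg := hU.conj g
    have h3 : cj[g] (S : Subgroup G) ≤ Γ := by
      by_contra h4
      have h5 : cj[g] (S : Subgroup G) ⊓ Γ < cj[g] (S : Subgroup G) :=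
        lt_of_le_of_ne inf_le_left fun e => h4 (e ▸ inf_le_right)
      refine (lt_inf_norm_of_isPGroup hp hTp h5).not_ge (inf_le_inf_left _
        (hN' _ inf_le_right (hTp.to_le inf_le_left) (PG.pnElem_not_pRankLE hp
          (hUg.of_le (le_inf hUg.le (h1 _ (h _ _ hU.top hUg.top)))))))
    obtain ⟨c, hc, hc'⟩ := syl_exists_conj hp hSΓ (hT.of_le h3 le_top)
    have h6 : c⁻¹ * g ∈ N[(S : Subgroup G)] := by
      rw [← conj_eq_self_iff, mul_conj, hc', inv_conj_conj]
    rw [← mul_inv_cancel_left c g]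
    exact mul_mem hc (hN _ le_rfl hS2 h6)
  · intro h
    have h1 : ∀ g ∈ Γ, Relation.ReflTransGen FourAdj U (cj[g] U) := by
      intro g hg
      refine iSup_induction _ (C := fun g => Relation.ReflTransGen FourAdj U (cj[g] U)) hg ?_ ?_ ?_
      · rintro ⟨Q, hQ, hQ'⟩ x hx
        obtain ⟨V, hV⟩ := PG.exists_pnElem_of_not_pRankLE hp hQ'
        exact (fourConn_of_le hS hU ((hV.conj_of_mem_norm hx).mono hQ)).trans
          (fourConn_map (fourConn_of_le hS (hV.mono hQ) hU) (conj_hom_injective x))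
      · rw [one_conj]
      · intro x y hx hy
        rw [mul_conj]
        exact hx.trans (fourConn_map hy (conj_hom_injective x))
    have h3 : ∀ V : Subgroup G, PnElem 2 2 ⊤ V → Relation.ReflTransGen FourAdj U V := by
      intro V hV
      obtain ⟨g, -, hg⟩ := syl_exists_conj_le hp hS' hV.isPGroup le_top
      have h4 := fourConn_map (fourConn_of_le hS hU ((hV.conj g).of_le hg)) (conj_hom_injective g⁻¹)
      have h5 : cj[g⁻¹] (cj[g] V) = V := inv_conj_conj g V
      exact (h1 g⁻¹ (h ▸ mem_top _)).trans (h5 ▸ h4)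
    intro V W hV hW
    exact (fourConn_symm (h3 V hV)).trans (h3 W hW)

end Cfsg.Agent.S0520
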