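import Cfsg.Statements.S0521
import Cfsg.Agent.Cls.CycDer

set_option autoImplicit false
open Cfsg

namespace Cfsg.Agent.S0521

/-- Let X be a finite solvable group of odd order, p a prime and S a Sylow p-subgroup of X whose commutator subgroup is
cyclic. Then the product of the largest normal subgroup of X of order prime to p with S is a normal subgroup of X. -/
theorem result {X : Type*} [Group X] [Finite X] [Group.IsSolvable X]
    (hX : Odd (Nat.card X)) (p : ℕ) [Fact p.Prime] (S : Sylow p X) (hS : IsCyclic (commutator (S : Subgroup X))) :
    (Cfsg.pPrimeCore p X ⊔ (S : Subgroup X)).Normal := by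
  open Subgroup Cfsg.Agent.GT Cfsg.Agent.Cls in
  have hp : p.Prime := Fact.out
  have hS' := syl_top_of_sylow hp S
  have h := plength1_of_cyclic_der hp (isSolvable_top_iff.2 inferInstance) (by rwa [card_top]) hS'
    (by rw [← map_subtype_commutator']; exact GT.isCyclic_map hS _)
  rw [plength1_iff_norm hp hS', piCoreOf_top_compl hp] at h
  exact normal_iff_top_le_norm.2 h

end Cfsg.Agent.S0521
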