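import Cfsg.Statements.S0522
import Cfsg.Agent.GT.ThompsonBender

set_option autoImplicit false
open Cfsg

namespace Cfsg.Agent.S0522

open Cfsg.Agent.GT Subgroup

/-- Transitivity Theorem (odd-order setting). Let X be a finite group of odd order in which the normalizer of every
nontrivial p-subgroup is solvable, P a Sylow p-subgroup, and B an abelian subgroup of P, normalized by P, with
C_P(B) = B and containing an elementary abelian subgroup of order p^3. Then for every prime q ≠ p, any two q-subgroups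
that are maximal among the q-subgroups normalized by B are conjugate by an element of the centralizer of B. -/
theorem result {X : Type*} [Group X] [Finite X] (hX : Odd (Nat.card X)) (p : ℕ)
    [Fact p.Prime] (hloc : ∀ T : Subgroup X, IsPGroup p T → T ≠ ⊥ → Group.IsSolvable (Subgroup.normalizer (T : Set X)))
    (P : Sylow p X) (B : Subgroup X) (hBP : B ≤ (P : Subgroup X))
    (hBn : ∀ x ∈ (P : Subgroup X), ∀ b ∈ B, x * b * x⁻¹ ∈ B) (hBa : IsMulCommutative B)
    (hBc : (P : Subgroup X) ⊓ Subgroup.centralizer (B : Set X) = B)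
    (hB3 : ∃ E : Subgroup X, E ≤ B ∧ (∀ e ∈ E, e ^ p = 1) ∧ p ^ 3 ≤ Nat.card E)
    (q : ℕ) [Fact q.Prime] (hqp : q ≠ p) (Q₁ Q₂ : Subgroup X)
    (h₁ : IsPGroup q Q₁ ∧ B ≤ Subgroup.normalizer (Q₁ : Set X) ∧
      ∀ R : Subgroup X, IsPGroup q R → B ≤ Subgroup.normalizer (R : Set X) → Q₁ ≤ R → R = Q₁)
    (h₂ : IsPGroup q Q₂ ∧ B ≤ Subgroup.normalizer (Q₂ : Set X) ∧
      ∀ R : Subgroup X, IsPGroup q R → B ≤ Subgroup.normalizer (R : Set X) → Q₂ ≤ R → R = Q₂) :
    ∃ c ∈ Subgroup.centralizer (B : Set X), Q₂ = Q₁.map (MulAut.conj c).toMonoidHom := by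
  have hp : p.Prime := Fact.out
  have hq : q.Prime := Fact.out
  obtain ⟨E, hEB, hEp, hEc⟩ := hB3
  have hr : ¬ PRankLE p 2 B :=
    PG.not_pRankLE_of_elemAb' hp ⟨comm_of_le hBa hEB, hEp⟩ hEB hEc
  have hBp : IsPGroup p B := P.isPGroup'.to_le hBP
  have hp2 : p ≠ 2 := by
    refine PG.ne_two_of_odd_of_dvd (odd_card_subgroup hX B)
      (prime_dvd_card_of_isPGroup hp hBp ?_)
    rintro rfl
    exact hr (PG.pRankLE_bot hp.pos)
  have hS : IsSCN (P : Subgroup X) B := ⟨hBP, le_norm_iff.2 hBn, hBc⟩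
  have hsyl := hS.syl_inf_cent hp (syl_top_of_sylow hp P)
  have hm : ∀ Q : Subgroup X, (IsPGroup q Q ∧ B ≤ N[Q] ∧
      ∀ R : Subgroup X, IsPGroup q R → B ≤ N[R] → Q ≤ R → R = Q) → Q ∈ maxInvSubgroups ⊤ B {q} :=
    fun Q h => maxInv_mk le_top (isPi_of_isPGroup hq h.1) h.2.1 fun R _ h1 h2 h3 =>
      h.2.2 R (h1.isPGroup hq) h2 h3
  obtain ⟨k, hk, e⟩ := thompson_transitivity hp hq hqp
    (fun T hT h1 => pConstr_of_solvable (hloc T hT h1)) (fun h => absurd h hp2) hBp hBa hr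
    (fun x hx hx' => hsyl.mem_of_normal (inf_le_right.trans (cent_le_norm _)) ⟨mem_top _, hx⟩ hx')
    (hm _ h₁) (hm _ h₂)
  exact ⟨k, piCoreOf_le _ _ hk, e⟩

end Cfsg.Agent.S0522
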