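import Cfsg.Statements.S1026
import Cfsg.Agent.Chev.StAll

set_option autoImplicit false
open Cfsg

namespace Cfsg.Agent.S1026

/-- Every element of `U` has a unique expression `∏_{r ∈ Φ⁺} x_r(t_r)`, the product over the positive roots in increasing index order (the coefficient family `t`, supported on the positive roots, exists and is unique); and conversely every such ordered product is the matrix of an element of `U`. -/
theorem result {F : Type*} [Field F] (D : Cfsg.Lie.ChevalleyDatum) (hD : D ∈ [Cfsg.Lie.chevG2, Cfsg.Lie.chevB2, Cfsg.Lie.chevD4, Cfsg.Lie.chevF4, Cfsg.Lie.chevE6, Cfsg.Lie.chevE7, Cfsg.Lie.chevE8]) :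
    (∀ g : GL D.Idx F, g ∈ D.posUnipotent F →
      ∃! t : ℕ → F, (∀ r, ¬ D.IsPosRoot r → t r = 0) ∧
        (g : Matrix D.Idx D.Idx F) = D.wordMat F (D.posRoots.map fun r => (r, t r))) ∧
    (∀ t : ℕ → F, ∃ g : GL D.Idx F, g ∈ D.posUnipotent F ∧
      (g : Matrix D.Idx D.Idx F) = D.wordMat F (D.posRoots.map fun r => (r, t r))) := by
  obtain ⟨Φ, L, hconn, hne⟩ := Chev.exists_link hD
  have hM := Chev.matRel_of_mem F hD
  have hP := hM.faithful L
  have hL : ((List.finRange D.nroots).filter Φ.IsPos).Nodup := (List.nodup_finRange _).filter _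
  have hLS : ∀ r, r ∈ (List.finRange D.nroots).filter Φ.IsPos ↔ r ∈ {r | Φ.IsPos r} := by simp
  rw [L.posRoots_eq, hM.posUnipotent_eq L]
  refine ⟨fun g hg => ?_, fun t => ⟨_, (hM.adj L).prod_mem_X fun r hr _ => (hLS r).1 hr, hM.coe_prod L _ t⟩⟩
  obtain ⟨t, rfl⟩ := (hM.adj L).exists_prod (Chev.St0.closed_pos Φ) _ hL hLS hg
  classical
  refine ⟨fun r => if h : D.IsPosRoot r then t ⟨r, h.1⟩ else 0, ⟨fun r hr => dif_neg hr, ?_⟩, ?_⟩
  · rw [← hM.coe_prod L]
    congr 1
    exact (hM.adj L).prod_congr fun r hr => by rw [dif_pos ((L.isPosRoot_iff r).2 ((hLS r).1 hr))]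
  · rintro t' ⟨h1, h2⟩
    rw [← hM.coe_prod L, Units.val_inj] at h2
    have := hP.prod_injective hL (fun r hr => (hLS r).1 hr) h2
    funext r
    by_cases h : D.IsPosRoot r
    · rw [dif_pos h, this ⟨r, h.1⟩ ((hLS _).2 ((L.isPosRoot_iff ⟨r, h.1⟩).1 h))]
    · rw [dif_neg h, h1 r h]

end Cfsg.Agent.S1026
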