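import Cfsg.Statements.S1030
import Cfsg.Agent.Chev.Rel
import Cfsg.Agent.Chev.RelSL2Rep

set_option autoImplicit false
open Cfsg

namespace Cfsg.Agent.S1030

/-- There is a homomorphism `SL₂(F) → GL` with image `⟨X_r, X_{-r}⟩` sending `[[1,t],[0,1]]` to `x_r(t)` and `[[1,0],[t,1]]` to `x_{-r}(t)`. -/
theorem result {F : Type*} [Field F] (D : Cfsg.Lie.ChevalleyDatum) (hD : D ∈ [Cfsg.Lie.chevG2, Cfsg.Lie.chevB2, Cfsg.Lie.chevD4, Cfsg.Lie.chevF4, Cfsg.Lie.chevE6, Cfsg.Lie.chevE7, Cfsg.Lie.chevE8]) (r : ℕ) (hr : r < D.nroots) :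
    ∃ φ : Matrix.SpecialLinearGroup (Fin 2) F →* GL D.Idx F,
      φ.range = D.rootSubgroup F r ⊔ D.rootSubgroup F (D.neg r) ∧
      ∀ (g : Matrix.SpecialLinearGroup (Fin 2) F) (t : F),
        ((g : Matrix (Fin 2) (Fin 2) F) = !![1, t; 0, 1] → ((φ g : GL D.Idx F) : Matrix D.Idx D.Idx F) = D.x F r t) ∧
        ((g : Matrix (Fin 2) (Fin 2) F) = !![1, 0; t, 1] → ((φ g : GL D.Idx F) : Matrix D.Idx D.Idx F) = D.x F (D.neg r) t) := by
  obtain ⟨T⟩ := Chev.tab_of_mem hD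
  let S := T.adRep.sl2Rel F hr
  have hu : ∀ (g : Matrix.SpecialLinearGroup (Fin 2) F) (t : F),
      (g : Matrix (Fin 2) (Fin 2) F) = !![1, t; 0, 1] →
        ((S.hom.toHomUnits g : GL D.Idx F) : Matrix D.Idx D.Idx F) = D.x F r t := fun g t h => by
    rw [T.x_eq_adX]; exact S.hom_upper g t h
  have hl : ∀ (g : Matrix.SpecialLinearGroup (Fin 2) F) (t : F),
      (g : Matrix (Fin 2) (Fin 2) F) = !![1, 0; t, 1] →
        ((S.hom.toHomUnits g : GL D.Idx F) : Matrix D.Idx D.Idx F) = D.x F (D.neg r) t :=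
    fun g t h => by rw [T.x_eq_adX]; exact S.hom_lower g t h
  let ll : F → Matrix.SpecialLinearGroup (Fin 2) F := fun t => ⟨!![1, 0; t, 1], by simp⟩
  refine ⟨S.hom.toHomUnits, le_antisymm ?_ (sup_le ?_ ?_), fun g t => ⟨hu g t, hl g t⟩⟩
  · rintro _ ⟨g, rfl⟩
    have h1 : ∀ t, S.hom.toHomUnits (Chev.SL2Rel.uu t) ∈
        D.rootSubgroup F r ⊔ D.rootSubgroup F (D.neg r) := fun t =>
      Subgroup.mem_sup_left (Subgroup.subset_closure ⟨t, hu _ t rfl⟩)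
    induction g using Chev.SL2Rel.gen_induction with
    | hu t => exact h1 t
    | hw =>
      have : Chev.SL2Rel.ww F = Chev.SL2Rel.uu 1 * ll (-1) * Chev.SL2Rel.uu 1 := by
        apply Subtype.ext
        show _ = (!![1, 1; 0, 1] * !![1, 0; -1, 1] * !![1, 1; 0, 1] : Matrix (Fin 2) (Fin 2) F)
        rw [Chev.SL2Rel.ww_coe]
        simp
      rw [this, map_mul, map_mul]
      exact mul_mem (mul_mem (h1 1)
        (Subgroup.mem_sup_right (Subgroup.subset_closure ⟨-1, hl _ _ rfl⟩))) (h1 1)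
    | hmul a b ha hb => rw [map_mul]; exact mul_mem ha hb
  · rw [Cfsg.Lie.ChevalleyDatum.rootSubgroup, Subgroup.closure_le]
    rintro g ⟨t, ht⟩
    exact ⟨Chev.SL2Rel.uu t, Units.ext (by rw [ht]; exact hu _ t rfl)⟩
  · rw [Cfsg.Lie.ChevalleyDatum.rootSubgroup, Subgroup.closure_le]
    rintro g ⟨t, ht⟩
    exact ⟨ll t, Units.ext (by rw [ht]; exact hl _ t rfl)⟩

end Cfsg.Agent.S1030
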