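import Cfsg.Statements.S1034
import Cfsg.Agent.Chev.StAll

set_option autoImplicit false
open Cfsg

namespace Cfsg.Agent.S1034

/-- Every element of `H` is a product `h_{p_1}(c_1) ⋯ h_{p_l}(c_l)` over the fundamental roots, with non-zero `c_i`. -/
theorem result {F : Type*} [Field F] (D : Cfsg.Lie.ChevalleyDatum) (hD : D ∈ [Cfsg.Lie.chevG2, Cfsg.Lie.chevB2, Cfsg.Lie.chevD4, Cfsg.Lie.chevF4, Cfsg.Lie.chevE6, Cfsg.Lie.chevE7, Cfsg.Lie.chevE8]) (g : GL D.Idx F) (hg : g ∈ D.diagonalSubgroup F) :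
    ∃ c : ℕ → F, (∀ i < D.rank, c i ≠ 0) ∧
      (g : Matrix D.Idx D.Idx F) = D.wordMat F ((List.range D.rank).flatMap fun i => D.hWord (D.simple i) (c i)) := by
  obtain ⟨Φ, L, hconn, hne⟩ := Chev.exists_link hD
  have hM := Chev.matRel_of_mem F hD
  have hP := hM.faithful L
  rw [hM.diagonalSubgroup_eq L] at hg
  obtain ⟨c, rfl⟩ := (hM.adj L).exists_hT hg
  refine ⟨fun i => if h : i < D.rank then c ⟨i, h⟩ else 1, fun i hi => by simp [hi], ?_⟩
  rw [Chev.St.hT_eq_prod, ← List.map_coe_finRange_eq_range]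
  generalize List.finRange D.rank = l
  induction l with
  | nil => simp [Lie.ChevalleyDatum.wordMat]
  | cons i l ih =>
    rw [List.map_cons, List.prod_cons, List.map_cons, List.flatMap_cons, Chev.MatRel.wordMat_append, Units.val_mul, ih,
      hM.coe_h L, L.simple]
    simp only [dif_pos i.2]
    rfl

end Cfsg.Agent.S1034
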