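import Cfsg.Statements.S1036
import Cfsg.Agent.Chev.StAll

set_option autoImplicit false
open Cfsg

namespace Cfsg.Agent.S1036

/-- `H` normalises `U` and `U ∩ H = 1`; thus `B = UH` is the semidirect product of `U` by `H`. -/
theorem result {F : Type*} [Field F] (D : Cfsg.Lie.ChevalleyDatum) (hD : D ∈ [Cfsg.Lie.chevG2, Cfsg.Lie.chevB2, Cfsg.Lie.chevD4, Cfsg.Lie.chevF4, Cfsg.Lie.chevE6, Cfsg.Lie.chevE7, Cfsg.Lie.chevE8]) :
    D.diagonalSubgroup F ≤ Subgroup.normalizer (D.posUnipotent F : Set (GL D.Idx F)) ∧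
      D.posUnipotent F ⊓ D.diagonalSubgroup F = ⊥ := by
  obtain ⟨Φ, L, hconn, hne⟩ := Chev.exists_link hD
  have hM := Chev.matRel_of_mem F hD
  have hP := hM.faithful L
  rw [hM.posUnipotent_eq L, hM.diagonalSubgroup_eq L]
  exact ⟨(hM.adj L).H_le_normalizer _, eq_bot_iff.2 fun _ h => hP.eq_one_of_mem_U_H h.1 h.2⟩

end Cfsg.Agent.S1036
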