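import Cfsg.Statements.S1042
import Cfsg.Agent.Chev.StAll

set_option autoImplicit false
open Cfsg

namespace Cfsg.Agent.S1042

/-- The Chevalley group has a (B,N)-pair with `B = UH`, `N` the monomial subgroup and the `n_p`, `p` fundamental, as representatives of the distinguished involutions of `W = N/H`. -/
theorem result {F : Type*} [Field F] (D : Cfsg.Lie.ChevalleyDatum) (hD : D ∈ [Cfsg.Lie.chevG2, Cfsg.Lie.chevB2, Cfsg.Lie.chevD4, Cfsg.Lie.chevF4, Cfsg.Lie.chevE6, Cfsg.Lie.chevE7, Cfsg.Lie.chevE8]) :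
    ∃ P : Cfsg.BNPair ↥(D.group F),
      P.B = (D.borelSubgroup F).subgroupOf (D.group F) ∧ P.N = (D.monomialSubgroup F).subgroupOf (D.group F) ∧
      P.S = {n : ↥(D.group F) | ∃ i < D.rank, ((n : GL D.Idx F) : Matrix D.Idx D.Idx F) = D.nMat F (D.simple i) 1} := by
  obtain ⟨Φ, L, hconn, hne⟩ := Chev.exists_link hD
  have hM := Chev.matRel_of_mem F hD
  have hP := hM.faithful L
  have hS : ∀ n : ↥(D.group F), (∃ i < D.rank, ((n : GL D.Idx F) : Matrix D.Idx D.Idx F) = D.nMat F (D.simple i) 1) ↔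
      ∃ i, (n : GL D.Idx F) = (hM.adj L).n (Φ.simple i) 1 := fun n =>
    ⟨fun ⟨i, hi, h⟩ => ⟨⟨i, hi⟩, (hM.eq_n_iff L).1 (by rw [← L.simple]; exact h)⟩,
      fun ⟨i, h⟩ => ⟨i, i.2, by rw [L.simple]; exact (hM.eq_n_iff L).2 h⟩⟩
  simp only [hS]
  rw [hM.borelSubgroup_eq L, hM.monomialSubgroup_eq L]
  refine ⟨hP.tits.toBNPair _ ((hM.adj L).B_sup_N.trans (hM.group_eq L).symm) _ ?_ ?_ ?_, rfl, rfl, rfl⟩
  · rintro ⟨s, hs⟩ ⟨i, rfl⟩
    exact ⟨(hM.adj L).n_mem_N _ one_ne_zero, i, (hP.π_nN i).symm⟩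
  · rintro _ ⟨i, rfl⟩
    exact ⟨⟨_, hM.group_eq L ▸ (hM.adj L).N_le_G0 ((hM.adj L).n_mem_N (Φ.simple i) one_ne_zero)⟩, ⟨i, rfl⟩,
      (hM.adj L).n_mem_N _ one_ne_zero, hP.π_nN i⟩
  · rintro ⟨s, hs⟩ ⟨i, rfl⟩ ⟨s', hs'⟩ ⟨j, rfl⟩ h
    have := hP.eq_one_of_rep_of_mem_B (((hM.adj L).n_conj i).inv.mul ((hM.adj L).n_conj j)) h
    rw [inv_mul_eq_one] at this
    obtain rfl := Φ.s_injective this
    rfl

end Cfsg.Agent.S1042
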