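import Cfsg.Statements.S1045
import Cfsg.Agent.Chev.StAll

set_option autoImplicit false
open Cfsg

namespace Cfsg.Agent.S1045

/-- For a fundamental root `p`, the subgroup `U_p` generated by the `X_s`, `s` positive and `s ≠ p`, is normalised by `X_p` and `X_{-p}`, and `U = U_p ⊔ X_p`. -/
theorem result {F : Type*} [Field F] (D : Cfsg.Lie.ChevalleyDatum) (hD : D ∈ [Cfsg.Lie.chevG2, Cfsg.Lie.chevB2, Cfsg.Lie.chevD4, Cfsg.Lie.chevF4, Cfsg.Lie.chevE6, Cfsg.Lie.chevE7, Cfsg.Lie.chevE8]) (i : ℕ) (hi : i < D.rank) :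
    D.rootSubgroup F (D.simple i) ⊔ D.rootSubgroup F (D.neg (D.simple i)) ≤
        Subgroup.normalizer (Subgroup.closure {g : GL D.Idx F | ∃ (s : ℕ) (t : F), D.IsPosRoot s ∧ s ≠ D.simple i ∧
          (g : Matrix D.Idx D.Idx F) = D.x F s t} : Set (GL D.Idx F)) ∧
      Subgroup.closure {g : GL D.Idx F | ∃ (s : ℕ) (t : F), D.IsPosRoot s ∧ s ≠ D.simple i ∧
          (g : Matrix D.Idx D.Idx F) = D.x F s t} ⊔ D.rootSubgroup F (D.simple i) = D.posUnipotent F := by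
  obtain ⟨Φ, L, hconn, hne⟩ := Chev.exists_link hD
  have hM := Chev.matRel_of_mem F hD
  have hP := hM.faithful L
  simp only [← and_assoc]
  rw [hM.closure_eq_X L (p := fun s => D.IsPosRoot s ∧ s ≠ D.simple i) (S := {r | Φ.IsPos r ∧ r ≠ Φ.simple ⟨i, hi⟩})
    (fun _ h => h.1.1) (fun r => by simp [L.isPosRoot_iff, L.simple ⟨i, hi⟩, Fin.ext_iff]),
    L.simple ⟨i, hi⟩, L.neg, hM.rootSubgroup_eq L, hM.rootSubgroup_eq L, hM.posUnipotent_eq L, ← Chev.St0.X_union]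
  exact ⟨Chev.St.X_le_normalizer_Ui _ _, Chev.St.U_eq_Ui_sup _ _⟩

end Cfsg.Agent.S1045
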