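import Cfsg.Statements.S1047
import Cfsg.Agent.Chev.StAll

set_option autoImplicit false
open Cfsg

namespace Cfsg.Agent.S1047

/-- `P_J = ⟨H, X_r : r ∈ Φ⁺ ∪ Φ_J⟩`. -/
theorem result {F : Type*} [Field F] (D : Cfsg.Lie.ChevalleyDatum) (hD : D ∈ [Cfsg.Lie.chevG2, Cfsg.Lie.chevB2, Cfsg.Lie.chevD4, Cfsg.Lie.chevF4, Cfsg.Lie.chevE6, Cfsg.Lie.chevE7, Cfsg.Lie.chevE8]) (J : Set ℕ) :
    D.parabolicSubgroup F J = D.diagonalSubgroup F ⊔
      Subgroup.closure {g : GL D.Idx F | ∃ (r : ℕ) (t : F), (D.IsPosRoot r ∨ D.InRootSub J r) ∧ (g : Matrix D.Idx D.Idx F) = D.x F r t} := by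
  obtain ⟨Φ, L, hconn, hne⟩ := Chev.exists_link hD
  have hM := Chev.matRel_of_mem F hD
  have hP := hM.faithful L
  rw [hM.parabolicSubgroup_eq L, hM.diagonalSubgroup_eq L, Chev.St.PJ_eq,
    hM.closure_eq_X L (p := fun r => D.IsPosRoot r ∨ D.InRootSub J r)
      (S := {r | Φ.IsPos r ∨ Φ.InJ (Fin.val ⁻¹' J) r}) (fun _ h => h.elim (·.1) (·.1))
      (fun r => by simp [L.isPosRoot_iff, L.inRootSub_iff])]

end Cfsg.Agent.S1047
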