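import Cfsg.Statements.S1054
import Cfsg.Agent.Chev.StPerf

set_option autoImplicit false
open Cfsg

namespace Cfsg.Agent.S1054

/-- The Chevalley groups of types D₄, F₄, E₆, E₇, E₈ are simple over every field. -/
theorem result {F : Type*} [Field F] (D : Cfsg.Lie.ChevalleyDatum)
    (hD : D ∈ [Cfsg.Lie.chevD4, Cfsg.Lie.chevF4, Cfsg.Lie.chevE6, Cfsg.Lie.chevE7, Cfsg.Lie.chevE8]) :
    IsSimpleGroup ↥(D.group F) ∧ ¬ IsMulCommutative ↥(D.group F) := by
  refine Chev.isSimpleGroup_group (List.mem_cons_of_mem _ (List.mem_cons_of_mem _ hD)) fun h => ?_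
  exfalso
  have h1 : D.rank = 2 := by rcases h with rfl | rfl <;> rfl
  simp only [List.mem_cons, List.not_mem_nil, or_false] at hD
  rcases hD with rfl | rfl | rfl | rfl | rfl <;> exact absurd h1 (by decide)

end Cfsg.Agent.S1054
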