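import Cfsg.Statements.S1057
import Cfsg.Agent.Chev.G2Two
import Cfsg.Agent.S1059

set_option autoImplicit false
open Cfsg

namespace Cfsg.Agent.S1057

/-- G₂(2)′ ≅ PSU₃(3). -/
theorem result {F K : Type*} [Field F] [Fintype F] [Field K] [Fintype K] (hF : Fintype.card F = 2) (hK : Fintype.card K = 9) :
    Nonempty (↥(commutator ↥(Cfsg.Lie.chevG2.group F)) ≃* Cfsg.PSU 3 K 3) := by
  open Cfsg.Agent.Chev Cfsg.Lie Cfsg.Agent.Cl in
  have h2 : ∀ a : F, a = 0 ∨ a = 1 := fun a => by
    classical
    have : ({0, 1} : Finset F) = Finset.univ := Finset.eq_univ_of_card _ (by rw [Finset.card_pair zero_ne_one, hF])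
    simpa [← this] using Finset.mem_univ a
  have h9 : ∀ x : K, x ^ 9 = x := fun x => hK ▸ FiniteField.pow_card x
  have : CharP K 3 := by
    obtain ⟨p, hp, n, hpp, hn⟩ := FiniteField.card' K
    obtain rfl : p = 3 := (Nat.prime_dvd_prime_iff_eq hpp Nat.prime_three).1
      (hpp.dvd_of_dvd_pow (n := 2) (by rw [show 3 ^ 2 = p ^ (n : ℕ) by rw [← hn, hK]; rfl]; exact dvd_pow_self p n.ne_zero))
    exact hp
  obtain ⟨I, hI⟩ := FiniteField.isSquare_neg_one_iff (F := K) |>.2 (by rw [hK]; decide)
  obtain ⟨φ, hφ⟩ := G22.exists_injective hI.symm h2 hF h9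
  obtain ⟨_, H⟩ := Uni.exists_isFrob (F := K) (q := 3) hK
  have hM := matRel_of_mem F memG2
  have h1 := hM.range_θ linkG2 univG2
  have hθ : Function.Injective (hM.θ linkG2) := (MonoidHom.ker_eq_bot_iff _).1 (eq_bot_iff.2 fun g hg => by
    obtain ⟨c, -, rfl⟩ := (hM.mem_ker_θ linkG2 univG2).1 hg
    exact G22.hT_eq_one h2 _ c)
  let e1 := (MonoidHom.ofInjective hθ).trans (MulEquiv.subgroupCongr h1)
  have hSU : Nat.card (SU 3 K 3) = 6048 := by
    have := H.card_su (n := 3) (by norm_num)
    simp [Finset.prod_range_succ, Nat.even_iff] at this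
    omega
  have : Finite (SU 3 K 3 ⋊[G22.act h9] ℤˣ) := Finite.of_equiv _ SemidirectProduct.equivProd.symm
  let e2 := MulEquiv.ofBijective φ (hφ.bijective_of_nat_card_le (by
    rw [SemidirectProduct.card, hSU, Nat.card_congr e1.toEquiv, S1059.result hF]; simp))
  have hp : commutator (SU 3 K 3) = ⊤ := by
    have h3 : commutator (Uni.EG (Uni.stdH K 3)) = ⊤ := by
      apply Subgroup.map_injective (Subgroup.subtype_injective _)
      rw [Subgroup.map_subtype_commutator, ← MonoidHom.range_eq_map, Subgroup.range_subtype]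
      exact le_antisymm (Subgroup.commutator_le_self _) (H.EG_perfect le_rfl (by simp))
    rw [← map_commutator_equiv (H.suEquivEG (by norm_num)).symm, h3, ← MonoidHom.range_eq_map,
      MonoidHom.range_eq_top]
    exact (MulEquiv.surjective _)
  have hZ : Subgroup.center (SU 3 K 3) = ⊥ := Subgroup.card_eq_one.1 (H.card_center_su (by norm_num))
  exact ⟨(commutatorEquiv (e1.symm.trans e2)).trans ((MulEquiv.subgroupCongr (G22.commutator_eq h9 hp)).trans
    ((MonoidHom.ofInjective SemidirectProduct.inl_injective).symm.trans (quotCenterEquivOfBot hZ).symm))⟩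

end Cfsg.Agent.S1057
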