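import Cfsg.Statements.S1058
import Cfsg.Agent.Cl.OLow2
import Cfsg.Agent.Cl.OChevB2
import Cfsg.Agent.Cl.SmallIso
import Cfsg.Agent.S1060

set_option autoImplicit false
open Cfsg

namespace Cfsg.Agent.S1058

open Cfsg.Agent.Cl Cfsg.Agent.Cl.Orth

/-- B₂(2) ≅ S₆. -/
theorem result {F : Type*} [Field F] [Fintype F] (hF : Fintype.card F = 2) :
    Nonempty (↥(Cfsg.Lie.chevB2.group F) ≃* Equiv.Perm (Fin 6)) := by
  have h1 := Cfsg.Agent.S1060.result hF
  norm_num at h1
  obtain ⟨e1⟩ := sp42_equiv hF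
  have h2 : (2 : F) = 0 := (two_eq_zero_iff_even_card).mpr (by rw [hF])
  have hc : ringChar F = 2 :=
    CharP.ringChar_of_prime_eq_zero Nat.prime_two (by exact_mod_cast h2)
  let e2 : OG (adjB2.Q F) ≃* Equiv.Perm (Fin 6) :=
    ((OG.congr (eOdd 2 F) (fun v => by rw [← eOdd_Q, adjB2_Q])).trans
      (oddEquivSp h2 (FiniteField.isSquare_of_char_two hc) 2)).trans e1
  have h3 : Nat.card (OG (adjB2.Q F)) = 720 := by
    rw [Nat.card_congr e2.toEquiv, Nat.card_perm]; simp [Nat.factorial]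
  have : Finite (OG (adjB2.Q F)) := Nat.finite_of_card_ne_zero (by omega)
  have h4 : Cfsg.Lie.chevB2.group F ≤ (goodB2.ad F).range := by
    rw [← adjB2_map_EG]; exact Subgroup.map_le_range _ _
  have h5 : Nat.card (goodB2.ad F).range ≤ 720 :=
    h3 ▸ Nat.card_le_card_of_surjective _ (goodB2.ad F).rangeRestrict_surjective
  have : Finite (goodB2.ad F).range :=
    Finite.of_surjective _ (goodB2.ad F).rangeRestrict_surjective
  have h6 : Cfsg.Lie.chevB2.group F = (goodB2.ad F).range :=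
    Subgroup.eq_of_le_of_card_ge h4 (by rw [h1]; exact h5)
  have h7 : Function.Bijective (goodB2.ad F).rangeRestrict :=
    (Nat.bijective_iff_surjective_and_card _).mpr
      ⟨(goodB2.ad F).rangeRestrict_surjective, by rw [← h6, h1, h3]⟩
  exact ⟨(MulEquiv.subgroupCongr h6).trans ((MulEquiv.ofBijective _ h7).symm.trans e2)⟩

end Cfsg.Agent.S1058
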