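import Cfsg.Statements.S1061
import Cfsg.Agent.Chev.StTorus
import Cfsg.Agent.Chev.WPoinD4

set_option autoImplicit false
open Cfsg

namespace Cfsg.Agent.S1061

/-- `gcd(2, q-1)² · |D₄(q)| = q¹² (q² - 1)(q⁴ - 1)(q⁴ - 1)(q⁶ - 1)`. -/
theorem result {F : Type*} [Field F] [Fintype F] {q : ℕ} (hq : Fintype.card F = q) : Nat.gcd 2 (q - 1) ^ 2 * Nat.card ↥(Cfsg.Lie.chevD4.group F) = q ^ 12 * (q ^ 2 - 1) * (q ^ 4 - 1) * (q ^ 4 - 1) * (q ^ 6 - 1) := by
  subst hq
  have h := (Chev.matRel_of_mem F Chev.memD4).card_group Chev.linkD4 Chev.smithD4 (l := 4) (N := 12) rfl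
    (by decide +kernel)
  rw [Chev.poinD4] at h
  apply Nat.cast_injective (R := ℤ)
  simp only [List.map_cons, List.map_nil, List.prod_cons, List.prod_nil, Nat.gcd_one_left, mul_one, one_mul,
    ← sq] at h
  rw [h]
  simp only [Nat.cast_mul, Nat.cast_pow, Chev.cast_pow_sub_one (Fintype.card_pos (α := F)), mul_assoc]

end Cfsg.Agent.S1061
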