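import Cfsg.Statements.S1066
import Cfsg.Agent.Chev.TwHE6

set_option autoImplicit false
open Cfsg

namespace Cfsg.Agent.S1066

/-- `gcd(3, q+1) · |²E₆(q)| = q³⁶ (q² - 1)(q⁵ + 1)(q⁶ - 1)(q⁸ - 1)(q⁹ + 1)(q¹² - 1)`, the group being realised inside E₆ over the field with `q²` elements. -/
theorem result {K : Type*} [Field K] [Fintype K] {q : ℕ} (hq : IsPrimePow q) (hK : Fintype.card K = q ^ 2) :
    Nat.gcd 3 (q + 1) * Nat.card ↥(Cfsg.Lie.twistedE6 K q) =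
      q ^ 36 * (q ^ 2 - 1) * (q ^ 5 + 1) * (q ^ 6 - 1) * (q ^ 8 - 1) * (q ^ 9 + 1) * (q ^ 12 - 1) := by
  obtain ⟨ψ, h1, h2⟩ := Chev.exists_psiE6 hq hK
  rw [Chev.MatRel.tw_card (Chev.twistedE6_eq h2 h1), Chev.cardGE6 h2 h1 hq.pos hK, ← mul_assoc, mul_left_comm,
    Chev.cardHE6 h2 h1 hq.pos hK]
  have h3 : ((Chev.polE6 q : ℕ) : ℤ) = Chev.polE6 (q : ℤ) := by
    simp only [Chev.polE6, List.map_cons, List.map_nil, List.sum_cons, List.sum_nil]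
    push_cast
    rfl
  have h4 : ((q - 1 : ℕ) : ℤ) = q - 1 := by simpa using Chev.cast_pow_sub_one hq.pos 1
  zify [Chev.cast_pow_sub_one hq.pos, h3, h4]
  linear_combination (q : ℤ) ^ 36 * Chev.polE6_eq (q : ℤ)

end Cfsg.Agent.S1066
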