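import Cfsg.Statements.S1067
import Cfsg.Agent.Chev.TwHE6

set_option autoImplicit false
open Cfsg

namespace Cfsg.Agent.S1067

/-- `|³D₄(q)| = q¹² (q² - 1)(q⁶ - 1)(q⁸ + q⁴ + 1)`, the group being realised inside D₄ over the field with `q³` elements. -/
theorem result {K : Type*} [Field K] [Fintype K] {q : ℕ} (hq : IsPrimePow q) (hK : Fintype.card K = q ^ 3) :
    Nat.card ↥(Cfsg.Lie.twistedD4 K q) = q ^ 12 * (q ^ 2 - 1) * (q ^ 6 - 1) * (q ^ 8 + q ^ 4 + 1) := by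
  obtain ⟨ψ, h1, h2⟩ := Chev.exists_psiD4 hq hK
  rw [Chev.MatRel.tw_card (Chev.twistedD4_eq h2 h1), Chev.cardGD4 h2 h1 hq.pos hK, Chev.cardHD4 h2 h1 hq.pos hK]
  have h3 : ((Chev.polD4 q : ℕ) : ℤ) = Chev.polD4 (q : ℤ) := by simp [Chev.polD4]
  have h4 : ((q - 1 : ℕ) : ℤ) = q - 1 := by simpa using Chev.cast_pow_sub_one hq.pos 1
  zify [Chev.cast_pow_sub_one hq.pos, h3, h4]
  linear_combination (q : ℤ) ^ 12 * Chev.polD4_eq (q : ℤ)

end Cfsg.Agent.S1067
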