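import Cfsg.Statements.S1068
import Cfsg.Agent.Chev.TwHF4

set_option autoImplicit false
open Cfsg

namespace Cfsg.Agent.S1068

/-- `|²F₄(q)| = q¹² (q - 1)(q³ + 1)(q⁴ - 1)(q⁶ + 1)` for `q = 2^(2m+1)` (θ = 2^m-th power map), every `m ≥ 0`. -/
theorem result {K : Type*} [Field K] [Fintype K] {m : ℕ} (hK : Fintype.card K = 2 ^ (2 * m + 1)) :
    Nat.card ↥(Cfsg.Lie.twistedF4 K (2 ^ m)) =
      (2 ^ (2 * m + 1)) ^ 12 * (2 ^ (2 * m + 1) - 1) * ((2 ^ (2 * m + 1)) ^ 3 + 1) * ((2 ^ (2 * m + 1)) ^ 4 - 1) * ((2 ^ (2 * m + 1)) ^ 6 + 1) := by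
  obtain ⟨Θ⟩ := Chev.exists_twTheta Nat.prime_two hK
  rw [Chev.MatRel.tw_card (Chev.twistedF4_eq Θ), Chev.cardGF4, Chev.cardHF4, ← hK]
  have hq : 0 < Fintype.card K := Fintype.card_pos
  generalize Fintype.card K = q at hq
  have h3 : ((Chev.polF4 q : ℕ) : ℤ) = Chev.polF4 (q : ℤ) := by simp [Chev.polF4]
  have h4 : ((q - 1 : ℕ) : ℤ) = q - 1 := by simpa using Chev.cast_pow_sub_one hq 1
  zify [Chev.cast_pow_sub_one hq, h3, h4]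
  linear_combination (q : ℤ) ^ 12 * Chev.polF4_eq (q : ℤ)

end Cfsg.Agent.S1068
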