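import Cfsg.Statements.S1071
import Cfsg.Agent.Chev.TwPerf
import Cfsg.Agent.Chev.StAll

set_option autoImplicit false
open Cfsg

namespace Cfsg.Agent.S1071

/-- ³D₄(q) is simple for every `q`. -/
theorem result {K : Type*} [Field K] [Fintype K] {q : ℕ} (hq : IsPrimePow q) (hK : Fintype.card K = q ^ 3) :
    IsSimpleGroup ↥(Cfsg.Lie.twistedD4 K q) ∧ ¬ IsMulCommutative ↥(Cfsg.Lie.twistedD4 K q) := by
  obtain ⟨ψ, h1, h2⟩ := Chev.exists_psiD4 hq hK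
  have : Nonempty (Fin Lie.chevD4.rank) := ⟨Chev.ndD4 0⟩
  exact Chev.MatRel.tw_simple (Chev.goodD4 h2) (Chev.twistedD4_eq h2 h1) (Chev.hposD4 h2) Chev.connD4
    (Chev.perfectD4 h2 (hK ▸ lt_of_lt_of_le (by norm_num) (Nat.pow_le_pow_left hq.two_le 3)))

end Cfsg.Agent.S1071
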