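import Cfsg.Statements.S1072
import Cfsg.Agent.Chev.TwPerf
import Cfsg.Agent.Chev.StAll

set_option autoImplicit false
open Cfsg

namespace Cfsg.Agent.S1072

/-- ²F₄(2^(2m+1)) is simple for `m ≥ 1`. -/
theorem result {K : Type*} [Field K] [Fintype K] {m : ℕ} (hm : 1 ≤ m) (hK : Fintype.card K = 2 ^ (2 * m + 1)) :
    IsSimpleGroup ↥(Cfsg.Lie.twistedF4 K (2 ^ m)) ∧ ¬ IsMulCommutative ↥(Cfsg.Lie.twistedF4 K (2 ^ m)) := by
  obtain ⟨Θ⟩ := Chev.exists_twTheta Nat.prime_two hK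
  have : Nonempty (Fin Lie.chevF4.rank) := ⟨Chev.ndF4 0⟩
  exact Chev.MatRel.tw_simple (Chev.goodF4 Θ) (Chev.twistedF4_eq Θ) (Chev.hposF4 Θ) Chev.connF4 (Chev.perfectF4 Θ
    (hK ▸ lt_of_lt_of_le (by norm_num) (Nat.pow_le_pow_right two_pos (show 2 ≤ 2 * m + 1 by omega))))

end Cfsg.Agent.S1072
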