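import Cfsg.Statements.S1073
import Cfsg.Agent.Chev.TwPerf
import Cfsg.Agent.Chev.StAll

set_option autoImplicit false
open Cfsg

namespace Cfsg.Agent.S1073

/-- ²G₂(3^(2m+1)) is simple for `m ≥ 1`. -/
theorem result {K : Type*} [Field K] [Fintype K] {m : ℕ} (hm : 1 ≤ m) (hK : Fintype.card K = 3 ^ (2 * m + 1)) :
    IsSimpleGroup ↥(Cfsg.Lie.twistedG2 K (3 ^ m)) ∧ ¬ IsMulCommutative ↥(Cfsg.Lie.twistedG2 K (3 ^ m)) := by
  obtain ⟨Θ⟩ := Chev.exists_twTheta Nat.prime_three hK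
  have : Nonempty (Fin Lie.chevG2.rank) := ⟨Chev.ndG2 0⟩
  exact Chev.MatRel.tw_simple (Chev.goodG2 Θ) (Chev.twistedG2_eq Θ) (Chev.hposG2 Θ) Chev.connG2 (Chev.perfectG2 Θ
    (hK ▸ lt_of_lt_of_le (by norm_num) (Nat.pow_le_pow_right three_pos (show 2 ≤ 2 * m + 1 by omega))))

end Cfsg.Agent.S1073
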