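import Cfsg.Statements.S1074
import Cfsg.Agent.Chev.TwTits

set_option autoImplicit false
open Cfsg

namespace Cfsg.Agent.S1074

/-- ²F₄(2)′ has index 2 in ²F₄(2), is simple, and has order `2¹¹ · 3³ · 5² · 13`. -/
theorem result : (commutator ↥(Cfsg.Lie.twistedF4 (ZMod 2) 1)).index = 2 ∧ IsSimpleGroup Cfsg.Lie.TitsGroup ∧ ¬ IsMulCommutative Cfsg.Lie.TitsGroup ∧
    Nat.card Cfsg.Lie.TitsGroup = 2 ^ 11 * 3 ^ 3 * 5 ^ 2 * 13 := by
  have key : ∀ {G G' : Type} [Group G] [Group G'] (e : G ≃* G') {n : ℕ}, ¬ n.Prime →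
      (commutator G).index = 2 ∧ IsSimpleGroup (commutator G) ∧ Nat.card (commutator G) = n →
      (commutator G').index = 2 ∧ IsSimpleGroup (commutator G') ∧ ¬ IsMulCommutative (commutator G') ∧
        Nat.card (commutator G') = n := by
    intro G G' _ _ e n hn ⟨h1, h2, h3⟩
    have h : commutator G' = (commutator G).map (e : G →* G') := by
      rw [map_commutator_eq, MonoidHom.range_eq_top.2 e.surjective, commutator_def]
    let f := (e.subgroupMap (commutator G)).trans (MulEquiv.subgroupCongr h.symm)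
    have h4 := (Nat.card_congr f.toEquiv).symm.trans h3
    have h5 := f.symm.isSimpleGroup
    exact ⟨by rw [h, Subgroup.index_map_equiv, h1], h5, fun hc => hn (h4 ▸ open IsMulCommutative in IsSimpleGroup.prime_card), h4⟩
  exact key ((Subgroup.equivMapOfInjective _ _ (Chev.MatRel.inc_injective _ _)).trans
    (MulEquiv.subgroupCongr (Chev.twistedF4_eq Chev.titsΘ).symm)) (by norm_num) Chev.tits_main

end Cfsg.Agent.S1074
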