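import Cfsg.Statements.S1084
import Cfsg.Agent.Chev.E27Gen
import Cfsg.Agent.Chev.StPerf

set_option autoImplicit false
open Cfsg

namespace Cfsg.Agent.S1084

/-- E₆ via the 27-dimensional cubic form: for a finite field with at least three elements, (isometries of the cubic form) / centre ≅ the Chevalley group E₆(F). -/
theorem result {F : Type*} [Field F] [Fintype F] (hF : 3 ≤ Fintype.card F) : Nonempty (Cfsg.Lie.E6 F ≃* ↥(Cfsg.Lie.chevE6.group F)) := by
  open Cfsg.Agent.Chev Cfsg.Lie in
  have h : ∃ a : F, a ≠ 0 ∧ a ≠ 1 := by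
    classical
    by_contra hn
    push Not at hn
    have : (Finset.univ : Finset F) ⊆ {0, 1} := fun a _ => by
      by_cases h0 : a = 0
      · simp [h0]
      · simp [hn a h0]
    have := (Finset.card_le_card this).trans Finset.card_le_two
    rw [Finset.card_univ] at this
    omega
  obtain ⟨φ, hφ⟩ := E27.exists_hom h
  have hM := matRel_of_mem F memE6
  haveI := (isSimpleGroup_group (F := F) memE6 fun _ => h).1
  have h1 := hM.range_θ linkE6 univE6
  refine nonempty_quotient_center_equiv
    ((MulEquiv.subgroupCongr h1).toMonoidHom.comp (hM.θ linkE6).rangeRestrict)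
    ((MulEquiv.subgroupCongr h1).surjective.comp (hM.θ linkE6).rangeRestrict_surjective) ?_ φ hφ E27.not_comm
  rw [← hM.ker_θ linkE6 univE6]
  ext s
  simp [Subtype.ext_iff]

end Cfsg.Agent.S1084
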