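import Cfsg.Statements.S1094
import Cfsg.Agent.Chev.WCoxEl
import Cfsg.Agent.Chev.RootB2
import Cfsg.Agent.Chev.RootG2
import Cfsg.Agent.Chev.RootD4
import Cfsg.Agent.Chev.RootF4
import Cfsg.Agent.Chev.RootE6
import Cfsg.Agent.Chev.RootE7
import Cfsg.Agent.Chev.RootE8

set_option autoImplicit false
open Cfsg

namespace Cfsg.Agent.S1094

/-- The Coxeter element `s₁ s₂ ⋯ s_l` of the Coxeter group of type B₂, G₂, D₄, F₄, E₆, E₇, E₈ has order `h = 2N/l` = 4, 6, 6, 12, 12, 18, 30. -/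
theorem result (p : (Σ n : ℕ, CoxeterMatrix (Fin n)) × ℕ)
    (hp : p ∈ [(⟨2, CoxeterMatrix.B 2⟩, 4), (⟨2, CoxeterMatrix.G₂⟩, 6), (⟨4, Cfsg.Lie.coxeterD4⟩, 6), (⟨4, CoxeterMatrix.F₄⟩, 12),
      (⟨6, CoxeterMatrix.E₆⟩, 12), (⟨7, CoxeterMatrix.E₇⟩, 18), (⟨8, CoxeterMatrix.E₈⟩, 30)]) :
    orderOf ((List.finRange p.1.1).map p.1.2.simple).prod = p.2 := by
  simp only [List.mem_cons, List.not_mem_nil, or_false] at hp
  open Cfsg.Agent.Chev in
  rcases hp with rfl | rfl | rfl | rfl | rfl | rfl | rfl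
  · exact encB2.orderOf_word encB2_ok coxB2 encB2_compat (List.finRange 2) 4 (by decide +kernel)
  · exact encG2.orderOf_word encG2_ok coxG2 encG2_compat (List.finRange 2) 6 (by decide +kernel)
  · exact encD4.orderOf_word encD4_ok coxD4 encD4_compat (List.finRange 4) 6 (by decide +kernel)
  · exact encF4.orderOf_word encF4_ok coxF4 encF4_compat (List.finRange 4) 12 (by decide +kernel)
  · exact encE6.orderOf_word encE6_ok coxE6 encE6_compat (List.finRange 6) 12 (by decide +kernel)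
  · exact encE7.orderOf_word encE7_ok coxE7 encE7_compat (List.finRange 7) 18 (by decide +kernel)
  · exact encE8.orderOf_word encE8_ok coxE8 encE8_compat (List.finRange 8) 30 (by decide +kernel)

end Cfsg.Agent.S1094
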