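import Cfsg.Statements.S1097
import Cfsg.Agent.Chev.StUniv

set_option autoImplicit false
open Cfsg

namespace Cfsg.Agent.S1097

/-- Any homomorphism from the presented group to the Chevalley group with `x̄_r(t) ↦ x_r(t)` has kernel contained in `H̄ = ⟨h̄_p(t) : p fundamental, t ≠ 0⟩`. -/
theorem result {K : Type*} [Field K] (D : Cfsg.Lie.ChevalleyDatum) (hD : D ∈ [Cfsg.Lie.chevG2, Cfsg.Lie.chevB2, Cfsg.Lie.chevD4, Cfsg.Lie.chevF4, Cfsg.Lie.chevE6, Cfsg.Lie.chevE7, Cfsg.Lie.chevE8]) (θ : D.SteinbergGroup K →* ↥(D.group K))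
    (hθ : ∀ (r : ℕ) (t : K), r < D.nroots → ((θ (D.stGen K r t) : GL D.Idx K) : Matrix D.Idx D.Idx K) = D.x K r t) :
    θ.ker ≤ Subgroup.closure {h | ∃ (i : ℕ) (t : K), i < D.rank ∧ t ≠ 0 ∧ h = PresentedGroup.mk (D.steinbergRels K) (D.stH (D.simple i) t)} := by
  obtain ⟨Φ, L, -, -⟩ := Chev.exists_link hD
  obtain ⟨nb, h⟩ := Chev.exists_univChk hD
  have hM := Chev.matRel_of_mem K hD
  intro g hg
  have h1 := ((hM.faithful L).ker_central (Q := hM.univ L h) (π := (D.group K).subtype.comp θ)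
    (fun r t => Units.ext (hθ r t r.2)) (g := g) (by rw [hM.univ_G0]; trivial)
    (by simpa using hg)).1
  obtain ⟨c, rfl⟩ := (hM.univ L h).exists_hT h1
  clear h1 hg
  induction c using Chev.St.hT_induction with
  | one => simp
  | mul a b ha hb => rw [map_mul]; exact mul_mem ha hb
  | single i c =>
    rw [Chev.St.hT_mulSingle, hM.univ_h, ← L.simple]
    exact Subgroup.subset_closure ⟨i, c, i.2, Units.ne_zero c, rfl⟩

end Cfsg.Agent.S1097
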