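import Cfsg.Statements.S1100
import Cfsg.Agent.Chev.StAll

set_option autoImplicit false
open Cfsg

namespace Cfsg.Agent.S1100

/-- Canonical form `g = b n_w u` (`b ∈ B`, `u ∈ U_w⁻ = ⟨X_r : r > 0, n_w X_r n_w⁻¹ ≤ V⟩`): such a decomposition exists for every element of the group; the coset `n_w H` is determined by `g`; and for a fixed representative `n_w` the factors `b`, `u` are unique. -/
theorem result {F : Type*} [Field F] (D : Cfsg.Lie.ChevalleyDatum) (hD : D ∈ [Cfsg.Lie.chevG2, Cfsg.Lie.chevB2, Cfsg.Lie.chevD4, Cfsg.Lie.chevF4, Cfsg.Lie.chevE6, Cfsg.Lie.chevE7, Cfsg.Lie.chevE8]) :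
    (∀ g ∈ D.group F, ∃ b ∈ D.borelSubgroup F, ∃ n ∈ D.monomialSubgroup F,
      ∃ u ∈ Subgroup.closure {x : GL D.Idx F | ∃ (r : ℕ) (t : F), D.IsPosRoot r ∧
            (D.rootSubgroup F r).map (MulAut.conj n).toMonoidHom ≤ D.negUnipotent F ∧ (x : Matrix D.Idx D.Idx F) = D.x F r t},
        g = b * n * u) ∧
    (∀ (b b' n n' u u' : GL D.Idx F), b ∈ D.borelSubgroup F → b' ∈ D.borelSubgroup F →
      n ∈ D.monomialSubgroup F → n' ∈ D.monomialSubgroup F →
      u ∈ Subgroup.closure {x : GL D.Idx F | ∃ (r : ℕ) (t : F), D.IsPosRoot r ∧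
            (D.rootSubgroup F r).map (MulAut.conj n).toMonoidHom ≤ D.negUnipotent F ∧ (x : Matrix D.Idx D.Idx F) = D.x F r t} →
      u' ∈ Subgroup.closure {x : GL D.Idx F | ∃ (r : ℕ) (t : F), D.IsPosRoot r ∧
            (D.rootSubgroup F r).map (MulAut.conj n').toMonoidHom ≤ D.negUnipotent F ∧ (x : Matrix D.Idx D.Idx F) = D.x F r t} →
      b * n * u = b' * n' * u' → n⁻¹ * n' ∈ D.diagonalSubgroup F ∧ (n = n' → b = b' ∧ u = u')) := by
  obtain ⟨Φ, L, hconn, hne⟩ := Chev.exists_link hD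
  have hM := Chev.matRel_of_mem F hD
  have hP := hM.faithful L
  rw [hM.group_eq L, hM.borelSubgroup_eq L, hM.monomialSubgroup_eq L, hM.diagonalSubgroup_eq L]
  constructor
  · intro g hg
    obtain ⟨b, hb, n, hn, w, hw, u, hu, e⟩ := hP.exists_normal hg
    exact ⟨b, hb, n, hn, u, hM.closure_inv_eq L hw ▸ hu, e⟩
  · intro b b' n n' u u' hb hb' hn hn' hu hu' e
    obtain ⟨w, hw⟩ := (hM.adj L).exists_rep_of_mem_N hn
    obtain ⟨w', hw'⟩ := (hM.adj L).exists_rep_of_mem_N hn'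
    rw [hM.closure_inv_eq L hw] at hu
    rw [hM.closure_inv_eq L hw'] at hu'
    have h2 : w = w' := hP.eq_of_dc hn hn' hw hw'
      ⟨b⁻¹ * b', mul_mem (inv_mem hb) hb', u' * u⁻¹,
        (hM.adj L).U_le_B (mul_mem ((hM.adj L).X_inv_le_U _ hu') (inv_mem ((hM.adj L).X_inv_le_U _ hu))), by
          have : n = b⁻¹ * (b' * n' * u') * u⁻¹ := by rw [← e]; group
          rw [this]; group⟩
    subst h2
    refine ⟨hP.inv_mul_mem_H hn hn' hw hw', ?_⟩
    rintro rfl
    exact hP.normal_unique hb hb' hw hu hu' e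

end Cfsg.Agent.S1100
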