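import Cfsg.Statements.S1104
import Cfsg.Agent.Chev.TwPerf

set_option autoImplicit false
open Cfsg

namespace Cfsg.Agent.S1104

/-- ²E₆(q) equals its derived subgroup. -/
theorem result {K : Type*} [Field K] [Fintype K] {q : ℕ} (hq : IsPrimePow q) (hK : Fintype.card K = q ^ 2) : commutator ↥(Cfsg.Lie.twistedE6 K q) = ⊤ := by
  obtain ⟨ψ, h1, h2⟩ := Chev.exists_psiE6 hq hK
  exact Chev.MatRel.tw_perfect (Chev.twistedE6_eq h2 h1) (Chev.perfectE6 h2 (by rw [hK]; nlinarith [hq.two_le]))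

end Cfsg.Agent.S1104
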