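import Cfsg.Statements.S1108
import Cfsg.Agent.Chev.TwPerf

set_option autoImplicit false
open Cfsg

namespace Cfsg.Agent.S1108

/-- ³D₄(q) equals its derived subgroup. -/
theorem result {K : Type*} [Field K] [Fintype K] {q : ℕ} (hq : IsPrimePow q) (hK : Fintype.card K = q ^ 3) : commutator ↥(Cfsg.Lie.twistedD4 K q) = ⊤ := by
  obtain ⟨ψ, h1, h2⟩ := Chev.exists_psiD4 hq hK
  exact Chev.MatRel.tw_perfect (Chev.twistedD4_eq h2 h1) (Chev.perfectD4 h2
    (hK ▸ lt_of_lt_of_le (by norm_num) (Nat.pow_le_pow_left hq.two_le 3)))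

end Cfsg.Agent.S1108
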