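import Cfsg.Statements.S1441
import Cfsg.Agent.GT.CoprimeGen

set_option autoImplicit false
open Cfsg

namespace Cfsg.Agent.S1441

open Cfsg.Agent.GT Subgroup

/-- Let G be a finite group, H a solvable subgroup and A a subgroup normalizing H. Suppose there is a chain H = H₀ ≥ H₁ ≥ ⋯ ≥ H_n = 1 of subgroups normal in H and normalized by A such that A acts trivially on each factor H_{i-1}/H_i (that is, [H_{i-1}, A] ≤ H_i). Then every prime dividing the index of C_A(H) in A divides the order of H. -/
theorem result {G : Type*} [Group G] [Finite G] (H A : Subgroup G) (hH : Group.IsSolvable H) (hA : (A ≤ Subgroup.normalizer (H : Set G)))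
    (n : ℕ) (c : Fin (n + 1) → Subgroup G) (hc0 : c 0 = H) (hcn : c (Fin.last n) = ⊥) (hanti : Antitone c)
    (hcN : ∀ i, H ≤ Subgroup.normalizer ((c i : Subgroup G) : Set G)) (hcA : ∀ i, A ≤ Subgroup.normalizer ((c i : Subgroup G) : Set G))
    (htriv : ∀ i : Fin n, ⁅c i.castSucc, A⁆ ≤ c i.succ) :
    ∀ p : ℕ, p.Prime → p ∣ (A ⊓ Subgroup.centralizer (H : Set G)).relIndex A → p ∣ Nat.card H := by
  intro p hp hd
  by_contra hnd
  obtain ⟨P, hP⟩ := exists_syl hp A
  have hc : (Nat.card H).Coprime (Nat.card P) :=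
    ((piNat_single_compl_iff hp).2 hnd).coprime' hP.isPi
  have hle : ∀ i, c i ≤ H := fun i => hc0 ▸ hanti (Fin.zero_le i)
  have key : P ≤ C[H] := by
    refine stable_series_cent n (fun i => if h : i < n + 1 then c ⟨i, h⟩ else ⊥) ?_ ?_ ?_ ?_
    · simp only [Nat.zero_lt_succ, dite_true]; exact hc0.ge
    · simp only [Nat.lt_succ_self, dite_true]; exact hcn
    · intro i hi
      simp only [Nat.lt_succ_of_lt hi, Nat.succ_lt_succ hi, dite_true]
      exact (commutator_mono le_rfl hP.le).trans (htriv ⟨i, hi⟩)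
    · intro i hi
      simp only [Nat.lt_succ_of_le hi, dite_true]
      exact coprime_card_of_le hc (hle _) le_rfl
  exact (piNat_single_compl_iff hp).1 (hP.idx_of_le (le_inf hP.le key)) hd

end Cfsg.Agent.S1441
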