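import Cfsg.Statements.S1451
import Cfsg.Agent.PG.Rank2

set_option autoImplicit false
open Cfsg

namespace Cfsg.Agent.S1451

/-- Let G be a solvable group of odd order such that G, or its Fitting subgroup, has no elementary abelian subgroup of order q ^ 3 for any prime q. Then G' is nilpotent; for every Sylow subgroup S of G, every characteristic subgroup T of S with T ≤ [S, S] is normal in G; and for every prime p, G has a characteristic subgroup that is a Hall subgroup for the set of primes greater than p. -/
theorem result {G : Type*} [Group G] [Finite G] [Group.IsSolvable G] (hodd : Odd (Nat.card G)) (hr : Cfsg.RankLE 2 G ∨ Cfsg.RankLE 2 (Cfsg.fittingSubgroup G)) :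
    Group.IsNilpotent ↥(commutator G) ∧
      (∀ (q : ℕ) [Fact q.Prime] (S : Sylow q G) (T : Subgroup ↥(S : Subgroup G)), T.Characteristic → T.map (S : Subgroup G).subtype ≤ ⁅(S : Subgroup G), (S : Subgroup G)⁆ →
        (T.map (S : Subgroup G).subtype).Normal) ∧
      ∀ p : ℕ, ∃ N : Subgroup G, N.Characteristic ∧ Cfsg.IsPiHall {q | q.Prime ∧ p < q} N := by
  have hs : Group.IsSolvable (⊤ : Subgroup G) := inferInstance
  have ho : Odd (Nat.card (⊤ : Subgroup G)) := by rwa [Subgroup.card_top]
  have hr' : Cfsg.RankLE 2 (Cfsg.fittingOf (⊤ : Subgroup G)) := by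
    rcases hr with h | h
    · exact PG.rankLE_subgroup h _
    · rwa [GT.fittingOf_top]
  refine ⟨PG.nilpotent_commutator_of_rank_two hs ho hr', fun q hq S T hT hle => ?_, fun p => ?_⟩
  · rw [GT.normal_iff_top_le_norm]
    exact PG.le_norm_of_rank_two_of_le_commutator hq.out hs ho hr' (GT.syl_top_of_sylow hq.out S)
      hle (inf_le_right.trans (GT.norm_le_norm_map_of_characteristic _ T))
  · refine ⟨Cfsg.piCoreOf {q | q.Prime ∧ p < q} ⊤, ?_, GT.isPiHallOf_top_iff.1 ?_⟩
    · rw [Subgroup.characteristic_iff_map_eq]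
      intro φ
      rw [GT.piCoreOf_map φ.injective, Subgroup.map_top_of_surjective _ φ.surjective]
    · refine PG.hall_piCoreOf_of_rank_two hs ho hr' fun q r _ hr'' _ _ h1 h2 => ?_
      have h3 : ¬ p < r := fun h => h2 ⟨hr'', h⟩
      have h4 := h1.2
      omega

end Cfsg.Agent.S1451
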