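import Cfsg.Statements.S1453
import Cfsg.Agent.PG.Narrow

set_option autoImplicit false
open Cfsg

namespace Cfsg.Agent.S1453

/-- Let p be an odd prime and R a finite p-group with an elementary abelian subgroup of order p ^ 3 and an elementary abelian subgroup E of order p ^ 2 contained in no larger elementary abelian subgroup. Let Z₂ be the second centre of R, W the subgroup generated by the elements of Z₂ of order dividing p, and T = C_R(W). Then E is not contained in T; the elements of order dividing p of the centre of R generate a group of order p; W is elementary abelian of order p ^ 2; and T is characteristic in R of index p. -/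
theorem result {R : Type*} [Group R] [Finite R] (p : ℕ) [Fact p.Prime] (hp : p ≠ 2) (hR : IsPGroup p R) (hr : ¬ Cfsg.PRankLE p 2 R)
    (E : Subgroup R) (hE : Cfsg.IsElementaryAbelian p E) (hE2 : Nat.card E = p ^ 2)
    (hEmax : ∀ B : Subgroup R, Cfsg.IsElementaryAbelian p B → E ≤ B → B = E) :
    ¬ E ≤ Subgroup.centralizer ((Subgroup.closure {x : R | x ∈ Subgroup.upperCentralSeries R 2 ∧ x ^ p = 1} : Subgroup R) : Set R) ∧
      Nat.card ↥(Subgroup.closure {x : R | x ∈ Subgroup.center R ∧ x ^ p = 1}) = p ∧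
      (Cfsg.IsElementaryAbelian p (Subgroup.closure {x : R | x ∈ Subgroup.upperCentralSeries R 2 ∧ x ^ p = 1}) ∧
        Nat.card ↥(Subgroup.closure {x : R | x ∈ Subgroup.upperCentralSeries R 2 ∧ x ^ p = 1}) = p ^ 2) ∧
      (Subgroup.centralizer ((Subgroup.closure {x : R | x ∈ Subgroup.upperCentralSeries R 2 ∧ x ^ p = 1} : Subgroup R) : Set R)).Characteristic ∧
      (Subgroup.centralizer ((Subgroup.closure {x : R | x ∈ Subgroup.upperCentralSeries R 2 ∧ x ^ p = 1} : Subgroup R) : Set R)).index = p := by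
  have hR' : IsPGroup p (⊤ : Subgroup R) := PG.isPGroup_top_iff.2 hR
  have hr' : ¬ Cfsg.PRankLE p 2 (⊤ : Subgroup R) := fun h => hr (PG.pRankLE_top_iff.1 h)
  have h1 : GT.PnElem p 2 ⊤ E := ⟨le_top, hE, hE2⟩
  have h2 : GT.PmaxElem p ⊤ E := ⟨le_top, hE, fun B _ => hEmax B⟩
  have a1 := PG.not_le_cent_omegaOne_z2_of_pmaxElem hp hR' hr' h1 h2
  have a2 := PG.card_omegaOne_center_of_pmaxElem hR' hr' h1 h2
  have a3 := PG.pnElem_omegaOne_z2_of_pmaxElem hp hR' hr' h1 h2
  have a4 := PG.card_eq_mul_cent_omegaOne_z2_of_pmaxElem hp hR' hr' h1 h2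
  rw [PG.z2_top] at a1 a3 a4
  rw [top_inf_eq, GT.cent_top] at a2
  rw [top_inf_eq] at a4
  refine ⟨a1, a2, ⟨a3.elem, a3.card⟩, ?_, ?_⟩
  · exact Subgroup.characteristic_centralizer (H := Cfsg.omegaOne p (Subgroup.upperCentralSeries R 2))
  · rw [← Subgroup.relIndex_top_right]
    exact PG.relIndex_eq_of_card_eq_mul le_top a4

end Cfsg.Agent.S1453
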