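import Cfsg.Statements.S1454
import Cfsg.Agent.PG.Narrow

set_option autoImplicit false
open Cfsg

namespace Cfsg.Agent.S1454

/-- Let G be a finite group, p an odd prime, R a narrow p-subgroup and A a solvable subgroup of odd order normalizing R with A ∩ C_G(R) = 1. Then [A, A] ≤ O_p(A) and the index of O_p(A) in A is coprime to p; if R has an elementary abelian subgroup of order p ^ 3 then the order of every element of A of order coprime to p divides p − 1; and if the order of A is a prime not dividing p(p − 1), then 2·#A divides p + 1, and if in addition [R, A] = R and R is non-abelian then #R = p ^ 3. -/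
theorem result {G : Type*} [Group G] [Finite G] (p : ℕ) [Fact p.Prime] (hp : p ≠ 2) (R A : Subgroup G) (hR : IsPGroup p R) (hRn : Cfsg.IsNarrow p R)
    (hA : (A ≤ Subgroup.normalizer (R : Set G))) (hAs : Group.IsSolvable A) (hAodd : Odd (Nat.card A)) (hfaith : A ⊓ Subgroup.centralizer (R : Set G) = ⊥) :
    (commutator ↥A ≤ Cfsg.pCore p ↥A ∧ ((Cfsg.pCore p ↥A).index).Coprime p) ∧
      (¬ Cfsg.PRankLE p 2 R → ∀ a ∈ A, (orderOf a).Coprime p → orderOf a ∣ p - 1) ∧
      ((Nat.card A).Prime → ¬ Nat.card A ∣ p * (p - 1) →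
        2 * Nat.card A ∣ p + 1 ∧ (⁅R, A⁆ = R → ¬ IsMulCommutative R → Nat.card R = p ^ 3)) := by
  have hn := (PG.isNarrow_iff_narrow hp hR).1 hRn
  have hp' : p.Prime := Fact.out
  obtain ⟨h1, h2⟩ := PG.commutator_le_piCoreOf_of_narrow hp hR hn hA hAs hAodd
    (hfaith ▸ IsPGroup.of_bot)
  refine ⟨⟨?_, ?_⟩, fun hr a ha hc => ?_, fun hq hd => ?_⟩
  · rw [← GT.map_le_map_inj A.subtype_injective, GT.map_subtype_pCore hp',
      Subgroup.map_subtype_commutator]
    exact h1
  · rw [← GT.index_eq_relIndex_map, GT.map_subtype_pCore hp']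
    exact ((Nat.Prime.coprime_iff_not_dvd hp').2 (GT.syl_not_dvd hp' h2)).symm
  · refine orderOf_dvd_of_pow_eq_one (Subgroup.mem_bot.1 (hfaith.le ⟨pow_mem ha _, ?_⟩))
    exact PG.pow_sub_one_mem_cent_of_narrow hp hR hr hn (hA ha) hc
  · refine PG.narrow_prime_operator hp hR hn hA hq hd fun h => GT.ne_bot_of_card_prime hq ?_
    rwa [inf_eq_left.2 h] at hfaith

end Cfsg.Agent.S1454
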