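import Cfsg.Statements.S1464
import Cfsg.Agent.GT.PStable

set_option autoImplicit false
open Cfsg

namespace Cfsg.Agent.S1464

open Cfsg.Agent.GT Subgroup

/-- Let p be an odd prime and G a solvable group of odd order, P a p-subgroup with O_{p'}(G)P normal in G, and A a p-subgroup of N_G(P) with [[P, A], A] = 1. Then the image of A in the quotient N_G(P)/C_G(P) is contained in the p-core of that quotient. -/
theorem result {G : Type*} [Group G] [Finite G] [Group.IsSolvable G] (hodd : Odd (Nat.card G)) (p : ℕ) [Fact p.Prime] (hp : p ≠ 2) (P A : Subgroup G) (hP : IsPGroup p P) (hPn : (Cfsg.pPrimeCore p G ⊔ P).Normal)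
    (hA : IsPGroup p A) (hAN : A ≤ Subgroup.normalizer (P : Set G)) (hquad : ⁅⁅P, A⁆, A⁆ = ⊥) :
    (A.subgroupOf (Subgroup.normalizer (P : Set G))).map
        (QuotientGroup.mk' ((Subgroup.centralizer (P : Set G)).subgroupOf (Subgroup.normalizer (P : Set G))))
      ≤ Cfsg.pCore p _ := by
  have hp' : p.Prime := Fact.out
  have h := odd_p_stable (H := ⊤) hp' (by rwa [card_top]) inferInstance hP (le_inf le_top hAN) hquad
  rw [top_inf_eq, top_inf_eq] at h
  rw [← piCoreOf_top_single hp', ← im_dom_of_surj (QuotientGroup.mk'_surjective _)]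
  refine im_le_of_le_pre ?_
  rwa [pre_piCoreOf le_rfl kr_le, kr_mk', subgroupOf_map_subtype, inf_eq_left.2 (cent_le_norm P)]

end Cfsg.Agent.S1464
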