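import Cfsg.Statements.S1466
import Cfsg.Agent.GT.Puig

set_option autoImplicit false
open Cfsg

namespace Cfsg.Agent.S1466

open Cfsg.Agent.GT Subgroup

/-- Let p be a prime and R a nontrivial finite p-group. Then for every i > 0, Z(R) ≤ C_R(L_i(R)) ≤ L_i(R); likewise Z(R) ≤ C_R(L_*(R)) ≤ L_*(R) and Z(R) ≤ C_R(L(R)) ≤ L(R); and L(R) ≠ 1, L_*(R) ≠ 1. -/
theorem result {R : Type*} [Group R] [Finite R] (p : ℕ) [Fact p.Prime] (hR : IsPGroup p R) [Nontrivial R] :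
    (∀ i : ℕ, 0 < i → Subgroup.center R ≤ Subgroup.centralizer ((Cfsg.puigSeq R i : Subgroup R) : Set R) ∧
        Subgroup.centralizer ((Cfsg.puigSeq R i : Subgroup R) : Set R) ≤ Cfsg.puigSeq R i) ∧
      (Subgroup.center R ≤ Subgroup.centralizer ((Cfsg.puigLower R : Subgroup R) : Set R) ∧ Subgroup.centralizer ((Cfsg.puigLower R : Subgroup R) : Set R) ≤ Cfsg.puigLower R) ∧
      (Subgroup.center R ≤ Subgroup.centralizer ((Cfsg.puigSubgroup R : Subgroup R) : Set R) ∧ Subgroup.centralizer ((Cfsg.puigSubgroup R : Subgroup R) : Set R) ≤ Cfsg.puigSubgroup R) ∧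
      Cfsg.puigSubgroup R ≠ ⊥ ∧ Cfsg.puigLower R ≠ ⊥ := by
  have hp : p.Prime := Fact.out
  have hT : IsPGroup p (⊤ : Subgroup R) := isPGroup_top_iff.2 hR
  have hc : ∀ X : Subgroup R, center R ≤ C[X] := fun X => by
    rw [← cent_top]; exact cent_anti le_top
  have h1 := inf_cent_puigOf_le hp hT
  have h2 := inf_cent_puigInfOf_le hp hT
  rw [top_inf_eq, puigOf_top] at h1
  rw [top_inf_eq, puigInfOf_top] at h2
  have h3 : center R ≠ ⊥ := by
    have := center_ne_bot_of_nilpotent (nilpotent_of_isPGroup hp hT) top_ne_bot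
    rwa [top_inf_eq, cent_top] at this
  refine ⟨fun i hi => ⟨hc _, ?_⟩, ⟨hc _, h2⟩, ⟨hc _, h1⟩, ne_bot_of_le h3 ((hc _).trans h1),
    ne_bot_of_le h3 ((hc _).trans h2)⟩
  obtain ⟨n, rfl⟩ := Nat.exists_eq_succ_of_ne_zero hi.ne'
  have := inf_cent_puigAtOf_le hp hT n
  rwa [top_inf_eq, puigAtOf_top] at this

end Cfsg.Agent.S1466
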