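import Cfsg.Statements.S1475
import Cfsg.Agent.Cls.CN

set_option autoImplicit false
open Cfsg

namespace Cfsg.Agent.S1475

/-- Let G be a finite solvable group such that the order of every element is a prime power (1 included). Then at most two distinct primes divide the order of G. -/
theorem result {G : Type*} [Group G] [Finite G] [Group.IsSolvable G] (h : ∀ g : G, IsPrimePow (orderOf g) ∨ g = 1) :
    (Nat.card G).primeFactors.card ≤ 2 := by
  open Subgroup Cfsg.Agent.GT Cfsg.Agent.Cls in
  have hs : Group.IsSolvable (⊤ : Subgroup G) := isSolvable_top_iff.2 inferInstance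
  have key : ∀ x y : G, x ≠ 1 → y ≠ 1 → x * y = y * x → ¬ (orderOf x).Coprime (orderOf y) := by
    intro x y hx hy hxy hc
    have h1 := Commute.orderOf_mul_eq_mul_orderOf_of_coprime hxy hc
    have hx' : orderOf x ≠ 1 := by rwa [Ne, orderOf_eq_one_iff]
    have hy' : orderOf y ≠ 1 := by rwa [Ne, orderOf_eq_one_iff]
    rcases h (x * y) with h2 | h2
    · rw [h1] at h2
      rcases (Nat.Coprime.isPrimePow_dvd_mul hc h2).1 dvd_rfl with h3 | h3
      · have := Nat.le_of_dvd (orderOf_pos x) h3
        have := orderOf_pos y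
        have := orderOf_pos x
        have : orderOf x * 2 ≤ orderOf x * orderOf y := Nat.mul_le_mul_left _ (by omega)
        omega
      · have := Nat.le_of_dvd (orderOf_pos y) h3
        have := orderOf_pos y
        have := orderOf_pos x
        have : 2 * orderOf y ≤ orderOf x * orderOf y := Nat.mul_le_mul_right _ (by omega)
        omega
    · rw [h2, orderOf_one] at h1
      exact hx' (Nat.eq_one_of_mul_eq_one_right h1.symm)
  by_contra hlt
  push Not at hlt
  have htop : (⊤ : Subgroup G) ≠ ⊥ := by
    intro e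
    rw [← card_top, e] at hlt
    simp at hlt
  obtain ⟨M, p, -, hM, hp, hMe⟩ := exists_minNormal_elementary htop le_normalizer hs
  obtain ⟨q, hq, r, hr, hqr⟩ := Finset.one_lt_card.1
    (show 1 < ((Nat.card G).primeFactors.erase p).card by
      have := Finset.pred_card_le_card_erase (s := (Nat.card G).primeFactors) (a := p)
      omega)
  rw [Finset.mem_erase, Nat.mem_primeFactors] at hq hr
  obtain ⟨K, hK⟩ := exists_hall {p}ᶜ hs
  have hreg : Semiregular M K := semiregular_iff.2 fun x hx hx1 y hy hxy => by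
    by_contra hy1
    exact key y x hy1 hx1 hxy (((isPi_of_isPGroup hp (isPGroup_of_elementary hMe)).orderOf hy).coprime
      (hK.isPi.orderOf hx))
  have hqK : q ∣ Nat.card K := hK.prime_dvd hq.2.1 hq.1 (by rw [card_top]; exact hq.2.2.1)
  have hrK : r ∣ Nat.card K := hK.prime_dvd hr.2.1 hr.1 (by rw [card_top]; exact hr.2.2.1)
  have hK1 : K ≠ ⊥ := by
    rintro rfl
    exact hq.2.1.one_lt.ne' (by simpa using hqK)
  obtain ⟨s, hs, hsd⟩ := exists_prime_dvd_card
    (Semiregular_center_ne_bot hreg (le_top.trans hM.norm) hM.ne_bot hK1)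
  obtain ⟨z, hz, hzs⟩ := exists_mem_orderOf_eq hs hsd
  have key2 : ∀ t : ℕ, t.Prime → t ∣ Nat.card K → t = s := fun t ht htd => by
    obtain ⟨x, hx, hxt⟩ := exists_mem_orderOf_eq ht htd
    by_contra hts
    refine key x z (fun e => ht.one_lt.ne' (by rw [← hxt, e, orderOf_one]))
      (fun e => hs.one_lt.ne' (by rw [← hzs, e, orderOf_one])) (mem_centralizer_iff.1 hz.2 x hx) ?_
    rw [hxt, hzs]
    exact (Nat.coprime_primes ht hs).2 hts
  exact hqr ((key2 q hq.2.1 hqK).trans (key2 r hr.2.1 hrK).symm)

end Cfsg.Agent.S1475
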