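import Cfsg.Statements.S1476
import Cfsg.Agent.Cls.CN

set_option autoImplicit false
open Cfsg

namespace Cfsg.Agent.S1476

/-- Let G be a finite solvable group in which every non-identity element has nilpotent centralizer. Then either G is nilpotent; or G has a normal subgroup K with a Frobenius complement E (K E = G, K ∩ E = 1, E meets its conjugates by outside elements trivially) such that E is cyclic or E is generated by two elementwise-commuting subgroups, one cyclic of odd order and one isomorphic to a generalized quaternion group; or G is a three-step group with respect to some prime p. -/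
theorem result {G : Type*} [Group G] [Finite G] [Group.IsSolvable G] (hCN : Cfsg.IsCNGroup G) :
    Group.IsNilpotent G ∨
      (∃ K E : Subgroup G, K.Normal ∧ Subgroup.IsComplement' K E ∧ Cfsg.IsFrobeniusComplement E ∧
        (IsCyclic E ∨ ∃ C Q : Subgroup G, C ⊔ Q = E ∧ (∀ a ∈ C, ∀ b ∈ Q, a * b = b * a) ∧ IsCyclic C ∧ Odd (Nat.card C) ∧
          ∃ n : ℕ, Nonempty (↥Q ≃* QuaternionGroup (2 ^ n)))) ∨
      ∃ p : ℕ, p.Prime ∧ Cfsg.IsThreeStepGroup p G := by
  open Subgroup Cfsg.Agent.GT Cfsg.Agent.Cls in
  by_cases hnn : Group.IsNilpotent G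
  · exact Or.inl hnn
  right
  by_cases hno : ∀ (p : ℕ) (P : Subgroup G), p.Prime → IsPiHallOf {p} P ⊤ →
    (⊤ : Subgroup G) ≤ N[P] → P = ⊥
  · exact Or.inr (cn_three_step hCN inferInstance hnn hno)
  left
  push Not at hno
  obtain ⟨p, P, hp, hP, hn, hP1⟩ := hno
  obtain ⟨E, hE, hEn⟩ := cn_frob_of_normal_syl hCN hnn hp hP hP1 hn
  exact ⟨_, E, normal_iff_top_le_norm.2 hE.sdprod.norm, isComplIn_top_iff.1 hE.sdprod.compl,
    Frob_isFrobeniusComplement hE,
    nilpotent_compl_structure hE.reg hE.sdprod.right_norm hE.ker_ne_bot hEn⟩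

end Cfsg.Agent.S1476
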