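import Cfsg.Statements.S1477
import Cfsg.Agent.Cls.CN

set_option autoImplicit false
open Cfsg

namespace Cfsg.Agent.S1477

/-- Let G be a finite group in which every non-identity element has nilpotent centralizer, and H a nilpotent subgroup not properly contained in any nilpotent subgroup. Then the order of H is coprime to its index; if the order of H is not a prime power then H ∩ gHg⁻¹ = 1 whenever gHg⁻¹ ≠ H; and if H ∩ gHg⁻¹ = 1 whenever gHg⁻¹ ≠ H, then C_G(x) ≤ H for every non-identity x ∈ H. -/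
theorem result {G : Type*} [Group G] [Finite G] (hCN : Cfsg.IsCNGroup G) (H : Subgroup G) (hH : Group.IsNilpotent H)
    (hmax : ∀ L : Subgroup G, Group.IsNilpotent L → H ≤ L → L = H) :
    (Nat.card H).Coprime H.index ∧
      (¬ IsPrimePow (Nat.card H) → Nat.card H ≠ 1 → ∀ g : G, H.map (MulAut.conj g).toMonoidHom ≠ H → H ⊓ H.map (MulAut.conj g).toMonoidHom = ⊥) ∧
      ((∀ g : G, H.map (MulAut.conj g).toMonoidHom ≠ H → H ⊓ H.map (MulAut.conj g).toMonoidHom = ⊥) → ∀ x ∈ H, x ≠ 1 → Subgroup.centralizer ({x} : Set G) ≤ H) := by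
  open Subgroup Cfsg.Agent.GT Cfsg.Agent.Cls in
  refine ⟨?_, fun hpp h1 g hg => ?_, fun hTI x hx hx1 => ?_⟩
  · have := (isPiHallOf_of_forall_syl_le (π := piOf (Nat.card H)) le_top (isPiSubgroup_piOf H)
      fun p hp hd _ => ⟨_, cn_syl_piCoreOf hCN hH hmax hp hd.2, piCoreOf_le _ _⟩).coprime
    rwa [relIndex_top_right] at this
  · by_contra hne
    apply hg
    obtain ⟨p, hp, hd⟩ := exists_prime_dvd_card hne
    obtain ⟨x, hx, hxp⟩ := exists_mem_orderOf_eq hp hd
    have hx1 : x ≠ 1 := fun e => hp.one_lt.ne' (by rw [← hxp, e, orderOf_one])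
    obtain ⟨q, hq, hqd, hqp⟩ : ∃ q, q.Prime ∧ q ∣ Nat.card H ∧ q ≠ p := by
      by_contra h
      push Not at h
      obtain ⟨k, hk⟩ := (piNat_single_iff hp (card_pos' H).ne').1 h
      rcases k with _ | k
      · exact h1 hk
      · exact hpp (hk ▸ (hp.isPrimePow.pow (Nat.succ_ne_zero k)))
    have hK : Group.IsNilpotent (cj[g] H) := isNilpotent_conj_iff.2 hH
    have hKmax : ∀ L : Subgroup G, Group.IsNilpotent L → cj[g] H ≤ L → L = cj[g] H := by
      intro L hL h
      rw [← hmax _ (isNilpotent_conj_iff.2 hL) (conj_le_iff.1 h), conj_inv_conj]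
    have hxq : IsPiSubgroup {q}ᶜ (zpowers x) :=
      isPiSubgroup_zpowers_iff.2 (hxp ▸ (piNat_prime hp).2 (Ne.symm hqp))
    have h2 := cn_syl_piCoreOf hCN hH hmax hq hqd
    have h3 := cn_syl_piCoreOf hCN hK hKmax hq (by rwa [card_conj])
    have h4 : ∀ X : Subgroup G, Group.IsNilpotent X → x ∈ X → IsPiHallOf {q} (piCoreOf {q} X) ⊤ →
        piCoreOf {q} X = piCoreOf {q} C1[x] := fun X hX hxX h =>
      nil_hall_eq_piCoreOf (hCN x hx1) (h.of_le (by
        rw [← cent_zpowers]
        exact le_cent_symm (nil_le_cent_piCoreOf hX (zpowers_le.2 hxX) hxq)) le_top)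
    have h5 : piCoreOf {q} H = piCoreOf {q} (cj[g] H) :=
      (h4 _ hH hx.1 h2).trans (h4 _ hK hx.2 h3).symm
    have h6 : ∀ X : Subgroup G, Group.IsNilpotent X → X ≤ C[piCoreOf {q} X ⊓ C[piCoreOf {q} X]] :=
      fun X hX => by
        nth_rewrite 1 [← nil_piCoreOf_sup_compl hX {q}]
        exact sup_le (le_cent_symm inf_le_right)
          (piCoreOf_compl_le_cent.trans (cent_anti inf_le_left))
    have h7 := center_ne_bot_of_nilpotent (nilpotent_of_isPGroup hq (piCoreOf_isPGroup hq H))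
      (piCoreOf_ne_bot_of_nil hH hq rfl hqd)
    exact eq_of_le_of_card_ge (cn_le_of_cent hCN hmax h7 (h6 H hH) (h5 ▸ h6 _ hK))
      (card_conj g H).ge
  · have h1 : C1[x] ≤ N[H] := fun g hg => by
      rw [← conj_eq_self_iff]
      by_contra hne
      refine hx1 (mem_bot.1 (hTI g hne ▸ mem_inf.2 ⟨hx, mem_conj.2 ?_⟩))
      rw [mul_assoc, ← mem_cent1.1 hg, inv_mul_cancel_left]
      exact hx
    have h2 := inf_cent_ne_bot_of_nilpotent (hCN x hx1) (inf_le_right.trans (cent_le_cent1 hx))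
      (le_norm_inf h1 (le_norm_cent h1)) (center_ne_bot_of_nilpotent hH (ne_bot_of_mem hx hx1))
    exact cn_le_of_cent hCN hmax h2 (le_cent_symm (inf_le_left.trans inf_le_right))
      (le_cent_symm inf_le_right)

end Cfsg.Agent.S1477
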