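import Cfsg.Statements.S1480
import Cfsg.Agent.GT.ThompsonBender

set_option autoImplicit false
open Cfsg

namespace Cfsg.Agent.S1480

open Cfsg.Agent.GT Subgroup

/-- Let G be a finite group and p a prime such that the normalizer of every nontrivial p-subgroup of G is p-constrained; if p = 2 assume also that the Sylow 2-subgroups of G have nilpotency class at most 2. Let E be an abelian p-subgroup containing an elementary abelian subgroup of order p ^ 3 and containing every element of p-power order of C_G(E). Then for every prime q ≠ p, any two maximal E-invariant q-subgroups of G are conjugate by an element of O_{p'}(C_G(E)). -/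
theorem result {G : Type*} [Group G] [Finite G] (p : ℕ) [Fact p.Prime]
    (hloc : ∀ T : Subgroup G, IsPGroup p T → T ≠ ⊥ → Cfsg.IsPConstrained p ↥(Subgroup.normalizer (T : Set G)))
    (h2 : p = 2 → ∀ S : Sylow p G, Group.IsNilpotent (S : Subgroup G) ∧ Group.nilpotencyClass (S : Subgroup G) ≤ 2)
    (E : Subgroup G) (hEp : IsPGroup p E) (hEc : IsMulCommutative E) (hE3 : ¬ Cfsg.PRankLE p 2 E)
    (hEfull : ∀ x ∈ Subgroup.centralizer (E : Set G), IsPGroup p (Subgroup.zpowers x) → x ∈ E)
    (q : ℕ) [Fact q.Prime] (hqp : q ≠ p) :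
    ∀ Q₁ ∈ Cfsg.maxInvSubgroups ⊤ E {q}, ∀ Q₂ ∈ Cfsg.maxInvSubgroups ⊤ E {q},
        ∃ k ∈ Cfsg.piCoreOf (Cfsg.primesNotDvd p) (Subgroup.centralizer (E : Set G)), Q₂ = Q₁.map (MulAut.conj k).toMonoidHom := by
  intro Q₁ h₁ Q₂ h₂
  have hp : p.Prime := Fact.out
  have e : piCoreOf (primesNotDvd p) C[E] = piCoreOf {p}ᶜ C[E] :=
    piCoreOf_congr fun r hr => ⟨fun h (e : r = p) => h.2 (e ▸ dvd_rfl),
      fun h => ⟨hr, fun hd => h ((Nat.prime_dvd_prime_iff_eq hr hp).1 hd)⟩⟩
  rw [e]
  refine thompson_transitivity hp Fact.out hqp (fun T hT h1 => (pConstr_iff hp).2 (hloc T hT h1))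
    (fun hp2 S hS => ?_) hEp hEc hE3
    (fun x hx hx' => hEfull x hx ((isPGroup_zpowers_iff hp).2 hx')) h₁ h₂
  obtain ⟨P, hP⟩ := hS.exists_le_sylow
  obtain ⟨_, h⟩ := h2 hp2 P
  have h3 := Subgroup.upperCentralSeries_eq_top_iff_nilpotencyClass_le.2 h
  have h4 := PG.map_subtype_upperCentralSeries_two (P : Subgroup G)
  rw [h3, map_subtype_top] at h4
  have h5 := PG.class_two_z2 (P : Subgroup G)
  rw [← h4] at h5
  exact ((commutator_mono hP hP).trans h5).trans (cent_anti hP)

end Cfsg.Agent.S1480
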