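import Cfsg.Statements.S1481
import Cfsg.Agent.GT.ThompsonBender

set_option autoImplicit false
open Cfsg

namespace Cfsg.Agent.S1481

open Cfsg.Agent.GT Subgroup

/-- Let G be a finite group and H a local subgroup (the normalizer of a nontrivial subgroup of prime-power order) not properly contained in any local subgroup; let F = F(H), suppose at least two primes divide #F, put X = H ∩ C_G(F), let M ≤ F with F ∩ C_G(M) ≤ M, and let R be a solvable subgroup normalized by M and by X. Then for every prime q not dividing #F there is exactly one maximal M-invariant q-subgroup of R, and it is a Sylow q-subgroup of the largest normal subgroup of R of order coprime to #F. -/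
theorem result {G : Type*} [Group G] [Finite G] (H : Subgroup G) (hH : Cfsg.IsLocalSubgroup H) (hHmax : ∀ L : Subgroup G, Cfsg.IsLocalSubgroup L → H ≤ L → L = H)
    (hF2 : 2 ≤ (Nat.card (Cfsg.fittingOf H)).primeFactors.card)
    (M : Subgroup G) (hM : M ≤ Cfsg.fittingOf H) (hCM : Cfsg.fittingOf H ⊓ Subgroup.centralizer (M : Set G) ≤ M)
    (R : Subgroup G) (hR : Group.IsSolvable R) (hMR : M ≤ Subgroup.normalizer (R : Set G))
    (hXR : H ⊓ Subgroup.centralizer (Cfsg.fittingOf H : Set G) ≤ Subgroup.normalizer (R : Set G))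
    (q : ℕ) [Fact q.Prime] (hq : ¬ q ∣ Nat.card (Cfsg.fittingOf H)) :
    ∃! Q : Subgroup G, Q ∈ Cfsg.maxInvSubgroups R M {q} ∧
      (∀ Q' : Subgroup G, Q' ∈ Cfsg.maxInvSubgroups R M {q} →
        Q' ≤ Cfsg.piCoreOf (Cfsg.primesNotDvd (Nat.card (Cfsg.fittingOf H))) R ∧
        ¬ q ∣ Q'.relIndex (Cfsg.piCoreOf (Cfsg.primesNotDvd (Nat.card (Cfsg.fittingOf H))) R)) := by
  have hqp : q.Prime := Fact.out
  set F := fittingOf H with hFdef
  set π' := primesNotDvd (Nat.card F) with hπ'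
  set D := piCoreOf π' R with hD
  have hnil : Group.IsNilpotent F := fittingOf_nilpotent H
  have hFH : F ≤ H := fittingOf_le H
  have hHF : H ≤ N[F] := self_le_norm_fittingOf H
  obtain ⟨Z, hZ⟩ : ∃ Z : ℕ → Subgroup G, ∀ p, p.Prime → p ∣ Nat.card F →
      Z p ≤ M ∧ Z p ≤ piCoreOf {p} H ∧ C[Z p] ≤ H ∧ M ≤ C[Z p] := by
    refine ⟨fun p => piCoreOf {p} H ⊓ C[F], fun p hp hd => ?_⟩
    have h1 : piCoreOf {p} H ⊓ C[F] ≠ ⊥ := inf_cent_ne_bot_of_nilpotent hnil
      (piCoreOf_single_le_fittingOf hp) (hFH.trans (self_le_norm_piCoreOf _ _))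
      (piCoreOf_single_fittingOf (H := H) hp ▸ piCoreOf_ne_bot_of_nil hnil hp rfl hd)
    have h2 := hHmax N[piCoreOf {p} H ⊓ C[F]]
      ⟨p, _, hp, (piCoreOf_isPGroup hp H).to_le inf_le_left, h1, rfl⟩
      (le_norm_inf (self_le_norm_piCoreOf _ _) (le_norm_cent hHF))
    exact ⟨(inf_le_inf (piCoreOf_single_le_fittingOf hp) (cent_anti hM)).trans hCM, inf_le_left,
      (cent_le_norm _).trans h2.le, le_cent_symm (inf_le_right.trans (cent_anti hM))⟩
  have hZp : ∀ p, p.Prime → p ∣ Nat.card F → IsPGroup p (Z p) := fun p hp hd =>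
    (piCoreOf_isPGroup hp H).to_le (hZ p hp hd).2.1
  have hother : ∀ p, ∃ r, r.Prime ∧ r ∣ Nat.card F ∧ r ≠ p := by
    intro p
    obtain ⟨r, hr, hrp⟩ := Finset.exists_mem_ne (by omega : 1 < (Nat.card F).primeFactors.card) p
    exact ⟨r, Nat.prime_of_mem_primeFactors hr, Nat.dvd_of_mem_primeFactors hr, hrp⟩
  -- `M`-invariant `π'`-subgroups of `R ∩ H` are trivial
  have hY : ∀ Y : Subgroup G, Y ≤ R → Y ≤ H → IsPiSubgroup π' Y → M ≤ N[Y] → Y = ⊥ := by
    intro Y hYR hYH hYπ hMY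
    have hc : (Nat.card F).Coprime (Nat.card Y) := (isPiSubgroup_primesNotDvd_iff.1 hYπ).symm
    have h1 : M ≤ C[Y] := by
      rw [le_cent_iff_commutator_eq_bot]
      exact eq_bot_of_le_of_coprime ((commutator_mono hM le_rfl).trans
        (commutator_le_of_le_norm_left (hYH.trans hHF))) (commutator_le_of_le_norm_right hMY) hc
    have h2 : Y ≤ C[F] := coprime_nil_le_cent hnil (hYH.trans hHF) hc
      (((inf_le_inf_left _ (cent_anti (le_inf hM h1))).trans hCM).trans h1)
    set X := H ⊓ C[F] with hX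
    have hHX : H ≤ N[X] := le_norm_inf le_normalizer (le_norm_cent hHF)
    have h3 : fittingOf (X ⊓ R) ≤ F :=
      (fittingOf_le_of_normal inf_le_left (le_norm_inf le_normalizer hXR)).trans
        (fittingOf_le_of_normal inf_le_left hHX)
    have h4 : Y ≤ F := (le_fittingOf_of_le_cent (isSolvable_of_le hR inf_le_right)
      (le_inf (le_inf hYH h2) hYR) (h2.trans (cent_anti h3))).trans h3
    exact eq_bot_of_le_of_coprime h4 le_rfl hc
  have hL : Group.IsSolvable ↥(M ⊔ R) := by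
    obtain ⟨Y, _, _, f, -, hk⟩ := exists_quo' (M ⊔ R) R le_sup_right (sup_le hMR le_normalizer)
    refine solvable_of_im (f := f) le_rfl (isSolvable_of_le hR (inf_le_right.trans hk.le)) ?_
    have e : im f (M ⊔ R) = im f M := by
      have := im_sup_kr (f := f) (H := M) le_sup_left
      rwa [hk] at this
    exact e ▸ solvable_im (isSolvable_of_le (fittingOf_solvable H) hM)
  -- `M`-invariant `π'`-subgroups of `R` lie in `D`
  have hQ : ∀ Q : Subgroup G, Q ≤ R → IsPiSubgroup π' Q → M ≤ N[Q] → Q ≤ D := by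
    intro Q hQR hQπ hMQ
    have h1 : ∀ p, p.Prime → p ∣ Nat.card F → Q ≤ piCoreOf {p}ᶜ R := by
      intro p hp hd
      obtain ⟨r, hr, hrd, hrp⟩ := hother p
      have h2 : Z r ≤ piCoreOf {p}ᶜ (M ⊔ R) := by
        refine le_trans ?_ (piCoreOf_compl_cent_le hp hL ((hZ p hp hd).1.trans le_sup_left)
          (hZp p hp hd))
        refine le_trans (le_inf ((hZ r hr hrd).2.1.trans (piCoreOf_single_le hrp))
          (le_inf ((hZ r hr hrd).1.trans le_sup_left) ((hZ r hr hrd).1.trans (hZ p hp hd).2.2.2)))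
          (piCoreOf_inf_le (inf_le_right.trans (hZ p hp hd).2.2.1))
      have h3 : Q ⊓ C[Z r] = ⊥ := hY _ (inf_le_left.trans hQR)
        (inf_le_right.trans (hZ r hr hrd).2.2.1) hQπ.inf_left
        (le_norm_inf hMQ (le_norm_cent ((hZ r hr hrd).2.2.2.trans (cent_le_norm _))))
      have hc : (Nat.card Q).Coprime (Nat.card (Z r)) :=
        (isPiSubgroup_primesNotDvd_iff.1 hQπ).coprime_dvd_right
          (card_dvd_of_le ((hZ r hr hrd).1.trans hM))
      have h4 := coprime_commutator_sup_cent (Or.inl (isSolvable_of_le hR hQR))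
        ((hZ r hr hrd).1.trans hMQ) hc
      rw [h3, sup_bot_eq] at h4
      have h5 : Q ≤ piCoreOf {p}ᶜ (M ⊔ R) := by
        rw [← h4]
        exact (commutator_mono le_rfl h2).trans (commutator_le_of_le_norm_right
          ((hQR.trans le_sup_right).trans (self_le_norm_piCoreOf _ _)))
      exact (le_inf h5 hQR).trans (piCoreOf_inf_le le_sup_right)
    set E := sSup {Y : Subgroup G | Y ≤ R ∧ ∀ p, p.Prime → p ∣ Nat.card F → Y ≤ piCoreOf {p}ᶜ R}
      with hE
    have hQE : Q ≤ E := le_sSup ⟨hQR, h1⟩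
    refine hQE.trans (le_piCoreOf (sSup_le fun Y hY => hY.1) ?_ ?_)
    · refine le_norm_sSup_of_conj_mem fun a ha Y hY => ⟨conj_le_of_mem ha hY.1, fun p hp hd => ?_⟩
      rw [← conj_eq_self (self_le_norm_piCoreOf {p}ᶜ R ha)]
      exact conj_mono _ (hY.2 p hp hd)
    · intro p hp hd
      refine ⟨hp, fun hd' => ?_⟩
      have : E ≤ piCoreOf {p}ᶜ R := sSup_le fun Y hY => hY.2 p hp hd'
      exact (piCoreOf_isPi {p}ᶜ R).of_le this p hp hd rfl
  have hDR : D ≤ R := piCoreOf_le _ _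
  have hDs : Group.IsSolvable D := isSolvable_of_le hR hDR
  have hMD : M ≤ N[D] := le_norm_piCoreOf hMR
  have hcD : (Nat.card D).Coprime (Nat.card M) :=
    (isPiSubgroup_primesNotDvd_iff.1 (piCoreOf_isPi π' R)).coprime_dvd_right (card_dvd_of_le hM)
  have hsyl : ∀ Q ∈ maxInvSubgroups R M {q}, IsPiHallOf {q} Q D := by
    intro Q hQ'
    have h1 := hQ Q (maxInv_le hQ') ((maxInv_isPi hQ').single_mono ⟨hqp, hq⟩) (maxInv_norm hQ')
    obtain ⟨P, hP, hMP, hQP⟩ := coprime_exists_hall_ge hDs hMD hcD h1 (maxInv_isPi hQ')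
      (maxInv_norm hQ')
    exact maxInv_eq hQ' (hP.le.trans hDR) hP.isPi hMP hQP ▸ hP
  obtain ⟨Q, hQm, -⟩ := exists_maxInv (H := R) (A := M) (π := {q}) bot_le isPiSubgroup_bot
    le_norm_of_normal
  refine ⟨Q, ⟨hQm, fun Q' h => ⟨(hsyl Q' h).le, syl_not_dvd hqp (hsyl Q' h)⟩⟩, fun Q' h => ?_⟩
  obtain ⟨c, hc, e⟩ := coprime_hall_conj hDs hMD hcD (hsyl Q hQm) (hsyl Q' h.1) (maxInv_norm hQm)
    (maxInv_norm h.1)
  obtain ⟨p, hp, hd, -⟩ := hother 0
  have h1 : D ⊓ C[M] = ⊥ := hY _ (inf_le_left.trans hDR)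
    ((inf_le_right.trans (cent_anti (hZ p hp hd).1)).trans (hZ p hp hd).2.2.1)
    (piCoreOf_isPi π' R).inf_left (le_norm_inf hMD (le_norm_cent le_normalizer))
  rw [h1, mem_bot] at hc
  rw [e, hc, one_conj]

end Cfsg.Agent.S1481
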