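import Cfsg.Statements.S1485
import Cfsg.Agent.Char.Clifford

set_option autoImplicit false
open Cfsg

namespace Cfsg.Agent.S1485

open Cfsg.Agent.Char
open scoped ComplexConjugate

/-- Let H be a normal subgroup of the finite group G and θ an irreducible character of H. On H, the function induced from θ equals r times the sum of the distinct G-conjugates of θ, where r is the number of elements of G fixing θ under conjugation divided by the order of H (the index of H in the inertia group). -/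
theorem result {G : Type*} [Group G] [Fintype G] (H : Subgroup G) [hN : H.Normal] (θ : H → ℂ) (hθ : Cfsg.IsIrrCharacter H θ) : (fun h : H => Cfsg.indFun H θ h) = ((Nat.card {g : G // ∀ h : H, θ ⟨g * h * g⁻¹, hN.conj_mem h h.2 g⟩ = θ h} : ℂ) / (Nat.card H : ℂ)) • ∑ᶠ ψ ∈ {ψ : H → ℂ | ∃ g : G, ψ = fun h : H => θ ⟨g * h * g⁻¹, hN.conj_mem h h.2 g⟩}, ψ := by
  classical
  have := Fintype.ofFinite H
  let E := NormalEmb.ofNormal H
  have hfin : {ψ : H → ℂ | ∃ g : G, ψ = fun h : H => θ ⟨g * h * g⁻¹, hN.conj_mem h h.2 g⟩} =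
      ↑(Finset.univ.image (E.cj θ)) := by
    ext ψ
    simp only [Set.mem_ofPred_eq, Finset.coe_image, Finset.coe_univ, Set.image_univ, Set.mem_range]
    exact ⟨fun ⟨g, h⟩ => ⟨g, h.symm⟩, fun ⟨g, h⟩ => ⟨g, h.symm⟩⟩
  rw [hfin, finsum_mem_coe_finset, indFun_eq_ind_ofNormal]
  refine (E.res_ind θ).trans ?_
  have hcard : Nat.card {g : G // ∀ h : H, θ ⟨g * h * g⁻¹, hN.conj_mem h h.2 g⟩ = θ h} =
      Nat.card (E.inertia θ) := Nat.card_congr (Equiv.subtypeEquivRight fun g => E.mem_inertia'.symm)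
  rw [hcard, div_eq_inv_mul, mul_smul]
  congr 1
  rw [← Finset.sum_fiberwise_of_maps_to (s := Finset.univ) (t := Finset.univ.image (E.cj θ))
    (g := E.cj θ) (fun x _ => Finset.mem_image_of_mem _ (Finset.mem_univ x)), Finset.smul_sum]
  refine Finset.sum_congr rfl fun ψ hψ => ?_
  obtain ⟨y, -, rfl⟩ := Finset.mem_image.1 hψ
  rw [Finset.sum_congr rfl (g := fun _ => E.cj θ y) (fun x hx => (Finset.mem_filter.1 hx).2),
    Finset.sum_const, ← E.card_cj_eq θ y, Nat.cast_smul_eq_nsmul, Nat.card_eq_fintype_card,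
    Fintype.card_subtype]

end Cfsg.Agent.S1485
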