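import Cfsg.Statements.S1488
import Cfsg.Agent.Char.Clifford

set_option autoImplicit false
open Cfsg

namespace Cfsg.Agent.S1488

open Cfsg.Agent.Char
open scoped ComplexConjugate

/-- Let A be a normal subgroup of the finite group G contained in the subgroup H, let θ be a function on H and θ₁ a function on the image of H in G ⧸ A whose composite with the projection is θ. Then the function induced from θ₁ to G ⧸ A, composed with the projection G → G ⧸ A, equals the function induced from θ to G. -/
theorem result {G : Type*} [Group G] [Fintype G] (A H : Subgroup G) [A.Normal] (hAH : A ≤ H) [Fintype (G ⧸ A)] [Fintype ↥(H.map (QuotientGroup.mk' A))] (θ : H → ℂ) (θ₁ : ↥(H.map (QuotientGroup.mk' A)) → ℂ) (hθ : ∀ x : H, θ₁ ⟨QuotientGroup.mk' A x, Subgroup.mem_map_of_mem _ x.2⟩ = θ x) (g : G) : Cfsg.indFun (H.map (QuotientGroup.mk' A)) θ₁ (QuotientGroup.mk' A g) = Cfsg.indFun H θ g := by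
  classical
  have key : ∀ y : G, extendByZero (H.map (QuotientGroup.mk' A)) θ₁ (QuotientGroup.mk' A y) =
      extendByZero H θ y := by
    intro y
    by_cases hy : y ∈ H
    · rw [extendByZero_of_mem _ _ (Subgroup.mem_map_of_mem _ hy), extendByZero_of_mem _ _ hy]
      exact hθ ⟨y, hy⟩
    · rw [extendByZero_of_not_mem _ _ hy, extendByZero_of_not_mem]
      rintro ⟨z, hz, e⟩
      apply hy
      have h1 : z⁻¹ * y ∈ A := QuotientGroup.eq.1 e
      simpa using H.mul_mem hz (hAH h1)
  have h1 := sum_comp_surjective (QuotientGroup.mk' A) (QuotientGroup.mk'_surjective A)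
    (fun q => extendByZero (H.map (QuotientGroup.mk' A)) θ₁ (q⁻¹ * QuotientGroup.mk' A g * q))
  simp only [← map_inv, ← map_mul, key, QuotientGroup.ker_mk'] at h1
  have h2 : Nat.card H = Nat.card A * Nat.card (H.map (QuotientGroup.mk' A)) := by
    rw [card_eq_card_ker_mul ((QuotientGroup.mk' A).subgroupMap H)
      ((QuotientGroup.mk' A).subgroupMap_surjective H)]
    congr 1
    have : ((QuotientGroup.mk' A).subgroupMap H).ker = A.subgroupOf H := by
      ext x
      simp [MonoidHom.mem_ker, Subtype.ext_iff, Subgroup.mem_subgroupOf]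
    rw [this]
    exact Nat.card_congr (Subgroup.subgroupOfEquivOfLe hAH).toEquiv
  simp only [indFun]
  rw [h1, h2]
  have := card_ne_zero_complex A
  have := card_ne_zero_complex (H.map (QuotientGroup.mk' A))
  push_cast
  field_simp

end Cfsg.Agent.S1488
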