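import Cfsg.Statements.S1489
import Cfsg.Agent.Char.Clifford

set_option autoImplicit false
open Cfsg

namespace Cfsg.Agent.S1489

open Cfsg.Agent.Char
open scoped ComplexConjugate

/-- Let H be a normal subgroup of the finite group G, θ an irreducible character of H, and T the inertia group of θ (the elements g with θ(g h g⁻¹) = θ(h) for all h ∈ H). If ψ and ψ' are irreducible characters of T having nonzero inner product with the function induced from θ to T, then the function induced from ψ to G is an irreducible character of G, and it equals the one induced from ψ' only if ψ = ψ'. -/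
theorem result {G : Type*} [Group G] [Fintype G] (H T : Subgroup G) [hN : H.Normal] [Fintype T] (θ : H → ℂ) (hθ : Cfsg.IsIrrCharacter H θ) (hT : ∀ g : G, g ∈ T ↔ ∀ h : H, θ ⟨g * h * g⁻¹, hN.conj_mem h h.2 g⟩ = θ h) (hHT : H ≤ T) (ψ ψ' : T → ℂ) (hψ : Cfsg.IsIrrCharacter T ψ) (hψ' : Cfsg.IsIrrCharacter T ψ') (hc : Cfsg.classInner (Cfsg.indFun (H.subgroupOf T) (fun x => θ ⟨(x : T), Subgroup.mem_subgroupOf.mp x.2⟩)) ψ ≠ 0) (hc' : Cfsg.classInner (Cfsg.indFun (H.subgroupOf T) (fun x => θ ⟨(x : T), Subgroup.mem_subgroupOf.mp x.2⟩)) ψ' ≠ 0) : Cfsg.IsIrrCharacter G (Cfsg.indFun T ψ) ∧ (Cfsg.indFun T ψ = Cfsg.indFun T ψ' → ψ = ψ') := by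
  have := Fintype.ofFinite H
  have hT' : T = (NormalEmb.ofNormal H).inertia θ := by
    ext g; rw [hT, NormalEmb.mem_inertia']; rfl
  rw [indFun_subgroupOf H hHT, ci_ind_left _ _ hψ.isClassFunction] at hc
  rw [indFun_subgroupOf H hHT, ci_ind_left _ _ hψ'.isClassFunction] at hc'
  have h1 := mt ci_eq_zero_symm hc
  have h2 := mt ci_eq_zero_symm hc'
  exact ⟨(clifford_correspondence H hθ T hT' hHT hψ h1).1,
    clifford_correspondence_inj H hθ T hT' hHT hψ hψ' h1 h2⟩

end Cfsg.Agent.S1489
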