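import Cfsg.Statements.S1490
import Cfsg.Agent.Char.Clifford

set_option autoImplicit false
open Cfsg

namespace Cfsg.Agent.S1490

open Cfsg.Agent.Char
open scoped ComplexConjugate

/-- Let H be a normal subgroup of the finite group G, θ an irreducible character of H with inertia group T, and suppose the commutator of any two elements of T lies in H (T/H abelian). Then there are a positive integer e and a finite set C of irreducible characters of G with e ^ 2 * |C| * |H| = |T|, such that the function induced from θ is e times the sum of the members of C and every member of C has degree [G:T] * e * θ(1). -/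
theorem result {G : Type*} [Group G] [Fintype G] (H T : Subgroup G) [hN : H.Normal] (θ : H → ℂ) (hθ : Cfsg.IsIrrCharacter H θ) (hT : ∀ g : G, g ∈ T ↔ ∀ h : H, θ ⟨g * h * g⁻¹, hN.conj_mem h h.2 g⟩ = θ h) (hab : ∀ x ∈ T, ∀ y ∈ T, x * y * x⁻¹ * y⁻¹ ∈ H) : ∃ (e : ℕ) (C : Finset (G → ℂ)), 0 < e ∧ (∀ χ ∈ C, Cfsg.IsIrrCharacter G χ) ∧ e ^ 2 * C.card * Nat.card H = Nat.card T ∧ Cfsg.indFun H θ = (e : ℂ) • ∑ χ ∈ C, χ ∧ ∀ χ ∈ C, χ 1 = (T.index : ℂ) * e * θ 1 := by
  classical
  have := Fintype.ofFinite H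
  have := Fintype.ofFinite T
  have hT' : T = (NormalEmb.ofNormal H).inertia θ := by
    ext g; rw [hT, NormalEmb.mem_inertia']; rfl
  have hHT : H ≤ T := by
    rw [hT']
    exact (ofNormal_range H).ge.trans ((NormalEmb.ofNormal H).range_le_inertia hθ.isClassFunction)
  let E := NormalEmb.ofLe H T hHT
  obtain ⟨e, C, he, hC, hres, hind, hcard⟩ := E.ind_eq_of_abelian hθ (fun t => hT'.le t.2)
    (fun x y => ⟨⟨_, hab x x.2 y y.2⟩, rfl⟩)
  have hinj : Set.InjOn (indFun T) (C : Set (T → ℂ)) := fun ψ hψ ψ' hψ' h =>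
    clifford_correspondence_inj H hθ T hT' hHT ((hC ψ).1 hψ).1 ((hC ψ').1 hψ').1 ((hC ψ).1 hψ).2
      ((hC ψ').1 hψ').2 h
  refine ⟨e, C.image (indFun T), he, ?_, ?_, ?_, ?_⟩
  · intro χ hχ
    obtain ⟨ψ, hψ, rfl⟩ := Finset.mem_image.1 hχ
    exact (clifford_correspondence H hθ T hT' hHT ((hC ψ).1 hψ).1 ((hC ψ).1 hψ).2).1
  · rw [Finset.card_image_of_injOn hinj, hcard]
  · rw [Finset.sum_image hinj, ← indFun_sum, ← indFun_smul, ← hind, ← indFun_ind_inclusion H hHT]
    rfl
  · intro χ hχ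
    obtain ⟨ψ, hψ, rfl⟩ := Finset.mem_image.1 hχ
    have := congrFun (hres ψ hψ) 1
    simp only [map_one, Pi.smul_apply, smul_eq_mul] at this
    rw [indFun_apply_one, this, mul_assoc]

end Cfsg.Agent.S1490
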