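import Cfsg.Statements.S1492
import Cfsg.Agent.Char.Clifford

set_option autoImplicit false
open Cfsg

namespace Cfsg.Agent.S1492

open Cfsg.Agent.Char
open scoped ComplexConjugate

/-- Let ψ be an irreducible character of the finite group G and B ≤ D ≤ C subgroups with B normal in C, every commutator of an element of D with an element of C lying in B (so D/B is central in C/B), and ψ constant equal to ψ 1 on B. Then ψ(1) ^ 2 * |C| * |D| ≤ |G| ^ 2. -/
theorem result {G : Type*} [Group G] [Finite G] (ψ : G → ℂ) (hψ : Cfsg.IsIrrCharacter G ψ) (B C D : Subgroup G) (hBD : B ≤ D) (hDC : D ≤ C) (hBn : ∀ c ∈ C, ∀ b ∈ B, c * b * c⁻¹ ∈ B) (hcent : ∀ d ∈ D, ∀ c ∈ C, d * c * d⁻¹ * c⁻¹ ∈ B) (hker : ∀ b ∈ B, ψ b = ψ 1) : ‖ψ 1‖ ^ 2 * (Nat.card C : ℝ) * (Nat.card D : ℝ) ≤ (Nat.card G : ℝ) ^ 2 := by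
  have := Fintype.ofFinite G
  have := Fintype.ofFinite C
  obtain ⟨χ, hχ, h1⟩ := (hψ.isCharacter.restrict C).exists_irr_ci_ne_zero (fun h => by
    have := congrFun h 1
    exact hψ.apply_one_ne_zero this)
  have h2 := hχ.degree_sq_mul_card_le (D.subgroupOf C) (fun d hd c => by
    refine (hψ.isCharacter.restrict C).apply_eq_of_ci_ne_zero hχ h1 ?_
    exact hker _ (hcent d hd c c.2))
  rw [Nat.card_congr (Subgroup.subgroupOfEquivOfLe hDC).toEquiv] at h2
  have h3 := hχ.isCharacter.indFun.degree_le_of_ci_ne_zero hψ (by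
    rw [ci_indFun_left C _ hψ.isClassFunction]; exact mt ci_eq_zero_symm h1)
  rw [indFun_apply_one] at h3
  obtain ⟨n, hn, hn'⟩ := hψ.exists_degree
  obtain ⟨m, hm, hm'⟩ := hχ.exists_degree
  rw [hm'] at h2
  rw [hn', hm'] at h3
  rw [hn', ← C.card_mul_index]
  simp only [Complex.natCast_re, Complex.mul_re, Complex.natCast_im, mul_zero, sub_zero,
    Complex.norm_natCast, Nat.cast_mul] at h2 h3 ⊢
  have h4 : (n : ℝ) ^ 2 ≤ (C.index * m) ^ 2 := by gcongr
  generalize (Nat.card C : ℝ) = c at *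
  have hD : (0 : ℝ) ≤ Nat.card D := by positivity
  generalize (Nat.card D : ℝ) = d at *
  generalize (C.index : ℝ) = i at *
  have hc : 0 ≤ c := le_trans (by positivity) h2
  calc (n : ℝ) ^ 2 * c * d ≤ (i * m) ^ 2 * c * d := by gcongr
    _ = i ^ 2 * c * (m ^ 2 * d) := by ring
    _ ≤ i ^ 2 * c * c := by gcongr
    _ = _ := by ring

end Cfsg.Agent.S1492
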