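import Cfsg.Statements.S1497
import Cfsg.Agent.PF.Dade

set_option autoImplicit false
open Cfsg

namespace Cfsg.Agent.S1497

open Cfsg.Agent.Char Cfsg.Agent.PF
open scoped ComplexConjugate

/-- Let A be a nonempty subset of the finite group G not containing 1 and L a subgroup. Then A is a TI-subset whose normaliser is L if and only if the Dade hypothesis holds for A, L and the constant choice H(a) = ⊥. -/
theorem result {G : Type*} [Group G] [Finite G] (A : Set G) (hA : A.Nonempty) (h1 : (1 : G) ∉ A) (L : Subgroup G) : (Cfsg.IsTISubset A ∧ Subgroup.normalizer A = L) ↔ Cfsg.DadeHypothesis A L (fun _ => ⊥) := by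
  constructor
  · rintro ⟨hTI, rfl⟩
    have key : ∀ a ∈ A, ∀ g, g * a * g⁻¹ ∈ A → g ∈ Subgroup.normalizer A := by
      intro a ha g hg
      by_contra hn
      exact h1 (hTI g hn a ha hg ▸ ha)
    refine dadeHypothesis_of_TI h1 (fun a ha => key a ha a (by simpa using ha)) ?_ key
    intro x hx a ha
    exact (Subgroup.mem_set_normalizer_iff.1 hx a).1 ha
  · intro hD
    have hN : Subgroup.normalizer A = L := by
      refine le_antisymm (fun g hg => ?_) (fun x hx => ?_)
      · obtain ⟨a, ha⟩ := hA
        exact hD.mem_L_of_bot ha rfl ((Subgroup.mem_set_normalizer_iff.1 hg a).1 ha)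
      · exact Subgroup.mem_set_normalizer_iff.2 (fun a => (hD.conj_mem_iff hx).symm)
    refine ⟨fun g hg x hx hx' => ?_, hN⟩
    exact absurd (hN ▸ hD.mem_L_of_bot hx rfl hx') hg

end Cfsg.Agent.S1497
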