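import Cfsg.Statements.S1499
import Cfsg.Agent.PF.Dade

set_option autoImplicit false
open Cfsg

namespace Cfsg.Agent.S1499

open Cfsg.Agent.Char Cfsg.Agent.PF
open scoped ComplexConjugate

/-- Under the Dade hypothesis for (A, L, H), let a, b ∈ A. If an element of the coset a·H(a) is conjugate in G to an element of b·H(b), then a and b are conjugate by an element of L. Moreover the set normaliser of the coset a·H(a) is the centraliser of a. -/
theorem result {G : Type*} [Group G] [Finite G] (A : Set G) (L : Subgroup G) (H : G → Subgroup G) (hD : Cfsg.DadeHypothesis A L H) (a b : G) (ha : a ∈ A) (hb : b ∈ A) : ((∃ u ∈ H a, ∃ v ∈ H b, ∃ g : G, g * (a * u) * g⁻¹ = b * v) → ∃ x ∈ L, x * a * x⁻¹ = b) ∧ Subgroup.normalizer ((fun u : G => a * u) '' (H a : Set G)) = Subgroup.centralizer ({a} : Set G) := by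
  refine ⟨fun ⟨u, hu, v, hv, g, hg⟩ => hD.exists_conj ha hb hu hv hg, ?_⟩
  have key : ∀ g ∈ Subgroup.centralizer ({a} : Set G), ∀ y ∈ (fun u : G => a * u) '' (H a : Set G),
      g * y * g⁻¹ ∈ (fun u : G => a * u) '' (H a : Set G) := by
    rintro g hg _ ⟨u, hu, rfl⟩
    refine ⟨g * u * g⁻¹, hD.conj_mem_H a ha g hg u hu, ?_⟩
    change a * (g * u * g⁻¹) = g * (a * u) * g⁻¹
    rw [← mul_assoc, ← mul_assoc, ← GT.mem_cent1.1 hg]; group
  refine le_antisymm (fun g hg => ?_) (fun g hg => ?_)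
  · obtain ⟨v, hv, e⟩ := (Subgroup.mem_set_normalizer_iff.1 hg (a * 1)).1 ⟨1, one_mem _, rfl⟩
    have := hD.conj_eq ha ha (one_mem _) hv e.symm
    rw [GT.mem_cent1]
    exact mul_inv_eq_iff_eq_mul.1 this
  · refine Subgroup.mem_set_normalizer_iff.2 (fun y => ⟨key g hg y, fun h => ?_⟩)
    have := key g⁻¹ (inv_mem hg) _ h
    simpa [mul_assoc] using this

end Cfsg.Agent.S1499
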