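import Cfsg.Statements.S1501
import Cfsg.Agent.PF.DadeVirt

set_option autoImplicit false
open Cfsg

namespace Cfsg.Agent.S1501

open Cfsg.Agent.Char Cfsg.Agent.PF
open scoped ComplexConjugate

/-- Under the Dade hypothesis for (A, L, H): if α is a generalized character of L vanishing outside A, then its image under the Dade map is a generalized character of G. -/
theorem result {G : Type*} [Group G] [Fintype G] (A : Set G) (L : Subgroup G) [Fintype L] (H : G → Subgroup G) (hD : Cfsg.DadeHypothesis A L H) (α : L → ℂ) (hα : Cfsg.IsGeneralizedCharacter L α) (hαA : ∀ x : L, (x : G) ∉ A → α x = 0) : Cfsg.IsGeneralizedCharacter G (Cfsg.dadeIsometry A L H α) := by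
  exact hD.virt_dade hα hαA

end Cfsg.Agent.S1501
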