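import Cfsg.Statements.S1504
import Cfsg.Agent.PF.CycFam

set_option autoImplicit false
open Cfsg

namespace Cfsg.Agent.S1504

open Cfsg.Agent.Char Cfsg.Agent.PF
open scoped ComplexConjugate

/-- Let W₁, W₂ be subgroups of a finite group with W₁ ⊓ W₂ = ⊥ whose elements commute, and W = W₁ ⊔ W₂. For linear characters φ, ψ of W with φ trivial on W₂ and ψ trivial on W₁, the function (1 − φ)(1 − ψ) vanishes on W₁ ∪ W₂; and the family of these functions, indexed by pairs (φ, ψ) with φ ≠ 1 ≠ ψ, is linearly independent over ℂ. -/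
theorem result {G : Type*} [Group G] [Finite G] (W₁ W₂ : Subgroup G) (hdisj : W₁ ⊓ W₂ = ⊥) (hcomm : ∀ a ∈ W₁, ∀ b ∈ W₂, a * b = b * a) : (∀ φ ψ : ↥(W₁ ⊔ W₂) →* ℂˣ, (∀ w : ↥(W₁ ⊔ W₂), (w : G) ∈ W₂ → φ w = 1) → (∀ w : ↥(W₁ ⊔ W₂), (w : G) ∈ W₁ → ψ w = 1) → ∀ w : ↥(W₁ ⊔ W₂), ((w : G) ∈ W₁ ∨ (w : G) ∈ W₂) → (1 - (φ w : ℂ) - (ψ w : ℂ) + (φ w : ℂ) * (ψ w : ℂ)) = 0) ∧ LinearIndependent ℂ (fun p : {p : (↥(W₁ ⊔ W₂) →* ℂˣ) × (↥(W₁ ⊔ W₂) →* ℂˣ) // p.1 ≠ 1 ∧ p.2 ≠ 1 ∧ (∀ w : ↥(W₁ ⊔ W₂), (w : G) ∈ W₂ → p.1 w = 1) ∧ (∀ w : ↥(W₁ ⊔ W₂), (w : G) ∈ W₁ → p.2 w = 1)} => fun w : ↥(W₁ ⊔ W₂) => 1 - (p.1.1 w : ℂ) - (p.1.2 w : ℂ) + (p.1.1 w : ℂ) * (p.1.2 w : ℂ)) := by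
  classical
  have := Fintype.ofFinite ↥(W₁ ⊔ W₂)
  have hsup : W₁.subgroupOf (W₁ ⊔ W₂) ⊔ W₂.subgroupOf (W₁ ⊔ W₂) = ⊤ := by
    rw [← Subgroup.subgroupOf_sup le_sup_left le_sup_right, Subgroup.subgroupOf_self]
  refine ⟨fun φ ψ hφ hψ w hw => cAlpha_eq_zero (W₁ := W₁.subgroupOf (W₁ ⊔ W₂))
    (W₂ := W₂.subgroupOf (W₁ ⊔ W₂)) hφ hψ (fun h => hw.elim h.1 h.2), ?_⟩
  refine linearIndependent_iff'.2 (fun s g h p hp => ?_)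
  have := congrArg (fun α => ⟪α, lc (p.1.1 * p.1.2)⟫) h
  simp only [ci_sum_left, ci_smul_left, ci_zero_left] at this
  rw [Finset.sum_eq_single p] at this
  · have e := ci_cAlpha_lc hsup p.2.2.2.1 p.2.2.2.2 p.2.2.2.1 p.2.2.2.2
    rw [if_neg p.2.1.symm, if_neg p.2.2.1.symm, if_pos rfl, if_pos rfl] at e
    erw [e] at this
    simpa using this
  · intro q _ hq
    have e := ci_cAlpha_lc hsup q.2.2.2.1 q.2.2.2.2 p.2.2.2.1 p.2.2.2.2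
    rw [if_neg p.2.1.symm, if_neg p.2.2.1.symm] at e
    erw [e]
    by_cases h1 : q.1.1 = p.1.1
    · rw [if_neg (fun h2 : q.1.2 = p.1.2 => hq (Subtype.ext (Prod.ext h1 h2)))]; simp
    · rw [if_neg h1]; simp
  · intro h; exact absurd hp h

end Cfsg.Agent.S1504
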