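import Cfsg.Statements.S1507
import Cfsg.Agent.PF.CycFam

set_option autoImplicit false
open Cfsg

namespace Cfsg.Agent.S1507

open Cfsg.Agent.Char Cfsg.Agent.PF
open scoped ComplexConjugate

open Classical in
/-- Let W₁, W₂ ≤ G form a self-normalising cyclic subgroup W = W₁ ⊔ W₂ of odd order with Nat.card W₁ < Nat.card W₂, and χ an orthonormal family of irreducible characters of G up to sign, indexed by the linear characters ω of W, with χ_1 = 1, χ_ω = ω on W outside W₁ ∪ W₂, and the induction identity for (1 − φ)(1 − ψ). Let θ be a class function of G vanishing on W outside W₁ ∪ W₂, and suppose fewer than 2 · Nat.card W₁ linear characters ω of W have ⟨θ, χ ω⟩ ≠ 0. Then one of: all ⟨θ, χ ω⟩ vanish; or there are ψ₀ and a with ⟨θ, χ ω⟩ = a when ω ψ₀⁻¹ is trivial on W₂ and 0 otherwise; or there are φ₀ and a with ⟨θ, χ ω⟩ = a when ω φ₀⁻¹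 is trivial on W₁ and 0 otherwise. -/
theorem result {G : Type*} [Group G] [Fintype G] (W₁ W₂ : Subgroup G) (hW : Cfsg.IsSelfNormalizingCyclic W₁ W₂) (hodd : Odd (Nat.card ↥(W₁ ⊔ W₂))) (χ : (↥(W₁ ⊔ W₂) →* ℂˣ) → (G → ℂ)) (hχ : Cfsg.IsCyclicTIFamily W₁ W₂ χ) (hlt : Nat.card W₁ < Nat.card W₂) (θ : G → ℂ) (hθ : Cfsg.IsClassFunction G θ) (hθV : ∀ w : ↥(W₁ ⊔ W₂), (w : G) ∉ W₁ → (w : G) ∉ W₂ → θ w = 0) (hfew : Nat.card {ω : ↥(W₁ ⊔ W₂) →* ℂˣ // Cfsg.classInner θ (χ ω) ≠ 0} < 2 * Nat.card W₁) : (∀ ω, Cfsg.classInner θ (χ ω) = 0) ∨ (∃ (ψ₀ : ↥(W₁ ⊔ W₂) →* ℂˣ) (a : ℂ), ∀ ω, Cfsg.classInner θ (χ ω) = if (∀ w : ↥(W₁ ⊔ W₂), (w : G) ∈ W₂ → (ω * ψ₀⁻¹) w = 1) then a else 0) ∨ (∃ (φ₀ : ↥(W₁ ⊔ W₂) →* ℂˣ) (a : ℂ), ∀ ω, Cfsg.classInner θ (χ ω) = if (∀ w : ↥(W₁ ⊔ W₂), (w : G) ∈ W₁ → (ω * φ₀⁻¹) w = 1) then a else 0) := by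
  have hW' := cycDp_of_isSelfNormalizingCyclic hW
  rcases (cycFam_of_isCyclicTIFamily hχ).small_support hW' hodd
    (by rwa [GT.card_subgroupOf le_sup_left, GT.card_subgroupOf le_sup_right]) hθ hθV
    (by rwa [GT.card_subgroupOf le_sup_left]) with h | ⟨ψ₀, h₀, c, h⟩ | ⟨φ₀, h₀, c, h⟩
  · exact Or.inl h
  · refine Or.inr (Or.inl ⟨ψ₀, c, fun ω => ?_⟩)
    obtain ⟨φ, hφ, ψ, hψ, rfl⟩ := hW'.exists_Ann_mul ω
    rw [h φ hφ ψ hψ]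
    refine if_congr ⟨?_, fun h' => ?_⟩ rfl rfl
    · rintro rfl; rw [lmul_inv_cancel_right]; exact hφ
    · exact ((mul_eq_mul_iff_Ann hW'.sup hφ h' hψ h₀).1 (linv_mul_cancel_right _ _).symm).2
  · refine Or.inr (Or.inr ⟨φ₀, c, fun ω => ?_⟩)
    obtain ⟨φ, hφ, ψ, hψ, rfl⟩ := hW'.exists_Ann_mul ω
    rw [h φ hφ ψ hψ]
    refine if_congr ⟨?_, fun h' => ?_⟩ rfl rfl
    · rintro rfl; rw [lmul_comm φ, lmul_inv_cancel_right]; exact hψ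
    · exact ((mul_eq_mul_iff_Ann hW'.sup hφ h₀ hψ h').1
        (by rw [lmul_comm φ₀, linv_mul_cancel_right])).1

end Cfsg.Agent.S1507
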