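import Cfsg.Statements.S1510
import Cfsg.Agent.PF.S04Top

set_option autoImplicit false
open Cfsg

namespace Cfsg.Agent.S1510

open Cfsg.Agent.Char Cfsg.Agent.PF
open scoped ComplexConjugate

/-- Let L be a finite group with a normal subgroup K and a nontrivial cyclic subgroup W₁ of order coprime to its index, K ⊓ W₁ = ⊥ and K ⊔ W₁ = ⊤; let W₂ ≠ ⊥ be a cyclic subgroup of K with K ⊓ C_L(x) = W₂ for every non-identity x ∈ W₁, and suppose W₁ ⊔ W₂ has odd order. Then (W₁, W₂) is a self-normalising cyclic pair in L. -/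
theorem result {L : Type*} [Group L] [Fintype L] (K W₁ W₂ : Subgroup L) [hK : K.Normal] (hKW₁ : K ⊓ W₁ = ⊥) (hKW₁' : K ⊔ W₁ = ⊤) (hW₁ : W₁ ≠ ⊥) (hW₁c : IsCyclic W₁) (hHall : Nat.Coprime (Nat.card W₁) W₁.index) (hW₂ : W₂ ≠ ⊥) (hW₂c : IsCyclic W₂) (hW₂K : W₂ ≤ K) (hC : ∀ x ∈ W₁, x ≠ 1 → K ⊓ Subgroup.centralizer ({x} : Set L) = W₂) (hodd : Odd (Nat.card ↥(W₁ ⊔ W₂))) : Cfsg.IsSelfNormalizingCyclic W₁ W₂ := by
  have h := primeTI_top hKW₁ hKW₁' hW₁ hW₁c hHall hW₂ hW₂c hW₂K hC hodd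
  refine ⟨hW₁, hW₂, h.dprod.inf_eq, fun a ha b hb => (h.dprod.cent ha b hb).symm,
    (isCyclic_prod_iff_sup h.dprod.cent h.dprod.inf_eq).1 h.cyc, fun X hX ⟨x, hx⟩ => ?_⟩
  refine le_antisymm (fun g hg => h.mem_of_conj_mem (hX hx).1 (fun h2 => (hX hx).2 (Or.inr h2))
    trivial (hX ((Subgroup.mem_set_normalizer_iff.1 hg x).1 hx)).1) fun g hg => ?_
  have hc := GT.isMulCommutative_iff_forall.1 (h.dprod.comm h.comm₁ h.comm₂)
  refine GT.mem_set_normalizer_iff_of_forall (fun a ha => ?_) (fun a ha => ?_)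
  · rwa [hc g hg a (hX ha).1, mul_inv_cancel_right]
  · rwa [hc _ (inv_mem hg) a (hX ha).1, mul_inv_cancel_right]

end Cfsg.Agent.S1510
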