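import Cfsg.Statements.S1511
import Cfsg.Agent.PF.S04Top

set_option autoImplicit false
open Cfsg

namespace Cfsg.Agent.S1511

open Cfsg.Agent.Char Cfsg.Agent.PF
open scoped ComplexConjugate

/-- Let L be a finite group with K normal with complement W₁ ≠ 1 a cyclic Hall subgroup, and W₂ ≠ 1 a cyclic subgroup of K equal to C_K(x) for every non-identity x ∈ W₁, with W₁W₂ of odd order. Then there are a map μ from the linear characters of W = W₁ ⊔ W₂ to irreducible characters of L, injective, and a sign δ(ω) ∈ {1, −1} depending only on the values of ω on W₂, such that: for ω, ω' agreeing on W₂, the function induced to L from ω − ω' equals δ(ω) • (μ ω − μ ω'); μ ω x = δ(ω) ω x for x ∈ W outside W₂; every irreducible character of L not of the form μ ω vanishes on W outside W₂; and μ ω 1 − δ(ω) is an integer multiple of Nat.card W₁. -/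
theorem result {L : Type*} [Group L] [Fintype L] (K W₁ W₂ : Subgroup L) [hK : K.Normal] (hKW₁ : K ⊓ W₁ = ⊥) (hKW₁' : K ⊔ W₁ = ⊤) (hW₁ : W₁ ≠ ⊥) (hW₁c : IsCyclic W₁) (hHall : Nat.Coprime (Nat.card W₁) W₁.index) (hW₂ : W₂ ≠ ⊥) (hW₂c : IsCyclic W₂) (hW₂K : W₂ ≤ K) (hC : ∀ x ∈ W₁, x ≠ 1 → K ⊓ Subgroup.centralizer ({x} : Set L) = W₂) (hodd : Odd (Nat.card ↥(W₁ ⊔ W₂))) : ∃ (μ : (↥(W₁ ⊔ W₂) →* ℂˣ) → (L → ℂ)) (δ : (↥(W₁ ⊔ W₂) →* ℂˣ) → ℂ), Function.Injective μ ∧ (∀ ω, Cfsg.IsIrrCharacter L (μ ω)) ∧ (∀ ω, δ ω = 1 ∨ δ ω = -1) ∧ (∀ ω ω' : ↥(W₁ ⊔ W₂) →* ℂˣ, (∀ w : ↥(W₁ ⊔ W₂), (w : L) ∈ W₂ → ω w = ω' w) → δ ω = δ ω' ∧ Cfsg.indFun (W₁ ⊔ W₂) (fun w => (ω w : ℂ) - (ω' w : ℂ)) = δ ω • (μ ω - μ ω')) ∧ (∀ ω, ∀ w : ↥(W₁ ⊔ W₂), (w : L) ∉ W₂ → μ ω w = δ ω * (ω w : ℂ)) ∧ (∀ θ : L → ℂ, Cfsg.IsIrrCharacter L θ → (∀ ω, θ ≠ μ ω) → ∀ w : ↥(W₁ ⊔ W₂), (w : L) ∉ W₂ → θ w = 0) ∧ (∀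 ω, ∃ n : ℤ, μ ω 1 - δ ω = n * (Nat.card W₁ : ℂ)) := by
  have h := primeTI_top hKW₁ hKW₁' hW₁ hW₁c hHall hW₂ hW₂c hW₂K hC hodd
  let I : (↥(W₁ ⊔ W₂) →* ℂˣ) → Lin W₁ := fun ω => ω.comp (Subgroup.inclusion le_sup_left)
  let J : (↥(W₁ ⊔ W₂) →* ℂˣ) → Lin W₂ := fun ω => ω.comp (Subgroup.inclusion le_sup_right)
  have hmul : ∀ (ω : ↥(W₁ ⊔ W₂) →* ℂˣ) (a : W₁) (b : W₂),
      ω (wL (W₁ ⊔ W₂) W₁ W₂ (a, b)) = I ω a * J ω b := fun ω a b => by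
    rw [show wL (W₁ ⊔ W₂) W₁ W₂ (a, b) = Subgroup.inclusion le_sup_left a *
      Subgroup.inclusion le_sup_right b from Subtype.ext (by
        rw [coe_wL le_sup_left le_sup_right, wG_apply h.dprod.cent]; rfl), map_mul]; rfl
  have hdec : ∀ w : ↥(W₁ ⊔ W₂), ∃ a b, w = wL (W₁ ⊔ W₂) W₁ W₂ (a, b) ∧
      (⟨w, trivial⟩ : (⊤ : Subgroup L)) = wL ⊤ W₁ W₂ (a, b) ∧ ((w : L) ∉ W₂ → a ≠ 1) := fun w => by
    obtain ⟨a, ha, b, hb, e⟩ := h.dprod.exists_mul w.2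
    refine ⟨⟨a, ha⟩, ⟨b, hb⟩, Subtype.ext ?_, Subtype.ext ?_, fun hw h1 => hw ?_⟩
    · rw [coe_wL le_sup_left le_sup_right, wG_apply h.dprod.cent, e]
    · rw [h.coe_wL_apply]; exact e
    · rw [e, show a = 1 from congrArg Subtype.val h1, one_mul]; exact hb
  have hsurj : ∀ i j, ∃ ω, I ω = i ∧ J ω = j := by
    have hb : Function.Bijective (wL (W₁ ⊔ W₂) W₁ W₂) :=
      ⟨fun v w hvw => wG_injective h.dprod.cent h.dprod.inf_eq (by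
        rw [← coe_wL le_sup_left le_sup_right, hvw, coe_wL le_sup_left le_sup_right]),
        fun x => let ⟨a, b, e, _⟩ := hdec x; ⟨_, e.symm⟩⟩
    intro i j
    let ω := (cop i j).comp (MulEquiv.ofBijective _ hb).symm.toMonoidHom
    have hω : ∀ a b, I ω a * J ω b = i a * j b := fun a b => by
      rw [← hmul]
      exact congrArg (cop i j) ((MulEquiv.ofBijective _ hb).symm_apply_apply (a, b))
    exact ⟨ω, MonoidHom.ext fun a => by simpa using hω a 1, MonoidHom.ext fun b => by simpa using hω 1 b⟩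
  refine ⟨fun ω g => mu2 ⊤ W₁ W₂ (I ω) (J ω) ⟨g, trivial⟩, fun ω => dl ⊤ W₁ W₂ (J ω), ?_,
    fun ω => isIrr_of_top (h.mu2_irr _ _), fun ω => dl_sign _ _ _ _, fun ω ω' hω => ?_,
    fun ω w hw => ?_, fun θ hθ hne w hw => ?_, fun ω => ?_⟩
  · intro ω ω' e
    obtain ⟨e1, e2⟩ := h.mu2_inj (i := I ω) (j := J ω) (i' := I ω') (j' := J ω')
      (funext fun g => congrFun e g)
    refine MonoidHom.ext fun w => ?_
    obtain ⟨a, b, rfl, -⟩ := hdec w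
    rw [hmul, hmul, e1, e2]
  · have hJ : J ω' = J ω := MonoidHom.ext fun b => (hω _ b.2).symm
    simp only [hJ, true_and]
    rw [← ind_wG_eq_indFun h.dprod, ← subtype_comp_wL (L := ⊤) le_top le_top, ← ind_comp,
      ← indFun_eq_ind, indFun_top (isClassFunction_ind _ _),
      show (fun w => ((ω (wL (W₁ ⊔ W₂) W₁ W₂ w) : ℂ) - (ω' (wL (W₁ ⊔ W₂) W₁ W₂ w) : ℂ))) =
        (om (I ω) (J ω) - om 1 (J ω)) - (om (I ω') (J ω) - om 1 (J ω)) from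
        funext fun ⟨a, b⟩ => by simp [hmul, hJ, om], ind_sub, h.ind_sub, h.ind_sub]
    funext g; simp only [Pi.sub_apply, Pi.smul_apply, smul_eq_mul]; ring
  · obtain ⟨a, b, e1, e2, ha⟩ := hdec w
    simp only []
    rw [e2, h.mu2_apply _ _ b (ha hw), e1, hmul, Units.val_mul]
  · obtain ⟨a, b, e1, e2, ha⟩ := hdec w
    have := h.not_mu2_vanish (isIrr_to_top hθ) (fun i j e => by
      obtain ⟨ω, rfl, rfl⟩ := hsurj i j
      exact hne ω (funext fun g => congrFun e ⟨g, trivial⟩)) b (ha hw)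
    rw [← e2] at this; exact this
  · obtain ⟨n, hn⟩ := h.mu2_one_mod (I ω) (J ω)
    exact ⟨n, by rw [sub_eq_iff_eq_add', ← hn]; rfl⟩

end Cfsg.Agent.S1511
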