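import Cfsg.Statements.S1513
import Cfsg.Agent.PF.S04Top

set_option autoImplicit false
open Cfsg

namespace Cfsg.Agent.S1513

open Cfsg.Agent.Char Cfsg.Agent.PF
open scoped ComplexConjugate

/-- Let L be a finite group with K normal with complement W₁ ≠ 1 a cyclic Hall subgroup, and W₂ ≠ 1 a cyclic subgroup of K equal to C_K(x) for every non-identity x ∈ W₁, with W₁W₂ of odd order. For an irreducible character θ of K: if θ is not fixed under conjugation by some element of W₁, then the function induced from θ to L is an irreducible character of L; and the irreducible characters of K fixed by all of W₁ are exactly Nat.card W₂ in number, each inducing to the sum of Nat.card W₁ pairwise distinct irreducible characters of L. -/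
theorem result {L : Type*} [Group L] [Fintype L] (K W₁ W₂ : Subgroup L) [hK : K.Normal] (hKW₁ : K ⊓ W₁ = ⊥) (hKW₁' : K ⊔ W₁ = ⊤) (hW₁ : W₁ ≠ ⊥) (hW₁c : IsCyclic W₁) (hHall : Nat.Coprime (Nat.card W₁) W₁.index) (hW₂ : W₂ ≠ ⊥) (hW₂c : IsCyclic W₂) (hW₂K : W₂ ≤ K) (hC : ∀ x ∈ W₁, x ≠ 1 → K ⊓ Subgroup.centralizer ({x} : Set L) = W₂) (hodd : Odd (Nat.card ↥(W₁ ⊔ W₂))) : (∀ θ : K → ℂ, Cfsg.IsIrrCharacter K θ → (∃ x ∈ W₁, (fun k : K => θ ⟨x * k * x⁻¹, hK.conj_mem (k : L) k.2 x⟩) ≠ θ) → Cfsg.IsIrrCharacter L (Cfsg.indFun K θ)) ∧ Nat.card {θ : Cfsg.IrrCharacter K // ∀ x ∈ W₁, (fun k : K => (θ : K → ℂ) ⟨x * k * x⁻¹, hK.conj_mem (k : L) k.2 x⟩) = θ} = Nat.card W₂ ∧ (∀ θ : K → ℂ, Cfsg.IsIrrCharacter K θ → (∀ x ∈ W₁, (fun k : K => θ ⟨x * k * x⁻¹, hK.conj_mem (k : L) k.2 x⟩) = θ) → ∃ C : Finset (L → ℂ), C.card = Nat.card W₁ ∧ (∀ μ ∈ C, Cfsg.IsIrrCharacter L μ) ∧ Cfsg.indFun K θ = ∑ μ ∈ C, μ) := by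
  classical
  have h := primeTI_top hKW₁ hKW₁' hW₁ hW₁c hHall hW₂ hW₂c hW₂K hC hodd
  have hcj : ∀ (θ : K → ℂ) (x : L),
      (fun k : K => θ ⟨x * k * x⁻¹, hK.conj_mem (k : L) k.2 x⟩) = cConj θ x := fun θ x =>
    funext fun k => (cConj_apply θ (h.norm (Subgroup.mem_top x)) k).symm
  simp only [hcj]
  obtain ⟨a, ha, ha1⟩ := GT.exists_ne_one_of_ne_bot hW₁
  refine ⟨fun θ hθ ⟨x, hx, hne⟩ => ?_, ?_, fun θ hθ hfix => ?_⟩
  · rw [indFun_eq_cInd_top]
    refine isIrr_of_top ((h.irr_cases hθ).resolve_left ?_).1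
    rintro ⟨j, rfl⟩
    exact hne (h.cConj_chiR j trivial)
  · rw [← h.card_lin₂]
    refine (Nat.card_eq_of_bijective (fun j => ⟨⟨_, h.chiR_irr j⟩, fun x _ => h.cConj_chiR j trivial⟩)
      ⟨fun j j' e => h.chiR_inj (congrArg (fun x => x.1.1) e), fun θ => ?_⟩).symm
    obtain ⟨j, hj⟩ := h.exists_chiR_of_fixed θ.1.2 ha ha1 (θ.2 a ha)
    exact ⟨j, Subtype.ext (Subtype.ext hj.symm)⟩
  · obtain ⟨j, rfl⟩ := h.exists_chiR_of_fixed hθ ha ha1 (hfix a ha)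
    have hinj : Function.Injective (fun (i : Lin W₁) (g : L) => mu2 ⊤ W₁ W₂ i j ⟨g, trivial⟩) :=
      fun i i' e => (h.mu2_inj (i := i) (j := j) (i' := i') (j' := j) (funext fun g => congrFun e g)).1
    refine ⟨Finset.univ.image (fun (i : Lin W₁) (g : L) => mu2 ⊤ W₁ W₂ i j ⟨g, trivial⟩), ?_, ?_, ?_⟩
    · rw [Finset.card_image_of_injective _ hinj, Finset.card_univ, h.cycTI.card_Lin₁]
    · intro μ hμ
      obtain ⟨i, -, rfl⟩ := Finset.mem_image.1 hμ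
      exact isIrr_of_top (h.mu2_irr i j)
    · rw [Finset.sum_image hinj.injOn, indFun_eq_cInd_top, h.cInd_chiR, muR]
      funext g; simp only [Finset.sum_apply]

end Cfsg.Agent.S1513
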