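import Cfsg.Statements.S1515
import Cfsg.Agent.PF.CohSys

set_option autoImplicit false
open Cfsg

namespace Cfsg.Agent.S1515

open Cfsg.Agent.Char Cfsg.Agent.PF
open scoped ComplexConjugate

/-- Let (S, τ, R) be a coherence system from L to G, χ ∈ S, and ψ an integer combination of S with ⟨χ, ψ⟩ = ⟨conj χ, ψ⟩ = 0. Let τ₁ be a linear isometry on the integer combinations of χ − ψ and χ − conj χ, with virtual-character values, agreeing with τ on integer multiples of χ − conj χ. Then the sum over α ∈ R χ of the squared absolute values of ⟨τ₁(χ − ψ), α⟩ is at least ⟨χ, χ⟩; and if ⟨τ₁(χ − ψ), τ₁(χ − ψ)⟩ minus that sum is at least ⟨ψ, ψ⟩, then the sum equals ⟨χ, χ⟩ and every ⟨τ₁(χ − ψ), α⟩ with α ∈ R χ is 0 or 1. -/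
theorem result {L : Type*} [Group L] [Fintype L] {G : Type*} [Group G] [Fintype G] (S : Set (L → ℂ)) (τ : (L → ℂ) → (G → ℂ)) (R : (L → ℂ) → Finset (G → ℂ)) (hS : Cfsg.IsCoherenceSystem S τ R) (χ : L → ℂ) (hχ : χ ∈ S) (ψ : L → ℂ) (hψ : ψ ∈ Cfsg.zspan S) (h1 : Cfsg.classInner χ ψ = 0) (h2 : Cfsg.classInner (Cfsg.conjFun χ) ψ = 0) (τ₁ : (L → ℂ) → (G → ℂ)) (hτ₁ : Cfsg.IsLinearIsometryOn (Cfsg.zspan {χ - ψ, χ - Cfsg.conjFun χ}) τ₁) (hagree : ∀ n : ℤ, τ₁ (n • (χ - Cfsg.conjFun χ)) = τ (n • (χ - Cfsg.conjFun χ))) : (Cfsg.classInner χ χ).re ≤ ∑ α ∈ R χ, ‖Cfsg.classInner (τ₁ (χ - ψ)) α‖ ^ 2 ∧ ((Cfsg.classInner ψ ψ).re ≤ (Cfsg.classInner (τ₁ (χ - ψ)) (τ₁ (χ - ψ))).re - ∑ α ∈ R χ, ‖Cfsg.classInner (τ₁ (χ - ψ)) α‖ ^ 2 → (∑ α ∈ R χ, ‖Cfsg.classInner (τ₁ (χ - ψ)) α‖ ^ 2 = (Cfsg.classInner χ χ).re ∧ ∀ α ∈ R χ, Cfsg.classInner (τ₁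 (χ - ψ)) α = 0 ∨ Cfsg.classInner (τ₁ (χ - ψ)) α = 1)) := by
  have m1 : χ - ψ ∈ zspan {χ - ψ, χ - conjFun χ} := mem_zspan_of_mem (Or.inl rfl)
  have m2 : χ - conjFun χ ∈ zspan {χ - ψ, χ - conjFun χ} := mem_zspan_of_mem (Or.inr rfl)
  have e := hagree 1
  rw [one_smul] at e
  have e1 : ⟪τ₁ (χ - ψ), ∑ α ∈ R χ, α⟫ = (nsq χ : ℂ) := by
    rw [← hS.sum_eq χ hχ, ← e, hτ₁.ci_eq m1 m2, ci_sub_left, ci_sub_right, ci_sub_right,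
      hS.ci_conj hχ, ci_eq_zero_symm h1, ci_eq_zero_symm h2, ci_self]
    ring
  obtain ⟨k1, k2⟩ := proj_bound (hS.virtual χ hχ) (hτ₁.virt m1) e1
  rw [ci_self_re, ci_self_re, ci_self_re, hτ₁.nsq_eq m1, nsq_sub_of_orth h1]
  exact ⟨k1, fun h => ⟨by linarith, k2 (by linarith)⟩⟩

end Cfsg.Agent.S1515
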