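import Cfsg.Statements.S1518
import Cfsg.Agent.PF.Coherence

set_option autoImplicit false
open Cfsg

namespace Cfsg.Agent.S1518

open Cfsg.Agent.Char Cfsg.Agent.PF
open scoped ComplexConjugate

/-- Under the Dade hypothesis for (A, L, H): if χ is an irreducible character of L vanishing at every non-identity element of L outside A, then the Dade image of χ − conj χ equals μ − conj μ for some irreducible character μ of G. -/
theorem result {G : Type*} [Group G] [Fintype G] (A : Set G) (L : Subgroup G) [Fintype L] (H : G → Subgroup G) (hD : Cfsg.DadeHypothesis A L H) (χ : L → ℂ) (hχ : Cfsg.IsIrrCharacter L χ) (hsupp : ∀ x : L, x ≠ 1 → (x : G) ∉ A → χ x = 0) : ∃ μ : G → ℂ, Cfsg.IsIrrCharacter G μ ∧ Cfsg.dadeIsometry A L H (χ - Cfsg.conjFun χ) = μ - Cfsg.conjFun μ := by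
  by_cases hr : conjFun χ = χ
  · refine ⟨fun _ => 1, isIrrCharacter_one, ?_⟩
    rw [hr, sub_self, dade_zero, conjFun_one, sub_self]
  have hv := hχ.virt.sub hχ.virt.conjFun
  have hA : ∀ x : L, (x : G) ∉ A → (χ - conjFun χ) x = 0 := by
    intro x hx
    by_cases h1 : x = 1
    · rw [h1, Pi.sub_apply, conjFun_apply, hχ.isCharacter.conj_one, sub_self]
    · rw [Pi.sub_apply, conjFun_apply, hsupp x h1 hx]; simp
  obtain ⟨μ, hμ, -, e⟩ := exists_sub_conjFun (hD.virt_dade hv hA) (by
    rw [hD.nsq_dade hv.isClassFunction hA,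
      nsq_sub_of_orth (hχ.ci_of_ne hχ.conjFun (Ne.symm hr)), nsq_conjFun, hχ.nsq]; norm_num)
    (hD.dade_one _) (by rw [conjFun_dade, conjFun_sub, conjFun_conjFun, ← dade_neg, neg_sub])
  exact ⟨μ, hμ, e⟩

end Cfsg.Agent.S1518
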