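import Cfsg.Statements.S1519
import Cfsg.Agent.PF.S06Top

set_option autoImplicit false
open Cfsg

namespace Cfsg.Agent.S1519

open Cfsg.Agent.Char Cfsg.Agent.PF
open scoped ComplexConjugate

/-- Let K be a solvable normal subgroup of the finite group L and (S, τ, R) a coherence system from L to G where S is the set of functions induced from non-principal irreducible characters of K; write S(A) for those induced from characters whose kernel contains A. Let A, B, C, D be normal subgroups of L with A < K, B < K, B ≤ D ≤ C ≤ K and every commutator of D with C in B. If S(A) is coherent and 4 * [L:C]^2 * [C:D] < ([K:A] − 1)^2, then S(B) is coherent. -/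
theorem result {L : Type*} [Group L] [Fintype L] {G : Type*} [Group G] [Fintype G] (K : Subgroup L) [hK : K.Normal] (hsolv : Group.IsSolvable K) (τ : (L → ℂ) → (G → ℂ)) (R : (L → ℂ) → Finset (G → ℂ)) (hS : Cfsg.IsCoherenceSystem (Cfsg.inducedIrrAbove K ⊥) τ R) (A B C D : Subgroup L) [A.Normal] [B.Normal] [C.Normal] [D.Normal] (hAK : A < K) (hBK : B < K) (hBD : B ≤ D) (hDC : D ≤ C) (hCK : C ≤ K) (hcent : ∀ x ∈ D, ∀ y ∈ C, x * y * x⁻¹ * y⁻¹ ∈ B) (hA : Cfsg.IsCoherent (Cfsg.inducedIrrAbove K A) {1}ᶜ τ) (hlt : 4 * C.index ^ 2 * D.relIndex C < (A.relIndex K - 1) ^ 2) : Cfsg.IsCoherent (Cfsg.inducedIrrAbove K B) {1}ᶜ τ := by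
  obtain ⟨T, Q, h1, h2⟩ := exists_cohSys_top' hS
  refine (h2 B).2 ⟨seqIndD_nonempty le_rfl Subgroup.le_normalizer GT.le_norm_of_normal hBK, ?_⟩
  by_contra hnc
  have := coherent_seqIndD_bound le_top GT.le_norm_of_normal hsolv h1 GT.le_norm_of_normal
    GT.le_norm_of_normal GT.le_norm_of_normal GT.le_norm_of_normal hAK hBD hDC hCK
    (Subgroup.commutator_le.2 hcent) ((h2 A).1 hA).2 hnc
  rw [Subgroup.relIndex_top_right] at this
  omega

end Cfsg.Agent.S1519
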