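import Cfsg.Statements.S1521
import Cfsg.Agent.PF.S06Top

set_option autoImplicit false
open Cfsg

namespace Cfsg.Agent.S1521

open Cfsg.Agent.Char Cfsg.Agent.PF
open scoped ComplexConjugate

/-- Let K be a solvable normal subgroup of the finite group L of odd order and (S, τ, R) a coherence system from L to G with S the functions induced from non-principal irreducible characters of K; S(A) as before. Let M ≤ K be normal in L with K/M nilpotent, H₁ = [K, K] ⊔ M, H₁ < K < L, and suppose every element of K outside H₁ is centralised modulo H₁ only from inside K (L/H₁ is a Frobenius group with kernel K/H₁). Suppose one of the following: some normal subgroup of L lies strictly between H₁ and K; or [K:H₁] > 4[L:K]^2 + 1; or [K:M] is not a prime power; or [K,K] ≤ M; or [K:M] is a power of a prime p with [L:K] dividing p − 1. Then S(M) is coherent. -/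
theorem result {L : Type*} [Group L] [Fintype L] {G : Type*} [Group G] [Fintype G] (K : Subgroup L) [hK : K.Normal] (hsolv : Group.IsSolvable K) (τ : (L → ℂ) → (G → ℂ)) (R : (L → ℂ) → Finset (G → ℂ)) (hS : Cfsg.IsCoherenceSystem (Cfsg.inducedIrrAbove K ⊥) τ R) (hodd : Odd (Nat.card L)) (M : Subgroup L) [M.Normal] (hMK : M ≤ K) [(M.subgroupOf K).Normal] (hnil : Group.IsNilpotent (↥K ⧸ M.subgroupOf K)) (H₁ : Subgroup L) (hH₁ : H₁ = ⁅K, K⁆ ⊔ M) (hH₁K : H₁ < K) (hKL : K < ⊤) (hfrob : ∀ k ∈ K, k ∉ H₁ → ∀ x : L, x * k * x⁻¹ * k⁻¹ ∈ H₁ → x ∈ K) (hgood : (∃ N : Subgroup L, N.Normal ∧ H₁ < N ∧ N < K) ∨ 4 * K.index ^ 2 + 1 < H₁.relIndex K ∨ (¬ ∃ p m : ℕ, p.Prime ∧ M.relIndex K = p ^ m) ∨ ⁅K, K⁆ ≤ M ∨ (∃ p m : ℕ, p.Prime ∧ M.relIndex K = p ^ m ∧ K.index ∣ p - 1)) : Cfsg.IsCoherent (Cfsg.inducedIrrAbove K M) {1}ᶜ τ := by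
  obtain ⟨T, Q, h1, h2⟩ := exists_cohSys_top' hS
  subst hH₁
  refine (h2 M).2 ⟨seqIndD_nonempty le_rfl Subgroup.le_normalizer GT.le_norm_of_normal
    (le_sup_right.trans_lt hH₁K), ?_⟩
  by_contra hnc
  obtain ⟨h3, h4, p, hp, hP, h5, h6⟩ := h1.cohProp.non_coherent_chief hKL GT.le_norm_of_normal hsolv
    (by rwa [Subgroup.card_top]) GT.le_norm_of_normal hMK (nilpotent_quo_of_quotient hnil) hH₁K
    (fun k hk hk' x _ => hfrob k hk hk' x) hnc
  rw [Subgroup.relIndex_top_right] at h4 h6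
  haveI := Fact.mk hp
  obtain ⟨n, hn⟩ := PG.exists_card_eq_pow hP
  rw [GT.card_quo GT.le_norm_of_normal] at hn
  rcases hgood with ⟨N, _, h7, h8⟩ | h7 | h7 | h7 | ⟨q, m, hq, h7, h8⟩
  · rcases h3.eq_or_eq h7.le h8.le GT.le_norm_of_normal with e | e
    · exact h7.ne' e
    · exact h8.ne e
  · omega
  · exact h7 ⟨p, n, hp, hn⟩
  · exact h5 h7
  · have h9 := one_lt_relIndex (le_sup_right.trans_lt hH₁K : M < K).not_ge
    have hm : m ≠ 0 := by rintro rfl; simp [h7] at h9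
    have : q ∣ p ^ n := by rw [← hn, h7]; exact dvd_pow_self q hm
    rw [(Nat.prime_dvd_prime_iff_eq hq hp).1 (hq.dvd_of_dvd_pow this)] at h8
    exact h6 h8

end Cfsg.Agent.S1521
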