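import Cfsg.Statements.S1522
import Cfsg.Agent.PF.S06Top

set_option autoImplicit false
open Cfsg

namespace Cfsg.Agent.S1522

open Cfsg.Agent.Char Cfsg.Agent.PF
open scoped ComplexConjugate

/-- Let K be a nilpotent normal subgroup of the finite group L of odd order with [K,K] < K < L and L/[K,K] a Frobenius group with kernel K/[K,K] (elements of K outside [K,K] are centralised modulo [K,K] only from inside K); let (S, τ, R) be a coherence system from L to G with S the functions induced from non-principal irreducible characters of K. Let Z be a nontrivial normal subgroup of L contained in the centre of K, and suppose every member of S outside S(Z) is an irreducible character of L. Then S minus S(Z) is the set of irreducible characters χ of L with χ z ≠ χ 1 for some z ∈ Z, and it is coherent. -/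
theorem result {L : Type*} [Group L] [Fintype L] {G : Type*} [Group G] [Fintype G] (K : Subgroup L) [hK : K.Normal] (hsolv : Group.IsSolvable K) (τ : (L → ℂ) → (G → ℂ)) (R : (L → ℂ) → Finset (G → ℂ)) (hS : Cfsg.IsCoherenceSystem (Cfsg.inducedIrrAbove K ⊥) τ R) (hodd : Odd (Nat.card L)) (hnil : Group.IsNilpotent K) (hH₁K : ⁅K, K⁆ < K) (hKL : K < ⊤) (hfrob : ∀ k ∈ K, k ∉ ⁅K, K⁆ → ∀ x : L, x * k * x⁻¹ * k⁻¹ ∈ ⁅K, K⁆ → x ∈ K) (Z : Subgroup L) [Z.Normal] (hZ1 : Z ≠ ⊥) (hZK : Z ≤ K) (hZc : ∀ z ∈ Z, ∀ k ∈ K, z * k = k * z) (hirr : ∀ χ ∈ Cfsg.inducedIrrAbove K ⊥ \ Cfsg.inducedIrrAbove K Z, Cfsg.IsIrrCharacter L χ) : Cfsg.inducedIrrAbove K ⊥ \ Cfsg.inducedIrrAbove K Z = {χ | Cfsg.IsIrrCharacter L χ ∧ ∃ z ∈ Z, χ z ≠ χ 1} ∧ Cfsg.IsCoherent (Cfsg.inducedIrrAbove K ⊥ \ Cfsg.inducedIrrAbove K Z) {1}ᶜ τ := by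
  obtain ⟨T, Q, h1, h2⟩ := exists_cohSys_top hS
  have e : pb Subgroup.topEquiv.symm ⁻¹' (inducedIrrAbove K ⊥ \ inducedIrrAbove K Z) =
      seqIndD K ⊤ Z ⊥ := by
    rw [Set.preimage_diff, pb_preimage_inducedIrrAbove, pb_preimage_inducedIrrAbove]
    ext φ
    rw [Set.mem_diff, mem_seqIndD_iff le_top GT.le_norm_of_normal le_rfl GT.le_norm_of_normal bot_le
      GT.le_norm_of_normal, mem_seqIndD_iff le_top GT.le_norm_of_normal le_rfl GT.le_norm_of_normal hZK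
      GT.le_norm_of_normal, mem_seqIndD_iff le_top GT.le_norm_of_normal hZK GT.le_norm_of_normal bot_le
      GT.le_norm_of_normal]
    exact ⟨fun h => ⟨h.1.1, fun h' => h.2 ⟨h.1.1, h.1.2.1, h'⟩, h.1.2.2⟩,
      fun h => ⟨⟨h.1, fun h' => h.2.1 (h'.mono hZK), h.2.2⟩, fun h' => h.2.1 h'.2.2⟩⟩
  have hi : ∀ φ ∈ seqIndD K ⊤ Z ⊥, IsIrrCharacter (⊤ : Subgroup L) φ := fun φ hφ =>
    isIrr_to_top (hirr _ (e ▸ hφ : φ ∈ pb Subgroup.topEquiv.symm ⁻¹' _))
  have e2 := seqIndD_eq_irr le_top GT.le_norm_of_normal GT.le_norm_of_normal hZK hi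
  refine ⟨?_, (h2 _ Set.diff_subset fun φ hφ => ⟨conj_inducedIrrAbove hφ.1, fun h =>
    hφ.2 (conjFun_conjFun φ ▸ conj_inducedIrrAbove h)⟩).2 ⟨?_, e ▸ h1.cohProp.seqIndD_irr hKL
      GT.le_norm_of_normal (by rwa [Subgroup.card_top]) hnil hH₁K
      (fun k hk hk' x _ => hfrob k hk hk' x) GT.le_norm_of_normal
      (le_inf hZK fun z hz k hk => (hZc z hz k hk).symm) hi⟩⟩
  · rw [← pb_preimage_preimage (S := _ \ _) Subgroup.topEquiv.symm, e, e2]
    ext χ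
    simp only [Set.mem_preimage, Set.mem_setOf_eq, InKer, not_forall]
    exact ⟨fun h => ⟨isIrr_of_top h.1, let ⟨x, hx, h'⟩ := h.2; ⟨x, hx, h'⟩⟩,
      fun h => ⟨isIrr_to_top h.1, let ⟨x, hx, h'⟩ := h.2; ⟨⟨x, trivial⟩, hx, h'⟩⟩⟩
  · obtain ⟨φ, hφ⟩ := seqIndD_nonempty (L := ⊤) hZK GT.le_norm_of_normal GT.le_norm_of_normal
      (bot_lt_iff_ne_bot.2 hZ1)
    exact ⟨_, (e ▸ hφ : φ ∈ pb Subgroup.topEquiv.symm ⁻¹' _)⟩

end Cfsg.Agent.S1522
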