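import Cfsg.Statements.S1524
import Cfsg.Agent.PF.S06

set_option autoImplicit false
open Cfsg

namespace Cfsg.Agent.S1524

open Cfsg.Agent.Char Cfsg.Agent.PF
open scoped ComplexConjugate

/-- Let G be a finite group and H ≤ L subgroups with L of odd order, H ≠ ⊥ nilpotent and normal in L with a nontrivial complement W₁ in L (H ⊓ W₁ = ⊥, H ⊔ W₁ = L) acting on H without non-identity fixed points (L is a Frobenius group with kernel H), and suppose the underlying set of H is a TI-subset of G whose normaliser is L. Let S be the set of functions on L induced from the non-principal irreducible characters of H. Then (S, L minus 1, induction to G) is coherent. -/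
theorem result {G : Type*} [Group G] [Fintype G] (H L W₁ : Subgroup G) [Fintype L] (hodd : Odd (Nat.card L)) (hHL : H ≤ L) (hW₁L : W₁ ≤ L) (hH1 : H ≠ ⊥) (hW1 : W₁ ≠ ⊥) (hnil : Group.IsNilpotent H) (hHn : ∀ x ∈ L, ∀ h ∈ H, x * h * x⁻¹ ∈ H) (hinf : H ⊓ W₁ = ⊥) (hsup : H ⊔ W₁ = L) (hfpf : ∀ w ∈ W₁, w ≠ 1 → ∀ h ∈ H, w * h = h * w → h = 1) (hTI : Cfsg.IsTISubset (H : Set G)) (hN : Subgroup.normalizer (H : Set G) = L) : Cfsg.IsCoherent (Cfsg.inducedIrrAbove (H.subgroupOf L) ⊥) {1}ᶜ (fun α : L → ℂ => Cfsg.indFun L α) := by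
  obtain rfl : ‹Fintype L› = fintypeSubgroup L := Subsingleton.elim _ _
  have hn : L ≤ Subgroup.normalizer (H : Set G) := hN.ge
  obtain ⟨ν, hν⟩ := Sibley_coherence (W₁ := W₁) hodd hnil (GT.normedTI_sharp_iff.2 ⟨hH1, hTI, hN⟩)
    (Or.inl ⟨GT.sdprod_mk (hW₁L.trans hn) hinf hsup, hH1, hW1,
      GT.semiregular_iff.2 fun x hx hx1 y hy e => hfpf x hx hx1 y hy e.symm⟩)
  rw [← Subgroup.bot_subgroupOf L, inducedIrrAbove_eq hHL]
  obtain ⟨φ, hφ⟩ := seqIndD_nonempty (L := L) le_rfl Subgroup.le_normalizer GT.le_norm_of_normal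
    (bot_lt_iff_ne_bot.2 hH1)
  have h1 := seqIndD_subset_T hφ
  have h2 := conj_seqIndT h1
  exact hν.isCoherent (exists_ne_zero_of_orth (conj_seqIndD hφ) hφ (seqIndT_char hHL h2)
    (seqIndT_char hHL h1) (seqIndT_ne_zero hHL h2) (seqIndT_ne_zero hHL h1)
    (seqIndD_conj_ortho hHL hn hodd hφ))

end Cfsg.Agent.S1524
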