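import Cfsg.Statements.S1525
import Cfsg.Agent.PF.DadeVirt

set_option autoImplicit false
open Cfsg

namespace Cfsg.Agent.S1525

open Cfsg.Agent.Char Cfsg.Agent.PF
open scoped ComplexConjugate

theorem finsum_mem_eq_sum_ite {X : Type*} [Fintype X] (s : Set X) [DecidablePred (· ∈ s)]
    (f : X → ℝ) : ∑ᶠ x ∈ s, f x = ∑ x, if x ∈ s then f x else 0 := by
  rw [finsum_mem_def, finsum_eq_sum_of_fintype]
  simp only [Set.indicator_apply]

/-- Under the Dade hypothesis for (A, L, H), let χ be a class function of G and let ψ be a function on L whose value at each a ∈ A is the average of χ over the coset a·H(a). Then (1/|G|) Σ |χ g|² over the elements g of G conjugate into some coset a·H(a) with a ∈ A is at least (1/|L|) Σ_{a ∈ A ∩ L} |ψ a|². -/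
theorem result {G : Type*} [Group G] [Fintype G] (A : Set G) (L : Subgroup G) [Fintype L] (H : G → Subgroup G) (hD : Cfsg.DadeHypothesis A L H) (χ : G → ℂ) (hχ : Cfsg.IsClassFunction G χ) (ψ : L → ℂ) (hψ : ∀ a : L, (a : G) ∈ A → ψ a = (Nat.card (H a) : ℂ)⁻¹ * ∑ᶠ u ∈ (H a : Set G), χ (a * u)) : (Nat.card L : ℝ)⁻¹ * ∑ᶠ a ∈ {a : L | (a : G) ∈ A}, ‖ψ a‖ ^ 2 ≤ (Nat.card G : ℝ)⁻¹ * ∑ᶠ g ∈ {g : G | ∃ a ∈ A, ∃ u ∈ H a, ∃ x : G, x * g * x⁻¹ = a * u}, ‖χ g‖ ^ 2 := by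
  classical
  have := hD.nsq_rho_le_sum hχ
  rw [nsq] at this
  rw [finsum_mem_eq_sum_ite, finsum_mem_eq_sum_ite]
  convert this using 3 with a _ g _
  · split_ifs with ha
    · rw [dadeRho_of_mem (A := A) χ ha, hψ a ha]; rfl
    · rw [dadeRho_of_not_mem (A := A) χ ha]; simp
  · exact if_congr Iff.rfl rfl rfl

end Cfsg.Agent.S1525
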