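import Cfsg.Statements.S1527
import Cfsg.Agent.PF.Coset

set_option autoImplicit false
open Cfsg

namespace Cfsg.Agent.S1527

open Cfsg.Agent.Char Cfsg.Agent.PF
open scoped ComplexConjugate

/-- Let G be a finite group and H i (i in a finite index type) subgroups of pairwise coprime orders, each of whose underlying sets is a TI-subset of G, such that every non-identity element of G is conjugate to an element of some H i. Then Nat.card G − 1 = Σ_i [G : N_G(H i)] · (Nat.card (H i) − 1). -/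
theorem result {G : Type*} [Group G] [Finite G] {ι : Type*} [Fintype ι] (H : ι → Subgroup G) (hcop : ∀ i j, i ≠ j → Nat.Coprime (Nat.card (H i)) (Nat.card (H j))) (hTI : ∀ i, Cfsg.IsTISubset (H i : Set G)) (hcover : ∀ g : G, g ≠ 1 → ∃ i, ∃ x : G, x * g * x⁻¹ ∈ H i) : Nat.card G - 1 = ∑ i, (Subgroup.normalizer (H i : Set G)).index * (Nat.card (H i) - 1) := by
  classical
  have := Fintype.ofFinite G
  have e1 : ∀ i, (Subgroup.normalizer (H i : Set G)).index * (Nat.card (H i) - 1)
      = (Finset.univ.filter (fun g : G => g ≠ 1 ∧ ∃ x : G, x * g * x⁻¹ ∈ H i)).card := by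
    intro i
    set N := Subgroup.normalizer (H i : Set G) with hN
    have e2 : Nat.card (H i) - 1 = Nat.card {h : G // h ∈ H i ∧ h ≠ 1} := by
      have := Fintype.ofFinite (H i)
      rw [Nat.card_eq_fintype_card, ← Finset.card_univ,
        ← Finset.card_erase_of_mem (Finset.mem_univ (1 : H i)), ← Nat.card_eq_finsetCard]
      refine Nat.card_congr ⟨fun h => ⟨h.1, h.1.2, fun e => (Finset.mem_erase.1 h.2).1 (Subtype.ext e)⟩,
        fun h => ⟨⟨h.1, h.2.1⟩, by simpa using h.2.2⟩, fun _ => rfl, fun _ => rfl⟩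
    rw [e2, Subgroup.index, ← Nat.card_prod, ← Nat.card_eq_finsetCard]
    refine Nat.card_congr (Equiv.ofBijective
      (fun p => ⟨p.1.out * p.2 * p.1.out⁻¹, ?_⟩) ⟨?_, ?_⟩)
    · refine Finset.mem_filter.2 ⟨Finset.mem_univ _, ?_, p.1.out⁻¹, ?_⟩
      · simpa using p.2.2.2
      · simpa [mul_assoc] using p.2.2.1
    · rintro ⟨q, h⟩ ⟨q', h'⟩ e
      have e3 : q.out * h * q.out⁻¹ = q'.out * h' * q'.out⁻¹ := congrArg Subtype.val e
      have e4 : q'.out⁻¹ * q.out * h * (q'.out⁻¹ * q.out)⁻¹ = h' := by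
        calc _ = q'.out⁻¹ * (q.out * h * q.out⁻¹) * q'.out := by group
          _ = _ := by rw [e3]; group
      have e5 : q'.out⁻¹ * q.out ∈ N := by
        by_contra hn
        exact h.2.2 (hTI i _ hn h h.2.1 (e4 ▸ h'.2.1))
      have e6 : q' = q := by
        rw [← QuotientGroup.out_eq' q', ← QuotientGroup.out_eq' q]
        exact QuotientGroup.eq.2 e5
      subst e6
      exact Prod.ext rfl (Subtype.ext (mul_left_cancel (mul_right_cancel e3)))
    · rintro ⟨g, hg⟩
      obtain ⟨-, hg1, x, hx⟩ := Finset.mem_filter.1 hg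
      obtain ⟨n, hn⟩ := QuotientGroup.mk_out_eq_mul N x⁻¹
      refine ⟨⟨(x⁻¹ : G), ⟨(n : G)⁻¹ * (x * g * x⁻¹) * n, GT.conj_mem_of_le_norm' le_rfl n.2 hx, ?_⟩⟩,
        Subtype.ext ?_⟩
      · intro h
        apply hg1
        have : g = (x⁻¹ * n) * ((n : G)⁻¹ * (x * g * x⁻¹) * n) * (x⁻¹ * n)⁻¹ := by group
        rw [this, h]; group
      · change _ * _ * _ = g
        rw [hn]; group
  simp only [e1]
  rw [← Finset.card_biUnion, Nat.card_eq_fintype_card, ← Finset.card_univ,
    ← Finset.card_erase_of_mem (Finset.mem_univ (1 : G))]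
  · congr 1
    ext g
    simp only [Finset.mem_erase, Finset.mem_univ, and_true, Finset.mem_biUnion, Finset.mem_filter,
      true_and]
    exact ⟨fun h => (hcover g h).imp (fun i hi => ⟨h, hi⟩), fun ⟨_, h, _⟩ => h⟩
  · intro i _ j _ hij
    refine Finset.disjoint_left.2 (fun g hi hj => ?_)
    obtain ⟨-, hg1, x, hx⟩ := Finset.mem_filter.1 hi
    obtain ⟨-, -, y, hy⟩ := Finset.mem_filter.1 hj
    have h1 := GT.orderOf_dvd_card_of_mem hx
    have h2 := GT.orderOf_dvd_card_of_mem hy
    rw [GT.orderOf_conj] at h1 h2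
    exact hg1 (orderOf_eq_one_iff.1 (Nat.eq_one_of_dvd_coprimes (hcop i j hij) h1 h2))

end Cfsg.Agent.S1527
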