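import Cfsg.Statements.S1528
import Cfsg.Agent.PF.Normal

set_option autoImplicit false
open Cfsg

namespace Cfsg.Agent.S1528

open Cfsg.Agent.Char Cfsg.Agent.PF
open scoped ComplexConjugate

/-- Let N be a normal subgroup of the finite group G such that every element of G commuting with a non-identity element of N lies in N. If χ is an irreducible character of G with χ n ≠ χ 1 for some n ∈ N, then χ is the function induced from some irreducible character of N. -/
theorem result {G : Type*} [Group G] [Fintype G] (N : Subgroup G) [N.Normal] (hC : ∀ n ∈ N, n ≠ 1 → Subgroup.centralizer ({n} : Set G) ≤ N) (χ : G → ℂ) (hχ : Cfsg.IsIrrCharacter G χ) (hker : ∃ n ∈ N, χ n ≠ χ 1) : ∃ φ : N → ℂ, Cfsg.IsIrrCharacter N φ ∧ χ = Cfsg.indFun N φ := by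
  have := Fintype.ofFinite N
  let E := NormalEmb.ofNormal N
  obtain ⟨θ, hθ, h1⟩ := E.exists_ci_res_ne_zero hχ
  refine ⟨θ, hθ, ?_⟩
  rw [indFun_eq_ind_ofNormal]
  refine E.eq_ind_of_ci_res hχ (E.isIrr_ind hθ fun g hg => ?_) h1
  by_contra hgN
  have hθ1 : θ = fun _ => 1 := by
    refine eq_one_of_brauer (E.act g) (fun ψ hψ => E.isIrr_cj hψ g) (fun h hh => ?_) hθ hg
    obtain ⟨c, hc⟩ := isConj_iff.1 hh
    by_contra hne
    have e : (c : G) * (g * h * g⁻¹) * (c : G)⁻¹ = h := congrArg Subtype.val hc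
    have : (c : G) * g ∈ N := hC h h.2 (fun H => hne (Subtype.ext H)) (GT.mem_cent1.2 (by
      calc (c : G) * g * h = (c * (g * h * g⁻¹) * (c : G)⁻¹) * (c * g) := by group
        _ = _ := by rw [e]))
    exact hgN ⟨⟨g, (N.mul_mem_cancel_left c.2).1 this⟩, rfl⟩
  subst hθ1
  obtain ⟨n, hn, hn'⟩ := hker
  classical
  have := hχ.ci_restrict_one N
  rw [if_neg (fun H => hn' (H n hn))] at this
  exact h1 this

end Cfsg.Agent.S1528
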