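import Cfsg.Statements.S1529
import Cfsg.Agent.PF.Coherence

set_option autoImplicit false
open Cfsg

namespace Cfsg.Agent.S1529

open Cfsg.Agent.Char Cfsg.Agent.PF
open scoped ComplexConjugate

/-- Let N be a subgroup of the finite group G, S a set of irreducible characters of N with at least two members, and τ₁ a linear isometry on the integer combinations of S with virtual-character values such that τ₁ α vanishes at 1 whenever α ∈ ℤ[S] does. Then there is ε ∈ {1, −1} such that ε • τ₁ χ is an irreducible character of G for every χ ∈ S, and distinct members of S give distinct characters. -/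
theorem result {G : Type*} [Group G] [Fintype G] (N : Subgroup G) [Fintype N] (S : Set (N → ℂ)) (hirr : ∀ χ ∈ S, Cfsg.IsIrrCharacter N χ) (htwo : ∃ χ ∈ S, ∃ ψ ∈ S, χ ≠ ψ) (τ₁ : (N → ℂ) → (G → ℂ)) (hτ₁ : Cfsg.IsLinearIsometryOn (Cfsg.zspan S) τ₁) (h0 : ∀ α ∈ Cfsg.zspan S, α 1 = 0 → τ₁ α 1 = 0) : ∃ ε : ℂ, (ε = 1 ∨ ε = -1) ∧ (∀ χ ∈ S, Cfsg.IsIrrCharacter G (ε • τ₁ χ)) ∧ (∀ χ ∈ S, ∀ ψ ∈ S, τ₁ χ = τ₁ ψ → χ = ψ) := by
  obtain ⟨T, hT⟩ := hτ₁.exists_linearMap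
  have hc : CohWith S τ₁ T := ⟨hτ₁.congr_linear hT, fun α hα => hT α hα.1⟩
  obtain ⟨ε, hε, h⟩ := hc.exists_sign
    (fun α hα => h0 α hα.1 (mem_zspanOn_one.1 hα).2) hirr
  refine ⟨ε, hε, fun χ hχ => hT χ (mem_zspan_of_mem hχ) ▸ h χ hχ, fun χ hχ ψ hψ e => ?_⟩
  refine (hirr χ hχ).eq_of_ci_ne_zero (hirr ψ hψ) ?_
  rw [← hτ₁.ci_eq (mem_zspan_of_mem hχ) (mem_zspan_of_mem hψ), e,
    hτ₁.ci_eq (mem_zspan_of_mem hψ) (mem_zspan_of_mem hψ), (hirr ψ hψ).ci_self]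
  exact one_ne_zero

end Cfsg.Agent.S1529
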