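import Cfsg.Statements.S1530
import Cfsg.Agent.PF.CohSys

set_option autoImplicit false
open Cfsg

namespace Cfsg.Agent.S1530

open Cfsg.Agent.Char Cfsg.Agent.PF
open scoped ComplexConjugate

/-- Let N be a subgroup of the finite group G and S₀ a finite set of irreducible characters of N, χ an irreducible character of N not in S₀, with degrees ξ 1 = d ξ. Let τ be a linear isometry on the integer combinations of S₀ ∪ {χ} vanishing at 1, with values virtual characters of G vanishing at 1, such that (S₀, N minus 1, τ) is coherent. If some ψ ∈ S₀ has d ψ dividing d χ and 2 · d ψ · d χ < Σ_{ξ ∈ S₀} (d ξ)², then (S₀ ∪ {χ}, N minus 1, τ) is coherent. -/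
theorem result {G : Type*} [Group G] [Fintype G] (N : Subgroup G) [Fintype N] (S₀ : Finset (N → ℂ)) (χ : N → ℂ) (hirr : ∀ ξ ∈ S₀, Cfsg.IsIrrCharacter N ξ) (hχ : Cfsg.IsIrrCharacter N χ) (hχS : χ ∉ S₀) (d : (N → ℂ) → ℕ) (hd : ∀ ξ ∈ insert χ S₀, ξ 1 = (d ξ : ℂ)) (τ : (N → ℂ) → (G → ℂ)) (hτ : Cfsg.IsLinearIsometryOn (Cfsg.zspanOn (↑(insert χ S₀) : Set (N → ℂ)) {1}ᶜ) τ) (hτ1 : ∀ α ∈ Cfsg.zspanOn (↑(insert χ S₀) : Set (N → ℂ)) {1}ᶜ, τ α 1 = 0) (hcoh : Cfsg.IsCoherent (↑S₀ : Set (N → ℂ)) {1}ᶜ τ) (ψ : N → ℂ) (hψ : ψ ∈ S₀) (hdvd : d ψ ∣ d χ) (hlt : 2 * d ψ * d χ < ∑ ξ ∈ S₀, d ξ ^ 2) : Cfsg.IsCoherent (↑(insert χ S₀) : Set (N → ℂ)) {1}ᶜ τ := by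
  obtain ⟨a, ha⟩ := hdvd
  obtain ⟨T, hT⟩ := hτ.exists_linearMap
  obtain ⟨ν₁, hν₁⟩ := hcoh.exists_cohWith
  have hsub : (S₀ : Set (N → ℂ)) ⊆ ↑(insert χ S₀) := Finset.coe_subset.2 (Finset.subset_insert _ _)
  have hd' : ∀ ξ ∈ S₀, ξ 1 = (d ξ : ℂ) := fun ξ hξ => hd ξ (Finset.mem_insert_of_mem hξ)
  obtain ⟨ν, hν, -⟩ := (hν₁.congr (fun α hα => (hT α (zspanOn_mono hsub _ hα)).symm)).extend_irr
    (hτ.congr_linear hT) (fun α hα => by rw [hT α hα]; exact hτ1 α hα) hsub hirr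
    (Finset.mem_coe.2 (Finset.mem_insert_self χ S₀)) hχ hχS hψ (a := a)
    (by rw [hd χ (Finset.mem_insert_self _ _), hd' ψ hψ, ha]; push_cast; ring)
    (by
      rw [hd χ (Finset.mem_insert_self _ _), hd' ψ hψ,
        Finset.sum_congr rfl (fun ξ hξ => by rw [hd' ξ hξ])]
      simp only [Complex.natCast_re]
      have : 2 * d χ * d ψ < ∑ ξ ∈ S₀, d ξ ^ 2 := by linarith
      exact_mod_cast this)
  rw [← Finset.coe_insert] at hν
  obtain ⟨α, hα, hα0⟩ := hcoh.1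
  exact (hν.congr hT).isCoherent ⟨α, zspanOn_mono hsub _ hα, hα0⟩

end Cfsg.Agent.S1530
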