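import Cfsg.Statements.S1531
import Cfsg.Agent.PF.Coherence

set_option autoImplicit false
open Cfsg

namespace Cfsg.Agent.S1531

open Cfsg.Agent.Char Cfsg.Agent.PF
open scoped ComplexConjugate

/-- Let N be a subgroup of the finite group G, S a set of irreducible characters of N, and α a linear isometry on the integer combinations of S vanishing at 1 with values virtual characters of G vanishing at 1. Let X, Y ⊆ S be disjoint, each with at least two members, and σ, τ linear isometries on ℤ[X], ℤ[Y] into virtual characters agreeing with α on the members vanishing at 1. Then ⟨σ χ, τ η⟩ = 0 for χ ∈ X, η ∈ Y; and if for some χ₀ ∈ X, η₀ ∈ Y with degrees c = χ₀ 1, e = η₀ 1 one has α (c • η₀ − e • χ₀) = c • τ η₀ − e • σ χ₀, then (X ∪ Y, N minus 1, α) is coherent. -/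
theorem result {G : Type*} [Group G] [Fintype G] (N : Subgroup G) [Fintype N] (S X Y : Set (N → ℂ)) (hirr : ∀ ξ ∈ S, Cfsg.IsIrrCharacter N ξ) (hXS : X ⊆ S) (hYS : Y ⊆ S) (hXY : Disjoint X Y) (hX2 : ∃ a ∈ X, ∃ b ∈ X, a ≠ b) (hY2 : ∃ a ∈ Y, ∃ b ∈ Y, a ≠ b) (α : (N → ℂ) → (G → ℂ)) (hα : Cfsg.IsLinearIsometryOn (Cfsg.zspanOn S {1}ᶜ) α) (hα1 : ∀ θ ∈ Cfsg.zspanOn S {1}ᶜ, α θ 1 = 0) (σ τ : (N → ℂ) → (G → ℂ)) (hσ : Cfsg.IsLinearIsometryOn (Cfsg.zspan X) σ) (hσα : ∀ θ ∈ Cfsg.zspanOn X {1}ᶜ, σ θ = α θ) (hτ : Cfsg.IsLinearIsometryOn (Cfsg.zspan Y) τ) (hτα : ∀ θ ∈ Cfsg.zspanOn Y {1}ᶜ, τ θ = α θ) : (∀ χ ∈ X, ∀ η ∈ Y, Cfsg.classInner (σ χ) (τ η) = 0) ∧ ((∃ χ₀ ∈ X, ∃ η₀ ∈ Y, α (χ₀ 1 • η₀ - η₀ 1 • χ₀) = χ₀ 1 • τ η₀ - η₀ 1 • σ χ₀) → Cfsg.IsCoherent (X ∪ Y) {1}ᶜ α) := by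
  obtain ⟨T, hT⟩ := hα.exists_linearMap
  obtain ⟨ν₁, e₁⟩ := hσ.exists_linearMap
  obtain ⟨ν₂, e₂⟩ := hτ.exists_linearMap
  have h₁ : CohWith X T ν₁ := ⟨hσ.congr_linear e₁, fun θ hθ => by
    rw [e₁ θ hθ.1, hσα θ hθ, hT θ (zspanOn_mono hXS _ hθ)]⟩
  have h₂ : CohWith Y T ν₂ := ⟨hτ.congr_linear e₂, fun θ hθ => by
    rw [e₂ θ hθ.1, hτα θ hθ, hT θ (zspanOn_mono hYS _ hθ)]⟩
  have two : ∀ {Z : Set (N → ℂ)}, (∃ a ∈ Z, ∃ b ∈ Z, a ≠ b) → ∀ c, ∃ a ∈ Z, c ≠ a := by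
    rintro Z ⟨a, ha, b, hb, hab⟩ c
    by_cases h : c = a
    · exact ⟨b, hb, h ▸ hab⟩
    · exact ⟨a, ha, h⟩
  have hne : ∀ χ ∈ X, ∀ η ∈ Y, χ ≠ η := fun χ hχ η hη e => Set.disjoint_left.1 hXY hχ (e ▸ hη)
  have key : ∀ χ ∈ X, ∀ η ∈ Y, ⟪ν₁ χ, ν₂ η⟫ = 0 := by
    intro χ hχ η hη
    obtain ⟨χ', hχ', n1⟩ := two hX2 χ
    obtain ⟨η', hη', n2⟩ := two hY2 η
    exact h₁.orth_of_irr (hα.congr_linear hT) (fun θ hθ => by rw [hT θ hθ]; exact hα1 θ hθ) h₂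
      hXS hYS hχ hχ' hη hη' (hirr _ (hXS hχ)) (hirr _ (hXS hχ')) (hirr _ (hYS hη))
      (hirr _ (hYS hη')) n1 n2 (hne _ hχ _ hη) (hne _ hχ _ hη') (hne _ hχ' _ hη) (hne _ hχ' _ hη')
  refine ⟨fun χ hχ η hη => ?_, ?_⟩
  · rw [← e₁ χ (mem_zspan_of_mem hχ), ← e₂ η (mem_zspan_of_mem hη), key χ hχ η hη]
  · rintro ⟨χ₀, hχ₀, η₀, hη₀, hb⟩
    have i1 := hirr _ (hXS hχ₀)
    have i2 := hirr _ (hYS hη₀)
    have hm := degree_comb_mem_zspanOn (mem_zspan_of_mem (hYS hη₀)) (mem_zspan_of_mem (hXS hχ₀))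
      i2.virt.exists_int_one i1.virt.exists_int_one
    obtain ⟨ν, hν, -⟩ := h₁.bridge h₂ (fun χ hχ => (hirr _ (hXS hχ)).virt.exists_int_one)
      (fun χ hχ => (hirr _ (hYS hχ)).virt.exists_int_one) hXY
      (fun χ hχ η hη => (hirr _ (hXS hχ)).ci_of_ne (hirr _ (hYS hη)) (hne _ hχ _ hη)) key
      (smul_mem_zspan_of_int i2.virt.exists_int_one (mem_zspan_of_mem hχ₀))
      (smul_mem_zspan_of_int i1.virt.exists_int_one (mem_zspan_of_mem hη₀))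
      (by simp [mul_comm]) (by simp [i1.apply_one_ne_zero, i2.apply_one_ne_zero])
      (by rw [← neg_sub, map_neg, hT _ hm, hb, map_smul, map_smul, e₁ _ (mem_zspan_of_mem hχ₀),
        e₂ _ (mem_zspan_of_mem hη₀), neg_sub])
    refine (hν.congr (fun θ hθ => hT θ (zspanOn_mono (Set.union_subset hXS hYS) _ hθ))).isCoherent
      (exists_ne_zero_of_irr (Or.inl hχ₀) (Or.inr hη₀) i1 i2 (hne _ hχ₀ _ hη₀))

end Cfsg.Agent.S1531
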