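import Cfsg.Statements.S1532
import Cfsg.Agent.PF.Feit

set_option autoImplicit false
open Cfsg

namespace Cfsg.Agent.S1532

open Cfsg.Agent.Char Cfsg.Agent.PF
open scoped ComplexConjugate

/-- Let G be a finite group, p an odd prime and P a Sylow p-subgroup that is non-abelian, whose underlying set is a TI-subset of G, with P properly contained in its set normaliser N and C_G(x) ≤ P for every non-identity x ∈ P. Let Z be a nontrivial subgroup of the centre of P normalised by N. Then the set of irreducible characters χ of N with χ z ≠ χ 1 for some z ∈ Z is coherent for the map induced by induction from N to G. -/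
theorem result {G : Type*} [Group G] [Fintype G] (p : ℕ) [Fact p.Prime] (hp : p ≠ 2) (P : Sylow p G) (hna : ¬ IsMulCommutative (P : Subgroup G)) (hTI : Cfsg.IsTISubset ((P : Subgroup G) : Set G)) (hlt : (P : Subgroup G) < Subgroup.normalizer ((P : Subgroup G) : Set G)) (hC : ∀ k ∈ (P : Subgroup G), k ≠ 1 → Subgroup.centralizer ({k} : Set G) ≤ (P : Subgroup G)) [Fintype ↥(Subgroup.normalizer ((P : Subgroup G) : Set G))] (Z : Subgroup G) (hZ1 : Z ≠ ⊥) (hZP : ∀ z ∈ Z, z ∈ (P : Subgroup G) ∧ ∀ y ∈ (P : Subgroup G), z * y = y * z) (hZn : ∀ x ∈ Subgroup.normalizer ((P : Subgroup G) : Set G), ∀ z ∈ Z, x * z * x⁻¹ ∈ Z) : Cfsg.IsCoherent {χ : ↥(Subgroup.normalizer ((P : Subgroup G) : Set G)) → ℂ | Cfsg.IsIrrCharacter ↥(Subgroup.normalizer ((P : Subgroup G) : Set G)) χ ∧ ∃ z : ↥(Subgroup.normalizer ((P : Subgroup G) : Set G)), (z : G) ∈ Z ∧ χ z ≠ χ 1} {1}ᶜ (fun α => Cfsg.indFun (Subgroup.normalizer ((P : Subgroup G) : Set G)) α) := by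
  have hp' : p.Prime := Fact.out
  have hP := P.isPGroup'
  generalize (P : Subgroup G) = K at *
  obtain rfl : ‹Fintype ↥(Subgroup.normalizer (K : Set G))› = fintypeSubgroup _ :=
    Subsingleton.elim _ _
  have hK1 : K ≠ ⊥ := fun h => hna (h ▸ inferInstance)
  obtain ⟨R, hR⟩ := frobKer_of_cent hlt hK1 le_rfl fun k hk hk1 => inf_le_right.trans (hC k hk hk1)
  have hT := GT.normedTI_sharp_iff.2 ⟨hK1, hTI, rfl⟩
  have hZK : Z ≤ K := fun z hz => (hZP z hz).1
  have hZ : Subgroup.normalizer (K : Set G) ≤ Subgroup.normalizer (Z : Set G) :=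
    GT.le_norm_iff.2 hZn
  obtain ⟨n, hn⟩ := PG.exists_card_eq_pow hP
  have ho : Odd (Nat.card ↥(Subgroup.normalizer (K : Set G))) := by
    rw [← hR.sdprod.card_mul, hn]
    exact (hp'.odd_of_ne_two hp).pow.mul
      (Nat.not_even_iff_odd.1 fun he => hna (frob_comm_of_even hR he))
  rw [setOf_irr_eq_seqIndD hR.frobKer hZ hZK]
  obtain ⟨φ, hφ⟩ := seqIndD_nonempty (L := Subgroup.normalizer (K : Set G)) hZK (hlt.le.trans hZ)
    GT.le_norm_of_normal (bot_lt_iff_ne_bot.2 hZ1)
  exact isCoherent_of_coh (fun _ => frob_seqIndD_irr hR.frobKer)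
    (seqIndD_nontrivial_of_odd hlt.le le_rfl ho hφ) (coh_indFun_of_TI hT
      ((Sibley_coherence_dade ho (GT.nilpotent_of_isPGroup hp' hP) hT (Or.inl hR)).elim_subset
        (seqIndD_mono hZK le_rfl)))

end Cfsg.Agent.S1532
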