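import Cfsg.Statements.S1533
import Cfsg.Agent.PF.Feit

set_option autoImplicit false
open Cfsg

namespace Cfsg.Agent.S1533

open Cfsg.Agent.Char Cfsg.Agent.PF
open scoped ComplexConjugate

/-- Let G be a finite group, p an odd prime, and P a nontrivial Sylow p-subgroup whose underlying set is a TI-subset of G, with P properly contained in its set normaliser N and C_G(x) ≤ P for every non-identity x ∈ P. Let S be the set of irreducible characters χ of N with χ x ≠ χ 1 for some x ∈ P. Then either S has exactly one member, P is elementary abelian and Nat.card P = [N:P] + 1; or (S, N minus 1, induction to G) is coherent. -/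
theorem result {G : Type*} [Group G] [Fintype G] (p : ℕ) [Fact p.Prime] (hp : p ≠ 2) (P : Sylow p G) (hP1 : (P : Subgroup G) ≠ ⊥) (hTI : Cfsg.IsTISubset ((P : Subgroup G) : Set G)) (hlt : (P : Subgroup G) < Subgroup.normalizer ((P : Subgroup G) : Set G)) (hC : ∀ k ∈ (P : Subgroup G), k ≠ 1 → Subgroup.centralizer ({k} : Set G) ≤ (P : Subgroup G)) [Fintype ↥(Subgroup.normalizer ((P : Subgroup G) : Set G))] : (Nat.card {χ : ↥(Subgroup.normalizer ((P : Subgroup G) : Set G)) → ℂ // Cfsg.IsIrrCharacter ↥(Subgroup.normalizer ((P : Subgroup G) : Set G)) χ ∧ ∃ x : ↥(Subgroup.normalizer ((P : Subgroup G) : Set G)), (x : G) ∈ (P : Subgroup G) ∧ χ x ≠ χ 1} = 1 ∧ Cfsg.IsElementaryAbelian p (P : Subgroup G) ∧ Nat.card (P : Subgroup G) = ((P : Subgroup G).subgroupOf (Subgroup.normalizer ((P : Subgroup G) : Set G))).index + 1) ∨ Cfsg.IsCoherent {χ : ↥(Subgroup.normalizer ((P : Subgroup G) : Set G)) → ℂ | Cfsg.IsIrrCharacter ↥(Subgroup.normalizer ((P : Subgroup G) : Set G)) χ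 ∧ ∃ x : ↥(Subgroup.normalizer ((P : Subgroup G) : Set G)), (x : G) ∈ (P : Subgroup G) ∧ χ x ≠ χ 1} {1}ᶜ (fun α => Cfsg.indFun (Subgroup.normalizer ((P : Subgroup G) : Set G)) α) := by
  have hp' : p.Prime := Fact.out
  have hP := P.isPGroup'
  generalize (P : Subgroup G) = K at *
  obtain rfl : ‹Fintype ↥(Subgroup.normalizer (K : Set G))› = fintypeSubgroup _ :=
    Subsingleton.elim _ _
  obtain ⟨R, hR⟩ := frobKer_of_cent hlt hP1 le_rfl fun k hk hk1 => inf_le_right.trans (hC k hk hk1)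
  have hT := GT.normedTI_sharp_iff.2 ⟨hP1, hTI, rfl⟩
  have hS := setOf_irr_eq_seqIndD hR.frobKer le_rfl le_rfl
  have huniq : ∀ q : ℕ, q.Prime → IsPGroup q K → q = p := fun q hq h => by
    obtain ⟨n, hn⟩ := PG.exists_card_eq_pow hP
    exact (Nat.prime_dvd_prime_iff_eq hq hp').1
      (hq.dvd_of_dvd_pow (hn ▸ GT.prime_dvd_card_of_isPGroup hq h hP1))
  rcases frob_nontrivial_or hR (GT.solvable_of_isPGroup hp' hP) with h | ⟨h1, h2, q, hq, h3⟩
  · right
    rw [hS]
    refine isCoherent_of_coh (fun _ => frob_seqIndD_irr hR.frobKer) h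
      ((Feit_Sibley hR (GT.nilpotent_of_isPGroup hp' hP) hT).resolve_right fun h' => ?_)
    exact hp (huniq 2 Nat.prime_two h'.1).symm
  · left
    refine ⟨by rw [← h1, ← hS]; rfl, huniq q hq (GT.isPGroup_of_elementary h3) ▸ h3, ?_⟩
    rw [h2, ← hR.sdprod.relIndex]; rfl

end Cfsg.Agent.S1533
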