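import Cfsg.Statements.S1534
import Cfsg.Agent.PF.Feit

set_option autoImplicit false
open Cfsg

namespace Cfsg.Agent.S1534

open Cfsg.Agent.Char Cfsg.Agent.PF
open scoped ComplexConjugate

/-- Let G be a finite group and K a nontrivial nilpotent subgroup whose underlying set is a TI-subset of G, properly contained in its set normaliser N, with C_G(k) ≤ K for every non-identity k ∈ K; let e be the index of K in N and S the set of irreducible characters χ of N with χ k ≠ χ 1 for some k ∈ K. Then one of: S has exactly one member, Nat.card K = e + 1 and K is an elementary abelian p-group for some prime p; or K is a Sylow 2-subgroup of G (Nat.card K is the largest power of 2 dividing Nat.card G) and [K : [K,K]] < 4e²; or (S, N minus 1, induction to G) is coherent. -/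
theorem result {G : Type*} [Group G] [Fintype G] (K : Subgroup G) (hK1 : K ≠ ⊥) (hnil : Group.IsNilpotent K) (hTI : Cfsg.IsTISubset (K : Set G)) (hlt : K < Subgroup.normalizer (K : Set G)) (hC : ∀ k ∈ K, k ≠ 1 → Subgroup.centralizer ({k} : Set G) ≤ K) [Fintype ↥(Subgroup.normalizer (K : Set G))] : (Nat.card {χ : ↥(Subgroup.normalizer (K : Set G)) → ℂ // Cfsg.IsIrrCharacter ↥(Subgroup.normalizer (K : Set G)) χ ∧ ∃ k : ↥(Subgroup.normalizer (K : Set G)), (k : G) ∈ K ∧ χ k ≠ χ 1} = 1 ∧ Nat.card K = (K.subgroupOf (Subgroup.normalizer (K : Set G))).index + 1 ∧ ∃ p : ℕ, p.Prime ∧ Cfsg.IsElementaryAbelian p K) ∨ (Nat.card K = 2 ^ (Nat.card G).factorization 2 ∧ (⁅K, K⁆.subgroupOf K).index < 4 * (K.subgroupOf (Subgroup.normalizer (K : Set G))).index ^ 2) ∨ Cfsg.IsCoherent {χ : ↥(Subgroup.normalizer (K : Set G)) → ℂ | Cfsg.IsIrrCharacter ↥(Subgroup.normalizer (K : Set G)) χ ∧ ∃ k : ↥(Subgroup.normalizer (K : Set G)), (k : G) ∈ K ∧ χ k ≠ χ 1} {1}ᶜ (fun α => Cfsg.indFun (Subgroup.normalizer (K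 : Set G)) α) := by
  obtain rfl : ‹Fintype ↥(Subgroup.normalizer (K : Set G))› = fintypeSubgroup _ :=
    Subsingleton.elim _ _
  obtain ⟨R, hR⟩ := frobKer_of_cent hlt hK1 le_rfl fun k hk hk1 => inf_le_right.trans (hC k hk hk1)
  have hT := GT.normedTI_sharp_iff.2 ⟨hK1, hTI, rfl⟩
  have hS := setOf_irr_eq_seqIndD hR.frobKer le_rfl le_rfl
  have he : (K.subgroupOf (Subgroup.normalizer (K : Set G))).index = Nat.card R :=
    hR.sdprod.relIndex
  rcases frob_nontrivial_or hR inferInstance with h | ⟨h1, h2, h3⟩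
  · right
    rcases Feit_Sibley hR hnil hT with h' | ⟨h2, ho, h3⟩
    · right
      rw [hS]
      exact isCoherent_of_coh (fun _ => frob_seqIndD_irr hR.frobKer) h h'
    · left
      refine ⟨?_, by rw [he]; exact h3⟩
      have := Fact.mk Nat.prime_two
      obtain ⟨Q, hQ⟩ := GT.exists_sylow_of_syl_top Nat.prime_two (GT.syl_top_of_norm_le Nat.prime_two
        (GT.syl_mk Nat.prime_two hlt.le h2 (by
          rw [hR.sdprod.relIndex]; exact fun h => Nat.not_even_iff_odd.2 ho (even_iff_two_dvd.2 h)))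
        le_rfl)
      rw [← hQ, Q.card_eq_multiplicity]
  · left
    exact ⟨by rw [← h1, ← hS]; rfl, by rw [h2, he], h3⟩

end Cfsg.Agent.S1534
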