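import Cfsg.Statements.S1535
import Cfsg.Agent.PF.Feit
import Cfsg.Agent.PF.S06Top
import Cfsg.Agent.Cls.GThompson

set_option autoImplicit false
open Cfsg

namespace Cfsg.Agent.S1535

open Cfsg.Agent.Char Cfsg.Agent.PF

/-- Let N be a finite group with a proper nontrivial normal subgroup H such that every element commuting with a non-identity element of H lies in H (N is a Frobenius group with kernel H); let e be the index of H and suppose Nat.card H ≠ e + 1. Let S be the set of irreducible characters χ of N with χ h ≠ χ 1 for some h ∈ H, and τ a linear isometry on the integer combinations of S vanishing at 1, with values virtual characters of a finite group G vanishing at 1. Then (S, N minus 1, τ) is coherent, or there is a prime p with Nat.card H a power of p, H non-abelian and [H : [H,H]] ≤ 4e² + 1. -/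
theorem result {N : Type*} [Group N] [Fintype N] {G : Type*} [Group G] [Fintype G] (H : Subgroup N) [H.Normal] (hH1 : H ≠ ⊥) (hH2 : H ≠ ⊤) (hC : ∀ h ∈ H, h ≠ 1 → Subgroup.centralizer ({h} : Set N) ≤ H) (he : Nat.card H ≠ H.index + 1) (τ : (N → ℂ) → (G → ℂ)) (hτ : Cfsg.IsLinearIsometryOn (Cfsg.zspanOn {χ : N → ℂ | Cfsg.IsIrrCharacter N χ ∧ ∃ h ∈ H, χ h ≠ χ 1} {1}ᶜ) τ) (hτ1 : ∀ α ∈ Cfsg.zspanOn {χ : N → ℂ | Cfsg.IsIrrCharacter N χ ∧ ∃ h ∈ H, χ h ≠ χ 1} {1}ᶜ, τ α 1 = 0) : Cfsg.IsCoherent {χ : N → ℂ | Cfsg.IsIrrCharacter N χ ∧ ∃ h ∈ H, χ h ≠ χ 1} {1}ᶜ τ ∨ ∃ p : ℕ, p.Prime ∧ (∃ m : ℕ, Nat.card H = p ^ m) ∧ ¬ IsMulCommutative H ∧ (⁅H, H⁆.subgroupOf H).index ≤ 4 * H.index ^ 2 + 1 := by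
  obtain ⟨R, hR⟩ := PF.frobKer_of_cent (L := ⊤) (lt_top_iff_ne_top.2 hH2) hH1 GT.le_norm_of_normal
    fun k hk hk1 => inf_le_right.trans (hC k hk hk1)
  have hnil := Cls.frobenius_kernel_nil hR
  have hi : H.index = Nat.card R := by rw [← hR.sdprod.relIndex, Subgroup.relIndex_top_right]
  set S : Set (N → ℂ) := {χ : N → ℂ | Cfsg.IsIrrCharacter N χ ∧ ∃ h ∈ H, χ h ≠ χ 1} with hSdef
  have hS : PF.pb Subgroup.topEquiv.symm ⁻¹' S = PF.seqIndD H ⊤ H ⊥ := by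
    rw [← PF.setOf_irr_eq_seqIndD hR.frobKer GT.le_norm_of_normal le_rfl]
    ext χ
    constructor
    · rintro ⟨h1, h, hh, h2⟩
      exact ⟨PF.pb_symm_pb Subgroup.topEquiv.symm χ ▸ h1.comp_equiv _, ⟨h, trivial⟩, hh, h2⟩
    · rintro ⟨h1, h, hh, h2⟩
      exact ⟨h1.comp_equiv _, h, hh, h2⟩
  obtain ⟨T, hT⟩ := hτ.exists_linearMap
  have h1 := PF.isometry_pb Subgroup.topEquiv.symm (hτ.congr_linear hT)
  have h2 : ∀ α ∈ zspanOn (PF.pb Subgroup.topEquiv.symm ⁻¹' S) {1}ᶜ,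
      (T ∘ₗ PF.pb Subgroup.topEquiv.symm) α 1 = 0 := fun α hα => by
    have := PF.pb_mem_zspanOn _ hα
    rw [LinearMap.comp_apply, hT _ this, hτ1 _ this]
  rw [hS] at h1 h2
  by_cases hc : PF.Coh (PF.seqIndD H ⊤ H ⊥) (T ∘ₗ PF.pb Subgroup.topEquiv.symm)
  · left
    rcases PF.frob_nontrivial_or hR inferInstance with h | ⟨-, h, -⟩
    · rw [← hS] at h hc
      obtain ⟨ν, hν⟩ := (PF.coh_pb_iff _).1 hc
      refine PF.isCoherent_of_coh (fun χ hχ => hχ.1) ?_ ⟨ν, hν.congr hT⟩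
      obtain ⟨a, ha, b, hb, hab⟩ := h
      exact ⟨_, ha, _, hb, fun e => hab (PF.pb_injective _ e)⟩
    · exact absurd (hi ▸ h) he
  · right
    obtain ⟨h3, -, h4, p, hp, h5⟩ := PF.Feit_coherence hR hnil (PF.cohProp_irr
      (fun _ => PF.frob_seqIndD_irr hR.frobKer) (fun _ => PF.conj_seqIndD) h1 h2) hc
    have := Fact.mk hp
    exact ⟨p, hp, IsPGroup.iff_card.1 h5, h3, hi ▸ h4⟩

end Cfsg.Agent.S1535
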