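import Cfsg.Statements.S1536
import Cfsg.Agent.PF.Normal

set_option autoImplicit false
open Cfsg

namespace Cfsg.Agent.S1536

open Cfsg.Agent.Char Cfsg.Agent.PF
open scoped ComplexConjugate

/-- Let H be a normal subgroup of the finite group M whose order is coprime to its index. For x ∈ M: some non-principal irreducible character of H is unchanged under h ↦ θ(x h x⁻¹) if and only if some non-identity element of H commutes with x. -/
theorem result {M : Type*} [Group M] [Finite M] (H : Subgroup M) [hN : H.Normal] (hHall : Nat.Coprime (Nat.card H) H.index) (x : M) : (∃ θ : H → ℂ, Cfsg.IsIrrCharacter H θ ∧ θ ≠ (fun _ => 1) ∧ (fun h : H => θ ⟨x * h * x⁻¹, hN.conj_mem h h.2 x⟩) = θ) ↔ ∃ h ∈ H, h ≠ 1 ∧ x * h = h * x := by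
  let E := NormalEmb.ofNormal H
  constructor
  · rintro ⟨θ, hθ, hne, hfix⟩
    let π : Set ℕ := {p | p ∣ Nat.card H}
    have hy : GT.constt π x ∈ H := by
      rw [← QuotientGroup.eq_one_iff, ← orderOf_eq_one_iff]
      by_contra h1
      obtain ⟨p, hp, hpd⟩ := Nat.exists_prime_and_dvd h1
      have h2 : p ∣ Nat.card H := GT.piNat_constt π x p hp
        (hpd.trans (orderOf_map_dvd (QuotientGroup.mk' H) _))
      exact hp.one_lt.ne' (Nat.eq_one_of_dvd_coprimes hHall h2 (hpd.trans (orderOf_dvd_natCard _)))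
    by_cases h1 : GT.constt π x = 1
    · have hcop : Nat.Coprime (orderOf x) (Nat.card H) :=
        Nat.coprime_of_dvd fun p hp h2 h3 => GT.constt_eq_one_iff.1 h1 p hp h2 h3
      by_contra hn
      push Not at hn
      refine hne (E.eq_one_of_fixed hcop (fun h hh => ?_) hθ hfix)
      by_contra h2
      exact hn h h.2 (fun H => h2 (Subtype.ext H)) (E.act_eq_iff.1 hh)
    · exact ⟨_, hy, h1, (GT.commute_constt π x).symm⟩
  · rintro ⟨h, hh, h1, hc⟩
    have : E.act x ⟨h, hh⟩ = ⟨h, hh⟩ := E.act_eq_iff.2 hc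
    exact E.exists_fixed_irr (h := ⟨h, hh⟩) (fun H => h1 (congrArg Subtype.val H)) (by rw [this])

end Cfsg.Agent.S1536
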