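import Cfsg.Statements.S5345
import Cfsg.Agent.TT.Basic

set_option autoImplicit false
open Cfsg

namespace Cfsg.Agent.S5345

/-- Let D be a conjugation-invariant generating set of 3-transpositions of a finite group G and T a Sylow 2-subgroup of G. Then the members of D lying in T generate an abelian subgroup, and their number is the width of D (the largest number of pairwise commuting members of D). -/
theorem result {G : Type*} [Group G] [Finite G] {D : Set G} (hD : Cfsg.IsThreeTranspositionGroup D) (T : Sylow 2 G) : IsMulCommutative (Subgroup.closure {d : G | d ∈ D ∧ d ∈ T}) ∧ {d : G | d ∈ D ∧ d ∈ T}.ncard = Cfsg.commutingWidth D := by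
  classical
  have hcomm : ∀ T : Sylow 2 G, ∀ a ∈ {d : G | d ∈ D ∧ d ∈ T}, ∀ b ∈ {d : G | d ∈ D ∧ d ∈ T},
      Commute a b := by
    rintro T a ⟨ha, ha'⟩ b ⟨hb, hb'⟩
    obtain ⟨k, hk⟩ := TT.exists_pow_eq_one_of_isPGroup T.isPGroup'
      ((T : Subgroup G).mul_mem ha' hb')
    exact hD.1.commute_of_pow ha hb (Nat.Coprime.pow_left k (by norm_num)) hk
  refine ⟨Subgroup.isMulCommutative_closure (fun a ha b hb => (hcomm T a ha b hb).eq), ?_⟩
  symm
  unfold commutingWidth
  apply IsGreatest.csSup_eq
  refine ⟨⟨_, fun d hd => hd.1, Set.toFinite _, hcomm T, rfl⟩, ?_⟩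
  rintro n ⟨E, hE, -, hc, rfl⟩
  have hP : IsPGroup 2 (Subgroup.closure E) := by
    apply TT.isPGroup_of_forall
    intro x hx
    refine ⟨1, ?_⟩
    rw [pow_one]
    have hcc : ∀ x ∈ Subgroup.closure E, ∀ y ∈ Subgroup.closure E, x * y = y * x :=
      GT.isMulCommutative_iff_forall.1
        (Subgroup.isMulCommutative_closure (fun a ha b hb => (hc a ha b hb).eq))
    induction hx using Subgroup.closure_induction with
    | mem x hx => rw [pow_two, hD.1.sq (hE hx)]
    | one => simp
    | mul x y hx hy h1 h2 => rw [Commute.mul_pow (hcc x hx y hy), h1, h2, one_mul]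
    | inv x hx h => rw [inv_pow, h, inv_one]
  obtain ⟨g, -, hg⟩ := GT.syl_exists_conj_le Nat.prime_two
    (GT.syl_top_of_sylow Nat.prime_two T) hP le_top
  apply Set.ncard_le_ncard_of_injOn (fun x => g * x * g⁻¹)
  · intro x hx
    exact ⟨hD.2.1 g x (hE hx), hg (GT.conj_mem_conj.2 (Subgroup.subset_closure hx))⟩
  · intro x _ y _ h
    simpa using h

end Cfsg.Agent.S5345
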