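import Cfsg.Statements.S5346
import Cfsg.Agent.TT.Three

set_option autoImplicit false
open Cfsg

namespace Cfsg.Agent.S5346

open Cfsg.Agent.TT Cfsg.Agent.GT Subgroup

/-- Let D be a conjugation-invariant generating set of 3-transpositions of a finite group G and d a member of D. Then D has width 1 (no two different members of D commute) if and only if G is the product of the subgroup generated by d with the largest normal 3-subgroup of G. -/
theorem result {G : Type*} [Group G] [Finite G] {D : Set G} (hD : Cfsg.IsThreeTranspositionGroup D) {d : G} (hd : d ∈ D) : Cfsg.commutingWidth D = 1 ↔ Subgroup.zpowers d ⊔ Cfsg.pCore 3 G = ⊤ := by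
  have h := hD.t3
  have hb : BddAbove {n : ℕ | ∃ E : Set G, E ⊆ D ∧ E.Finite ∧ (∀ a ∈ E, ∀ b ∈ E, Commute a b) ∧
      E.ncard = n} := ⟨Nat.card G, by rintro _ ⟨E, -, -, -, rfl⟩; exact Set.ncard_le_card E⟩
  have h1 : commutingWidth D = 1 ↔ ∀ a ∈ D, ∀ b ∈ D, Commute a b → a = b := by
    constructor
    · intro e a ha b hb' hc
      by_contra hn
      have : 2 ≤ commutingWidth D := le_csSup hb ⟨{a, b}, by rintro _ (rfl | rfl) <;> assumption,
        Set.toFinite _, by
          rintro _ (rfl | rfl) _ (rfl | rfl)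
          exacts [Commute.refl _, hc, hc.symm, Commute.refl _], Set.ncard_pair hn⟩
      omega
    · intro e
      refine le_antisymm (csSup_le' ?_) (le_csSup hb ⟨{d}, by simpa using hd, Set.toFinite _,
        by simp, by simp⟩)
      rintro _ ⟨E, h1, h2, h3, rfl⟩
      exact (Set.ncard_le_one h2).2 fun a ha b hb => e a (h1 ha) b (h1 hb) (h3 a ha b hb)
  rw [h1]
  constructor
  · intro e
    rw [eq_top_iff, ← hD.2.2, closure_le]
    intro a ha
    simpa [h.cc hd] using mul_mem (mem_sup_left (mem_zpowers d))
      (mem_sup_right (mul_mem_pCore_three hD.1 hD.2.1 e hd ha) : _ ∈ zpowers d ⊔ pCore 3 G)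
  · intro e
    have k : ∀ a ∈ D, d * a ∈ pCore 3 G := fun a ha => by
      obtain ⟨x, hx, y, hy, rfl⟩ := (mem_sup_of_le_norm le_norm_of_normal).1 (e ▸ mem_top a)
      rcases (mem_zpowers_of_sq (h.sq hd)).1 hx with rfl | rfl
      · rw [one_mul] at ha
        exact absurd (eq_one_of_isPGroup_of_pow pCore_isPGroup hy (n := 2) (by decide)
          (by rw [pow_two, h.sq ha])) (h.ts.ne_one ha)
      · rwa [h.cc hd]
    exact fun a ha b hb => h.eq_of_three pCore_isPGroup ha hb
      (by simpa [h.inv ha, h.inv hd, mul_assoc, h.cc hd] using mul_mem (inv_mem (k a ha)) (k b hb))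

end Cfsg.Agent.S5346
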