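import Cfsg.Statements.S5347
import Cfsg.Agent.TT.Basic

set_option autoImplicit false
open Cfsg

namespace Cfsg.Agent.S5347

/-- Let D be a conjugation-invariant generating set of 3-transpositions of a finite group G, p a prime bigger than 3, and P a p-subgroup of G. If a member d of D normalizes P then d centralizes P. -/
theorem result {G : Type*} [Group G] [Finite G] {D : Set G} (hD : Cfsg.IsThreeTranspositionGroup D) {p : ℕ} (hp : p.Prime) (hp3 : 3 < p) (P : Subgroup G) (hP : IsPGroup p P) {d : G} (hd : d ∈ D) (hnorm : d ∈ Subgroup.normalizer (P : Set G)) : ∀ x ∈ P, Commute d x := by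
  intro x hx
  have hd2 := hD.1.sq hd
  have h1 : d * (x * d * x⁻¹) ∈ P := by
    have := GT.conj_mem_of_mem_norm hnorm hx
    rw [hD.1.inv hd] at this
    simpa [mul_assoc] using P.mul_mem this (P.inv_mem hx)
  have h2 : d * (x * d * x⁻¹) = 1 := by
    rcases hD.1.2 d hd _ (hD.2.1 x d hd) with h | h
    · exact TT.eq_one_of_isPGroup_of_pow hP h1
        ((Nat.coprime_primes hp Nat.prime_two).2 (by omega)) h
    · exact TT.eq_one_of_isPGroup_of_pow hP h1
        ((Nat.coprime_primes hp Nat.prime_three).2 (by omega)) h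
  have h3 : x * d * x⁻¹ = d := by
    rw [eq_inv_of_mul_eq_one_right h2, hD.1.inv hd]
  exact (TT.commute_iff_conj.2 h3).symm

end Cfsg.Agent.S5347
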