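import Cfsg.Statements.S5354
import Cfsg.Agent.TT.ThreeC

set_option autoImplicit false
open Cfsg

namespace Cfsg.Agent.S5354

open Cfsg.Agent.TT Cfsg.Agent.GT Subgroup

/-- Let D be a conjugation-invariant generating set of 3-transpositions of the finite group G on which G acts primitively by conjugation, and suppose two different members of D commute (width at least 2). Then G has a quasisimple normal subgroup L of index at most 2 with the generalized Fitting subgroup of G equal to L times the centre, the commuting graph of D is connected, and for d in D the subgroup generated by the members of D commuting with d is a maximal D-subgroup: it is proper, and every subgroup generated by members of D that contains it is either it or G. -/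
theorem result {G : Type*} [Group G] [Finite G] {D : Set G} (hD : Cfsg.IsThreeTranspositionGroup D) (hprim : Cfsg.IsPrimitiveUnderConj D) (hw : ∃ a ∈ D, ∃ b ∈ D, a ≠ b ∧ Commute a b) : (∃ L : Subgroup G, L.Normal ∧ Cfsg.IsQuasisimple L ∧ L.index ≤ 2 ∧ Cfsg.generalizedFittingSubgroup G = L ⊔ Subgroup.center G) ∧ (Cfsg.commutingGraph D).Connected ∧ ∀ d ∈ D, Subgroup.closure {y : G | y ∈ D ∧ Commute d y} ≠ ⊤ ∧ ∀ H : Subgroup G, Cfsg.IsDSubgroup D H → Subgroup.closure {y : G | y ∈ D ∧ Commute d y} ≤ H → H = Subgroup.closure {y : G | y ∈ D ∧ Commute d y} ∨ H = ⊤ := by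
  have hC := isClass_of_prim hD hprim
  obtain ⟨h2, h3, hc⟩ := of_prim hC hprim hw
  obtain ⟨L, hn, hL, hF⟩ := exists_qs_normal hC hprim.2.1 h2 h3
  refine ⟨⟨L, hn, qs_iff.1 hL, index_of_connected hC hprim.2.1 h2 h3 hL hc, hF⟩, hc, fun d hd =>
    ⟨fun e => ?_, fun H hH hle => or_iff_not_imp_left.2 (maximal_perp hC hprim hc hd hH hle)⟩⟩
  obtain ⟨x, -, hn⟩ := hC.exists_not_commute hprim.2.1 hd
  have : closure {y : G | y ∈ D ∧ Commute d y} ≤ C1[d] :=
    (closure_le _).2 fun y hy => mem_cent1.2 hy.2.symm
  exact hn (Commute.symm (mem_cent1.1 (this (e ▸ mem_top x))))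

end Cfsg.Agent.S5354
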