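import Cfsg.Statements.S5355
import Cfsg.Agent.TT.ThreeC
import Cfsg.Agent.TT.WordsData

set_option autoImplicit false
open Cfsg

namespace Cfsg.Agent.S5355

open Cfsg.Agent.TT Cfsg.Agent.GT Subgroup

/-- Let D be a conjugacy class of 3-transpositions generating the finite group G, with at least two members, and d a member of D. Suppose that every member of D commuting with d commutes with exactly the same members of D as d does, and that exactly one member of D other than d commutes with d. Then G is isomorphic to the symmetric group of degree 4. -/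
theorem result {G : Type*} [Group G] [Finite G] {D : Set G} (hD : Cfsg.IsThreeTranspositionClass D) (hD2 : ∃ a ∈ D, ∃ b ∈ D, a ≠ b) {d : G} (hd : d ∈ D) (hV : {y : G | y ∈ D ∧ Commute d y} = {v : G | v ∈ D ∧ ∀ e ∈ D, Commute v e ↔ Commute d e}) (hm : {y : G | y ∈ D ∧ Commute d y}.ncard = 2) : Nonempty (G ≃* Equiv.Perm (Fin 4)) := by
  have h := hD.t3
  have uq : ∀ x ∈ D, ∃ x' ∈ D, x' ≠ x ∧ Commute x x' ∧ rV D x x' ∧
      ∀ y ∈ D, Commute x y → y = x ∨ y = x' := fun x hx => by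
    obtain ⟨g, rfl⟩ := hD.exists_conj hd hx
    obtain ⟨u, v, hne, e⟩ := Set.ncard_eq_two.1 hm
    obtain ⟨w, hw, hw1, hw2⟩ : ∃ w ∈ {y : G | y ∈ D ∧ Commute d y}, w ≠ d ∧
        ∀ y ∈ {y : G | y ∈ D ∧ Commute d y}, y = d ∨ y = w := by
      have : d ∈ {y : G | y ∈ D ∧ Commute d y} := ⟨hd, Commute.refl d⟩
      rw [e] at this ⊢
      rcases this with rfl | rfl
      exacts [⟨v, by simp, hne.symm, by simp⟩, ⟨u, by simp, hne, by simp⟩]
    refine ⟨_, h.cj g w hw.1, by rwa [Ne, conj_inj_iff], (commute_conj_iff g).2 hw.2,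
      h.blkV.conj g (hV.le hw).2, fun y hy e => ?_⟩
    refine (hw2 _ ⟨h.cj _ y hy, commute_conj_left.1 e⟩).imp (fun e => ?_) fun e => ?_ <;>
      rw [← e] <;> group
  choose! pr p1 p2 p3 p4 p5 using uq
  have pc : ∀ g : G, ∀ x ∈ D, g * pr x * g⁻¹ = pr (g * x * g⁻¹) := fun g x hx =>
    (p5 _ (h.cj g x hx) _ (h.cj g _ (p1 x hx)) ((commute_conj_iff g).2 (p3 x hx))).resolve_left
      (by rw [conj_inj_iff]; exact p2 x hx)
  have hom : ∀ x ∈ D, ∀ y ∈ D, ¬ Commute x y → ∃ φ : Equiv.Perm (Fin 4) →* G,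
      φ (Equiv.swap 0 1) = x ∧ φ (Equiv.swap 1 2) = y ∧ φ (Equiv.swap 2 3) = pr x ∧
      φ (Equiv.swap 0 3) = pr y ∧ Function.Injective φ := fun x hx y hy hn => by
    obtain ⟨φ, f1, f2, f3⟩ := Wd.exists_hom_S4 (h.sq hx) (h.sq hy) (h.sq (p1 x hx)) (h.br hx hy hn)
      (h.br hy (p1 x hx) fun c => hn ((p4 x hx y hy).1 c.symm)) (p3 x hx)
    have hi := Wd.injective_S4 φ (by rw [f1, f3]; exact (p2 x hx).symm)
    refine ⟨φ, f1, f2, f3, (p5 y hy _ ?_ ?_).resolve_left ?_, hi⟩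
    · rw [show (Equiv.swap 0 3 : Equiv.Perm (Fin 4)) = Equiv.swap 0 1 * Equiv.swap 2 3 *
        Equiv.swap 1 2 * (Equiv.swap 0 1 * Equiv.swap 2 3)⁻¹ by decide, map_mul, map_mul, f2, map_inv]
      exact h.cj _ y hy
    · rw [← f2]; exact Commute.map (commute_iff_conj.2 (by decide)) φ
    · rw [← f2]; exact fun e => absurd (hi e) (by decide)
  have t1 : ∀ x ∈ D, ∀ y ∈ D, ¬ Commute x y → x * (y * pr y) * x⁻¹ = x * pr x * (y * pr y) ∧
      Commute (x * pr x) (y * pr y) := fun x hx y hy hn => by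
    obtain ⟨φ, f1, f2, f3, f4, -⟩ := hom x hx y hy hn
    rw [← f4, ← f3, ← f2, ← f1]
    simp only [← map_mul, ← map_inv]
    exact ⟨congrArg φ (by decide), Commute.map (commute_iff_conj.2 (by decide)) φ⟩
  obtain ⟨e, he, hn⟩ := hD.exists_not_commute hD2 hd
  obtain ⟨φ, f1, f2, f3, f4, hi⟩ := hom d hd e he hn
  refine ⟨(MulEquiv.ofBijective φ ⟨hi, MonoidHom.range_eq_top.1 ?_⟩).symm⟩
  rw [eq_top_iff, ← hD.2.2, closure_le]
  intro z hz
  have m1 : d ∈ φ.range := ⟨_, f1⟩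
  have m2 : e ∈ φ.range := ⟨_, f2⟩
  have m3 : pr d ∈ φ.range := ⟨_, f3⟩
  have m4 : pr e ∈ φ.range := ⟨_, f4⟩
  by_cases c1 : Commute d z
  · rcases p5 d hd z hz c1 with rfl | rfl <;> assumption
  by_cases c2 : Commute e z
  · rcases p5 e he z hz c2 with rfl | rfl <;> assumption
  have hg := h.cj e z hz
  have a1 : e * z * e⁻¹ * pr (e * z * e⁻¹) = e * pr e * (z * pr z) := by
    rw [← pc e z hz, ← (t1 e he z hz c2).1]; group
  have a2 : Commute (e * z * e⁻¹ * pr (e * z * e⁻¹)) d := by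
    rw [a1, Commute.symm_iff, commute_iff_conj, show d * (e * pr e * (z * pr z)) * d⁻¹ =
      d * (e * pr e) * d⁻¹ * (d * (z * pr z) * d⁻¹) by group, (t1 d hd e he hn).1, (t1 d hd z hz c1).1,
      (t1 d hd e he hn).2.eq, mul_assoc, ← mul_assoc (d * pr d),
      mul_self_of_commute (h.sq hd) (h.sq (p1 d hd)) (p3 d hd), one_mul]
  have a3 := (h.commute_iff_of_rV hg (p1 _ hg) (p4 _ hg) (p2 _ hg).symm hd).1 a2
  have a4 : e * z * e⁻¹ ∈ φ.range := by
    rcases p5 d hd _ hg a3.symm with q | q <;> rw [q] <;> assumption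
  simpa [mul_assoc] using mul_mem (mul_mem (inv_mem m2) a4) m2

end Cfsg.Agent.S5355
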