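import Cfsg.Statements.S5356
import Cfsg.Agent.TT.ThreeC

set_option autoImplicit false
open Cfsg

namespace Cfsg.Agent.S5356

open Cfsg.Agent.TT Cfsg.Agent.GT Subgroup

/-- Let D be a conjugacy class of 3-transpositions generating the finite group G, with at least two members, and d a member of D such that every member of D commuting with d commutes with exactly the same members of D as d. Then there is a Sylow 3-subgroup P of G normalized by d such that G is generated by d, P and the largest normal 2-subgroup of G. -/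
theorem result {G : Type*} [Group G] [Finite G] {D : Set G} (hD : Cfsg.IsThreeTranspositionClass D) (hD2 : ∃ a ∈ D, ∃ b ∈ D, a ≠ b) {d : G} (hd : d ∈ D) (hV : {y : G | y ∈ D ∧ Commute d y} = {v : G | v ∈ D ∧ ∀ e ∈ D, Commute v e ↔ Commute d e}) : ∃ P : Sylow 3 G, d ∈ Subgroup.normalizer (P : Set G) ∧ Subgroup.zpowers d ⊔ (P : Subgroup G) ⊔ Cfsg.pCore 2 G = ⊤ := by
  have h := hD.t3
  have := Fact.mk Nat.prime_three
  have hQ : ∀ a ∈ D, ∀ b ∈ D, Commute a b → a * b ∈ pCore 2 G := fun a ha b hb hc => by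
    obtain ⟨g, rfl⟩ := hD.exists_conj hd ha
    have := h.blkV.conj g (hV.le ⟨h.cj _ b hb, commute_conj_left.1 hc⟩).2
    exact h.mul_mem_two ha hb (by simpa [mul_assoc] using this)
  obtain ⟨e, he, hn⟩ := hD.exists_not_commute hD2 hd
  have inv3 : ∀ a ∈ D, d ∈ N[zpowers (d * a)] := fun a ha => mem_normalizer_of_conj_le (by
    rw [conj_zpowers, zpowers_le, show d * (d * a) * d⁻¹ = (d * a)⁻¹ by
      simp [h.cc hd, h.inv ha, h.inv hd]]
    exact inv_mem (mem_zpowers _))
  obtain ⟨Y, ⟨h3, hdY⟩, hY, hmax⟩ := exists_maximal_ge (S := {Y : Subgroup G | IsPGroup 3 Y ∧ d ∈ N[Y]})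
    (H := zpowers (d * e)) ⟨isPGroup_zpowers (n := 1) (by simpa using h.ts.cube hd he hn), inv3 e he⟩
  have ext : ∀ x ∈ N[Y], IsPGroup 3 (zpowers x) → d ∈ N[zpowers x] → x ∈ Y := fun x hx h1 h2 => by
    rw [← hmax (zpowers x ⊔ Y) ⟨IsPGroup.to_sup_of_normal_right' h1 h3 (zpowers_le.2 hx),
      zpowers_le.1 (le_norm_sup (zpowers_le.2 h2) (zpowers_le.2 hdY))⟩ le_sup_right]
    exact mem_sup_left (mem_zpowers x)
  have key : ∀ u ∈ N[Y], d * (u * d * u⁻¹) ∈ Y := fun u hu => by
    have hs := h.cj u d hd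
    have m : d * (u * d * u⁻¹) ∈ N[Y] := mul_mem hdY (mul_mem (mul_mem hu hdY) (inv_mem hu))
    generalize u * d * u⁻¹ = s at *
    by_cases hc : Commute d s
    swap
    · exact ext _ m (isPGroup_zpowers (n := 1) (by simpa using h.ts.cube hd hs hc)) (inv3 s hs)
    have m2 := hQ d hd s hs hc
    have c1 : Commute (d * e) (d * s) := by
      have : d * s * (d * e) * (d * s)⁻¹ * (d * e)⁻¹ ∈ pCore 2 G ⊓ Y :=
        mem_inf.2 ⟨by simpa [mul_assoc] using mul_mem m2 (Normal.conj_mem inferInstance _ (inv_mem m2) (d * e)),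
          mul_mem (conj_mem_of_mem_norm m (hY (mem_zpowers _))) (inv_mem (hY (mem_zpowers _)))⟩
      rw [disjoint_iff.1 (IsPGroup.disjoint_of_ne 2 3 (by decide) _ _ pCore_isPGroup h3), mem_bot,
        mul_inv_eq_one] at this
      exact (commute_iff_conj.2 this).symm
    have c2 : Commute e (d * s) := by
      simpa [h.cc hd] using ((Commute.refl d).mul_right hc).mul_left c1
    rw [← h.eq_of_commute_mul hd hs he (fun c => hn c.symm) (fun c => hn ?_) c2, h.sq hd]
    · exact one_mem _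
    · simpa [mul_assoc, h.sq hs] using (c2.mul_right c).symm
  have hS : IsPiHallOf {3} Y ⊤ := by
    refine syl_top_of_norm_le Nat.prime_three (syl_of_maximal Nat.prime_three h3 le_normalizer
      fun P hP h1 h2 => le_antisymm (fun x hx => ?_) h1) le_rfl
    have m := key x (h2 hx)
    have hs := h.cj x d hd
    obtain ⟨y, hy, q⟩ : ∃ y ∈ Y, x * d * x⁻¹ = y * d * y⁻¹ := by
      by_cases q : d = x * d * x⁻¹
      · exact ⟨1, one_mem _, by simp [← q]⟩
      · exact ⟨_, m, (h.conj_br hd hs fun c => q (h.eq_of_three h3 hd hs m c)).symm⟩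
    have c : Commute d (y⁻¹ * x) := (commute_iff_conj.2 (by rw [← conj_inj_iff y, ← q]; group)).symm
    have := ext (y⁻¹ * x) (h2 (mul_mem (inv_mem (h1 hy)) hx))
      (hP.to_le (zpowers_le.2 (mul_mem (inv_mem (h1 hy)) hx)))
      (cent_le_norm _ (by rw [cent_zpowers]; exact mem_cent1.2 c))
    simpa using mul_mem hy this
  obtain ⟨P, rfl⟩ := exists_sylow_of_syl_top Nat.prime_three hS
  refine ⟨P, hdY, ?_⟩
  rw [sup_assoc]
  refine sup_eq_top_of_forall h hD.2.2 hd fun a ha => ?_
  set π := QuotientGroup.mk' (pCore 2 G) with hπ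
  have hk : ∀ x, π x = 1 ↔ x ∈ pCore 2 G := fun x => QuotientGroup.eq_one_iff x
  have a1 : π d * π a ∈ pCore 3 (G ⧸ pCore 2 G) := by
    refine mul_mem_pCore_three (D := π '' D) ⟨?_, ?_⟩ ?_ ?_ ⟨d, hd, rfl⟩ ⟨a, ha, rfl⟩
    · rintro _ ⟨x, hx, rfl⟩
      refine orderOf_eq_two (by rw [← map_mul, h.sq hx, map_one]) fun q => ?_
      obtain ⟨y, hy, hn⟩ := hD.exists_not_commute hD2 hx
      obtain ⟨g, rfl⟩ := hD.exists_conj hx hy
      exact hn (h.commute_of_two pCore_isPGroup hx hy
        (mul_mem ((hk x).1 q) (Normal.conj_mem inferInstance _ ((hk x).1 q) g)))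
    · rintro _ ⟨x, hx, rfl⟩ _ ⟨y, hy, rfl⟩
      exact (h.ts.2 x hx y hy).imp (fun q => by rw [← map_mul, ← map_pow, q, map_one])
        fun q => by rw [← map_mul, ← map_pow, q, map_one]
    · rintro g _ ⟨x, hx, rfl⟩
      obtain ⟨g, rfl⟩ := QuotientGroup.mk'_surjective _ g
      exact ⟨_, h.cj g x hx, by simp [hπ]⟩
    · rintro _ ⟨x, hx, rfl⟩ _ ⟨y, hy, rfl⟩ hc
      have : π x * π y = 1 := by
        by_cases q : Commute x y
        · rw [← map_mul, hk]; exact hQ x hx y hy q
        · refine eq_one_of_pow_coprime (m := 2) (n := 3) (by decide) (sq_of_commute ?_ ?_ hc) ?_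
          · rw [← map_mul, h.sq hx, map_one]
          · rw [← map_mul, h.sq hy, map_one]
          · rw [← map_mul, ← map_pow, h.ts.cube hx hy q, map_one]
      rw [eq_inv_of_mul_eq_one_left this, ← map_inv, h.inv hy]
  have a2 := le_syl_of_norm Nat.prime_three (syl_top_of_sylow Nat.prime_three
    (P.mapSurjective (QuotientGroup.mk'_surjective (pCore 2 G)))) pCore_isPGroup le_top
    le_norm_of_normal a1
  rw [← map_mul, Sylow.coe_mapSurjective, ← mem_comap, comap_map_eq, QuotientGroup.ker_mk'] at a2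
  exact a2

end Cfsg.Agent.S5356
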