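import Cfsg.Statements.S5358
import Cfsg.Agent.Cl.OThree

set_option autoImplicit false
open scoped MatrixGroups
open Cfsg

namespace Cfsg.Agent.S5358

open Cfsg.Agent.Cl.Orth

/-- Let Q be a non-degenerate quadratic form on the n-dimensional coordinate space over the field with three elements and u, v vectors of the same non-zero norm Q(u) = Q(v) spanning different lines (v ≠ u and v ≠ −u). Then the reflection matrices of u and v commute if and only if u and v are orthogonal for the polar form of Q. -/
theorem result (n : ℕ) (Q : QuadraticForm (ZMod 3) (Fin n → ZMod 3)) (hQ : (QuadraticMap.polarBilin Q).Nondegenerate) (u v : Fin n → ZMod 3) (hu : Q u ≠ 0) (huv : Q u = Q v) (h1 : v ≠ u) (h2 : v ≠ -u) : Commute (Cfsg.reflectionMatrix (⇑Q) u) (Cfsg.reflectionMatrix (⇑Q) v) ↔ QuadraticMap.polar (⇑Q) u v = 0 := by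
  have key : Commute (Cfsg.reflectionMatrix (⇑Q) u) (Cfsg.reflectionMatrix (⇑Q) v) ↔
      refl Q u * refl Q v = refl Q v * refl Q u := by
    rw [commute_iff_eq, Matrix.ext_iff_mulVec]
    simp only [← Matrix.mulVec_mulVec, reflectionMatrix_mulVec]
    exact ⟨fun h => OG.ext' h, fun h x => congrArg (fun g : OG Q => g.1 x) h⟩
  rw [key]
  exact ⟨orth_of_commute_refl hu huv h1 h2, commute_refl⟩

end Cfsg.Agent.S5358
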