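import Cfsg.Statements.S5361
import Cfsg.Agent.TT.ThreeC
import Cfsg.Agent.TT.LargeS

set_option autoImplicit false
open Cfsg

namespace Cfsg.Agent.S5361

open Cfsg.Agent.TT Cfsg.Agent.GT Subgroup
open scoped commutatorElement

/-- Let D be a conjugacy class of 3-transpositions generating the finite group G, and suppose the centre of G is trivial and some two different members of D commute. Then the following are equivalent: (1) the commutator subgroup of G is simple (possibly of prime order); (2) G acts primitively on D by conjugation; (3) the largest normal 2-subgroup and the largest normal 3-subgroup of G are trivial and the commuting graph of D is connected. -/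
theorem result {G : Type*} [Group G] [Finite G] {D : Set G} (hD : Cfsg.IsThreeTranspositionClass D) (hZ : Subgroup.center G = ⊥) (hw : ∃ a ∈ D, ∃ b ∈ D, a ≠ b ∧ Commute a b) : (IsSimpleGroup (commutator G) ↔ Cfsg.IsPrimitiveUnderConj D) ∧ (Cfsg.IsPrimitiveUnderConj D ↔ (Cfsg.pCore 2 G = ⊥ ∧ Cfsg.pCore 3 G = ⊥ ∧ (Cfsg.commutingGraph D).Connected)) := by
  have h := hD.t3
  have hD2 : ∃ a ∈ D, ∃ b ∈ D, a ≠ b := by
    obtain ⟨a, ha, b, hb, e, -⟩ := hw; exact ⟨a, ha, b, hb, e⟩
  have hm : ∀ a ∈ D, ∀ b ∈ D, a * b ∈ commutator G := fun a ha b hb => by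
    obtain ⟨g, rfl⟩ := hD.exists_conj ha hb
    simpa [_root_.commutator_def, commutatorElement_def, mul_assoc, h.inv ha] using
      commutator_mem_commutator (mem_top a) (mem_top g)
  refine ⟨⟨fun hs => ?_, fun hp => ?_⟩, fun hp => ?_, fun ⟨h2, h3, hc⟩ => ?_⟩
  · refine prim_of_normal hD hD2 (L := commutator G)
      (fun a ha => sup_eq_top_of_forall h hD.2.2 ha (hm a ha)) fun N hN a ha b hb hne m => ?_
    rcases hs.eq_bot_or_eq_top_of_normal (N.subgroupOf (commutator G)) inferInstance with e | e
    · have : (⟨a * b, hm a ha b hb⟩ : commutator G) ∈ N.subgroupOf (commutator G) := m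
      rw [e, mem_bot] at this
      exact absurd (by rw [eq_inv_of_mul_eq_one_left (congrArg Subtype.val this), h.inv hb]) hne
    · exact subgroupOf_eq_top.1 e
  · obtain ⟨h2, h3, hc⟩ := of_prim hD hp hw
    obtain ⟨L, hn, hL, hF⟩ := exists_qs_normal hD hD2 h2 h3
    obtain ⟨d, hd, -⟩ := hD.2.1
    have e := hD.sup_eq_top (index_of_connected hD hD2 h2 h3 hL hc) hd
    have : commutator G = L := by
      refine le_antisymm ?_ (hL.perf.ge.trans (commutator_mono le_top le_top))
      rw [_root_.commutator_def, commutator_le]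
      intro x _ y _
      obtain ⟨_, ⟨m, rfl⟩, a, ha, rfl⟩ := (mem_sup_of_le_norm le_norm_of_normal).1 (e ▸ mem_top x)
      obtain ⟨_, ⟨n, rfl⟩, b, hb, rfl⟩ := (mem_sup_of_le_norm le_norm_of_normal).1 (e ▸ mem_top y)
      rw [← QuotientGroup.eq_one_iff, ← QuotientGroup.mk'_apply, map_commutatorElement,
        commutatorElement_eq_one_iff_commute]
      simp [(QuotientGroup.eq_one_iff a).2 ha, (QuotientGroup.eq_one_iff b).2 hb]
    rw [this]
    refine hL.isSimpleGroup (eq_bot_iff.2 ?_)
    rw [← hZ]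
    exact (center_le_fittingOf L).trans ((SN.of_normal L).fittingOf_le.trans (hD.fitting_le h2 h3))
  · simpa [hZ] using of_prim hD hp hw
  · obtain ⟨L, hn, hL, hF⟩ := exists_qs_normal hD hD2 (h2 ▸ bot_le) (h3 ▸ bot_le)
    exact prim_of_index hD hD2 (h2 ▸ bot_le) (h3 ▸ bot_le) hL hF
      (index_of_connected hD hD2 (h2 ▸ bot_le) (h3 ▸ bot_le) hL hc)

end Cfsg.Agent.S5361
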