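import Cfsg.Statements.S5363
import Cfsg.Agent.TT.Basic

set_option autoImplicit false
open Cfsg

namespace Cfsg.Agent.S5363

/-- Let D be a conjugation-invariant set of involutions of a finite group G. Then every product of two members of D has odd order or order 2 if and only if, for every a in D and every b in D different from a and commuting with a, the members of D commuting with a b are exactly those commuting with both a and b. -/
theorem result {G : Type*} [Group G] [Finite G] {D : Set G} (hinv : ∀ d ∈ D, orderOf d = 2) (hconj : ∀ g : G, ∀ d ∈ D, g * d * g⁻¹ ∈ D) : (∀ a ∈ D, ∀ b ∈ D, Odd (orderOf (a * b)) ∨ orderOf (a * b) = 2) ↔ ∀ a ∈ D, ∀ b ∈ D, b ≠ a → Commute a b → {y : G | y ∈ D ∧ Commute (a * b) y} = {y : G | y ∈ D ∧ Commute a y} ∩ {y : G | y ∈ D ∧ Commute b y} := by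
  have sq : ∀ d ∈ D, d * d = 1 := fun d hd => TT.mul_self_of_orderOf (hinv d hd)
  constructor
  · intro h a ha b hb hba hab
    ext y
    constructor
    · rintro ⟨hy, hc⟩
      have key : Commute a y := by
        rcases h a ha y hy with h1 | h1
        · rcases h b hb y hy with h2 | h2
          · exfalso
            have e : b * y = (a * b) * (a * y) := by
              rw [hab.eq]; simp [mul_assoc, TT.sq_cancel (sq a ha)]
            have c1 : Commute (a * b) (a * y) :=
              Commute.mul_right ((Commute.refl a).mul_left hab.symm) hc
            have hn := h1.mul h2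
            set n := orderOf (a * y) * orderOf (b * y) with hn'
            have e1 : (b * y) ^ n = 1 := by rw [hn', mul_comm, pow_mul, pow_orderOf_eq_one, one_pow]
            have e2 : (a * y) ^ n = 1 := by rw [hn', pow_mul, pow_orderOf_eq_one, one_pow]
            rw [e, c1.mul_pow, e2, mul_one] at e1
            have := TT.eq_one_of_pow_coprime (Nat.coprime_two_right.2 hn) e1
              (TT.sq_of_commute (sq a ha) (sq b hb) hab)
            apply hba
            rw [eq_inv_of_mul_eq_one_right this, TT.inv_of_sq (sq a ha)]
          · have c1 : Commute b y := TT.commute_of_sq (sq b hb) (sq y hy)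
              (by rw [← h2, pow_orderOf_eq_one])
            have := hc.mul_left c1
            rwa [mul_assoc, sq b hb, mul_one] at this
        · exact TT.commute_of_sq (sq a ha) (sq y hy) (by rw [← h1, pow_orderOf_eq_one])
      refine ⟨⟨hy, key⟩, hy, ?_⟩
      have := key.mul_left hc
      rwa [TT.sq_cancel (sq a ha)] at this
    · rintro ⟨⟨hy, h1⟩, -, h2⟩
      exact ⟨hy, h1.mul_left h2⟩
  · intro h a ha b hb
    rcases Nat.even_or_odd (orderOf (a * b)) with he | ho
    · right
      obtain ⟨m, hm, h1, h2, h3, h4⟩ := TT.exists_central_of_even (sq a ha) (sq b hb) he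
      have hD := TT.mul_pow_mem hconj (sq a ha) (sq b hb) ha hb m
      have hne : a * (a * b) ^ m ≠ a := by simpa using h1
      have := h a ha _ hD hne ((Commute.refl a).mul_right h3)
      have hb' : b ∈ {y : G | y ∈ D ∧ Commute (a * (a * (a * b) ^ m)) y} := by
        refine ⟨hb, ?_⟩
        rw [TT.sq_cancel (sq a ha)]; exact h4.symm
      rw [this] at hb'
      have hc := TT.sq_of_commute (sq a ha) (sq b hb) hb'.1.2
      refine orderOf_eq_prime hc ?_
      intro h5
      rw [h5] at he
      simp at he
    · exact Or.inl ho

end Cfsg.Agent.S5363
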