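import Cfsg.Statements.S5364
import Cfsg.Agent.TT.Basic

set_option autoImplicit false
open Cfsg

namespace Cfsg.Agent.S5364

/-- Let D be a conjugation-invariant set of involutions of a finite group G and t an involution in the centre of G such that d t does not lie in D for any d in D. If the images of the members of D in G modulo the subgroup generated by t satisfy the 3-transposition order conditions (each has order 2 and any two have product of order at most 3), then so do the members of D. -/
theorem result {G : Type*} [Group G] [Finite G] {D : Set G} (hinv : ∀ d ∈ D, orderOf d = 2) (hconj : ∀ g : G, ∀ d ∈ D, g * d * g⁻¹ ∈ D) (t : G) (ht : orderOf t = 2) (htZ : t ∈ Subgroup.center G) (hDt : ∀ d ∈ D, d * t ∉ D) [(Subgroup.zpowers t).Normal] (himg : Cfsg.IsThreeTranspositionSet ((QuotientGroup.mk : G → G ⧸ Subgroup.zpowers t) '' D)) : Cfsg.IsThreeTranspositionSet D := by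
  have sq : ∀ d ∈ D, d * d = 1 := fun d hd => TT.mul_self_of_orderOf (hinv d hd)
  have ht2 := TT.mul_self_of_orderOf ht
  refine ⟨hinv, fun d hd e he => ?_⟩
  rcases himg.2 _ ⟨d, hd, rfl⟩ _ ⟨e, he, rfl⟩ with h | h
  · left
    rw [← QuotientGroup.mk_mul, ← QuotientGroup.mk_pow, QuotientGroup.eq_one_iff,
      TT.mem_zpowers_of_sq ht2] at h
    rcases h with h | h
    · exact h
    · exact absurd (h ▸ TT.mul_pow_mem hconj (sq d hd) (sq e he) hd he 2) (hDt d hd)
  · right
    rw [← QuotientGroup.mk_mul, ← QuotientGroup.mk_pow, QuotientGroup.eq_one_iff,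
      TT.mem_zpowers_of_sq ht2] at h
    rcases h with h | h
    · exact h
    · exact absurd (h ▸ TT.mul_pow_mem hconj (sq d hd) (sq e he) hd he 3) (hDt d hd)

end Cfsg.Agent.S5364
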