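import Cfsg.Statements.S5365
import Cfsg.Agent.TT.ThreeC
import Cfsg.Agent.TT.WordsData

set_option autoImplicit false
open Cfsg

namespace Cfsg.Agent.S5365

open Cfsg.Agent.TT Cfsg.Agent.GT Subgroup Equiv

theorem s3a : ∀ a b y : Perm (Fin 3), a * a = 1 → b * b = 1 → y * y = 1 → y ≠ 1 → a * b ≠ b * a →
    y = a ∨ y = b ∨ y = a * b * a := by decide +kernel

theorem s3b : ∀ a b : Perm (Fin 3), a * a = 1 → b * b = 1 → a ≠ 1 → b ≠ 1 → a * b = b * a → a = b := by
  have : ∀ a b : Perm (Fin 3), (a * a = 1 ∧ b * b = 1 ∧ a ≠ 1 ∧ b ≠ 1 ∧ a * b = b * a) → a = b := by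
    decide +kernel
  exact fun a b h1 h2 h3 h4 h5 => this a b ⟨h1, h2, h3, h4, h5⟩

theorem s3c : ∀ a : Perm (Fin 3), (∀ b, a * b = b * a) → a = 1 := by decide +kernel

theorem s5a : ∀ i j : Fin 5, i ≠ j → ∃ s : Perm (Fin 5), swap i j = s * swap 3 4 * s⁻¹ := by
  intro i j h
  exact (isConj_iff.1 (Perm.isConj_swap (by decide) h)).imp fun _ e => e.symm

/-- Let D be a non-empty conjugation-invariant set of involutions of a finite group G satisfying the 3-transposition order conditions, and suppose that for every d in D the members of D other than d commuting with d generate a subgroup isomorphic to the symmetric group of degree 3, and the largest normal 3-subgroup of the centralizer of d has order 3. Then the subgroup generated by D is isomorphic to the symmetric group of degree 5 or to the direct product of two symmetric groups of degree 3. -/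
theorem result {G : Type*} [Group G] [Finite G] {D : Set G} (hD : Cfsg.IsThreeTranspositionSet D) (hconj : ∀ g : G, ∀ d ∈ D, g * d * g⁻¹ ∈ D) (hne : D.Nonempty) (hloc : ∀ d ∈ D, Nonempty (↥(Subgroup.closure {y : G | y ∈ D ∧ y ≠ d ∧ Commute d y}) ≃* Equiv.Perm (Fin 3)) ∧ Nat.card (Cfsg.pCore 3 ↥(Subgroup.centralizer ({d} : Set G))) = 3) : Nonempty (↥(Subgroup.closure D) ≃* Equiv.Perm (Fin 5)) ∨ Nonempty (↥(Subgroup.closure D) ≃* Equiv.Perm (Fin 3) × Equiv.Perm (Fin 3)) := by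
  have h : T3 D := ⟨hD, hconj⟩
  have loc : ∀ x ∈ D, (∀ a ∈ D, ∀ b ∈ D, a ≠ x → b ≠ x → Commute x a → Commute x b → Commute a b → a = b) ∧
      (∀ a ∈ D, ∀ b ∈ D, a ≠ x → b ≠ x → Commute x a → Commute x b → ¬ Commute a b →
        ∀ y ∈ D, Commute x y → y = x ∨ y = a ∨ y = b ∨ y = a * b * a) ∧
      ∃ a ∈ D, ∃ b ∈ D, a ≠ x ∧ b ≠ x ∧ Commute x a ∧ Commute x b ∧ ¬ Commute a b := fun x hx => by
    obtain ⟨ψ⟩ := (hloc x hx).1
    set E := {y : G | y ∈ D ∧ y ≠ x ∧ Commute x y} with hE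
    have k1 : ∀ a (ha : a ∈ E), ψ ⟨a, subset_closure ha⟩ * ψ ⟨a, subset_closure ha⟩ = 1 ∧
        ψ ⟨a, subset_closure ha⟩ ≠ 1 := fun a ha =>
      ⟨by rw [← map_mul, map_eq_one_iff _ ψ.injective]; exact Subtype.ext (h.sq ha.1), by
        rw [Ne, map_eq_one_iff _ ψ.injective]; exact fun e => hD.ne_one ha.1 (congrArg Subtype.val e)⟩
    have k2 : ∀ u v : closure E, ψ u * ψ v = ψ v * ψ u ↔ Commute (u : G) v := fun u v => by
      rw [← map_mul, ← map_mul, ψ.injective.eq_iff, Subtype.ext_iff]; rfl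
    refine ⟨fun a a1 b b1 a2 b2 a3 b3 hc => ?_, fun a a1 b b1 a2 b2 a3 b3 hc y y1 y3 => ?_, ?_⟩
    · exact congrArg Subtype.val (ψ.injective (s3b _ _ (k1 a ⟨a1, a2, a3⟩).1 (k1 b ⟨b1, b2, b3⟩).1
        (k1 a ⟨a1, a2, a3⟩).2 (k1 b ⟨b1, b2, b3⟩).2 ((k2 _ _).2 hc)))
    · refine or_iff_not_imp_left.2 fun y2 => ?_
      have := s3a _ _ _ (k1 a ⟨a1, a2, a3⟩).1 (k1 b ⟨b1, b2, b3⟩).1 (k1 y ⟨y1, y2, y3⟩).1
        (k1 y ⟨y1, y2, y3⟩).2 fun e => hc ((k2 _ _).1 e)
      simpa only [← map_mul, ψ.injective.eq_iff, Subtype.ext_iff, coe_mul] using this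
    · by_contra hn
      push Not at hn
      have : closure E ≤ C[closure E] := by
        rw [centralizer_closure, closure_le]
        exact fun a ha b hb => hn b hb.1 a ha.1 hb.2.1 ha.2.1 hb.2.2 ha.2.2
      have := (k2 (ψ.symm (swap 0 1)) (ψ.symm (swap 1 2))).2 (this (ψ.symm _).2 _ (ψ.symm _).2)
      simp only [MulEquiv.apply_symm_apply] at this
      exact absurd this (by decide)
  obtain ⟨d, hd⟩ := hne
  obtain ⟨a, ha, b, hb, ad, bd, da, db, ab⟩ := (loc d hd).2.2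
  obtain ⟨e, he, ea, ae, de⟩ : ∃ e ∈ D, e ≠ a ∧ Commute a e ∧ ¬ Commute d e := by
    obtain ⟨u, hu, v, hv, u1, v1, u2, v2, uv⟩ := (loc a ha).2.2
    by_contra hn
    push Not at hn
    exact uv ((loc a ha).1 d hd u hu ad.symm u1 da.symm u2 (hn u hu u1 u2) ▸ hn v hv v1 v2)
  have Nd := (loc d hd).2.1 a ha b hb ad bd da db ab
  have Na := (loc a ha).2.1 d hd e he ad.symm ea da.symm ae de
  have eb : e ≠ b := fun q => de (q ▸ db)
  have S4 : ∀ x ∈ D, ∀ y ∈ D, ∀ g ∈ D, x ≠ y → Commute x y → ¬ Commute x g → ¬ Commute g y →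
      ∃ φ : Perm (Fin 4) →* G, φ (swap 0 1) = x ∧ φ (swap 1 2) = g ∧ φ (swap 2 3) = y :=
    fun x hx y hy g hg _ c1 c2 c3 =>
      Wd.exists_hom_S4 (h.sq hx) (h.sq hg) (h.sq hy) (h.br hx hg c2) (h.br hg hy c3) c1
  by_cases be : Commute b e
  · right
    have Nb := (loc b hb).2.1 d hd e he bd.symm eb db.symm be de
    have Ne' := (loc e he).2.1 a ha b hb ea.symm eb.symm ae.symm be.symm ab
    have mk : ∀ {x y u v : G}, x ∈ D → y ∈ D → u ≠ x → v ≠ x → u ≠ y → v ≠ y → Commute x u → Commute x v →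
        Commute y u → Commute y v → (∀ z ∈ D, Commute x z → z = x ∨ z = u ∨ z = v ∨ z = u * v * u) →
        (∀ z ∈ D, Commute y z → z = y ∨ z = u ∨ z = v ∨ z = u * v * u) → u ∈ D → x * y ∈ pCore 3 G := by
      intro x y u v hx hy a1 a2 a3 a4 c1 c2 c3 c4 n1 n2 hu
      have k : ∀ {x y : G}, u ≠ y → v ≠ y → Commute y u → Commute y v →
          (∀ z ∈ D, Commute x z → z = x ∨ z = u ∨ z = v ∨ z = u * v * u) →
          ∀ z ∈ D, z ≠ x ∧ Commute x z → z ≠ y ∧ Commute y z := fun {x y} a3 a4 c3 c4 n1 z hz q => by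
        rcases (n1 z hz q.2).resolve_left q.1 with rfl | rfl | rfl
        · exact ⟨a3, c3⟩
        · exact ⟨a4, c4⟩
        · refine ⟨fun q => a4 ?_, (c3.mul_right c4).mul_right c3⟩
          rw [← commute_iff_conj.1 c3.symm, ← q, h.inv hu]; simp [mul_assoc, h.cc hu, h.sq hu]
      exact h.mul_mem_three hx hy fun z hz => ⟨k a3 a4 c3 c4 n1 z hz, k a1 a2 c1 c2 n2 z hz⟩
    have m1 := mk ha hb ad.symm ea bd.symm eb da.symm ae db.symm be Na Nb hd
    have m2 := mk hd he ad bd ea.symm eb.symm da db ae.symm be.symm Nd Ne' ha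
    have hO : Op 3 C1[d] = zpowers (a * b) := eq_zpowers_of_card_prime
      (by rw [card_map_of_injective (subtype_injective _), (hloc d hd).2]; exact Nat.prime_three)
      (pCore_inf_le_Op _ ⟨m1, mem_cent1.2 (da.mul_right db).symm⟩)
      fun q => ab (by rw [eq_inv_of_mul_eq_one_left q]; exact (Commute.refl b).inv_left)
    have inv : ∀ {t u : G}, t * u * t⁻¹ = u⁻¹ → ∀ k ∈ zpowers u, t * k * t⁻¹ = k⁻¹ := by
      rintro t u q _ ⟨n, rfl⟩
      simp only [← conj_zpow, q, inv_zpow]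
    have hinv : ∀ x ∈ pCore 3 G, d * a * x * (d * a)⁻¹ = x⁻¹ := fun x hx => by
      have hs := h.cj x d hd
      have w := (h.rW_of_mem hd hs (h.mul_conj_mem hd hx) a ha).1 ⟨ad, da⟩
      obtain ⟨k, hk, q⟩ : ∃ k ∈ zpowers (d * e), x * d * x⁻¹ = k * d * k⁻¹ := by
        rcases (Na _ hs w.2.symm).resolve_left w.1.symm with q | q | q <;> rw [q]
        · exact ⟨1, one_mem _, by simp⟩
        · exact ⟨_, mem_zpowers _, (h.conj_br hd he de).symm⟩
        · exact ⟨_, inv_mem (mem_zpowers _), by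
            simp [h.inv hd, h.inv he, h.br hd he de, mul_assoc, h.cc hd]⟩
      have hm : k⁻¹ * x ∈ zpowers (a * b) := hO ▸ pCore_inf_le_Op _
        (mem_inf.2 ⟨mul_mem (inv_mem (zpowers_le.2 m2 hk)) hx,
          mem_cent1.2 (commute_iff_conj.2 (by rw [← conj_inj_iff k, ← q]; group))⟩)
      have i1 := inv (t := d * a) (u := d * e) (by
        rw [show d * a * (d * e) * (d * a)⁻¹ = d * (a * (d * e) * a⁻¹) * d⁻¹ by group,
          commute_iff_conj.1 (da.symm.mul_right ae)]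
        simp [h.cc hd, h.inv he]) k hk
      have i2 := inv (t := d * a) (u := a * b) (by
        rw [da.eq, show a * d * (a * b) * (a * d)⁻¹ = a * (d * (a * b) * d⁻¹) * a⁻¹ by group,
          commute_iff_conj.1 (da.mul_right db)]
        simp [h.cc ha, h.inv hb]) _ hm
      have cm : Commute k (k⁻¹ * x) := by
        obtain ⟨n, rfl⟩ := hk
        obtain ⟨m, q⟩ := hm
        rw [← q]
        exact (((da.mul_right db).mul_left (ae.symm.mul_right be.symm)).zpow_left n).zpow_right m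
      calc d * a * x * (d * a)⁻¹ = d * a * k * (d * a)⁻¹ * (d * a * (k⁻¹ * x) * (d * a)⁻¹) := by group
        _ = (k * (k⁻¹ * x))⁻¹ := by rw [i1, i2, cm.eq, mul_inv_rev (k⁻¹ * x)]
        _ = x⁻¹ := by group
    have hinv' : ∀ u : G, ∀ x ∈ pCore 3 G, u * (d * a) * u⁻¹ * x * (u * (d * a) * u⁻¹)⁻¹ = x⁻¹ :=
      fun u x hx => by
        have := hinv _ (Normal.conj_mem inferInstance x hx u⁻¹)
        rw [← conj_inj_iff u⁻¹]
        simpa [mul_assoc] using this
    have all : ∀ g ∈ D, Commute d g ∨ Commute a g := fun g hg => by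
      by_contra hn
      push Not at hn
      obtain ⟨φ, f1, f2, f3⟩ := S4 d hd a ha g hg ad.symm da hn.1 fun c => hn.2 c.symm
      have q : d * g * (d * a) * (d * g)⁻¹ = d * a * (g * (d * a) * g⁻¹) := by
        rw [← f1, ← f2, ← f3]
        simp only [← map_mul, ← map_inv]
        exact congrArg φ (by decide)
      have i1 := hinv' (d * g) _ m1
      rw [q, show d * a * (g * (d * a) * g⁻¹) * (a * b) * (d * a * (g * (d * a) * g⁻¹))⁻¹ =
        d * a * (g * (d * a) * g⁻¹ * (a * b) * (g * (d * a) * g⁻¹)⁻¹) * (d * a)⁻¹ by group,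
        hinv' g _ m1, hinv _ (inv_mem m1), inv_inv] at i1
      exact ab (commute_of_sq (h.sq ha) (h.sq hb) (by rw [pow_two]; exact mul_eq_one_iff_eq_inv.2 i1))
    obtain ⟨φ, f1, f2⟩ := Wd.exists_hom_S3 (h.sq ha) (h.sq hb) (h.br ha hb ab)
    obtain ⟨ψ, g1, g2⟩ := Wd.exists_hom_S3 (h.sq hd) (h.sq he) (h.br hd he de)
    have i1 := Wd.injective_S3 φ (by rw [f1, f2]; exact fun q => ab (q ▸ Commute.refl a))
    have i2 := Wd.injective_S3 ψ (by rw [g1, g2]; exact fun q => de (q ▸ Commute.refl d))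
    have r1 : φ.range = closure {a, b} := by
      rw [MonoidHom.range_eq_map, ← Wd.closure_S3, MonoidHom.map_closure, Set.image_pair, f1, f2]
    have r2 : ψ.range = closure {d, e} := by
      rw [MonoidHom.range_eq_map, ← Wd.closure_S3, MonoidHom.map_closure, Set.image_pair, g1, g2]
    have cm : ∀ x y, Commute (φ x) (ψ y) := fun x y => by
      have : ψ.range ≤ C[φ.range] := by
        rw [r1, r2, centralizer_closure, closure_le]
        rintro _ (rfl | rfl) _ (rfl | rfl)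
        exacts [da.symm, db.symm, ae, be]
      exact this ⟨y, rfl⟩ _ ⟨x, rfl⟩
    have hi : Function.Injective (φ.noncommCoprod ψ cm) := by
      rw [injective_iff_map_eq_one]
      rintro ⟨x, y⟩ q
      rw [MonoidHom.noncommCoprod_apply] at q
      obtain rfl : x = 1 := s3c x fun z => i1 (by
        rw [map_mul, map_mul, eq_inv_of_mul_eq_one_left q]; exact ((cm z y).inv_right).eq.symm)
      simp only [map_one, one_mul, map_eq_one_iff _ i2] at q
      rw [q]; rfl
    have hr : (φ.noncommCoprod ψ cm).range = closure D := by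
      rw [MonoidHom.noncommCoprod_range, r1, r2, ← Subgroup.closure_union]
      refine le_antisymm (Subgroup.closure_mono ?_) ((closure_le _).2 fun g hg => ?_)
      · rintro _ ((rfl | rfl) | (rfl | rfl)) <;> assumption
      have m : ∀ x ∈ ({a, b} ∪ {d, e} : Set G), x ∈ closure ({a, b} ∪ {d, e} : Set G) := subset_closure
      have ma := m a (by simp)
      have mb := m b (by simp)
      have md := m d (by simp)
      have me := m e (by simp)
      rcases (all g hg).elim (fun q => Or.inl (Nd g hg q)) fun q => Or.inr (Na g hg q) with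
        (q | q | q | q) | (q | q | q | q) <;> rw [q]
      exacts [md, ma, mb, mul_mem (mul_mem ma mb) ma, ma, md, me, mul_mem (mul_mem md me) md]
    exact ⟨hr ▸ (MonoidHom.ofInjective hi).symm⟩
  left
  obtain ⟨φ, f1, f2, f3, f4⟩ := Wd.exists_hom_S5 (h.sq ha) (h.sq hb) (h.sq he) (h.sq hd) (h.br ha hb ab)
    (h.br hb he be) (h.br he hd fun c => de c.symm) ae da.symm db.symm
  have hi := Wd.injective_S5 φ (by rw [f1, f2]; exact fun q => ab (q ▸ Commute.refl a))
  have hr : φ.range = closure D := by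
    refine le_antisymm ?_ ((closure_le _).2 fun g hg => ?_)
    · rw [MonoidHom.range_eq_map, ← Wd.closure_S5, MonoidHom.map_closure]
      refine Subgroup.closure_mono ?_
      rintro _ ⟨_, rfl | rfl | rfl | rfl, rfl⟩
      exacts [f1 ▸ ha, f2 ▸ hb, f3 ▸ he, f4 ▸ hd]
    by_contra hn
    have ma : a ∈ φ.range := ⟨_, f1⟩
    have mb : b ∈ φ.range := ⟨_, f2⟩
    have md : d ∈ φ.range := ⟨_, f4⟩
    have sw : ∀ i j : Fin 5, i ≠ j → φ (swap i j) ∈ D ∧ ¬ Commute g (φ (swap i j)) := fun i j q => by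
      obtain ⟨s, q⟩ := s5a i j q
      rw [q, map_mul, map_mul, map_inv, f4]
      refine ⟨h.cj _ d hd, fun c => hn ?_⟩
      have : (φ s)⁻¹ * g * (φ s)⁻¹⁻¹ ∈ φ.range := by
        rcases Nd _ (h.cj _ g hg) (commute_conj_left.1 c.symm) with q | q | q | q <;> rw [q]
        exacts [md, ma, mb, mul_mem (mul_mem ma mb) ma]
      have ms : φ s ∈ φ.range := ⟨s, rfl⟩
      simpa only [mul_assoc, inv_inv, mul_inv_cancel, mul_one, mul_inv_cancel_left, SetLike.mem_coe] using
        mul_mem (mul_mem ms this) (inv_mem ms)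
    let C := (C1[g]).comap φ
    have nb : ∀ i j k l : Fin 5, ∀ σ, (i ≠ j ∧ k ≠ l ∧ swap i j ≠ swap k l ∧ σ = swap i j * swap k l) →
        σ ∉ C := by
      rintro i j k l _ ⟨q1, q2, q3, rfl⟩ m
      exact q3 (hi (h.eq_of_commute_mul (sw i j q1).1 (sw k l q2).1 hg (sw i j q1).2 (sw k l q2).2
        (Commute.symm (by rw [← map_mul]; exact mem_cent1.1 m))))
    obtain ⟨u, hu, v, hv, u1, v1, u2, v2, uv⟩ := (loc g hg).2.2
    have Ng := (loc g hg).2.1 u hu v hv u1 v1 u2 v2 uv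
    have dt : ∀ i j k l : Fin 5, (i ≠ j ∧ k ≠ l ∧ swap i j ≠ swap k l ∧
        swap i j * swap k l = swap k l * swap i j) → φ (swap i j * swap k l) * g * (φ (swap i j * swap k l))⁻¹ ∈
        ({u, v, u * v * u} : Set G) := by
      rintro i j k l ⟨q1, q2, q3, q4⟩
      obtain ⟨ψ, g1, g2, g3⟩ := S4 _ (sw i j q1).1 _ (sw k l q2).1 g hg (fun q => q3 (hi q))
        (Commute.map q4 φ) (fun c => (sw i j q1).2 c.symm) (sw k l q2).2
      refine (Ng _ (h.cj _ g hg) ?_).resolve_left fun q =>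
        nb i j k l _ ⟨q1, q2, q3, rfl⟩ (mem_cent1.2 (commute_iff_conj.2 q))
      rw [map_mul, ← g1, ← g2, ← g3]
      simp only [← map_mul, ← map_inv]
      exact Commute.map (commute_iff_conj.2 (by decide)) ψ
    have eqv : ∀ s t : Perm (Fin 5), φ s * g * (φ s)⁻¹ = φ t * g * (φ t)⁻¹ → s⁻¹ * t ∈ C := fun s t q =>
      mem_cent1.2 (commute_iff_conj.2 (by
        rw [← conj_inj_iff (φ s), q, map_mul, map_inv]; group))
    have t1 := dt 3 4 0 1 (by decide)
    have t2 := dt 3 4 1 2 (by decide)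
    have t3 := dt 3 4 0 2 (by decide)
    have n12 := fun q => nb 0 1 1 2 _ (by decide) (eqv (swap 3 4 * swap 0 1) (swap 3 4 * swap 1 2) q)
    have n13 := fun q => nb 0 1 0 2 _ (by decide) (eqv (swap 3 4 * swap 0 1) (swap 3 4 * swap 0 2) q)
    have n23 := fun q => nb 0 1 1 2 _ (by decide) (eqv (swap 3 4 * swap 1 2) (swap 3 4 * swap 0 2) q)
    have P4 : ∀ t : Perm (Fin 5), φ t * g * (φ t)⁻¹ ∈ ({u, v, u * v * u} : Set G) →
        (swap 3 4 * swap 0 1)⁻¹ * t ∉ C → (swap 3 4 * swap 1 2)⁻¹ * t ∈ C ∨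
        (swap 3 4 * swap 0 2)⁻¹ * t ∈ C := fun t t4 n => by
      refine Or.imp (eqv _ _) (eqv _ _) ?_
      have n14 := fun q => n (eqv _ _ q)
      simp only [Set.mem_insert_iff, Set.mem_singleton_iff] at t1 t2 t3 t4
      generalize φ (swap 3 4 * swap 0 1) * g * (φ (swap 3 4 * swap 0 1))⁻¹ = x1 at *
      generalize φ (swap 3 4 * swap 1 2) * g * (φ (swap 3 4 * swap 1 2))⁻¹ = x2 at *
      generalize φ (swap 3 4 * swap 0 2) * g * (φ (swap 3 4 * swap 0 2))⁻¹ = x3 at *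
      generalize φ t * g * (φ t)⁻¹ = x4 at *
      generalize u * v * u = w at t1 t2 t3 t4
      clear * - t1 t2 t3 t4 n12 n13 n23 n14
      grind
    rcases P4 _ (dt 0 1 2 3 (by decide)) (nb 2 3 2 4 _ (by decide)) with q1 | q1 <;>
    rcases P4 _ (dt 0 1 2 4 (by decide)) (nb 2 3 3 4 _ (by decide)) with q2 | q2
    exacts [nb 0 4 1 2 _ (by decide) (mul_mem q1 q2), nb 1 2 1 4 _ (by decide) (mul_mem q1 q2),
      nb 0 2 0 4 _ (by decide) (mul_mem q1 q2), nb 0 2 1 4 _ (by decide) (mul_mem q1 q2)]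
  exact ⟨hr ▸ (MonoidHom.ofInjective hi).symm⟩

end Cfsg.Agent.S5365
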