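import Cfsg.Statements.S5366
import Cfsg.Agent.TT.Fischer

set_option autoImplicit false
open Cfsg

namespace Cfsg.Agent.S5366

open Cfsg.Agent.TT Cfsg.Agent.TT.Fs LineSystem

section

variable {X : Type*} {L : Set (Set X)} {x y z : X}

theorem t_of_not (h : ¬ Collinear L x y) : lineMap L x y = y :=
  dif_neg fun ⟨_, _, _, h3, h4⟩ => h ⟨h3, _, h4, by simp, by simp⟩

theorem t_eq (hL : IsFischerSpace L) (h : ({x, y, z} : Set X) ∈ L) (h1 : x ≠ y) (h2 : z ≠ x)
    (h3 : z ≠ y) : lineMap L x y = z := by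
  have e : ∃ z : X, z ≠ x ∧ z ≠ y ∧ x ≠ y ∧ ({x, y, z} : Set X) ∈ L := ⟨z, h2, h3, h1, h⟩
  rw [lineMap, dif_pos e]
  obtain ⟨a1, a2, -, a4⟩ := e.choose_spec
  have := (hL.1 _ a4 _ h x y h1 (by simp) (by simp) (by simp) (by simp)).le
    (show e.choose ∈ _ by simp)
  simpa [a1, a2] using this

theorem t_line (hL : IsFischerSpace L) {l : Set X} (hl : l ∈ L) (hx : x ∈ l) (hy : y ∈ l) (h : x ≠ y) :
    l = {x, y, lineMap L x y} ∧ lineMap L x y ≠ x ∧ lineMap L x y ≠ y := by
  obtain ⟨z, h1, h2, rfl⟩ : ∃ z, z ≠ x ∧ z ≠ y ∧ l = {x, y, z} := by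
    obtain ⟨a, b, c, h1, h2, h3, rfl⟩ := Set.ncard_eq_three.1 (hL.2.1 l hl)
    rcases hx with rfl | rfl | rfl <;> rcases hy with rfl | rfl | rfl <;>
      first
      | exact absurd rfl h
      | exact ⟨a, by grind, by grind, by ext; grind⟩
      | exact ⟨b, by grind, by grind, by ext; grind⟩
      | exact ⟨c, by grind, by grind, by ext; grind⟩
  rw [t_eq hL hl h h1 h2]
  exact ⟨rfl, h1, h2⟩

theorem t_col (hL : IsFischerSpace L) (h : Collinear L x y) :
    ({x, y, lineMap L x y} : Set X) ∈ L ∧ lineMap L x y ≠ x ∧ lineMap L x y ≠ y := by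
  obtain ⟨h, l, hl, hx, hy⟩ := h
  exact ⟨(t_line hL hl hx hy h).1 ▸ hl, (t_line hL hl hx hy h).2⟩

theorem t_t (hL : IsFischerSpace L) (x y : X) : lineMap L x (lineMap L x y) = y := by
  by_cases h : Collinear L x y
  · obtain ⟨a1, a2, a3⟩ := t_col hL h
    exact t_eq hL (by rwa [Set.pair_comm]) a2.symm h.1.symm a3.symm
  · rw [t_of_not h, t_of_not h]

theorem t_symm (hL : IsFischerSpace L) (h : Collinear L x y) : lineMap L y x = lineMap L x y := by
  obtain ⟨a1, a2, a3⟩ := t_col hL h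
  exact t_eq hL (by rwa [Set.insert_comm]) h.1.symm a3 a2

theorem plane {P : Type} {M : Set (Set P)} {col : P → P → Prop} {t : P → P → P} (hM : Mdl M col t)
    (hL : IsFischerSpace L) {S : Set X} (hS : IsSubspace L S) (e : Isomorphic (restrict L S) M)
    (hx : x ∈ S) (hy : y ∈ S) (hz : z ∈ S) (h : Collinear L y z) :
    Collinear L (lineMap L x y) (lineMap L x z) ∧
      lineMap L x (lineMap L y z) = lineMap L (lineMap L x y) (lineMap L x z) := by
  obtain ⟨e, he⟩ := e
  have inj : ∀ p q, (e.symm p : X) = e.symm q ↔ p = q := fun p q => by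
    rw [← Subtype.ext_iff, e.symm.injective.eq_iff]
  have k1 : ∀ p q, col p q → ({(e.symm p : X), (e.symm q : X), (e.symm (t p q) : X)} : Set X) ∈ L := by
    intro p q c
    obtain ⟨l, hl, h1, h2⟩ := (he (e.symm '' {p, q, t p q})).2
      (by rw [Equiv.image_symm_image]; exact (hM.lines _).2 ⟨p, q, c, rfl⟩)
    convert hl using 1
    ext u
    constructor
    · rintro (rfl | rfl | rfl) <;> exact h2.le ⟨_, by simp, rfl⟩
    · intro hu
      obtain ⟨r, hr, e⟩ := h2.ge (show (⟨u, h1 hu⟩ : S) ∈ _ from hu)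
      obtain rfl : (_ : X) = u := congrArg Subtype.val e
      rcases hr with rfl | rfl | rfl <;> simp
  have k2 : ∀ p q, col p q ↔ Collinear L (e.symm p : X) (e.symm q) := fun p q => by
    refine ⟨fun c => ⟨fun q => (hM.ne _ _ c).1 ((inj _ _).1 q), _, k1 p q c, by simp, by simp⟩, ?_⟩
    rintro ⟨h1, l, hl, h2, h3⟩
    exact hM.col_of_mem ((he _).1 ⟨l, hl, hS l hl _ (e.symm p).2 _ (e.symm q).2 h1 h2 h3, rfl⟩)
      ⟨_, h2, by simp⟩ ⟨_, h3, by simp⟩ fun q => h1 ((inj _ _).2 q)
  have k3 : ∀ p q, lineMap L (e.symm p : X) (e.symm q) = e.symm (t p q) := fun p q => by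
    by_cases c : col p q
    · obtain ⟨a1, a2, a3⟩ := hM.ne _ _ c
      exact t_eq hL (k1 p q c) (mt (inj _ _).1 a1) (mt (inj _ _).1 a2) (mt (inj _ _).1 a3)
    · rw [t_of_not (mt (k2 p q).2 c), hM.fix p q c]
  obtain ⟨p, rfl⟩ : ∃ p, (e.symm p : X) = x := ⟨e ⟨x, hx⟩, by simp⟩
  obtain ⟨q, rfl⟩ : ∃ p, (e.symm p : X) = y := ⟨e ⟨y, hy⟩, by simp⟩
  obtain ⟨r, rfl⟩ : ∃ p, (e.symm p : X) = z := ⟨e ⟨z, hz⟩, by simp⟩
  simp only [k3, ← k2, inj] at h ⊢
  exact hM.dist p q r h

theorem t_self (x : X) : lineMap L x x = x := t_of_not fun h => h.1 rfl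

theorem dist_col (hL : IsFischerSpace L) (x : X) (h : Collinear L y z) :
    Collinear L (lineMap L x y) (lineMap L x z) ∧
      lineMap L x (lineMap L y z) = lineMap L (lineMap L x y) (lineMap L x z) := by
  obtain ⟨a1, a2, a3⟩ := t_col hL h
  by_cases hx : x ∈ ({y, z, lineMap L y z} : Set X)
  · have hne := h.1
    generalize hw : lineMap L y z = w at *
    have b1 : lineMap L y w = z := by rw [← hw, t_t hL]
    have b2 : lineMap L z y = w := by rw [t_symm hL h, hw]
    have b3 : lineMap L z w = y := by rw [← b2, t_t hL]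
    have c : ∀ u ∈ ({y, z, w} : Set X), ∀ v ∈ ({y, z, w} : Set X), u ≠ v → Collinear L u v :=
      fun u hu v hv e => ⟨e, _, a1, hu, hv⟩
    have b4 : lineMap L w y = z := by rw [t_symm hL (c y (by simp) w (by simp) a2.symm), b1]
    have b5 : lineMap L w z = y := by rw [t_symm hL (c z (by simp) w (by simp) a3.symm), b3]
    rcases hx with rfl | rfl | rfl <;> simp only [t_self, hw, b1, b2, b3, b4, b5, and_true]
    exacts [c _ (by simp) _ (by simp) a2.symm, c _ (by simp) _ (by simp) a3,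
      c _ (by simp) _ (by simp) hne.symm]
  by_cases hc : ∃ u ∈ ({y, z, lineMap L y z} : Set X), Collinear L x u
  · obtain ⟨u, hu, -, m, hm, hxm, hum⟩ := hc
    have s := subset_span L ({y, z, lineMap L y z} ∪ m)
    rcases hL.2.2 _ a1 m hm (fun e => hx (e ▸ hxm)) ⟨u, hu, hum⟩ with e | e
    · exact plane mdlD hL (span_isSubspace _ _) e (s (Or.inr hxm)) (s (by simp)) (s (by simp)) h
    · exact plane mdlA hL (span_isSubspace _ _) e (s (Or.inr hxm)) (s (by simp)) (s (by simp)) h
  · push Not at hc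
    rw [t_of_not (hc y (by simp)), t_of_not (hc z (by simp)), t_of_not (hc _ (by simp))]
    exact ⟨h, rfl⟩

theorem dist (hL : IsFischerSpace L) (x y z : X) :
    lineMap L x (lineMap L y z) = lineMap L (lineMap L x y) (lineMap L x z) := by
  by_cases h : Collinear L y z
  · exact (dist_col hL x h).2
  · rw [t_of_not h, t_of_not (x := lineMap L x y) fun e => h (by simpa [t_t hL] using (dist_col hL x e).1)]

theorem image_mem (hL : IsFischerSpace L) (x : X) {l : Set X} (hl : l ∈ L) : lineMap L x '' l ∈ L := by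
  obtain ⟨a, b, c, h1, -, -, e⟩ := Set.ncard_eq_three.1 (hL.2.1 l hl)
  have ha : a ∈ l := by simp [e]
  have hb : b ∈ l := by simp [e]
  rw [(t_line hL hl ha hb h1).1, Set.image_insert_eq, Set.image_pair, dist hL]
  exact (t_col hL (dist_col hL x ⟨h1, l, hl, ha, hb⟩).1).1

end

/-- Let L be a nondegenerate Fischer space on the point type X (every point on a line). Then for every point x the map t(x) — sending a point collinear with x to the third point of their common line and fixing every other point — is a permutation of X of order 2 and an automorphism of the line system; and the set of all t(x) satisfies the 3-transposition order conditions in the permutation group of X (any two have product of order at most 3). -/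
theorem result {X : Type*} (L : Set (Set X)) (hL : Cfsg.IsFischerSpace L) (hnd : Cfsg.LineSystem.IsNondegenerate L) : (∀ x : X, ∃ σ : Equiv.Perm X, ⇑σ = Cfsg.LineSystem.lineMap L x ∧ orderOf σ = 2 ∧ Cfsg.LineSystem.IsIso L L σ) ∧ Cfsg.IsThreeTranspositionSet {σ : Equiv.Perm X | ∃ x : X, ⇑σ = Cfsg.LineSystem.lineMap L x} := by
  have o2 : ∀ (x : X) (σ : Equiv.Perm X), ⇑σ = lineMap L x → orderOf σ = 2 := fun x σ e => by
    refine orderOf_eq_two (Equiv.ext fun y => by simp [e, t_t hL]) fun q => ?_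
    obtain ⟨l, hl, hx⟩ := hnd x
    obtain ⟨y, hy, hne⟩ := Set.exists_ne_of_one_lt_ncard (s := l) (by rw [hL.2.1 l hl]; omega) x
    exact (t_line hL hl hx hy hne.symm).2.2 (by rw [← e, q]; rfl)
  refine ⟨fun x => ⟨Function.Involutive.toPerm _ (t_t hL x), rfl, o2 x _ rfl, fun l =>
    ⟨image_mem hL x, fun h => ?_⟩⟩, fun σ ⟨x, e⟩ => o2 x σ e, fun σ ⟨x, e⟩ τ ⟨y, e'⟩ => ?_⟩
  · have := image_mem hL x h
    rw [Set.image_image] at this
    exact (Set.image_congr (g := id) fun a _ => t_t hL x a).trans (Set.image_id l) ▸ this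
  have s1 := mul_self_of_orderOf (o2 x σ e)
  have s2 := mul_self_of_orderOf (o2 y τ e')
  have k : ∀ x y z, lineMap L x (lineMap L y (lineMap L x z)) = lineMap L (lineMap L x y) z :=
    fun x y z => by rw [dist hL, t_t hL]
  by_cases h : Collinear L x y
  · exact Or.inr (cube_of_braid s1 s2 (Equiv.ext fun z => by simp [e, e', k, t_symm hL h]))
  · refine Or.inl (Equiv.ext fun z => ?_)
    have := k x y (lineMap L y z)
    rw [t_of_not h, t_t hL] at this
    simpa [pow_two, e, e'] using this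

end Cfsg.Agent.S5366
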