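import Cfsg.Statements.S5367
import Cfsg.Agent.TT.Fischer

set_option autoImplicit false
open Cfsg

namespace Cfsg.Agent.S5367

open Cfsg.Agent.TT Cfsg.Agent.TT.Fs LineSystem Equiv

section

variable {G : Type*} [Group G] {D : Set G}

def ln (x y : D) : Set D := {z : D | (z : G) = x ∨ (z : G) = y ∨ (z : G) = (y : G) * (x : G) * (y : G)⁻¹}

theorem ln_eq (h : T3 D) {x y p q : D} (hn : ¬ Commute (x : G) y) (hp : p ∈ ln x y) (hq : q ∈ ln x y)
    (hne : p ≠ q) : ¬ Commute (p : G) q ∧ ln x y = ln p q := by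
  obtain ⟨φ, f1, f2⟩ := Wd.exists_hom_S3 (h.sq x.2) (h.sq y.2) (h.br x.2 y.2 hn)
  have hi := Wd.injective_S3 φ (by rw [f1, f2]; exact fun e => hn (e ▸ Commute.refl _))
  have hne' : (p : G) ≠ q := fun e => hne (Subtype.ext e)
  have k : ∀ a b : Perm (Fin 3), (a = swap 0 1 ∨ a = swap 1 2 ∨ a = swap 1 2 * swap 0 1 * (swap 1 2)⁻¹) →
      (b = swap 0 1 ∨ b = swap 1 2 ∨ b = swap 1 2 * swap 0 1 * (swap 1 2)⁻¹) → a ≠ b →
      a * b ≠ b * a ∧ ∀ c : Perm (Fin 3), ((c = swap 0 1 ∨ c = swap 1 2 ∨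
        c = swap 1 2 * swap 0 1 * (swap 1 2)⁻¹) ↔ (c = a ∨ c = b ∨ c = b * a * b⁻¹)) := by
    rintro _ _ (rfl | rfl | rfl) (rfl | rfl | rfl) <;> decide
  have m : ∀ z : D, z ∈ ln x y → ∃ a, φ a = z ∧
      (a = swap 0 1 ∨ a = swap 1 2 ∨ a = swap 1 2 * swap 0 1 * (swap 1 2)⁻¹) := by
    rintro z (e | e | e)
    exacts [⟨_, f1.trans e.symm, by simp⟩, ⟨_, f2.trans e.symm, by simp⟩,
      ⟨_, by rw [e, ← f1, ← f2, map_mul, map_mul, map_inv], Or.inr (Or.inr rfl)⟩]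
  obtain ⟨a, ea, ha⟩ := m p hp
  obtain ⟨b, eb, hb⟩ := m q hq
  obtain ⟨k1, k2⟩ := k a b ha hb fun e => hne' (by rw [← ea, ← eb, e])
  refine ⟨fun c => k1 (hi (by rw [map_mul, map_mul, ea, eb]; exact c)), Set.ext fun z => ?_⟩
  simp only [ln, Set.mem_ofPred_eq, ← ea, ← eb, ← f1, ← f2, ← map_inv, ← map_mul]
  constructor <;> rintro (e | e | e) <;> simp only [e, hi.eq_iff]
  all_goals first | exact (k2 _).1 (by simp) | exact (k2 _).2 (by simp)

theorem iso (h : T3 D) {P : Type} {M : Set (Set P)} {col : P → P → Prop} {t : P → P → P}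
    (hM : Mdl M col t) (f : P → D) (hi : Function.Injective f)
    (h1 : ∀ p q, col p q ↔ ¬ Commute (f p : G) (f q))
    (h2 : ∀ p q, col p q → (f (t p q) : G) = f q * f p * (f q : G)⁻¹) {p₀ p₁ p₂ : P}
    (c1 : col p₀ p₁) (c2 : col p₀ p₂)
    (gen : ∀ S : Set P, p₀ ∈ S → p₁ ∈ S → p₂ ∈ S → (∀ p ∈ S, ∀ q ∈ S, t p q ∈ S) → ∀ p, p ∈ S)
    {x y z : D} (ex : (f p₀ : G) = x) (ey : (f p₁ : G) = y) (ez : (f p₂ : G) = z) :
    Isomorphic (restrict (threeTranspositionLines D) (span (threeTranspositionLines D)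
      (ln x y ∪ ln x z))) M := by
  obtain rfl := Subtype.ext ex
  obtain rfl := Subtype.ext ey
  obtain rfl := Subtype.ext ez
  have k : ∀ p q, col p q → ln (f p) (f q) = f '' {p, q, t p q} := fun p q c => by
    ext z
    simp only [ln, Set.mem_ofPred_eq, ← h2 p q c, ← Subtype.ext_iff, Set.image_insert_eq,
      Set.image_singleton, Set.mem_insert_iff, Set.mem_singleton_iff]
  have k' : ∀ l ∈ threeTranspositionLines D, ∀ p q, p ≠ q → f p ∈ l → f q ∈ l →
      col p q ∧ l = f '' {p, q, t p q} := by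
    rintro _ ⟨x, y, hn, rfl⟩ p q hne hp hq
    obtain ⟨a1, a2⟩ := ln_eq h hn hp hq (hi.ne hne)
    exact ⟨(h1 p q).2 a1, a2.trans (k p q ((h1 p q).2 a1))⟩
  have hS : span (threeTranspositionLines D) (ln (f p₀) (f p₁) ∪ ln (f p₀) (f p₂)) = Set.range f := by
    refine Set.Subset.antisymm (Set.sInter_subset_of_mem ⟨?_, ?_⟩) ?_
    · rw [k _ _ c1, k _ _ c2]
      exact Set.union_subset (Set.image_subset_range _ _) (Set.image_subset_range _ _)
    · rintro l hl _ ⟨p, rfl⟩ _ ⟨q, rfl⟩ hne hp hq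
      rw [(k' l hl p q (fun e => hne (congrArg f e)) hp hq).2]
      exact Set.image_subset_range _ _
    · rintro _ ⟨p, rfl⟩ T hT
      refine gen (f ⁻¹' T) (hT.1 (Or.inl (Or.inl rfl))) (hT.1 (Or.inl (Or.inr (Or.inl rfl))))
        (hT.1 (Or.inr (Or.inr (Or.inl rfl)))) (fun p hp q hq => ?_) p
      by_cases c : col p q
      · exact hT.2 (ln (f p) (f q)) ⟨_, _, (h1 p q).1 c, rfl⟩ _ hp _ hq (hi.ne (hM.ne p q c).1)
          (Or.inl rfl) (Or.inr (Or.inl rfl)) (Or.inr (Or.inr (h2 p q c)))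
      · rwa [hM.fix p q c]
  rw [hS]
  have im : ∀ s : Set P, (Equiv.ofInjective f hi).symm '' {x : Set.range f | (x : D) ∈ f '' s} = s :=
    fun s => by
      ext p
      constructor
      · rintro ⟨⟨_, q, rfl⟩, ⟨r, hr, e⟩, rfl⟩
        rw [Equiv.ofInjective_symm_apply]
        exact hi e ▸ hr
      · exact fun hp => ⟨⟨_, p, rfl⟩, ⟨p, hp, rfl⟩, Equiv.ofInjective_symm_apply _ _⟩
  refine ⟨(Equiv.ofInjective f hi).symm, fun m => ⟨?_, fun hm => ?_⟩⟩
  · rintro ⟨_, ⟨x, y, hn, rfl⟩, hl, rfl⟩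
    obtain ⟨p, rfl⟩ := hl (show x ∈ ln x y from Or.inl rfl)
    obtain ⟨q, rfl⟩ := hl (show y ∈ ln _ y from Or.inr (Or.inl rfl))
    have := k p q ((h1 p q).2 hn)
    rw [ln] at this
    rw [this, im]
    exact (hM.lines _).2 ⟨p, q, (h1 p q).2 hn, rfl⟩
  · obtain ⟨p, q, c, e⟩ := (hM.lines _).1 hm
    refine ⟨ln (f p) (f q), ⟨_, _, (h1 p q).1 c, rfl⟩, k p q c ▸ Set.image_subset_range _ _, ?_⟩
    rw [k p q c]
    exact Set.image_injective.2 (Equiv.injective _) (e.trans (im _).symm)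

def sw (s : DualAffinePoint) : Perm (Fin 4) :=
  match (List.finRange 4).filter (· ∈ s.1) with
  | [i, j] => swap i j
  | _ => 1

theorem isoD (h : T3 D) {x y z : D} (h1 : ¬ Commute (x : G) y) (h2 : ¬ Commute (x : G) z)
    (h3 : Commute (y : G) z) (h4 : y ≠ z) :
    Isomorphic (restrict (threeTranspositionLines D) (span (threeTranspositionLines D)
      (ln x y ∪ ln x z))) dualAffinePlaneTwo := by
  obtain ⟨φ, f1, f2, f3⟩ := Wd.exists_hom_S4 (h.sq y.2) (h.sq x.2) (h.sq z.2)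
    (h.br y.2 x.2 fun c => h1 c.symm) (h.br x.2 z.2 h2) h3
  have hi := Wd.injective_S4 φ (by rw [f1, f3]; exact fun e => h4 (Subtype.ext e))
  have m : ∀ s, φ (sw s) ∈ D := fun s => by
    have : ∀ s, ∃ g : Perm (Fin 4), sw s = g * swap 0 1 * g⁻¹ := by decide +kernel
    obtain ⟨g, e⟩ := this s
    rw [e, map_mul, map_mul, map_inv, f1]
    exact h.cj _ _ y.2
  exact iso h mdlD (fun s => ⟨_, m s⟩) (fun s t e => by
      have : ∀ s t, sw s = sw t → s = t := by decide +kernel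
      exact this s t (hi (congrArg Subtype.val e)))
    (fun p q => by
      have : ∀ p q, colD p q ↔ sw p * sw q ≠ sw q * sw p := by decide +kernel
      rw [this, Commute, SemiconjBy, ← map_mul, ← map_mul, hi.eq_iff])
    (fun p q c => by
      have : ∀ p q, colD p q → sw (tD p q) = sw q * sw p * (sw q)⁻¹ := by decide +kernel
      simp [this p q c])
    (p₀ := ⟨{1, 2}, by decide⟩) (p₁ := ⟨{0, 1}, by decide⟩) (p₂ := ⟨{2, 3}, by decide⟩)
    (by decide) (by decide) (fun S a b c k p => by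
      have : ∀ p, ∀ a b c : DualAffinePoint, a.1 = {1, 2} → b.1 = {0, 1} → c.1 = {2, 3} → p = a ∨
        p = b ∨ p = c ∨ p = tD a b ∨ p = tD a c ∨ p = tD b (tD a c) := by decide +kernel
      rcases this p ⟨{1, 2}, by decide⟩ ⟨{0, 1}, by decide⟩ ⟨{2, 3}, by decide⟩ rfl rfl rfl with
        rfl | rfl | rfl | rfl | rfl | rfl
      exacts [a, b, c, k _ a _ b, k _ a _ c, k _ b _ (k _ a _ c)])
    ((congrArg φ (by decide)).trans f2) ((congrArg φ (by decide)).trans f1)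
    ((congrArg φ (by decide)).trans f3)

def wA (p : Fin 2 → ZMod 3) : List ℕ :=
  match (p 0).val, (p 1).val with
  | 0, 0 => [0]
  | 1, 0 => [1]
  | 2, 0 => [0, 1, 0]
  | 0, 1 => [2]
  | 0, 2 => [0, 2, 0]
  | 2, 2 => [1, 2, 1]
  | 1, 1 => [0, 1, 2, 1, 0]
  | 2, 1 => [1, 0, 2, 0, 1]
  | _, _ => [0, 1, 0, 2, 0, 1, 0]

theorem isoA (h : T3 D) {x y z : D} (h1 : ¬ Commute (x : G) y) (h2 : ¬ Commute (x : G) z)
    (h3 : ¬ Commute (y : G) z) (h4 : ¬ Commute ((x : G) * y * x) z) :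
    Isomorphic (restrict (threeTranspositionLines D) (span (threeTranspositionLines D)
      (ln x y ∪ ln x z))) affinePlaneThree := by
  have hv := Wd.h54_valid _ (Wd.valid_h54 (h.sq x.2) (h.sq y.2) (h.sq z.2) (h.br x.2 y.2 h1)
    (h.br y.2 z.2 h3) (h.br x.2 z.2 h2) (h.br (h.star x.2 y.2) z.2 h4))
  set v := Wd.gens [(x : G), y, z] with hv'
  have st : ∀ p q, Wd.ev v (wA (tA p q)) = Wd.ev v (wA q) * Wd.ev v (wA p) * Wd.ev v (wA q) := by
    have : ∀ p q, Wd.weq (Wd.nf Wd.h54R 40 (wA (tA p q))) (Wd.nf Wd.h54R 40 (wA q ++ wA p ++ wA q)) =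
      true := by decide +kernel
    intro p q
    rw [hv.eq 40 _ _ (this p q), Wd.ev_append, Wd.ev_append]
  have e0 : Wd.ev v (wA ![0, 0]) = x := mul_one _
  have e1 : Wd.ev v (wA ![1, 0]) = y := mul_one _
  have e2 : Wd.ev v (wA ![0, 1]) = z := mul_one _
  have gen : ∀ S : Set (Fin 2 → ZMod 3), ![0, 0] ∈ S → ![1, 0] ∈ S → ![0, 1] ∈ S →
      (∀ p ∈ S, ∀ q ∈ S, tA p q ∈ S) → ∀ p, p ∈ S := fun S a b c k p => by
    have : ∀ p, ∀ a b c : Fin 2 → ZMod 3, a = ![0, 0] → b = ![1, 0] → c = ![0, 1] → p = a ∨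
        p = b ∨ p = c ∨ p = tA a b ∨ p = tA a c ∨ p = tA b c ∨ p = tA a (tA b c) ∨ p = tA b (tA a c) ∨
        p = tA c (tA a b) := by
      rintro p _ _ _ rfl rfl rfl; revert p; decide +kernel
    rcases this p _ _ _ rfl rfl rfl with rfl | rfl | rfl | rfl | rfl | rfl | rfl | rfl | rfl
    exacts [a, b, c, k _ a _ b, k _ a _ c, k _ b _ c, k _ a _ (k _ b _ c), k _ b _ (k _ a _ c),
      k _ c _ (k _ a _ b)]
  have m : ∀ p, Wd.ev v (wA p) ∈ D := gen {p | Wd.ev v (wA p) ∈ D} (e0.symm ▸ x.2 : Wd.ev v _ ∈ D)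
    (e1.symm ▸ y.2 : Wd.ev v _ ∈ D) (e2.symm ▸ z.2 : Wd.ev v _ ∈ D)
    fun p hp q hq => by
      show Wd.ev v _ ∈ D
      rw [st]; exact h.star hq hp
  have inj : ∀ p q, Wd.ev v (wA p) = Wd.ev v (wA q) → p = q := fun p q e => by
    have k : ∀ u, Wd.ev v (wA u) = Wd.ev v (wA (u + (q - p))) := fun u => by
      have a1 := st (tA p (u - p)) 0
      have a2 := st (tA q (u - p)) 0
      rw [st p, e, ← st, ← a2] at a1
      convert a1 using 3 <;> simp only [tA] <;> ring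
    have : ∀ d : Fin 2 → ZMod 3, d = 0 ∨ ![0, 0] + d = ![1, 0] ∨ ![1, 0] + d = ![0, 0] ∨
      ![0, 0] + d = ![0, 1] ∨ ![0, 1] + d = ![0, 0] ∨ ![1, 0] + d = ![0, 1] ∨ ![0, 1] + d = ![1, 0] ∨
      tA ![1, 0] ![0, 0] + d = ![0, 1] ∨ ![0, 1] + d = tA ![1, 0] ![0, 0] := by decide +kernel
    have ce : ∀ a b : G, a = b → Commute a b ∧ Commute b a := fun a b e => e ▸ ⟨.refl a, .refl a⟩
    have e3 := st ![1, 0] ![0, 0]
    rw [e0, e1] at e3
    rcases this (q - p) with d | d | d | d | d | d | d | d | d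
    · exact (sub_eq_zero.1 d).symm
    all_goals
      have := d ▸ k _
      simp only [e0, e1, e2, e3] at this
      exfalso
      first
      | exact h1 (ce _ _ this).1
      | exact h2 (ce _ _ this).1
      | exact h3 (ce _ _ this).1
      | exact h4 (ce _ _ this).1
      | exact h1 (ce _ _ this).2
      | exact h2 (ce _ _ this).2
      | exact h3 (ce _ _ this).2
      | exact h4 (ce _ _ this).2
  exact iso h mdlA (fun p => ⟨_, m p⟩) (fun p q e => inj p q (congrArg Subtype.val e))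
    (fun p q => ⟨fun c k => c (inj p q (eq_of_commute_of_braid (h.sq (m p)) (h.sq (m q)) k (by
      rw [← st, ← st]; simp only [tA]; congr 2; ring))), fun c e => c (e ▸ Commute.refl _)⟩)
    (fun p q _ => by simp only [st, h.inv (m q)]) (p₀ := ![0, 0]) (p₁ := ![1, 0]) (p₂ := ![0, 1])
    (by decide) (by decide) gen e0 e1 e2

end

/-- Let D be a conjugation-invariant generating set of 3-transpositions of a finite group G. Then the line system on D whose lines are the triples {x, y, y x y⁻¹} for non-commuting members x, y of D is a Fischer space: two points lie on at most one line, lines have three points, and two different meeting lines generate a subspace isomorphic to the dual affine plane of order two or to the affine plane of order three. -/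
theorem result {G : Type*} [Group G] [Finite G] {D : Set G} (hD : Cfsg.IsThreeTranspositionGroup D) : Cfsg.IsFischerSpace (Cfsg.threeTranspositionLines D) := by
  have h := hD.t3
  have pt : ∀ l ∈ threeTranspositionLines D, ∀ p ∈ l, ∃ q : D, ¬ Commute (p : G) q ∧ l = ln p q := by
    rintro _ ⟨x, y, hn, rfl⟩ p hp
    by_cases e : p = x
    · exact ⟨y, ln_eq h hn hp (Or.inr (Or.inl rfl)) fun q => hn (by rw [← e, q])⟩
    · exact ⟨x, ln_eq h hn hp (Or.inl rfl) e⟩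
  refine ⟨?_, ?_, fun l hl m hm hne ⟨x, h1, h2⟩ => ?_⟩
  · rintro _ ⟨x, y, hn, rfl⟩ _ ⟨x', y', hn', rfl⟩ p q hne h1 h2 h3 h4
    exact (ln_eq h hn h1 h2 hne).2.trans (ln_eq h hn' h3 h4 hne).2.symm
  · rintro _ ⟨x, y, hn, rfl⟩
    refine Set.ncard_eq_three.2 ⟨x, y, ⟨_, h.cj y x x.2⟩, fun e => hn (by rw [e]), fun e => hn ?_,
      fun e => hn ?_, by ext; simp [Subtype.ext_iff]⟩
    · exact (commute_iff_conj.2 (congrArg Subtype.val e).symm).symm
    · have : (y : G) = y * x * (y : G)⁻¹ := congrArg Subtype.val e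
      rw [eq_mul_inv_iff_mul_eq, mul_right_inj] at this
      rw [this]
  obtain ⟨y, c1, rfl⟩ := pt l hl x h1
  obtain ⟨z, c2, rfl⟩ := pt m hm x h2
  by_cases c3 : Commute (y : G) z
  · exact Or.inl (isoD h c1 c2 c3 fun e => hne (by rw [e]))
  by_cases c4 : Commute ((x : G) * y * x) z
  · have m : (⟨_, h.star x.2 y.2⟩ : D) ∈ ln x y :=
      Or.inr (Or.inr (by rw [h.inv y.2]; exact h.br x.2 y.2 c1))
    obtain ⟨a1, a2⟩ := ln_eq h c1 (Or.inl rfl) m fun e => c2 (by rw [e]; exact c4)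
    rw [a2] at hne ⊢
    exact Or.inl (isoD h a1 c2 c4 fun e => hne (by rw [e]))
  · exact Or.inr (isoA h c1 c2 c3 c4)

end Cfsg.Agent.S5367
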