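import Cfsg.Statements.S5375
import Cfsg.Agent.Fi.Rec24
import Cfsg.Agent.FM.M24
import Cfsg.Agent.Fi.Gf24
import Cfsg.Agent.Fi.T3c

set_option autoImplicit false
open Cfsg

namespace Cfsg.Agent.S5375

open Cfsg.Agent.GT Subgroup

/-- Let G be a finite group with trivial centre generated by a conjugation-invariant set D of 3-transpositions on which it acts primitively, of type M(24). Then the layer of G (its largest semisimple normal subgroup) has index 2, D has exactly 306936 members, G has order 2^22 · 3^16 · 5^2 · 7^3 · 11 · 13 · 17 · 23 · 29, the width of D is 24, and for every d in D the subgroup generated by the members of D other than d commuting with d is the centralizer of d. -/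
theorem result {G : Type*} [Group G] [Finite G] {D : Set G} (hD : Cfsg.IsThreeTranspositionGroup D) (hprim : Cfsg.IsPrimitiveUnderConj D) (ht : Cfsg.IsOfTypeM24 G D) : (Cfsg.layer G).index = 2 ∧ D.ncard = 306936 ∧ Nat.card G = 2 ^ 22 * 3 ^ 16 * 5 ^ 2 * 7 ^ 3 * 11 * 13 * 17 * 23 * 29 ∧ Cfsg.commutingWidth D = 24 ∧ ∀ d ∈ D, Subgroup.closure {y : G | y ∈ D ∧ y ≠ d ∧ Commute d y} = Subgroup.centralizer ({d} : Set G) := by
  obtain ⟨β, h⟩ := Fi.rec24 hD hprim ht
  refine ⟨?_, h.ncard_eq, h.card, Fi.width_eq h.cw h.hw, fun d hd => h.perp_cent hd⟩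
  obtain ⟨M, -⟩ := FM.F24.exists_mdl h.toModel
  obtain ⟨L, hn, hL, hF, hi, -⟩ := Fi.t3_qs (h.class h.t3.ts h.top) hprim
    ⟨_, h.mem 31671 (by norm_num), _, h.mem 0 (by norm_num),
      (h.lab23.mem 0 (by norm_num)).2.1.symm, (h.lab23.mem 0 (by norm_num)).2.2⟩
  have e : layer G = L := by
    refine le_antisymm (le_sup_left.trans (show generalizedFittingSubgroup G ≤ L by rw [hF, h.ctr, sup_bot_eq])) ?_
    rw [← TT.layerOf_top]
    exact TT.Cmp.le_layerOf ⟨hL, TT.SN.of_normal L⟩
  rw [e]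
  have h0 : L.index ≠ 0 := index_ne_zero_of_finite
  have h1 : L.index ≠ 1 := fun h1 => by
    rw [index_eq_one] at h1
    exact Fi.Q24a.not_simple M (r := 3 ^ 16 * 5 ^ 2 * 7 ^ 3 * 11 * 13 * 17 * 23 * 29) (by rw [h.card]; norm_num)
      (by decide) (Fi.simple_of_qs (TT.qs_top_iff.1 (h1 ▸ hL)) h.ctr)
  omega

end Cfsg.Agent.S5375
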