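import Cfsg.Statements.S5387
import Cfsg.Agent.TC.L34
import Cfsg.Agent.TC.L34Cov
import Cfsg.Agent.TC.Red

set_option autoImplicit false
open Cfsg

namespace Cfsg.Agent.S5387

open Cfsg.Agent.TC Cfsg.Agent.M24 Cfsg.Agent.Leech Subgroup
open scoped commutatorElement

theorem odd_lift {L P : Type*} [Group L] [Group P] (ψ : L →* P) (hk : ∀ z, ψ z = 1 → z * z = 1)
    {g : L} {m : ℕ} (hm : ψ g ^ (2 * m + 1) = 1) : ∃ x : L, ψ x = ψ g ∧ x ^ (2 * m + 1) = 1 := by
  refine ⟨g ^ (2 * m + 2), by rw [map_pow, pow_succ, hm, one_mul], ?_⟩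
  have h := hk (g ^ (2 * m + 1)) (by rw [map_pow, hm])
  rw [← pow_mul, mul_comm, pow_mul, show 2 * m + 2 = 2 * (m + 1) by ring, pow_mul, sq, h, one_pow]

theorem base_eq : L34Cov.base = [pww [0] 7, pww [2] 5] ++
    L34.rl.flatMap fun r => [pww r 2, cmw L34Cov.iv r [0], cmw L34Cov.iv r [2]] := by
  decide +kernel

theorem rl_ok : relsOk (mulG 5 31 21) (oneG 5 21) L34.lc 4 ([pww [0] 7, pww [2] 5] ++ L34.rl) = true := by
  decide +kernel

theorem lift_ok {L : Type*} [Group L] {F : Type} [Field F] [Fintype F] (hF : Fintype.card F = 4)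
    (h : Group.IsPerfect L) (he : ∀ x ∈ center L, x * x = 1)
    (e : L ⧸ center L ≃* Matrix.ProjectiveSpecialLinearGroup (Fin 3) F) :
    ∃ v : ℕ → L, (∀ i < 4, L34Cov.iv i < 4 ∧ v (L34Cov.iv i) * v i = 1) ∧
      (∀ l ∈ L34Cov.base, (∀ i ∈ l, i < 4) ∧ evl v l = 1) ∧ closure (v '' {i | i < 4}) = ⊤ := by
  obtain ⟨e0⟩ := L34.iso_PSL F hF
  have C := (finEnc 21).gc (w := 5) (mk := 31) rfl (by norm_num)
  have hv := (chkG_sound (finEnc 21) rfl (by norm_num) L34.chk_B).1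
  have hl : gensOf L34.cB = [L34.lc 0, L34.lc 2, oneG 5 21] := by decide +kernel
  rw [hl] at hv e0
  obtain ⟨x0, hx0⟩ := hv _ (by simp : L34.lc 0 ∈ _)
  obtain ⟨y0, hy0⟩ := hv _ (by simp : L34.lc 2 ∈ _)
  let ψ : L →* Equiv.Perm (Fin 21) := (Subgroup.subtype _).comp
    (e0.symm.toMonoidHom.comp (e.toMonoidHom.comp (QuotientGroup.mk' _)))
  have hker : ∀ z, ψ z = 1 ↔ z ∈ center L := fun z => by
    simp only [ψ, MonoidHom.comp_apply, coe_subtype, OneMemClass.coe_eq_one, MulEquiv.coe_toMonoidHom,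
      EmbeddingLike.map_eq_one_iff, QuotientGroup.mk'_apply, QuotientGroup.eq_one_iff]
  have hsur : ∀ g ∈ gen ((finEnc 21).code 5) [L34.lc 0, L34.lc 2, oneG 5 21], ∃ z, ψ z = g := by
    intro g hg
    obtain ⟨z, hz⟩ := QuotientGroup.mk'_surjective _ (e.symm (e0 ⟨g, hg⟩))
    refine ⟨z, ?_⟩
    change (e0.symm (e (QuotientGroup.mk' _ z))).1 = g
    rw [hz]; simp
  have hran : ∀ z, ψ z ∈ gen ((finEnc 21).code 5) [L34.lc 0, L34.lc 2, oneG 5 21] := fun z =>
    (e0.symm _).2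
  let u : ℕ → Equiv.Perm (Fin 21) := fun i => if i = 0 then x0 else if i = 1 then x0⁻¹ else
    if i = 2 then y0 else y0⁻¹
  have hu : ∀ i < 4, (finEnc 21).code 5 (u i) = L34.lc i := by
    intro i hi
    interval_cases i
    · exact hx0
    · exact (C.code_inv _).trans (by rw [hx0]; decide +kernel)
    · exact hy0
    · exact (C.code_inv _).trans (by rw [hy0]; decide +kernel)
  have hr := relsOk_sound C hu rl_ok
  obtain ⟨x1, hx1⟩ := hsur x0 (mem_gen_of_mem (by simp [hx0]))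
  obtain ⟨y1, hy1⟩ := hsur y0 (mem_gen_of_mem (by simp [hy0]))
  have hk : ∀ z, ψ z = 1 → z * z = 1 := fun z hz => he z ((hker z).1 hz)
  obtain ⟨x, hx, hx7⟩ := odd_lift ψ hk (g := x1) (m := 3) (by
    have := (hr (pww [0] 7) (by simp)).2
    rw [evl_pww] at this; simpa [evl, u, hx1] using this)
  obtain ⟨y, hy, hy5⟩ := odd_lift ψ hk (g := y1) (m := 2) (by
    have := (hr (pww [2] 5) (by simp)).2
    rw [evl_pww] at this; simpa [evl, u, hy1] using this)
  rw [hx1] at hx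
  rw [hy1] at hy
  let v : ℕ → L := fun i => if i = 0 then x else if i = 1 then x⁻¹ else if i = 2 then y else y⁻¹
  have hvu : (fun i => ψ (v i)) = u := funext fun i => by
    simp only [v, u]; split_ifs <;> simp [hx, hy]
  have hinv : ∀ i < 4, L34Cov.iv i < 4 ∧ v (L34Cov.iv i) * v i = 1 := by
    intro i hi
    interval_cases i
    exacts [⟨by decide, inv_mul_cancel x⟩, ⟨by decide, mul_inv_cancel x⟩,
      ⟨by decide, inv_mul_cancel y⟩, ⟨by decide, mul_inv_cancel y⟩]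
  refine ⟨v, hinv, fun l hl => ?_, ?_⟩
  · rw [base_eq, List.mem_append, List.mem_flatMap] at hl
    rcases hl with hl | ⟨r, hr1, hl⟩
    · simp only [List.mem_cons, List.not_mem_nil, or_false] at hl
      rcases hl with rfl | rfl
      · exact ⟨pww_lt (by simp) _, by rw [evl_pww]; simpa [evl, v] using hx7⟩
      · exact ⟨pww_lt (by simp) _, by rw [evl_pww]; simpa [evl, v] using hy5⟩
    · obtain ⟨a, b⟩ := hr r (List.mem_append_right _ hr1)
      have c : ψ (evl v r) = 1 := by rw [evl_map, hvu, b]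
      have d : ∀ g, Commute (evl v r) g := fun g => (mem_center_iff.1 ((hker _).1 c) g).symm
      simp only [List.mem_cons, List.not_mem_nil, or_false] at hl
      rcases hl with rfl | rfl | rfl
      · exact ⟨pww_lt a _, by rw [evl_pww, sq, hk _ c]⟩
      · exact cmw_ok hinv a (by simp) (d _)
      · exact cmw_ok hinv a (by simp) (d _)
  · set H := closure (v '' {i | i < 4})
    have h1 : ∀ g : L, ∃ a ∈ H, ∃ z ∈ center L, g = a * z := by
      intro g
      have : gen ((finEnc 21).code 5) [L34.lc 0, L34.lc 2, oneG 5 21] ≤ H.map ψ := gen_le fun g hg => by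
        simp only [List.mem_cons, List.not_mem_nil, or_false] at hg
        rcases hg with hg | hg | hg
        · exact ⟨x, subset_closure ⟨0, by simp, rfl⟩, hx.trans (C.inj (hx0.trans hg.symm))⟩
        · exact ⟨y, subset_closure ⟨2, by simp, rfl⟩, hy.trans (C.inj (hy0.trans hg.symm))⟩
        · exact ⟨1, H.one_mem, (map_one ψ).trans (C.inj (C.code_one.trans hg.symm))⟩
      obtain ⟨a, ha, e⟩ := this (hran g)
      exact ⟨a, ha, a⁻¹ * g, (hker _).1 (by rw [map_mul, map_inv, e, inv_mul_cancel]), by simp⟩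
    rw [eq_top_iff, ← h.commutator_eq_top, _root_.commutator_def, commutator_le]
    intro g _ g' _
    obtain ⟨a, ha, z, hz, rfl⟩ := h1 g
    obtain ⟨b, hb, w, hw, rfl⟩ := h1 g'
    have hz' := mem_center_iff.1 hz
    have hw' := mem_center_iff.1 hw
    have : ⁅a * z, b * w⁆ = a * b * a⁻¹ * b⁻¹ := by
      rw [commutatorElement_def, mul_inv_rev, mul_inv_rev]
      calc a * z * (b * w) * (z⁻¹ * a⁻¹) * (w⁻¹ * b⁻¹)
          = a * (z * (b * w) * z⁻¹) * (a⁻¹ * w⁻¹) * b⁻¹ := by group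
        _ = a * (b * w) * (w⁻¹ * a⁻¹) * b⁻¹ := by
          rw [← hz' (b * w), mul_inv_cancel_right, ← mul_inv_rev w a, ← hw' a, mul_inv_rev]
        _ = _ := by group
    rw [this]
    exact H.mul_mem (H.mul_mem (H.mul_mem ha hb) (H.inv_mem ha)) (H.inv_mem hb)

theorem card_L {L : Type*} [Group L] {F : Type} [Field F] [Fintype F] (hF : Fintype.card F = 4)
    (hc : Nat.card (center L) = 4)
    (e : L ⧸ center L ≃* Matrix.ProjectiveSpecialLinearGroup (Fin 3) F) : Nat.card L = 80640 := by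
  obtain ⟨e0⟩ := L34.iso_PSL F hF
  rw [card_eq_card_quotient_mul_card_subgroup (center L), hc, Nat.card_congr e.toEquiv,
    ← Nat.card_congr e0.toEquiv, L34.card_gen]

theorem iso_of_sur {D L : Type*} [Group D] [Group L] [Finite D] (f : D →* L)
    (hf : Function.Surjective f) (h : Nat.card D ≤ Nat.card L) : Nonempty (D ≃* L) :=
  ⟨MulEquiv.ofBijective f ((Nat.bijective_iff_surjective_and_card f).2
    ⟨hf, le_antisymm h (Nat.card_le_card_of_surjective f hf)⟩)⟩


/-- Up to isomorphism there is at most one quasisimple group whose centre is elementary abelian of order 4 and whose central quotient is isomorphic to the projective special linear group of dimension 3 over the field with four elements: any two such groups are isomorphic. -/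
theorem result {L₁ L₂ : Type*} [Group L₁] [Finite L₁] [Group L₂] [Finite L₂] (F : Type) [Field F] [Fintype F] (hF : Fintype.card F = 4) (h₁ : Cfsg.IsQuasisimple L₁) (h₂ : Cfsg.IsQuasisimple L₂) (hc₁ : Nat.card (Subgroup.center L₁) = 4) (hc₂ : Nat.card (Subgroup.center L₂) = 4) (he₁ : ∀ x ∈ Subgroup.center L₁, x * x = 1) (he₂ : ∀ x ∈ Subgroup.center L₂, x * x = 1) (e₁ : L₁ ⧸ Subgroup.center L₁ ≃* Matrix.ProjectiveSpecialLinearGroup (Fin 3) F) (e₂ : L₂ ⧸ Subgroup.center L₂ ≃* Matrix.ProjectiveSpecialLinearGroup (Fin 3) F) : Nonempty (L₁ ≃* L₂) := by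
  obtain ⟨v₁, a₁, b₁, c₁⟩ := lift_ok hF h₁.1 he₁ e₁
  obtain ⟨v₂, a₂, b₂, c₂⟩ := lift_ok hF h₂.1 he₂ e₂
  let v : ℕ → L₁ × L₂ := fun i => (v₁ i, v₂ i)
  have hb : ∀ l ∈ L34Cov.base, (∀ i ∈ l, i < 4) ∧ evl v l = 1 := fun l hl =>
    ⟨(b₁ l hl).1, Prod.ext ((evl_map (MonoidHom.fst L₁ L₂) v l).trans (b₁ l hl).2)
      ((evl_map (MonoidHom.snd L₁ L₂) v l).trans (b₂ l hl).2)⟩
  obtain ⟨-, h⟩ := L34Cov.cert.card_le v (zpowers (v 0))
    (fun i hi => ⟨(a₁ i hi).1, Prod.ext (a₁ i hi).2 (a₂ i hi).2⟩) hb (fun i hi h => by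
      interval_cases i
      · exact mem_zpowers _
      all_goals exact absurd h (by decide))
  have h7 : Nat.card (zpowers (v 0)) ≤ 7 := by
    rw [Nat.card_zpowers]
    refine orderOf_le_of_pow_eq_one (by norm_num) ?_
    have := (hb (pww [0] 7) (by rw [base_eq]; simp)).2
    rw [evl_pww] at this; simpa [evl] using this
  have h8 : Nat.card (closure (v '' {i | i < 4})) ≤ 80640 := by omega
  have s₁ : (closure (v '' {i | i < 4})).map (MonoidHom.fst L₁ L₂) = ⊤ := by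
    rw [MonoidHom.map_closure, ← c₁, ← Set.image_comp]; rfl
  have s₂ : (closure (v '' {i | i < 4})).map (MonoidHom.snd L₁ L₂) = ⊤ := by
    rw [MonoidHom.map_closure, ← c₂, ← Set.image_comp]; rfl
  generalize closure (v '' {i | i < 4}) = D at h8 s₁ s₂
  obtain ⟨f₁⟩ := iso_of_sur ((MonoidHom.fst L₁ L₂).comp D.subtype) (fun g => by
    obtain ⟨x, hx, rfl⟩ := s₁ ▸ mem_top g; exact ⟨⟨x, hx⟩, rfl⟩) (by rw [card_L hF hc₁ e₁]; exact h8)
  obtain ⟨f₂⟩ := iso_of_sur ((MonoidHom.snd L₁ L₂).comp D.subtype) (fun g => by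
    obtain ⟨x, hx, rfl⟩ := s₂ ▸ mem_top g; exact ⟨⟨x, hx⟩, rfl⟩) (by rw [card_L hF hc₂ e₂]; exact h8)
  exact ⟨f₁.symm.trans f₂⟩

end Cfsg.Agent.S5387
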