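import Cfsg.Statements.S5392
import Cfsg.Agent.Leech.Types

set_option autoImplicit false
open Cfsg

namespace Cfsg.Agent.S5392

open Finset Cfsg.Agent.M24 Cfsg.Agent.Leech
open scoped symmDiff Pointwise


/-- The Leech lattice modulo twice itself is a faithful irreducible module for the first Conway group: an automorphism of the rank-24 lattice built from the length-24 code that moves every lattice vector only by twice a lattice vector lies in the centre of the automorphism group (the centre consists of ±1, which act trivially there, so the kernel is exactly the centre), and an additive subgroup lying between twice the lattice and the lattice that is invariant under all lattice automorphisms is one of the two. -/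
theorem result : (∀ g : ↥Cfsg.Co0, (∀ v : ↥Cfsg.leechLattice, ∃ w : ↥Cfsg.leechLattice, ((g • v : ↥Cfsg.leechLattice) : Cfsg.GolayPt → ℤ) - (v : Cfsg.GolayPt → ℤ) = 2 • (w : Cfsg.GolayPt → ℤ)) → g ∈ Subgroup.center ↥Cfsg.Co0) ∧ ∀ M : AddSubgroup (Cfsg.GolayPt → ℤ), (∀ v ∈ Cfsg.leechLattice, (2 : ℤ) • v ∈ M) → M ≤ Cfsg.leechLattice → (∀ g : ↥Cfsg.Co0, ∀ v : ↥Cfsg.leechLattice, (v : Cfsg.GolayPt → ℤ) ∈ M → ((g • v : ↥Cfsg.leechLattice) : Cfsg.GolayPt → ℤ) ∈ M) → (∀ x ∈ M, ∃ w ∈ Cfsg.leechLattice, x = (2 : ℤ) • w) ∨ M = Cfsg.leechLattice := by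
  refine ⟨fun g h => mem_center_iff.2 (kernel_mod_two fun v => let ⟨w, e⟩ := h v; ⟨w, w.2, e⟩),
    fun M h2 hle hinv => ?_⟩
  have hc : ∀ {x y : GolayPt → ℤ}, Cong x y → x ∈ M → y ∈ M := fun {x y} ⟨z, hz, e⟩ hx => by
    rw [show y = x - (2 : ℤ) • z by rw [two_smul, ← two_smul ℕ, ← e]; abel]
    exact sub_mem hx (h2 z hz)
  have he : ∀ {v w : Lv}, sqNorm v.1 = sqNorm w.1 → sqNorm v.1 ≤ 64 → v.1 ∈ M → w.1 ∈ M :=
    fun h h1 hv => let ⟨g, hg⟩ := eqv_of_norm h h1; hc hg (hinv g _ hv)
  rw [or_iff_not_imp_left]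
  intro hM
  push Not at hM
  obtain ⟨x, hx, hx2⟩ := hM
  obtain ⟨w, hw, h⟩ := exists_short ⟨x, hle hx⟩
  have hwM : w.1 ∈ M := hc hw hx
  have h32 : ∃ u : Lv, sqNorm u.1 = 32 ∧ u.1 ∈ M := by
    rcases h with rfl | h | h | h
    · obtain ⟨z, hz, e⟩ := hw
      exact absurd (by rw [two_smul, ← two_smul ℕ, ← e]; simp) (hx2 z hz)
    · exact ⟨w, h, hwM⟩
    · let a : Lv := ⟨fun i => 1 + 4 * chi {none} i, inL_iff.1 (by decide +kernel)⟩
      let b : Lv := ⟨fun i => 1 + 4 * chi {some 0} i, inL_iff.1 (by decide +kernel)⟩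
      exact ⟨a - b, by decide +kernel, sub_mem (he (w := a) (h.trans (by decide +kernel)) (by omega) hwM)
        (he (w := b) (h.trans (by decide +kernel)) (by omega) hwM)⟩
    · let a : Lv := ⟨fun i => 4 * chi (unmask 15) i, inL_iff.1 (by decide +kernel)⟩
      let b : Lv := ⟨fun i => 4 * chi (unmask 23) i, inL_iff.1 (by decide +kernel)⟩
      exact ⟨a - b, by decide +kernel, sub_mem (he (w := a) (h.trans (by decide +kernel)) (by omega) hwM)
        (he (w := b) (h.trans (by decide +kernel)) (by omega) hwM)⟩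
  obtain ⟨u, hu, huM⟩ := h32
  have hall : ∀ x (hx : x ∈ leechLattice), sqNorm x = 32 → x ∈ M := fun x hx h =>
    he (w := ⟨x, hx⟩) (hu.trans h.symm) (by omega) huM
  refine le_antisymm hle (le_of_gens (hall _ wv.2 (by decide +kernel)) ?_ (fun i => ?_)
    (Or.inr fun o ho => hall _ (two_chi_mem ho.1) ?_))
  · convert sub_mem (hall _ (v44 (some 0) none 1 odd_one).2 (by decide +kernel))
      (hall _ (v44 (some 0) none (-1) odd_neg_one).2 (by decide +kernel)) using 1
    decide +kernel
  · by_cases hi : i = none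
    · subst hi; convert zero_mem M using 1; funext j; simp
    · convert hall _ (v44 i none (-1) odd_neg_one).2 (norm_v44 hi _ (by norm_num)) using 1
      funext j; simp only [v44]; ring
  · have : ∀ i, (2 * chi o i) ^ 2 = 4 * chi o i := fun i => by linear_combination 4 * chi_mul_self o i
    simp only [sqNorm, this, ← mul_sum, sum_chi, (mem_octads.1 ho).2]; norm_num

end Cfsg.Agent.S5392
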