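import Cfsg.Statements.S5394
import Cfsg.Agent.M24.Fixed

set_option autoImplicit false
open Cfsg

namespace Cfsg.Agent.S5394

open Cfsg.Agent.M24 Finset MulAction
open scoped symmDiff Pointwise


/-- The automorphism group of the length-24 code built from the squares modulo 23 has exactly two conjugacy classes of involutions: an involution either fixes exactly the eight points of an octad or has no fixed points, both kinds occur, and any two involutions of the same kind are conjugate in the group. -/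
theorem result : (∀ g ∈ Cfsg.M24, orderOf g = 2 → (Finset.univ.filter fun p => g p = p) ∈ Cfsg.octads ∨ ∀ p, g p ≠ p) ∧ (∃ g ∈ Cfsg.M24, orderOf g = 2 ∧ (Finset.univ.filter fun p => g p = p) ∈ Cfsg.octads) ∧ (∃ g ∈ Cfsg.M24, orderOf g = 2 ∧ ∀ p, g p ≠ p) ∧ ∀ g ∈ Cfsg.M24, ∀ h ∈ Cfsg.M24, orderOf g = 2 → orderOf h = 2 → ((∀ p, g p ≠ p) ↔ (∀ p, h p ≠ p)) → ∃ k ∈ Cfsg.M24, k * g * k⁻¹ = h := by
  refine ⟨fun g hg h2 => ?_, ⟨zA, zA.2, ?_, ?_⟩, ⟨zB, zB.2, ?_, ?_⟩, fun g hg h hh g2 h2 e => ?_⟩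
  · by_cases h0 : ∀ p, g p ≠ p
    · exact Or.inr h0
    · obtain ⟨k, e⟩ := class2A (g := ⟨g, hg⟩) ((orderOf_mk hg).trans h2) h0
      obtain rfl : g = (k * zA * k⁻¹ : M24) := congrArg Subtype.val e
      left
      change fixs _ ∈ _
      rw [fixs_conj', fixs_zA']
      exact octad_smul O0_mem k.2
  · rw [Subgroup.orderOf_coe, orderOf_zA]
  · change fixs _ ∈ _
    rw [fixs_zA']; exact O0_mem
  · rw [Subgroup.orderOf_coe, orderOf_zB]
  · exact fixs_eq_empty.1 (card_eq_zero.1 card_fixs_zB)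
  · by_cases h0 : ∀ p, g p ≠ p
    · obtain ⟨a, ea⟩ := class2B (g := ⟨g, hg⟩) ((orderOf_mk hg).trans g2) h0
      obtain ⟨b, eb⟩ := class2B (g := ⟨h, hh⟩) ((orderOf_mk hh).trans h2) (e.1 h0)
      exact ⟨_, (b * a⁻¹).2, congrArg Subtype.val (conj_of_two ea eb)⟩
    · obtain ⟨a, ea⟩ := class2A (g := ⟨g, hg⟩) ((orderOf_mk hg).trans g2) h0
      obtain ⟨b, eb⟩ := class2A (g := ⟨h, hh⟩) ((orderOf_mk hh).trans h2) (fun h => h0 (e.2 h))
      exact ⟨_, (b * a⁻¹).2, congrArg Subtype.val (conj_of_two ea eb)⟩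

end Cfsg.Agent.S5394
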