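import Cfsg.Statements.S5395
import Cfsg.Agent.TT.Large

set_option autoImplicit false
open Cfsg

namespace Cfsg.Agent.S5395

open Cfsg.Agent.GT Cfsg.Agent.TT Subgroup

/-- For a finite extraspecial 2-group E, an automorphism of E that induces the identity on E modulo its centre is inner (so these automorphisms form exactly the inner automorphism group, an elementary abelian 2-group of order |E|/2). -/
theorem result {E : Type*} [Group E] [Finite E] (hE : Cfsg.IsExtraspecial 2 E) (φ : E ≃* E) (hφ : ∀ x : E, φ x * x⁻¹ ∈ Subgroup.center E) : ∃ g : E, ∀ x : E, φ x = g * x * g⁻¹ := by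
  obtain ⟨z, h⟩ := ES.of_top_abs hE
  have hc : center E = zpowers z := by rw [← h.center_eq, cent_top, top_inf_eq]
  have nc : ∀ y, φ y ≠ y → φ y = y * z := fun y e => by
    have := hφ y
    rw [hc, h.mem_zp] at this
    rcases this with e' | e'
    · exact absurd (mul_inv_eq_one.1 e') e
    · rw [mul_inv_eq_iff_eq_mul.1 e', (h.zc y (mem_top y)).eq]
  obtain ⟨q, -, hq'⟩ := h.exists_cent_eq (M := φ.toMonoidHom.eqLocus (MonoidHom.id E)) (by
    intro a _ b _ haM hbM
    show φ (a * b) = a * b
    rw [map_mul, nc a haM, nc b hbM, mul_assoc, ← mul_assoc z, (h.zc b (mem_top b)).eq]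
    simp [mul_assoc, h.zz])
  refine ⟨q, fun y => ?_⟩
  by_cases hy : φ y = y
  · rw [hy, commute_iff_conj.1 ((hq' y (mem_top y)).2 hy).symm]
  · rw [nc y hy, h.conj_of_not (mem_top q) (mem_top y) fun e => hy ((hq' y (mem_top y)).1 e.symm)]

end Cfsg.Agent.S5395
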