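import Cfsg.Statements.S5396
import Cfsg.Agent.Cl.OExtra

set_option autoImplicit false
open Cfsg

namespace Cfsg.Agent.S5396

open Cfsg.Agent.Cl.Orth

/-- For every n ≥ 1 there exist finite extraspecial 2-groups of order 2^(2n+1) whose 2-rank (the largest rank of an elementary abelian subgroup) is n, and ones whose 2-rank is n + 1 (so for each such order there are two non-isomorphic extraspecial 2-groups, told apart by their 2-rank). -/
theorem result (n : ℕ) (hn : 1 ≤ n) : ∀ r ∈ ({n, n + 1} : Set ℕ), ∃ (E : Type) (_ : Group E) (_ : Finite E), Cfsg.IsExtraspecial 2 E ∧ Nat.card E = 2 ^ (2 * n + 1) ∧ sSup {k : ℕ | ∃ A : Subgroup E, Cfsg.IsElementaryAbelian 2 A ∧ Nat.card A = 2 ^ k} = r := by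
  have key : ∀ (W : Type) [AddCommGroup W] [Module (ZMod 2) W] [Finite W]
      (Q' : QuadraticForm (ZMod 2) W) (m : ℕ), BNondeg Q' → (∀ w, Q' w = 0 → w = 0) →
      Nat.card (HV (ZMod 2) m W) = 2 ^ (2 * n) →
      ∃ (E : Type) (_ : Group E) (_ : Finite E), Cfsg.IsExtraspecial 2 E ∧
        Nat.card E = 2 ^ (2 * n + 1) ∧
        sSup {k : ℕ | ∃ A : Subgroup E, Cfsg.IsElementaryAbelian 2 A ∧ Nat.card A = 2 ^ k} = m + 1 := by
    intro W _ _ _ Q' m hB ha hc
    obtain ⟨E, _, _, z, π, h⟩ := exists_xs (HS m Q')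
    have : Nontrivial (HV (ZMod 2) m W) := by
      rw [← Finite.one_lt_card_iff_nontrivial, hc]
      exact Nat.one_lt_two_pow (by omega)
    refine ⟨E, inferInstance, inferInstance, (h.es (bnondeg_HS hB)).abs_isExtraspecial,
      by rw [h.card_eq, hc, pow_succ'], IsGreatest.csSup_eq ⟨?_, ?_⟩⟩
    · obtain ⟨U, hU, hU'⟩ := exists_sing_HS Q' m
      have := h.exists_elemAb U hU
      rwa [hU'] at this
    · rintro k ⟨A, hA, hk⟩
      exact h.le_of_elemAb (finrank_sing_HS_le ha m) A hA hk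
  rintro r (rfl | rfl)
  · obtain ⟨m, rfl⟩ : ∃ m, r = m + 1 := ⟨r - 1, by omega⟩
    exact key (Fin 2 → ZMod 2) (Q2 1 1) m aniso_one_one.bnondeg (fun _ => aniso_one_one.eq_zero)
      (by rw [card_HV]; simp; ring)
  · exact key PUnit 0 n bnondeg_zero (fun _ _ => rfl) (by rw [card_HV]; simp)

end Cfsg.Agent.S5396
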