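import Cfsg.Statements.S5401
import Cfsg.Agent.Ex9.Typ

set_option autoImplicit false
open Cfsg

namespace Cfsg.Agent.S5401

/-- Existence of the Fischer 3-transposition groups: there exist finite groups generated by a conjugacy class of 3-transpositions on which they act primitively that are of type M(22), of type M(23), and of type M(24) respectively. -/
theorem result : (∃ (X : Type) (_ : Group X) (_ : Finite X) (E : Set X), Cfsg.IsThreeTranspositionClass E ∧ Cfsg.IsPrimitiveUnderConj E ∧ Cfsg.IsOfTypeM22 X E) ∧ (∃ (X : Type) (_ : Group X) (_ : Finite X) (E : Set X), Cfsg.IsThreeTranspositionClass E ∧ Cfsg.IsPrimitiveUnderConj E ∧ Cfsg.IsOfTypeM23 X E) ∧ (∃ (X : Type) (_ : Group X) (_ : Finite X) (E : Set X), Cfsg.IsThreeTranspositionClass E ∧ Cfsg.IsPrimitiveUnderConj E ∧ Cfsg.IsOfTypeM24 X E) := by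
  obtain ⟨X, _, _, D, β, h, hC⟩ := Ex9.exists_model
  obtain ⟨b, k⟩ := Ex9.q23 h
  obtain ⟨c, l⟩ := Ex9.q22 k
  exact ⟨⟨_, _, inferInstance, _, l.class l.t3.ts l.top, l.prim22 l.t3, Ex9.typ22 l⟩,
    ⟨_, _, inferInstance, _, k.class k.t3.ts k.top, Ex9.prim23 k.toLab k.t3, Ex9.typ23 k⟩,
    X, _, ‹_›, D, hC, Ex9.prim24 h.toLab h.t3, Ex9.typ24 h⟩

end Cfsg.Agent.S5401
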