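import Cfsg.Statements.S5404
import Cfsg.Agent.LF.F24

set_option autoImplicit false
open Cfsg

namespace Cfsg.Agent.S5404

/-- Let X be a finite group with a subgroup G₀ of index 2 of the following type: G₀ has an involution z, central in some Sylow 2-subgroup of G₀, whose centralizer C in G₀ has generalized Fitting subgroup Q extraspecial of order 2^13 and normal subgroups Q ≤ N ≤ M with N/Q of order 3, M/N isomorphic to the projective special unitary group of dimension 4 over the field with nine elements and M of index 2 in C, some G₀-conjugate of z other than z lying in Q; and suppose the generalized Fitting subgroup of the centralizer of z in X equals that of C. Then X is generated by a conjugacy class of 3-transpositions with respect to which it is of type M(24). -/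
theorem result {X : Type*} [Group X] [Finite X] (G₀ : Subgroup X) (hidx : G₀.index = 2) (z : ↥G₀) (hz : orderOf z = 2) (Q N M : Subgroup (Subgroup.centralizer ({z} : Set ↥G₀))) [Q.Normal] [N.Normal] [M.Normal] (hF : Cfsg.generalizedFittingSubgroup (Subgroup.centralizer ({z} : Set ↥G₀)) = Q) (hQ : Cfsg.IsExtraspecial 2 Q) (hcard : Nat.card Q = 2 ^ 13) (hQN : Q ≤ N) (hNM : N ≤ M) (hN : Nat.card N = 3 * Nat.card Q) (K : Type) [Field K] [Fintype K] (hK : Fintype.card K = 9) (e : M ⧸ N.subgroupOf M ≃* Cfsg.PSU 4 K 3) (hM : M.index = 2) (hnwc : ∃ g : ↥G₀, (∃ hq : g * z * g⁻¹ ∈ Subgroup.centralizer ({z} : Set ↥G₀), (⟨g * z * g⁻¹, hq⟩ : Subgroup.centralizer ({z} : Set ↥G₀)) ∈ Q) ∧ g * z * g⁻¹ ≠ z) (hcentral : ∃ P : Sylow 2 ↥G₀, z ∈ (P : Subgroup ↥G₀) ∧ ∀ x ∈ (P : Subgroup ↥G₀), Commute x z) (hFX : (Cfsg.generalizedFittingSubgroup ↥(Subgroup.centralizer ({(z : X)} : Set X))).map (Subgroup.subtype _) = ((Q.map (Subgroup.subtype _)).map G₀.subtype)) : ∃ E : Set X, Cfsg.IsThreeTranspositionClass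 E ∧ Cfsg.IsOfTypeM24 X E := by
  obtain ⟨π, r, S⟩ := LF.exists_LB ⟨⟨hz, hF, hQ, hcard, hnwc⟩, N, M, ‹_›, ‹_›, hQN, hNM, hN, ⟨K, _, _, hK, ⟨e⟩⟩, hM⟩
  obtain ⟨x, T, μ, σ, δ, C⟩ := S.exists_UD
  obtain ⟨L, U⟩ := C.exists_UK
  have q := LF.mem_of_fstar (S.pq_le (S.z_pq (U := ⊤))) hFX
  obtain ⟨d, D⟩ := C.exists_UX U hidx q
  exact ⟨_, C.main24 U hidx D q⟩

end Cfsg.Agent.S5404
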