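import Cfsg.Statements.S5405
import Cfsg.Agent.FA.H1O

set_option autoImplicit false
open scoped MatrixGroups
open Cfsg

namespace Cfsg.Agent.S5405

open Cfsg.Agent.Cl Cfsg.Agent.Cl.Orth Cfsg.Agent.FA.H1O

theorem smul_mem' {V : Type*} [AddCommGroup V] [Module (ZMod 2) V] (A : AddSubgroup V)
    (a : ZMod 2) {v : V} (hv : v ∈ A) : a • v ∈ A := by
  rcases zmod2_cases a with rfl | rfl
  · rw [zero_smul]; exact zero_mem _
  · rwa [one_smul]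

theorem ell_minus (m : ℕ) : Ell (HS m (Q2 (1 : ZMod 2) 1)) (0, 0, ![1, 0]) (0, 0, ![0, 1]) :=
  ⟨by simp [HS_apply, Q2_apply], by simp [HS_apply, Q2_apply], by simp [HS_B, Q2_B]⟩

theorem minus_one (c : OG (HS 1 (Q2 (1 : ZMod 2) 1)) → _) (hc : Coc _ c) :
    ∃ v, ∀ g ∈ EG _, c g = g.1 v - v := by
  refine h1_zero (rad0_HS aniso_one_one.rad0) (ell_minus 1) (hyp_HS 0) (by simp [hE_B])
    (by simp [hE_B]) (by simp [hF_B]) (by simp [hF_B]) (I := Empty) Empty.elim (fun i => i.elim)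
    (fun i => i.elim) (fun i => i.elim) (fun i => i.elim) (fun i => i.elim) (fun i => i.elim)
    (fun k => ⟨0, by simp⟩) (fun A h0 h1 _ w we wf => ?_) hc
  have : w = w.2.2 0 • (0, 0, ![1, 0]) + w.2.2 1 • (0, 0, ![0, 1]) := by
    rw [hE_B] at we; rw [hF_B] at wf
    refine Prod.ext (funext fun i => ?_) (Prod.ext (funext fun i => ?_) (funext fun i => ?_)) <;>
      fin_cases i <;> simp [we, wf]
  rw [this]
  exact add_mem (smul_mem' A _ h0) (smul_mem' A _ h1)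

theorem minus_two (c : OG (HS 2 (Q2 (1 : ZMod 2) 1)) → _) (hc : Coc _ c) :
    ∃ v, ∀ g ∈ EG _, c g = g.1 v - v := by
  refine h1_zero (rad0_HS aniso_one_one.rad0) (ell_minus 2) (hyp_HS 0) (by simp [hE_B])
    (by simp [hE_B]) (by simp [hF_B]) (by simp [hF_B]) (I := Fin 2) ![hE _ _ 1, hF _ _ 1]
    ?_ ?_ ?_ ?_ ?_ ?_ (fun k => ⟨k 1 • hE _ _ 1 + k 0 • hF _ _ 1, ?_⟩)
    (fun A h0 h1 hu w we wf => ?_) hc
  · intro i; fin_cases i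
    exacts [(hyp_HS 1).he, (hyp_HS 1).hf]
  · intro i; fin_cases i
    exacts [(hyp_HS (Q0 := Q2 (1 : ZMod 2) 1) 1).e_ne, (hyp_HS (Q0 := Q2 (1 : ZMod 2) 1) 1).f_ne]
  · intro i; fin_cases i <;> simp [HS_B, hE, hF]
  · intro i; fin_cases i <;> simp [HS_B, hE, hF]
  · intro i; fin_cases i <;> simp [HS_B, hE, hF]
  · intro i; fin_cases i <;> simp [HS_B, hE, hF]
  · simp [HS_B, hE, hF, Fin.forall_fin_two]
  · have : w = w.2.2 0 • (0, 0, ![1, 0]) + w.2.2 1 • (0, 0, ![0, 1]) + w.1 1 • hE _ _ 1 +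
        w.2.1 1 • hF _ _ 1 := by
      rw [hE_B] at we; rw [hF_B] at wf
      refine Prod.ext (funext fun i => ?_) (Prod.ext (funext fun i => ?_) (funext fun i => ?_)) <;>
        fin_cases i <;> simp [we, wf, hE, hF]
    rw [this]
    exact add_mem (add_mem (add_mem (smul_mem' A _ h0) (smul_mem' A _ h1))
      (smul_mem' A _ (hu 0))) (smul_mem' A _ (hu 1))

/-- singular vectors spanning the complement of the elliptic plane -/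
def uu : Fin 4 → HV (ZMod 2) 4 PUnit.{1} :=
  ![(![0, 1, 0, 0], ![0, 0, 0, 0], PUnit.unit), (![0, 0, 0, 0], ![0, 1, 0, 0], PUnit.unit),
    (![0, 1, 1, 0], ![0, 1, 1, 0], PUnit.unit), (![0, 1, 1, 1], ![0, 1, 0, 1], PUnit.unit)]

theorem plus_B (v w : HV (ZMod 2) 4 PUnit.{1}) :
    B (HS 4 (0 : QuadraticForm (ZMod 2) PUnit.{1})) v w = v.1 ⬝ᵥ w.2.1 + w.1 ⬝ᵥ v.2.1 := by
  rw [HS_B, B_zero, add_zero]

theorem plus_Q (v : HV (ZMod 2) 4 PUnit.{1}) :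
    HS 4 (0 : QuadraticForm (ZMod 2) PUnit.{1}) v = v.1 ⬝ᵥ v.2.1 := by
  simp [HS_apply]

theorem plus_four (c : OG (HS 4 (0 : QuadraticForm (ZMod 2) PUnit.{1})) → _) (hc : Coc _ c) :
    ∃ v, ∀ g ∈ EG _, c g = g.1 v - v := by
  refine h1_zero (w0 := (![0, 0, 0, 1], ![0, 0, 0, 1], PUnit.unit))
    (w1 := (![0, 0, 1, 0], ![0, 0, 1, 1], PUnit.unit)) (bnondeg_HS bnondeg_zero).rad0
    ⟨by rw [plus_Q]; decide, by rw [plus_Q]; decide, by rw [plus_B]; decide⟩ (hyp_HS 0)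
    (by simp [hE_B]) (by simp [hE_B]) (by simp [hF_B]) (by simp [hF_B]) uu
    ?_ ?_ ?_ ?_ ?_ ?_ ?_ (fun A h0 h1 hu w we wf => ?_) hc
  · simp only [plus_Q]; decide
  · decide
  · simp only [B_hE]; decide
  · simp only [B_hF]; decide
  · simp only [plus_B]; decide
  · simp only [plus_B]; decide
  · intro k
    refine ⟨(![0, k 1, k 3 + k 2, k 2 + k 0 + k 1], ![0, k 0, k 3 + k 0 + k 1, k 2 + k 0 + k 1],
      PUnit.unit), by simp [B_hE], by simp [B_hF], ?_⟩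
    simp only [plus_B]
    revert k
    decide
  · have : w = (w.1 3 + w.1 2 + w.2.1 2) • (![0, 0, 0, 1], ![0, 0, 0, 1], PUnit.unit) +
        (w.1 3 + w.2.1 3) • (![0, 0, 1, 0], ![0, 0, 1, 1], PUnit.unit) +
        (w.1 1 + w.1 2 + w.1 3 + w.2.1 3) • uu 0 + (w.2.1 1 + w.1 2 + w.1 3 + w.2.1 3) • uu 1 +
        (w.2.1 2 + w.1 3 + w.2.1 3) • uu 2 + (w.1 2 + w.2.1 2) • uu 3 := by
      rw [hE_B] at we; rw [hF_B] at wf
      have h2 : ∀ a : ZMod 2, a + a = 0 := CharTwo.add_self_eq_zero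
      refine Prod.ext (funext fun i => ?_) (Prod.ext (funext fun i => ?_) rfl) <;>
        fin_cases i <;> simp [we, wf, uu] <;>
        generalize w.1 1 = a <;> generalize w.1 2 = b <;> generalize w.1 3 = c <;>
        generalize w.2.1 1 = d <;> generalize w.2.1 2 = e <;> generalize w.2.1 3 = f <;>
        revert a b c d e f <;> decide
    rw [this]
    exact add_mem (add_mem (add_mem (add_mem (add_mem (smul_mem' A _ h0) (smul_mem' A _ h1))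
      (smul_mem' A _ (hu 0))) (smul_mem' A _ (hu 1))) (smul_mem' A _ (hu 2)))
      (smul_mem' A _ (hu 3))

/-- Vanishing of first cohomology on the natural module for three small orthogonal groups over the field with two elements: for the commutator subgroup of the isometry group of the elliptic quadratic form in dimension 4, of the elliptic form in dimension 6, and of the hyperbolic form in dimension 8, every crossed homomorphism into the natural module (a map f with f(gh) = f(g) + g·f(h)) is principal (of the form g ↦ g·v − v). -/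
theorem result : (∀ f : ↥(Cfsg.Omega (ZMod 2) (Cfsg.quadFormMinus 1 (ZMod 2) 1 1)) → ((Fin 1 ⊕ Fin 1) ⊕ Fin 2 → ZMod 2), (∀ g h : ↥(Cfsg.Omega (ZMod 2) (Cfsg.quadFormMinus 1 (ZMod 2) 1 1)), f (g * h) = f g + Matrix.mulVec (((g : ↥(Cfsg.isometryGroup (ZMod 2) (Cfsg.quadFormMinus 1 (ZMod 2) 1 1))) : GL ((Fin 1 ⊕ Fin 1) ⊕ Fin 2) (ZMod 2)) : Matrix ((Fin 1 ⊕ Fin 1) ⊕ Fin 2) ((Fin 1 ⊕ Fin 1) ⊕ Fin 2) (ZMod 2)) (f h)) → ∃ v : (Fin 1 ⊕ Fin 1) ⊕ Fin 2 → ZMod 2, ∀ g : ↥(Cfsg.Omega (ZMod 2) (Cfsg.quadFormMinus 1 (ZMod 2) 1 1)), f g = Matrix.mulVec (((g : ↥(Cfsg.isometryGroup (ZMod 2) (Cfsg.quadFormMinus 1 (ZMod 2) 1 1))) : GL ((Fin 1 ⊕ Fin 1) ⊕ Fin 2) (ZMod 2)) : Matrix ((Fin 1 ⊕ Fin 1) ⊕ Fin 2) ((Fin 1 ⊕ Fin 1) ⊕ Fin 2) (ZMod 2)) v - v) ∧ (∀ f : ↥(Cfsg.Omega (ZMod 2) (Cfsg.quadFormMinus 2 (ZMod 2) 1 1)) → ((Fin 2 ⊕ Fin 2) ⊕ Fin 2 → ZMod 2), (∀ g h : ↥(Cfsg.Omega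 (ZMod 2) (Cfsg.quadFormMinus 2 (ZMod 2) 1 1)), f (g * h) = f g + Matrix.mulVec (((g : ↥(Cfsg.isometryGroup (ZMod 2) (Cfsg.quadFormMinus 2 (ZMod 2) 1 1))) : GL ((Fin 2 ⊕ Fin 2) ⊕ Fin 2) (ZMod 2)) : Matrix ((Fin 2 ⊕ Fin 2) ⊕ Fin 2) ((Fin 2 ⊕ Fin 2) ⊕ Fin 2) (ZMod 2)) (f h)) → ∃ v : (Fin 2 ⊕ Fin 2) ⊕ Fin 2 → ZMod 2, ∀ g : ↥(Cfsg.Omega (ZMod 2) (Cfsg.quadFormMinus 2 (ZMod 2) 1 1)), f g = Matrix.mulVec (((g : ↥(Cfsg.isometryGroup (ZMod 2) (Cfsg.quadFormMinus 2 (ZMod 2) 1 1))) : GL ((Fin 2 ⊕ Fin 2) ⊕ Fin 2) (ZMod 2)) : Matrix ((Fin 2 ⊕ Fin 2) ⊕ Fin 2) ((Fin 2 ⊕ Fin 2) ⊕ Fin 2) (ZMod 2)) v - v) ∧ (∀ f : ↥(Cfsg.Omega (ZMod 2) (Cfsg.quadFormPlus 4 (ZMod 2))) → (Fin 4 ⊕ Fin 4 → ZMod 2), (∀ g h : ↥(Cfsg.Omega (ZMod 2) (Cfsg.quadFormPlus 4 (ZMod 2))), f (g * h) = f g + Matrix.mulVec (((g : ↥(Cfsg.isometryGroup (ZMod 2) (Cfsg.quadFormPlus 4 (ZMod 2)))) : GL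 (Fin 4 ⊕ Fin 4) (ZMod 2)) : Matrix (Fin 4 ⊕ Fin 4) (Fin 4 ⊕ Fin 4) (ZMod 2)) (f h)) → ∃ v : Fin 4 ⊕ Fin 4 → ZMod 2, ∀ g : ↥(Cfsg.Omega (ZMod 2) (Cfsg.quadFormPlus 4 (ZMod 2))), f g = Matrix.mulVec (((g : ↥(Cfsg.isometryGroup (ZMod 2) (Cfsg.quadFormPlus 4 (ZMod 2)))) : GL (Fin 4 ⊕ Fin 4) (ZMod 2)) : Matrix (Fin 4 ⊕ Fin 4) (Fin 4 ⊕ Fin 4) (ZMod 2)) v - v) := by
  refine ⟨transfer _ (eMinus 1 (ZMod 2)) (eMinus_Q 1 1)
      (commutator_HS_one aniso_one_one.bnondeg (fun w => aniso_one_one.eq_zero) (by simp)) minus_one,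
    transfer _ (eMinus 2 (ZMod 2)) (eMinus_Q 1 1)
      (commutator_HS aniso_one_one.bnondeg le_rfl (by simp)) minus_two,
    transfer _ (ePlus 4 (ZMod 2)) ePlus_Q
      (commutator_HS bnondeg_zero (by norm_num) (by omega)) plus_four⟩

end Cfsg.Agent.S5405
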