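import Cfsg.Statements.S5408
import Cfsg.Agent.Leech.Mon

set_option autoImplicit false
open Cfsg

namespace Cfsg.Agent.S5408

open Cfsg.Agent.Leech Cfsg.Agent.GT Cfsg.Agent.TT


/-- Let G be a finite group of Monster type at the involution z with Q the extraspecial normal subgroup of order 2^25 of C = C_G(z) (so C/Q is identified with the first Conway group with Q modulo its centre the Leech lattice modulo 2, and z is not weakly closed in Q). Then Q is of plus type: it contains an elementary abelian subgroup of order 2^13. -/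
theorem result {G : Type*} [Group G] [Finite G] (z : G) (Q : Subgroup (Subgroup.centralizer ({z} : Set G))) [Q.Normal] (hM : Cfsg.IsOfMonsterType z Q) : ∃ E : Subgroup Q, Cfsg.IsElementaryAbelian 2 E ∧ Nat.card E = 2 ^ 13 := by
  obtain ⟨e, ψ, hψ⟩ := hM.2
  have M := MT.of_iso hM hψ
  obtain ⟨k, h1, h2⟩ := M.wc
  obtain ⟨v, hv⟩ := M.surj _ h1
  obtain ⟨-, -, -, h3⟩ := M.pair h1 h2 hv
  have h4 := LP_elem (M.lp h1 h2)
  let f : Q →* G := C1[z].subtype.comp Q.subtype
  have hf : Function.Injective f := C1[z].subtype_injective.comp Q.subtype_injective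
  refine ⟨(Q.map C1[z].subtype ⊓ cj[k] (Q.map C1[z].subtype)).comap f,
    ⟨isMulCommutative_iff_forall.2 fun x hx y hy => hf ?_, fun x hx => hf ?_⟩, ?_⟩
  · rw [map_mul, map_mul]; exact h4.2 _ hx _ hy
  · rw [map_pow, map_one, sq]; exact h4.1 _ hx
  · rw [← Subgroup.card_map_of_injective hf, Subgroup.map_comap_eq_self, h3]
    rw [← MonoidHom.map_range, Subgroup.range_subtype]; exact inf_le_left

end Cfsg.Agent.S5408
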