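import Cfsg.Statements.S5410
import Cfsg.Agent.Leech.Mon

set_option autoImplicit false
open Cfsg

namespace Cfsg.Agent.S5410

open Cfsg.Agent.Leech Cfsg.Agent.GT Cfsg.Agent.TT


/-- Let G be a finite group of Monster type at the involution z with Q the extraspecial normal subgroup of order 2^25 of C = C_G(z) (so C/Q is identified with the first Conway group with Q modulo its centre the Leech lattice modulo 2, and z is not weakly closed in Q). Let g in G with s = g z g⁻¹ a member of Q other than z, let X be the image in C/Q of the centralizer of s in C, and let E be the image in C/Q of the intersection of g Q g⁻¹ with C. Then E is a normal subgroup of X, elementary abelian of order 2^11, and it has a complement in X isomorphic to the Mathieu group of degree 24 (the automorphism group of the length-24 binary Golay code). -/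
theorem result {G : Type*} [Group G] [Finite G] (z : G) (Q : Subgroup (Subgroup.centralizer ({z} : Set G))) [Q.Normal] (hM : Cfsg.IsOfMonsterType z Q) (s : G) (hsQ : ∃ hsc : s ∈ Subgroup.centralizer ({z} : Set G), (⟨s, hsc⟩ : Subgroup.centralizer ({z} : Set G)) ∈ Q) (hs : IsConj z s) (hs1 : s ≠ z) (g : G) (hg : g * z * g⁻¹ = s) (X E : Subgroup ((Subgroup.centralizer ({z} : Set G)) ⧸ Q)) (hX : X = ((Subgroup.centralizer ({z} : Set G) ⊓ Subgroup.centralizer ({s} : Set G)).subgroupOf (Subgroup.centralizer ({z} : Set G))).map (QuotientGroup.mk' Q)) (hE : E = (((Q.map (Subgroup.centralizer ({z} : Set G)).subtype).map (MulAut.conj g).toMonoidHom ⊓ Subgroup.centralizer ({z} : Set G)).subgroupOf (Subgroup.centralizer ({z} : Set G))).map (QuotientGroup.mk' Q)) : E ≤ X ∧ (∀ x ∈ X, ∀ y ∈ E, x * y * x⁻¹ ∈ E) ∧ Cfsg.IsElementaryAbelian 2 E ∧ Nat.card E = 2 ^ 11 ∧ ∃ K : Subgroup ((Subgroup.centralizer ({z} : Set G)) ⧸ Q), K ≤ X ∧ E ⊓ K = ⊥ ∧ E ⊔ K = X ∧ Nonempty (K ≃* Cfsg.M24) := by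
  obtain ⟨e, ψ, hψ⟩ := hM.2
  have M := MT.of_iso hM hψ
  subst hg
  obtain ⟨v, hv⟩ := M.surj _ ⟨_, hsQ.2, rfl⟩
  obtain ⟨g₀, h1, h2, -⟩ := M.pair (M.memQ hv) hs1 hv
  have h3 := M.im_cent hv (not_cong_zero ((M.conj_z_iff hv).1 ⟨hs, hs1⟩)
    (by rw [norm_e8]; norm_num) (norm_e8 _).le)
  rw [St_congr h1, St_smul, St_e8] at h3
  have key : ∀ (A : Subgroup G) (H : Subgroup Co0),
      im (e.toMonoidHom.comp (QuotientGroup.mk' Q)) A = (cj[g₀] H).map pj →
      (A.subgroupOf C1[z]).map (QuotientGroup.mk' Q) =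
        (H.map pj).map ((MulAut.conj (pj g₀)).trans e.symm).toMonoidHom := fun A H h => by
    apply Subgroup.map_injective (f := e.toMonoidHom) e.injective
    rw [Subgroup.map_map, ← im, h, map_conj, Subgroup.map_map (H.map pj)]
    congr 1; ext x; simp
  exact split_of_iso _ (hX.trans (key _ _ h3)) (hE.trans (key _ _ h2))

end Cfsg.Agent.S5410
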