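import Cfsg.Statements.S5411
import Cfsg.Agent.Leech.Mon

set_option autoImplicit false
open Cfsg

namespace Cfsg.Agent.S5411

open Cfsg.Agent.Leech Cfsg.Agent.GT Cfsg.Agent.TT


/-- Let G be a finite group of Monster type at the involution z with Q the extraspecial normal subgroup of order 2^25 of C = C_G(z) (so C/Q is identified with the first Conway group with Q modulo its centre the Leech lattice modulo 2, and z is not weakly closed in Q). Then C acts transitively by conjugation on the involutions of Q that are not conjugate to z in G. -/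
theorem result {G : Type*} [Group G] [Finite G] (z : G) (Q : Subgroup (Subgroup.centralizer ({z} : Set G))) [Q.Normal] (hM : Cfsg.IsOfMonsterType z Q) (s t : G) (hsQ : ∃ hsc : s ∈ Subgroup.centralizer ({z} : Set G), (⟨s, hsc⟩ : Subgroup.centralizer ({z} : Set G)) ∈ Q) (htQ : ∃ htc : t ∈ Subgroup.centralizer ({z} : Set G), (⟨t, htc⟩ : Subgroup.centralizer ({z} : Set G)) ∈ Q) (hs2 : orderOf s = 2) (ht2 : orderOf t = 2) (hs : ¬ IsConj z s) (ht : ¬ IsConj z t) : ∃ h ∈ Subgroup.centralizer ({z} : Set G), h * s * h⁻¹ = t := by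
  obtain ⟨e, ψ, hψ⟩ := hM.2
  have M := MT.of_iso hM hψ
  obtain ⟨v, hv⟩ := M.surj s ⟨_, hsQ.2, rfl⟩
  obtain ⟨w, hw⟩ := M.surj t ⟨_, htQ.2, rfl⟩
  have h := M.type_two hw ht2 ht
  have hU : sqNorm Spor.leechU.1 = 32 := norm_U
  exact M.conj_of_eqv hv hw ((M.type_two hv hs2 hs).trans h.symm)
    (not_cong_zero h (by omega) (by omega))

end Cfsg.Agent.S5411
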