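import Cfsg.Statements.S5412
import Cfsg.Agent.Leech.Mon2

set_option autoImplicit false
open Cfsg

namespace Cfsg.Agent.S5412

open Cfsg.Agent.Leech Cfsg.Agent.GT Cfsg.Agent.TT Subgroup Cfsg.Spor

/-- The inclusion of the stabiliser. -/
def iota : Co2 →* Co0 := inclusion (show Co2 ≤ Co0 from inf_le_left)

theorem iota_range : iota.range = MulAction.stabilizer Co0 leechU := by
  ext g
  exact ⟨by rintro ⟨g, rfl⟩; exact g.2.2, fun h => ⟨⟨g, g.2, h⟩, rfl⟩⟩

theorem hU : sqNorm leechU.1 = 32 := norm_U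

theorem j_inj : Function.Injective (pj.comp iota) := (injective_iff_map_eq_one _).2 fun g h => by
  rcases pj_eq_one.1 h with h | h
  · exact inclusion_injective _ (h.trans (map_one iota).symm)
  · have : iota g • leechU = leechU := g.2.2
    rw [h, ng_smul] at this
    exact absurd (congrArg (fun v : Lv => v.1 none) this) (by decide)

theorem j_range : (St leechU).map pj = (pj.comp iota).range := by
  rw [← MonoidHom.map_range, iota_range]
  refine le_antisymm ?_ (map_mono fun g hg => (mem_St_short (by rw [hU]; norm_num)).2 (Or.inl hg))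
  rintro _ ⟨g, hg, rfl⟩
  rcases (mem_St_short (by rw [hU]; norm_num)).1 hg with h | h
  · exact ⟨g, h, rfl⟩
  · exact ⟨_, h, by rw [map_mul, pj_ng, one_mul]⟩

theorem O2 (N : Subgroup Co2) (hN : N.Normal) (h : IsPGroup 2 N) : N = ⊥ := by
  rw [← map_eq_bot_iff_of_injective _ (inclusion_injective (show Co2 ≤ Co0 from inf_le_left))]
  refine O2_Co2 (B := N.map iota) (h.map _) (iota_range ▸ map_le_range _ _) ?_
  rw [← iota_range, le_norm_iff]
  rintro _ ⟨g, rfl⟩ _ ⟨n, hn, rfl⟩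
  exact ⟨_, hN.conj_mem n hn g, by simp⟩

theorem main {G H : Type*} [Group G] [Finite G] [Group H] [Finite H] {Q : Subgroup G} {z t : G}
    {Ψ : Lv → G → Prop} {π : C1[z] →* Co1} (M : MT Q z Ψ π) (a : Ψ leechU t) (ht2 : orderOf t = 2)
    (ht : ¬ IsConj z t) (ρ : C1[t] →* H) (hρ : Function.Surjective ρ) (hk : kr ρ = zpowers t) :
    IsOfBabyMonsterType H := by
  have tQ := M.memQ a
  have tt : t * t = 1 := by rw [← sq, ← ht2, pow_orderOf_eq_one]
  have t1 : t ≠ 1 := by rintro rfl; simp at ht2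
  have tz : t ≠ z := by rintro rfl; exact ht (IsConj.refl _)
  have mk : ∀ x, x ∈ kr ρ ↔ x = 1 ∨ x = t := fun x => by
    classical
    rw [hk, mem_zpowers_iff_mem_range_orderOf, ht2]
    simp [Finset.range_add_one, eq_comm, or_comm]
  have zt : z ∈ C1[t] := mem_cent1.2 (M.zc t tQ)
  have zR : z ∈ Q ⊓ C1[t] := ⟨M.mem, zt⟩
  have tR : t ∈ Q ⊓ C1[t] := ⟨tQ, self_mem_cent1 t⟩
  have h0 : ¬ Cong leechU.1 0 := not_cong_zero (Eqv.refl _) (by rw [hU]; norm_num) (by rw [hU]; norm_num)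
  obtain ⟨θ, hθ, eθ⟩ := exists_theta π (D := C1[z] ⊓ C1[t]) inf_le_left _ j_inj
    ((M.im_cent a h0).trans j_range)
  have lθ : ∀ d : ↥(C1[z] ⊓ C1[t]), Lf π d (iota (θ d)) := fun d => ⟨d.2.1, (eθ d).symm⟩
  have kθ : kr θ = Q ⊓ C1[t] := by
    ext x
    rw [mem_kr]
    constructor
    · rintro ⟨hx, h⟩
      have := lθ ⟨x, hx⟩
      rw [h, map_one] at this
      exact ⟨M.lf_one.1 this, hx.2⟩
    · intro hx
      refine ⟨⟨M.le_cent1 hx.1, hx.2⟩, j_inj ?_⟩
      rw [eθ, map_one, ← map_one pj]; exact (M.lf_one.2 hx.1).2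
  have hE : ES (im ρ (Q ⊓ C1[t])) (ρ ⟨z, zt⟩) := es_im M.toES inf_le_left zR inf_le_right ρ
    (by rw [mk, not_or]; exact ⟨M.ne, tz.symm⟩)
    (fun x hx h => by
      rcases M.cent_cent tQ hx.1 fun y hy hc => (h y ⟨hy, mem_cent1.2 hc⟩).symm with
        rfl | rfl | rfl | rfl <;> simp [mk, M.zz, mul_assoc])
    (by
      obtain ⟨x, hx, y, hy, h1, h2, h3⟩ := M.nonab_of_card tQ tt (by rw [M.card]; norm_num)
      exact ⟨x, ⟨hx, mem_cent1.2 h1⟩, y, ⟨hy, mem_cent1.2 h2⟩, h3⟩)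
  obtain ⟨hn, hS, hd, e, he⟩ := setting_quot (D := C1[z] ⊓ C1[t]) (R := Q ⊓ C1[t]) ρ hρ zt
    (inf_le_inf_right _ M.le_cent1) inf_le_right
    (fun m hm => by
      refine ⟨mem_cent1.2 ?_, m.2⟩
      have : (m : G) * z * (m : G)⁻¹ * z⁻¹ ∈ kr ρ := mem_kr.2
        ⟨mul_mem (mul_mem (mul_mem m.2 zt) (inv_mem m.2)) (inv_mem zt), by
          change ρ (m * ⟨z, zt⟩ * m⁻¹ * ⟨z, zt⟩⁻¹) = 1
          rw [map_mul, map_mul, map_mul, map_inv, map_inv, hm.eq]; group⟩
      rcases (mk _).1 this with h | h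
      · rwa [mul_inv_eq_one, mul_inv_eq_iff_eq_mul] at h
      · obtain ⟨q, hq, hc⟩ := M.exists_not_commute tQ t1 tz
        rw [mul_inv_eq_iff_eq_mul, ← M.conj_of_not hq tQ hc] at h
        exact absurd ((isConj_iff.2 ⟨_, h⟩).trans (isConj_iff.2 ⟨q, rfl⟩).symm) ht)
    inf_le_left hE (w := 11)
    (by
      have h1 := es_card_cent M.toES tQ t1 tz
      rw [card_eq_card_kr_mul (f := ρ) inf_le_right (hk ▸ zpowers_le.2 tR), hk, Nat.card_zpowers, ht2,
        M.card] at h1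
      omega)
    θ hθ (by rw [kθ, hk, sup_eq_left.2 (zpowers_le.2 tR)]) O2
    (fun N hN h => O2 N hN (PG.isPGroup_iff_forall.2 fun y hy => by
      obtain ⟨⟨d, hd⟩, rfl, h1⟩ := h y hy
      have dt : Commute d t := mem_cent1.1 hd.2
      have h2 : ∀ r ∈ Q ⊓ C1[t], d * d * r * (d * d)⁻¹ = r := fun r hr => by
        rcases (mk _).1 (h1 r hr) with h | h <;> rw [mul_inv_eq_iff_eq_mul] at h
        · calc d * d * r * (d * d)⁻¹ = d * (d * r * d⁻¹) * d⁻¹ := by group
            _ = r := by rw [h, one_mul, h, one_mul]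
        · calc d * d * r * (d * d)⁻¹ = d * (d * r * d⁻¹) * d⁻¹ := by group
            _ = d * (t * r) * d⁻¹ := by rw [h]
            _ = d * t * d⁻¹ * (d * r * d⁻¹) := by group
            _ = r := by rw [h, dt.eq, mul_inv_cancel_right, ← mul_assoc, tt, one_mul]
      have h3 : d * d * (d * d) ∈ Q := M.mem_of_trivial M.cQ fun q hq => by
        have h4 := es_comm_mem M.toES tQ (M.nQ (mul_mem hd.1 hd.1)) (mul_mem hd.2 hd.2) hq
        set c := d * d * q * (d * d)⁻¹ * q⁻¹ with hc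
        have : d * d * (d * d) * q * (d * d * (d * d))⁻¹ = c * c * q :=
          calc d * d * (d * d) * q * (d * d * (d * d))⁻¹
            = d * d * c * (d * d)⁻¹ * (d * d * q * (d * d)⁻¹) := by rw [hc]; group
          _ = c * c * q := by rw [h2 c h4, hc]; group
        rw [this]
        exact (M.sq c h4.1).imp (fun e => by rw [e, one_mul]) fun e => by rw [e, (M.zc q hq).eq]
      refine ⟨2, ?_⟩
      rw [← map_pow, ← mem_kr' (f := θ) (⟨d, hd⟩ ^ 2 ^ 2 : ↥(C1[z] ⊓ C1[t])).2, kθ]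
      refine ⟨?_, pow_mem hd.2 _⟩
      convert h3 using 1
      simp [pow_succ, mul_assoc]))
    (by
      obtain ⟨k, h1, h2, h3⟩ := M.exists_two a (Eqv.refl _)
      have P := M.lp h1 h2
      set s := k * z * k⁻¹
      have cs : IsConj z s := isConj_iff.2 ⟨k, rfl⟩
      have : ∃ n ∈ cj[k] Q, Commute n t ∧ ¬ Commute n z := by
        by_contra hc
        push Not at hc
        rcases P.hS.cent_cent h3 P.zS hc with h | h | h | h
        · exact M.ne h
        · exact h2 h.symm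
        · exact tz h.symm
        · obtain ⟨q, hq, hc⟩ := P.hS.exists_not_commute h3 t1 (by rintro rfl; exact ht cs)
          rw [← P.hS.conj_of_not hq h3 hc] at h
          exact ht (isConj_iff.2 ⟨q, h.symm⟩).symm
      obtain ⟨n, hn, h4, h5⟩ := this
      refine ⟨n, mem_cent1.2 h4, ?_⟩
      rw [P.hS.conj_of_not hn P.zS h5]
      refine ⟨mul_mem zR ⟨h1, mem_cent1.2 (P.hS.zc t h3)⟩, ?_⟩
      rw [P.comm.eq, mul_inv_cancel_right, mk, not_or]
      exact ⟨P.hS.ne, fun h => ht (h ▸ cs)⟩)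
  choose f hf using M.ex
  have pR : ∀ {v : Lv} {x}, Ψ v x → (x ∈ Q ⊓ C1[t] ↔ v ∈ leechPerpU) := fun b =>
    (and_iff_right (M.memQ b)).trans (mem_cent1.trans (M.comm_iff b a))
  let F : ∀ x ∈ Q ⊓ C1[t], (im ρ (Q ⊓ C1[t])).subgroupOf C1[ρ ⟨z, zt⟩] := fun x hx =>
    ⟨⟨ρ ⟨x, hx.2⟩, hE.le_cent1 (mem_im_of_mem _ hx)⟩, mem_im_of_mem _ hx⟩
  have hF : ∀ q, ∃ x hx, F x hx = q := fun q => by
    obtain ⟨x, h1, h2, h3⟩ := mem_im.1 q.2
    exact ⟨x, h2, Subtype.ext (Subtype.ext h3)⟩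
  have key : ∀ {v w : Lv} {x y} (_ : Ψ v x) (_ : Ψ w y) hx hy, (QuotientGroup.mk (F x hx) : _ ⧸ center _) =
      QuotientGroup.mk (F y hy) ↔ Cong v.1 w.1 ∨ Cong (v + leechU).1 w.1 := fun {v w x y} b c hx hy => by
    have e1 : ∀ u (hu : u ∈ C1[t]), ρ ⟨y, hy.2⟩ = ρ ⟨u, hu⟩ ↔ y = u ∨ y = u * t := fun u hu => by
      rw [eq_comm, ← inv_mul_eq_one, ← map_inv, ← map_mul]
      refine (mem_kr' (f := ρ) (x := u⁻¹ * y) (mul_mem (inv_mem hu) hy.2)).symm.trans ?_
      rw [mk, inv_mul_eq_one, inv_mul_eq_iff_eq_mul, eq_comm]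
    rw [quot_center_eq hE hE.le_cent1, M.cong_iff b c, M.cong_iff (M.mul b a) c]
    change ρ _ = ρ _ ∨ ρ _ = ρ _ * ρ _ ↔ _
    rw [← map_mul, e1, MulMemClass.mk_mul_mk, e1, mul_assoc x z, (M.zc t tQ).eq, ← mul_assoc]
    tauto
  refine ⟨_, _, hn, hS, e, fun v => QuotientGroup.mk (F (f v) ((pR (hf _)).2 v.2)), fun v w => ?_,
    fun q => ?_, fun v => ?_, fun h g hg v w hvw q hq => ?_⟩
  · exact (key (hf _) (M.mul (hf _) (hf _)) ((pR (hf _)).2 (v + w).2) (mul_mem ((pR (hf _)).2 v.2) ((pR (hf _)).2 w.2))).2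
      (Or.inl (Cong.refl _)) |>.trans (by
        rw [← QuotientGroup.mk_mul]
        exact congrArg _ (Subtype.ext (Subtype.ext (map_mul ρ ⟨_, _⟩ ⟨_, _⟩))))
  · obtain ⟨q, rfl⟩ := QuotientGroup.mk_surjective q
    obtain ⟨x, hx, rfl⟩ := hF q
    obtain ⟨v, hv⟩ := M.surj x hx.1
    exact ⟨⟨v, (pR hv).1 hx⟩, (key (hf _) hv ((pR (hf _)).2 ((pR hv).1 hx)) hx).2
      (Or.inl (Cong.refl _))⟩
  · have : (1 : _ ⧸ center _) = QuotientGroup.mk (F 1 (one_mem _)) :=
      congrArg _ (Subtype.ext (Subtype.ext (map_one ρ).symm))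
    rw [this, key (hf _) M.zero ((pR (hf _)).2 v.2) (one_mem _)]
    refine or_congr ⟨fun ⟨u, hu, e⟩ => ⟨⟨u, hu⟩, Subtype.ext (by simpa [two_smul] using e)⟩,
      fun ⟨u, e⟩ => ⟨u, u.2, by rw [e]; simp [two_smul]⟩⟩
      ⟨fun ⟨u, hu, e⟩ => ⟨⟨u, hu⟩ - leechU, Subtype.ext ?_⟩,
        fun ⟨u, e⟩ => ⟨u + leechU, (u + leechU).2, by rw [e]; simp [two_smul]; abel⟩⟩
    simp only [AddSubgroup.coe_add, ZeroMemClass.coe_zero, sub_zero, two_smul] at e
    simp only [AddSubgroup.coe_add, AddSubgroup.coe_sub, eq_sub_of_add_eq e]; abel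
  · obtain ⟨d, hd'⟩ := hd h
    obtain ⟨x, hx, rfl⟩ := hF q
    obtain ⟨u, hu⟩ := M.surj x hx.1
    have h1 := M.equi (lθ d) hu
    rw [← he d h hd', hg] at h1
    have h2 : (d : G) * x * (d : G)⁻¹ ∈ Q ⊓ C1[t] :=
      ⟨M.memQ h1, C1[t].mul_mem (C1[t].mul_mem d.2.2 hx.2) (C1[t].inv_mem d.2.2)⟩
    refine ((key (hf _) h1 ((pR (hf _)).2 w.2) h2).2 ?_).trans (congrArg _ (Subtype.ext (Subtype.ext ?_)))
    · have h3 : iota g • v.1 = w.1 := hvw
      have h4 : iota g • leechU = leechU := g.2.2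
      rw [← h3]
      refine ((key (hf _) hu ((pR (hf _)).2 v.2) hx).1 hq).imp (fun h => h.smul _) fun h => ?_
      have := h.smul (iota g)
      rwa [smul_add, h4] at this
    · change ρ (⟨d, d.2.2⟩ * ⟨x, hx.2⟩ * ⟨d, d.2.2⟩⁻¹) = h * ρ _ * (h : H)⁻¹
      rw [map_mul, map_mul, map_inv, hd']


/-- Let G be a finite group of Monster type at the involution z with Q the extraspecial normal subgroup of order 2^25 of C = C_G(z) (so C/Q is identified with the first Conway group with Q modulo its centre the Leech lattice modulo 2, and z is not weakly closed in Q). Let t be an involution of Q not conjugate to z in G. Then the centralizer of t modulo the subgroup generated by t is a group of Baby Monster type (an involution whose centralizer D has generalized Fitting subgroup R extraspecial of order 2^23 with D/R identified with the second Conway group acting on R modulo its centre as on the vectors of the Leech lattice modulo 2 orthogonal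 to a short vector, modulo that vector; the involution not weakly closed in R). -/
theorem result {G : Type*} [Group G] [Finite G] (z : G) (Q : Subgroup (Subgroup.centralizer ({z} : Set G))) [Q.Normal] (hM : Cfsg.IsOfMonsterType z Q) (t : G) (htQ : ∃ htc : t ∈ Subgroup.centralizer ({z} : Set G), (⟨t, htc⟩ : Subgroup.centralizer ({z} : Set G)) ∈ Q) (ht2 : orderOf t = 2) (ht : ¬ IsConj z t) [hn : ((Subgroup.zpowers t).subgroupOf (Subgroup.centralizer ({t} : Set G))).Normal] : Cfsg.IsOfBabyMonsterType (↥(Subgroup.centralizer ({t} : Set G)) ⧸ (Subgroup.zpowers t).subgroupOf (Subgroup.centralizer ({t} : Set G))) := by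
  obtain ⟨e, ψ, hψ⟩ := hM.2
  have M := MT.of_iso hM hψ
  obtain ⟨v, hv⟩ := M.surj t ⟨_, htQ.2, rfl⟩
  obtain ⟨Ψ, π, M', a⟩ := M.exists_twist hv (M.type_two hv ht2 ht)
  refine main M' a ht2 ht (QuotientGroup.mk' _) (QuotientGroup.mk'_surjective _) ?_
  rw [kr_mk', subgroupOf_map_subtype, inf_eq_left.2 (zpowers_le.2 (self_mem_cent1 t))]

end Cfsg.Agent.S5412
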