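import Cfsg.Statements.S5416
import Cfsg.Agent.Leech.Fix3
import Cfsg.Agent.Cl.SLCard

set_option autoImplicit false
open Cfsg

namespace Cfsg.Agent.S5416

open Cfsg.Agent.Leech Cfsg.Agent.M24 Cfsg.Agent.GT Subgroup MulAction Cfsg.Spor
open scoped Pointwise

/-- A representative element. -/
noncomputable def w7 : M24 := elt 19986198467811212897138757412752449
theorem mcode_w7 : mcode w7 = 19986198467811212897138757412752449 := mcode_elt (by decide +kernel)
theorem orderOf_w7 : orderOf w7 = 7 :=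
  haveI : Fact (Nat.Prime 7) := ⟨by norm_num⟩
  gcM.orderOf_prime mcode_w7 (by decide +kernel)
def cw7_t0 : T := (.node (.node (.node (.node (.node .nil (nat_lit 0) (nat_lit 2114) (nat_lit
  0x7516884a2db159554d2433c6710417) .nil) (nat_lit 1) (nat_lit 67121) (nat_lit
  0x2a9133262f58ed421e506544d082ee) .nil) (nat_lit 2) (nat_lit 2082) (nat_lit
  0x1cc907a63650a8839a4daac2c05dc5) (.node (.node .nil (nat_lit 3) (nat_lit 17457) (nat_lit
  0x140edb26349850433e4c5a815bb8a3) .nil) (nat_lit 4) (nat_lit 67618) (nat_lit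
  0x309618464d1bd9554d20716d7a2087) .nil)) (nat_lit 5) (nat_lit 67633) (nat_lit
  0xb4cca2628800877da5554eeb71462) (.node (.node (.node .nil (nat_lit 6) (nat_lit 558641) (nat_lit
  0x215835465371e0daad2205cc17da88) .nil) (nat_lit 7) (nat_lit 17442) (nat_lit
  0x38ea29c650299ac5a921bb9e0b5104) .nil) (nat_lit 8) (nat_lit 17) (nat_lit 0x605003452f156d421e5728d6e54e0d)
  (.node .nil (nat_lit 10) (nat_lit 545) (nat_lit 0x6202474925a546205e277d96654e0d) .nil))) (nat_lit 11)
  (nat_lit 2113) (nat_lit 0xa90072c92342c41bba26b514f9c1ac) (.node (.node (.node (.node .nil (nat_lit 12)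
  (nat_lit 2) (nat_lit 0x435cc126418101728e3554ceb33ed4) .nil) (nat_lit 13) (nat_lit 67650) (nat_lit
  0x230b50a64069eee18a2b9c0ca7da88) .nil) (nat_lit 14) (nat_lit 17969) (nat_lit
  0x3d9654a3335e0daad3421dc828c41) (.node (.node .nil (nat_lit 15) (nat_lit 65) (nat_lit
  0x439a55c64ab927065523080e233ed4) .nil) (nat_lit 16) (nat_lit 2097) (nat_lit
  0x85874049377b5c51062839984aad53) .nil)) (nat_lit 19) (nat_lit 66626) (nat_lit
  0x6d048bc92eb30a30822433ea75aa70) (.node (.node (.node .nil (nat_lit 20) (nat_lit 66) (nat_lit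
  0xa80977c5360ae8839a4e189459c1ac) .nil) (nat_lit 21) (nat_lit 561) (nat_lit
  0xa42ed1a6429a0207162c5a895399f6) .nil) (nat_lit 22) (nat_lit 17953) (nat_lit
  0xa5e0eac64b021536b12510483399f6) (.node .nil (nat_lit 23) (nat_lit 0) (nat_lit
  0xbdab49ca307b9ac5a928398a418820) .nil))))
def cw7_l0 : Lvl := ⟨nat_lit 23, [nat_lit 0xbd6cb22627638cfa224a834b318820, nat_lit
  0x605003452f156d421e5728d6e54e0d], [nat_lit 0, nat_lit 0], cw7_t0⟩
def cw7_t1 : T := (.node (.node .nil (nat_lit 4) (nat_lit 0) (nat_lit 0xbdab49ca307b9ac5a928398a418820) .nil)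
  (nat_lit 19) (nat_lit 1) (nat_lit 0xbd6cb22627638cfa224a834b318820) .nil)
def cw7_l1 : Lvl := ⟨nat_lit 4, [nat_lit 0xbd6cb22627638cfa224a834b318820], [nat_lit
  0x2104418c6118c6211083108a02], cw7_t1⟩
def cw7 : List Lvl := [cw7_l0, cw7_l1]
theorem cw7_chk : chkM cw7 = true := by decide +kernel
theorem cent_w7 : C1[w7] = gen mcode cw7_l0.gens :=
  cent_of_chk mcode_w7 cw7_chk 5 (by decide +kernel) (by decide +kernel)
theorem card_cent_w7 : Nat.card C1[w7] = 42 := by
  rw [cent_w7]; exact card_of_chk cw7_chk (by decide +kernel)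

theorem not_real (σ : M24) : w7 * σ * w7 ≠ σ := fun h => by
  obtain ⟨-, ⟨x₀, -, e, hok⟩, -⟩ := (chkM_sound cw7_chk).2.1
  obtain rfl : x₀ = none := idx_inj e
  have h1 : ∀ x, ap 19986198467811212897138757412752449 (idx x) ≠ idx x → idx x ∈ cw7_l0.t.keys := by decide +kernel
  have h0 : σ • (none : GolayPt) ∈ orbit (gen mcode cw7_l0.gens) (none : GolayPt) := by
    rw [hok.orb]
    refine ⟨trivial, h1 _ fun h3 => ?_⟩
    rw [← mcode_w7, acM.ap_code _ trivial, idx_inj.eq_iff, ← mul_smul, eq_mul_inv_iff_mul_eq.2 h,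
      mul_smul, smul_left_cancel_iff, inv_smul_eq_iff, ← idx_inj.eq_iff, ← acM.ap_code _ trivial,
      mcode_w7] at h3
    exact absurd h3 (by decide +kernel)
  obtain ⟨⟨k, hk⟩, h2⟩ := h0
  have h3 : w7 * (k⁻¹ * σ) * w7 = k⁻¹ * σ := by
    rw [← mul_assoc, ← mem_cent1.1 (inv_mem (cent_w7.ge hk)), mul_assoc, mul_assoc, ← mul_assoc w7, h]
  have h4 : (k⁻¹ * σ) • (none : GolayPt) = none := by rw [mul_smul, inv_smul_eq_iff]; exact h2.symm
  generalize k⁻¹ * σ = τ at h3 h4
  have h5 : ∀ j : ℕ, τ • w7 ^ j • (none : GolayPt) = w7⁻¹ ^ j • none := fun j => by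
    induction j with
    | zero => simpa using h4
    | succ j ih => rw [pow_succ', pow_succ', mul_smul, mul_smul, ← ih, eq_inv_smul_iff, ← mul_smul,
        ← mul_smul, h3]
  have hu : mcode (elt 971419242688051492870983905512066222) = 971419242688051492870983905512066222 := mcode_elt (by decide +kernel)
  have h6 : (elt 971419242688051492870983905512066222)⁻¹ * τ ∈ K5 := mem_K5.2 fun a ha => by
    have h7 : ∀ a ∈ B5, ∃ j < 5, idx a = ap (cpow mul one 19986198467811212897138757412752449 j) (idx none) ∧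
        ap 971419242688051492870983905512066222 (idx a) = ap (cpow mul one (inv 19986198467811212897138757412752449) j) (idx none) := by
      decide +kernel
    obtain ⟨j, -, h8, h9⟩ := h7 a ha
    rw [← hu, ← mcode_w7, ← gcM.code_inv, gcM.cpow_code, acM.ap_code _ trivial,
      acM.ap_code _ trivial] at h9
    rw [← mcode_w7, gcM.cpow_code, acM.ap_code _ trivial] at h8
    change ((elt _)⁻¹ * τ) • a = a
    rw [mul_smul, inv_smul_eq_iff, idx_inj h9, idx_inj h8, h5]
  have := ((chkM_sound cM_chk).2.1.drop 5).enum_one gcM acM (f := fun g => force (mul 971419242688051492870983905512066222 g)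
    fun t => !Nat.beq (mul (mul 19986198467811212897138757412752449 t) 19986198467811212897138757412752449) t) (by decide +kernel) _ h6
  generalize elt 971419242688051492870983905512066222 = u at this hu
  rw [force_eq, ← hu, ← mcode_w7, ← gcM.code_mul, ← gcM.code_mul, ← gcM.code_mul,
    mul_inv_cancel_left, h3, Nat.beq_refl] at this
  exact absurd this (by simp)

theorem cls7 {g : M24} (hg : orderOf g = 7) : ∃ k : M24, g = k * w7 * k⁻¹ ∨ g = k * w7⁻¹ * k⁻¹ := by
  obtain ⟨a, ha⟩ := class7 orderOf_w7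
  obtain ⟨b, hb⟩ := class7 ((orderOf_inv _).trans orderOf_w7)
  have key : ∀ y, w7 = a * y * a⁻¹ → w7⁻¹ ≠ b * y * b⁻¹ := fun y h1 h2 => not_real (b * a⁻¹) (by
    rw [mul_assoc, conj_of_two h1 h2 |> eq_mul_inv_iff_mul_eq.1 ∘ Eq.symm |>.symm]; group)
  have k1 : ∀ {k x y c : M24}, g = k * y * k⁻¹ → x = c * y * c⁻¹ → g = k * c⁻¹ * x * (k * c⁻¹)⁻¹ :=
    fun h h' => by rw [h, h']; group
  obtain ⟨k, h | h⟩ := class7 hg <;> rcases ha with ha | ha <;> rcases hb with hb | hb <;>
    first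
    | exact absurd hb (key _ ha)
    | exact ⟨_, Or.inl (k1 h ha)⟩
    | exact ⟨_, Or.inr (k1 h hb)⟩

def l : List ℕ := [nat_lit
  0x9822be3421ba54249c0d06fe0d2ef4012d3e1f06fe1c06fe113e3605683e1807be09831a0007b40001000001ec000400000f1200093e0000200003da000008000004000002000001,
  nat_lit
  0xf78bfb0d27d87bf5c373b6217ab2e175d4410464e07a16f176f6d525208036b2dd1966c600092e0009be0008d200054a00091e00093600013e000fdc000d3e000ae400062c000001,
  nat_lit
  0xfdb28e40000f20002810002408000a04002d020a900100020080060046c000202f00100f000801000401000201000101000081000041000020000011000008000004000002000001,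
  nat_lit
  0xd48e6b400a0e2001411006250801d004002d020091010111008c070040c1002111001091000800000400000200000101000081000041000020000011000008000004000002000001,
  nat_lit
  0xa93ce5400a012001691006010801da040000020a01010113008c0100460100213e00109e000801000401000201000100000080000040000020000010000008000004000002000001,
  nat_lit
  0x3dea65893bd8bc7af6cdf2ac1114ffe0cea81d011f9d7af6f53d05cdf8de2d5ede1521dee98789e1e3abc9fc5d3493026489226401a078056a5489e25e702370eeae60113e548682]

theorem valid_l : Valid mat l := List.forall_mem_cons.2 ⟨exists_wmat (w := [nat_lit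
  0xbd6cb22627638cfa224a834b318820000000]) (by decide +kernel), List.forall_mem_cons.2 ⟨exists_wmat (w :=
  [nat_lit 0x605003452f156d421e5728d6e54e0d000000]) (by decide +kernel), List.forall_mem_cons.2 ⟨exists_wmat
  (w := [nat_lit 0xbdab49ca307b9ac5a928398a41882082402f]) (by decide +kernel), List.forall_mem_cons.2
  ⟨exists_wmat (w := [nat_lit 0xbdab49ca307b9ac5a928398a4188205481d0]) (by decide +kernel),
  List.forall_mem_cons.2 ⟨exists_wmat (w := [nat_lit 0xbdab49ca307b9ac5a928398a418820293e00])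
  (by decide +kernel), List.forall_mem_cons.2 ⟨exists_wmat (w := [nat_lit
  0x7baf40cea938e2c010c58284d5cac8eda08e, nat_lit 0, nat_lit 0xa1e4034d8a6deab241e5b0d21445c2000000, nat_lit
  0, nat_lit 0x5a493a9ec2c26b41aa3b91c16d222fcd36b]) (by decide +kernel), fun _ h => nomatch h⟩⟩⟩⟩⟩⟩

def Ym : ℕ := nat_lit 0xdfbfeb20822a305dc25047b21003b61446b0224760380f26300fbe7fb2813147ce002002000f6a0008020002020007b60000120000820006e000010200002200000a000006000001
def Fm : ℕ := nat_lit 0x82446654856e2930e40008b80003ec000001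
def Pm : ℕ := nat_lit 0x20000010000008000000000000000000000000000000000000000000000000000000000004000000000002000000000000000000000000000000000000000000000000000001

theorem hY : mat (prm w7) = Ym := by rw [mat_prm, mcode_w7]; decide +kernel

theorem fx : (∀ x : Lt, prm w7 • x = x ↔ ∃ m < 2 ^ 6, cdx x = apn 6 Fm m) ∧
    {x : Lt | prm w7 • x = x}.ncard = 2 ^ 6 :=
  fixSp_sound hY (p := 7) (P := Pm) (by decide) (by decide +kernel)

def t4 : T := (.node (.node (.node .nil (nat_lit 1) (nat_lit 0) (nat_lit 1) .nil) (nat_lit 0x293bb0) (nat_lit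
  32) (nat_lit 0x548682) (.node .nil (nat_lit 0x293bb1) (nat_lit 82) (nat_lit 0x293bb0) .nil)) (nat_lit
  0x548682) (nat_lit 21) (nat_lit 1) (.node (.node .nil (nat_lit 0x548683) (nat_lit 66) (nat_lit 0x548682)
  .nil) (nat_lit 0x7dbd32) (nat_lit 99) (nat_lit 0x7dbd33) (.node .nil (nat_lit 0x7dbd33) (nat_lit 49)
  (nat_lit 0x548682) .nil)))
def u1 : T := (.node (.node (.node (.node (.node .nil (nat_lit 1004) (nat_lit 0) (nat_lit 1004) .nil) (nat_lit
  1005) (nat_lit 35) (nat_lit 1004) .nil) (nat_lit 2232) (nat_lit 64) (nat_lit 2900) (.node (.node .nil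
  (nat_lit 2233) (nat_lit 226) (nat_lit 2232) .nil) (nat_lit 2900) (nat_lit 17) (nat_lit 1004) .nil)) (nat_lit
  2901) (nat_lit 82) (nat_lit 2900) (.node (.node (.node .nil (nat_lit 0x2930e4) (nat_lit 240) (nat_lit
  0x548e3a) .nil) (nat_lit 0x548e3a) (nat_lit 101) (nat_lit 2900) .nil) (nat_lit 0x7dbedf) (nat_lit 257)
  (nat_lit 0x548e3a) (.node .nil (nat_lit 0x824466) (nat_lit 274) (nat_lit 0xfffab8) .nil))) (nat_lit
  0x824cdf) (nat_lit 196) (nat_lit 0xab7c3a) (.node (.node (.node (.node .nil (nat_lit 0x824f33) (nat_lit 145)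
  (nat_lit 0xab7c3a) .nil) (nat_lit 0xab7482) (nat_lit 291) (nat_lit 0xfffab8) .nil) (nat_lit 0xab7c3a)
  (nat_lit 53) (nat_lit 1004) (.node (.node .nil (nat_lit 0xab7fd7) (nat_lit 322) (nat_lit 0xd6c108) .nil)
  (nat_lit 0xd6c108) (nat_lit 128) (nat_lit 0xab7c3a) .nil)) (nat_lit 0xd6c2e5) (nat_lit 162) (nat_lit
  0xab7c3a) (.node (.node (.node .nil (nat_lit 0xd6ca5c) (nat_lit 308) (nat_lit 0xfffab8) .nil) (nat_lit
  0xfff1ec) (nat_lit 213) (nat_lit 0xab7c3a) .nil) (nat_lit 0xfff200) (nat_lit 179) (nat_lit 0xab7c3a) (.node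
  .nil (nat_lit 0xfffab8) (nat_lit 117) (nat_lit 1005) .nil))))
def u2 : T := (.node (.node (.node .nil (nat_lit 0x2930e5) (nat_lit 0) (nat_lit 0x2930e5) .nil) (nat_lit
  0x548e3b) (nat_lit 16) (nat_lit 0x2930e5) (.node .nil (nat_lit 0x7dbede) (nat_lit 33) (nat_lit 0x548e3b)
  .nil)) (nat_lit 0x82478a) (nat_lit 69) (nat_lit 0x7dbede) (.node (.node .nil (nat_lit 0xab776f) (nat_lit 80)
  (nat_lit 0xd6c9b1) .nil) (nat_lit 0xd6c9b1) (nat_lit 53) (nat_lit 0x548e3b) (.node .nil (nat_lit 0xfff954)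
  (nat_lit 100) (nat_lit 0xd6c9b1) .nil)))
def u3 : T := (.node (.node (.node (.node (.node .nil (nat_lit 0x293308) (nat_lit 0) (nat_lit 0x293308) .nil)
  (nat_lit 0x293309) (nat_lit 51) (nat_lit 0x293308) (.node .nil (nat_lit 0x29385c) (nat_lit 112) (nat_lit
  0x54856e) .nil)) (nat_lit 0x29385d) (nat_lit 290) (nat_lit 0x29385c) (.node (.node .nil (nat_lit 0x54856e)
  (nat_lit 33) (nat_lit 0x293308) .nil) (nat_lit 0x54856f) (nat_lit 146) (nat_lit 0x54856e) (.node .nil
  (nat_lit 0x548dd6) (nat_lit 16) (nat_lit 0x293308) .nil))) (nat_lit 0x548dd7) (nat_lit 99) (nat_lit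
  0x548dd6) (.node (.node (.node .nil (nat_lit 0x7db58a) (nat_lit 258) (nat_lit 0x7db58b) .nil) (nat_lit
  0x7db58b) (nat_lit 81) (nat_lit 0x548dd6) (.node .nil (nat_lit 0x7db666) (nat_lit 306) (nat_lit 0x7db667)
  .nil)) (nat_lit 0x7db667) (nat_lit 129) (nat_lit 0x54856e) (.node (.node .nil (nat_lit 0x824467) (nat_lit
  244) (nat_lit 0xab7483) .nil) (nat_lit 0x82478b) (nat_lit 325) (nat_lit 0x54856f) .nil))) (nat_lit 0x824cde)
  (nat_lit 209) (nat_lit 0xab7483) (.node (.node (.node (.node .nil (nat_lit 0x824f32) (nat_lit 277) (nat_lit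
  0x7db58b) .nil) (nat_lit 0xab7483) (nat_lit 69) (nat_lit 0x293308) (.node .nil (nat_lit 0xab776e) (nat_lit
  436) (nat_lit 0x82478b) .nil)) (nat_lit 0xab7c3b) (nat_lit 336) (nat_lit 0xd6c109) (.node (.node .nil
  (nat_lit 0xab7fd6) (nat_lit 354) (nat_lit 0xd6c109) .nil) (nat_lit 0xd6c109) (nat_lit 165) (nat_lit
  0x54856e) .nil)) (nat_lit 0xd6c2e4) (nat_lit 388) (nat_lit 0xfff201) (.node (.node (.node .nil (nat_lit
  0xd6c9b0) (nat_lit 421) (nat_lit 0x7db58a) .nil) (nat_lit 0xd6ca5d) (nat_lit 192) (nat_lit 0xab7483) (.node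
  .nil (nat_lit 0xfff1ed) (nat_lit 372) (nat_lit 0xd6c109) .nil)) (nat_lit 0xfff201) (nat_lit 181) (nat_lit
  0x293309) (.node (.node .nil (nat_lit 0xfff955) (nat_lit 405) (nat_lit 0x824cde) .nil) (nat_lit 0xfffab9)
  (nat_lit 227) (nat_lit 0xab7483) .nil))))

theorem cov {x : Lt} (hx : prm w7 • x = x ∧ x ∈ orbit Co0 x8) :
    u2.has (cdx x) = true ∨ t4.has (cdx x) = true := by
  have := cover fx.1 (f := fun c => bor (Nat.beq c 0) (bor (u1.has c) (bor (u3.has c) (bor (u2.has c) (t4.has c))))) (by decide +kernel) hx.1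
  simp only [bor_eq, Bool.or_eq_true, Nat.beq_eq] at this
  rcases this with h | h | h | h
  · exact absurd hx.2 (zero_not_orbit h)
  · exact absurd hx.2 (not_orbit valid_l [0, 0, 0, 0, 0, 0, 0, 0, 0, 4, 0, 0, 0, 0, 0, 0, 0, 0, -4, 0,
      0, 0, 0, 0] (nat_lit 0xc000000004000000000) (by decide +kernel) (by decide +kernel) h)
  · exact absurd hx.2 (not_orbit valid_l [0, 0, 0, 0, 0, 0, 0, 0, 0, -2, 2, 2, 2, 2, 0, 0, 2, 0, 4, 2,
      0, 2, 0, 0] (nat_lit 0x202402002222e000000000) (by decide +kernel) (by decide +kernel) h)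
  · exact h

theorem ex_h : ∃ h, mat h = nat_lit 0x2c2a97dffdda4d273a32e37b11930bec72a76ad3115bc1196c9e2d44342ab57b35dd33ad960c93b9f82cd6c33fc44c41d40c41bb3cf2000cb294c9c1000744000ae4000cc82930e5 :=
  exists_wmat (w := [nat_lit 0x48163645e4b22f4938c2854272b553be81e1, nat_lit 0, nat_lit 0xba6956d88500e0a71e6c5c64879841000000, nat_lit 0, nat_lit 0x1d656c6e4ad192822c674de348542288174]) (by decide +kernel)

theorem le_c' : gen mat l ≤ C1[prm w7] :=
  gen_le_cent (odd_prm orderOf_w7 (by decide)) hY (by decide +kernel)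

theorem conn_u {h : Co0} (hh : mat h = nat_lit 0x2c2a97dffdda4d273a32e37b11930bec72a76ad3115bc1196c9e2d44342ab57b35dd33ad960c93b9f82cd6c33fc44c41d40c41bb3cf2000cb294c9c1000744000ae4000cc82930e5) {x : Lt} (hx : u2.has (cdx x) = true) :
    ∃ k ∈ gen mat l, k • h • x8 = x :=
  conn_keys valid_l (k := 2699493) (by rw [← apm_mat, hh, cdx_x8]; decide +kernel) (by decide +kernel) hx

theorem cov' (x : Lt) (hx : x ∈ orbit C1[prm w7] x8) : t4.has (cdx x) = true := by
  refine (cov (orbit_fix hx)).resolve_left fun h1 => ?_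
  obtain ⟨c, rfl⟩ := hx
  obtain ⟨h, hh⟩ := ex_h
  obtain ⟨k, hk, e⟩ := conn_u hh h1
  obtain ⟨d, σ, hd, h2⟩ := mem_Nm.1 (stab_x8.le (show c.1⁻¹ * k * h ∈ stabilizer Co0 x8 by
    rw [mem_stabilizer_iff, mul_smul, mul_smul, e, inv_smul_eq_iff]; rfl))
  have h3 : pj (prm w7 * h * prm w7) = pj h := by
    rw [← mat_eq, mat_mul, mat_mul, hY, hh]; decide +kernel
  refine not_real σ (prm_eq_of_pj (hd.smul w7.2) hd ?_)
  rw [map_mul prm, map_mul prm, ← mul_assoc, ← mul_assoc, ← prm_mul_sgn _ hd, mul_assoc (prm w7), ← h2,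
    ← mul_assoc, ← mem_cent1.1 (mul_mem (inv_mem c.2) (le_c' hk)), mul_assoc, mul_assoc, map_mul,
    ← mul_assoc, h3, ← map_mul]

theorem le_c : gen mat l ≤ C1[prm w7] :=
  gen_le_cent (odd_prm orderOf_w7 (by decide)) hY (by decide +kernel)

theorem ce : C1[prm w7] = gen mat l ∧ (∀ x, x ∈ orbit C1[prm w7] x8 ↔ t4.has (cdx x) = true) ∧
    (orbit C1[prm w7] x8).ncard = t4.size ∧
    Nat.card C1[prm w7] = Nat.card ↥(Nm ⊓ C1[prm w7]) * t4.size :=
  cent_eq_gen valid_l le_c (Nm_cent_le mcode_w7 cent_w7 (cs := [nat_lit 0x82402f, nat_lit 0x5481d0, nat_lit 0x293e00]) (by decide +kernel))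
    (cov') (by decide +kernel)

theorem sz : t4.size = 7 := by decide +kernel

def tl : T := (.node (.node (.node (.node .nil (nat_lit 0) (nat_lit 0) (nat_lit 0) .nil) (nat_lit 1) (nat_lit
  1) (nat_lit 0) .nil) (nat_lit 0x293bb0) (nat_lit 2) (nat_lit 0) (.node .nil (nat_lit 0x293bb1) (nat_lit 3)
  (nat_lit 0) .nil)) (nat_lit 0x548682) (nat_lit 4) (nat_lit 0) (.node (.node .nil (nat_lit 0x548683) (nat_lit
  5) (nat_lit 0) .nil) (nat_lit 0x7dbd32) (nat_lit 6) (nat_lit 0) (.node .nil (nat_lit 0x7dbd33) (nat_lit 7)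
  (nat_lit 0) .nil)))
def ps : List (ℕ × ℕ) := [(nat_lit
  0x9822be3421ba54249c0d06fe0d2ef4012d3e1f06fe1c06fe113e3605683e1807be09831a0007b40001000001ec000400000f1200093e0000200003da000008000004000002000001,
  nat_lit 0x76325410), (nat_lit
  0xf78bfb0d27d87bf5c373b6217ab2e175d4410464e07a16f176f6d525208036b2dd1966c600092e0009be0008d200054a00091e00093600013e000fdc000d3e000ae400062c000001,
  nat_lit 0x23675410), (nat_lit
  0xfdb28e40000f20002810002408000a04002d020a900100020080060046c000202f00100f000801000401000201000101000081000041000020000011000008000004000002000001,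
  nat_lit 0x76452310), (nat_lit
  0xd48e6b400a0e2001411006250801d004002d020091010111008c070040c1002111001091000800000400000200000101000081000041000020000011000008000004000002000001,
  nat_lit 0x67542310), (nat_lit
  0xa93ce5400a012001691006010801da040000020a01010113008c0100460100213e00109e000801000401000201000100000080000040000020000010000008000004000002000001,
  nat_lit 0x67453210), (nat_lit
  0x3dea65893bd8bc7af6cdf2ac1114ffe0cea81d011f9d7af6f53d05cdf8de2d5ede1521dee98789e1e3abc9fc5d3493026489226401a078056a5489e25e702370eeae60113e548682,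
  nat_lit 0x62371540)]
def cA_t0 : T := (.node (.node (.node .nil (nat_lit 1) (nat_lit 0) (nat_lit 0x76543210) .nil) (nat_lit 2)
  (nat_lit 193) (nat_lit 0x47562130) (.node .nil (nat_lit 3) (nat_lit 21) (nat_lit 0x62371540) .nil)) (nat_lit
  4) (nat_lit 6) (nat_lit 0x47215630) (.node (.node .nil (nat_lit 5) (nat_lit 195) (nat_lit 0x47126530) .nil)
  (nat_lit 6) (nat_lit 689) (nat_lit 0x51263740) (.node .nil (nat_lit 7) (nat_lit 194) (nat_lit 0x12567430)
  .nil)))
def cA_l0 : Lvl := ⟨nat_lit 1, [nat_lit 0x76325410, nat_lit 0x23675410, nat_lit 0x76452310, nat_lit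
  0x67542310, nat_lit 0x67453210, nat_lit 0x62371540], [nat_lit 0, nat_lit 0, nat_lit 0, nat_lit 0, nat_lit 0,
  nat_lit 0], cA_t0⟩
def cA_t1 : T := (.node (.node (.node .nil (nat_lit 2) (nat_lit 0) (nat_lit 0x76543210) .nil) (nat_lit 3)
  (nat_lit 49) (nat_lit 0x54672310) (.node .nil (nat_lit 4) (nat_lit 2) (nat_lit 0x45326710) .nil)) (nat_lit
  5) (nat_lit 1) (nat_lit 0x76234510) (.node (.node .nil (nat_lit 6) (nat_lit 34) (nat_lit 0x32456710) .nil)
  (nat_lit 7) (nat_lit 17) (nat_lit 0x23675410) .nil))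
def cA_l1 : Lvl := ⟨nat_lit 2, [nat_lit 0x76234510, nat_lit 0x23675410], [nat_lit 0x1589235, nat_lit
  0x150cab589635], cA_t1⟩
def cA_t2 : T := (.node (.node (.node .nil (nat_lit 4) (nat_lit 0) (nat_lit 0x76543210) .nil) (nat_lit 5)
  (nat_lit 1) (nat_lit 0x67453210) .nil) (nat_lit 6) (nat_lit 34) (nat_lit 0x54763210) (.node .nil (nat_lit 7)
  (nat_lit 2) (nat_lit 0x45673210) .nil))
def cA_l2 : Lvl := ⟨nat_lit 4, [nat_lit 0x67453210, nat_lit 0x45673210], [nat_lit 50225, nat_lit 0x6218c422],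
  cA_t2⟩
def cA : List Lvl := [cA_l0, cA_l1, cA_l2]

/-- Enumeration of the vectors of length three over the field with two elements. -/
def E8 : Enc (Fin 3 → ZMod 2) 8 where
  idx v := (v 0).val + 2 * (v 1).val + 4 * (v 2).val
  pt n i := (n / 2 ^ i.val : ℕ)
  idx_lt := by decide
  pt_idx := by decide
  idx_pt := by decide

theorem chk_X : chkG 4 15 8 cA = true := by decide +kernel

theorem X_eq : Nonempty (gen (E8.code 4) (gensOf cA) ≃* Matrix.SpecialLinearGroup (Fin 3) (ZMod 2)) := by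
  let j := toPermHom (Matrix.SpecialLinearGroup (Fin 3) (ZMod 2)) (Fin 3 → ZMod 2)
  have hj : Function.Injective j := fun a b h =>
    Subtype.ext (Matrix.ext_iff_mulVec.2 fun v => Equiv.congr_fun h v)
  have key : ∀ {g} a, E8.code 4 g = E8.code 4 (j a) → g ∈ j.range := fun a h =>
    ⟨a, ((E8.gc (mk := 15) rfl (by norm_num)).inj h).symm⟩
  have hc := Cl.card_sl_mul (F := ZMod 2) 3 (by norm_num)
  simp only [ZMod.card, Fin.prod_univ_three] at hc
  refine ⟨(MulEquiv.subgroupCongr (eq_of_le_of_card_ge (gen_le fun g hg => ?_) ?_)).trans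
    (MonoidHom.ofInjective hj).symm⟩
  · simp only [gensOf, cA, cA_l0, List.mem_cons, List.not_mem_nil, or_false] at hg
    rcases hg with hg | hg | hg | hg | hg | hg
    · exact key ⟨!![1, 0, 0; 0, 0, 1; 0, 1, 0], by decide⟩ (hg.trans (by decide +kernel))
    · exact key ⟨!![1, 0, 1; 0, 0, 1; 0, 1, 1], by decide⟩ (hg.trans (by decide +kernel))
    · exact key ⟨!![1, 1, 1; 0, 1, 0; 0, 0, 1], by decide⟩ (hg.trans (by decide +kernel))
    · exact key ⟨!![1, 1, 0; 0, 1, 0; 0, 0, 1], by decide⟩ (hg.trans (by decide +kernel))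
    · exact key ⟨!![1, 0, 1; 0, 1, 0; 0, 0, 1], by decide⟩ (hg.trans (by decide +kernel))
    · exact key ⟨!![0, 1, 1; 0, 0, 1; 1, 1, 1], by decide⟩ (hg.trans (by decide +kernel))
  · rw [(chkG_sound E8 rfl (by norm_num) chk_X).2.1, ← Nat.card_congr (MonoidHom.ofInjective hj).toEquiv,
      (one_mul _).symm.trans hc]
    decide +kernel

theorem cnt : {x : Lt | prm w7 • x = x ∧ x ∈ orbit Co0 x8}.ncard = 14 := by
  have h1 : (u2.keys ++ t4.keys).Nodup ∧ (u2.keys ++ t4.keys).length = 14 ∧ u2.srt 0 (2 ^ 24) = true ∧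
    t4.srt 0 (2 ^ 24) = true ∧ ∀ k ∈ u2.keys ++ t4.keys, k < 2 ^ 24 ∧ apm Ym k = k := by decide +kernel
  rw [← h1.2.1, ← acL.ncard_keys h1.1 fun k hk => ⟨_, trivial, cdx_unx (h1.2.2.2.2 k hk).1⟩]
  refine congrArg _ (Set.ext fun x => ⟨fun h => ⟨trivial, List.mem_append.2
    ((cov h).imp T.has_sound T.has_sound)⟩, fun h => ⟨cdx_inj (by
      rw [← apm_mat, hY, (h1.2.2.2.2 _ h.2).2]), ?_⟩⟩)
  rcases List.mem_append.1 h.2 with h | h
  · obtain ⟨g, hg⟩ := ex_h
    obtain ⟨k, -, rfl⟩ := conn_u hg ((T.has_iff h1.2.2.1).2 h)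
    exact ⟨k * g, mul_smul _ _ _⟩
  · exact (orbit_fix ((ce.2.1 x).2 ((T.has_iff h1.2.2.2.1).2 h))).2

theorem good : Good w7 (Matrix.SpecialLinearGroup (Fin 3) (ZMod 2)) 3 14 := by
  have h := chkG_sound E8 rfl (by norm_num) chk_X
  obtain ⟨θ, h1, h2, -⟩ := exists_lab_hom acL (E8.ac (w := 4) (mk := 15) rfl (by norm_num))
    (E8.gc (w := 4) (mk := 15) rfl (by norm_num)).inj (ps := ps) (l := l) (l' := gensOf cA) rfl rfl
    valid_l h.1 (t := tl) (hi' := 2 ^ 24) (by decide +kernel) keys_ok (by decide +kernel)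
    (sep_pt E8 (by decide +kernel))
  refine good_of ce.1 θ h1 X_eq.some (fun g hg => h2 g fun x hx => ?_) (by
      rw [ce.2.2.2, card_Nm_cent mcode_w7 (n := 8) (by decide +kernel), card_cent_w7, sz, h.2.1,
        orderOf_w7]; decide +kernel) (by rw [ce.2.2.1, sz]; decide) fx.2 cnt
  have h3 : ∀ k ∈ tl.keys, k = 0 ∨ t4.has k = true := by decide +kernel
  rcases h3 _ (T.has_sound hx) with h | h
  · rw [cdx_inj (h.trans cdx_zero.symm), smul_zero]
  · exact hg x ((ce.2.1 x).2 h)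


/-- Let G be a finite group of Monster type at the involution z with Q the extraspecial normal subgroup of order 2^25 of C = C_G(z) (so C/Q is identified with the first Conway group with Q modulo its centre the Leech lattice modulo 2, and z is not weakly closed in Q). Let s be a conjugate of z in Q other than z and let B be a Sylow 7-subgroup of the joint centralizer of z and s. Then the centralizer of B modulo B is a group of Held type (an involution whose centralizer D has generalized Fitting subgroup R extraspecial of order 2^7 with D/R isomorphic to SL(3, 2), exactly 29 of its conjugates lying in R, and the involution not weakly closed in R). -/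
theorem result {G : Type*} [Group G] [Finite G] (z : G) (Q : Subgroup (Subgroup.centralizer ({z} : Set G))) [Q.Normal] (hM : Cfsg.IsOfMonsterType z Q) (s : G) (hsQ : ∃ hsc : s ∈ Subgroup.centralizer ({z} : Set G), (⟨s, hsc⟩ : Subgroup.centralizer ({z} : Set G)) ∈ Q) (hs : IsConj z s) (hs1 : s ≠ z) (B : Subgroup G) (hB : B ≤ Subgroup.centralizer ({z, s} : Set G)) (hBp : Nat.card B = 7 ^ (Nat.card ↥(Subgroup.centralizer ({z, s} : Set G))).factorization 7) [hn : (B.subgroupOf (Subgroup.centralizer (B : Set G))).Normal] : Cfsg.IsOfHeldType (↥(Subgroup.centralizer (B : Set G)) ⧸ B.subgroupOf (Subgroup.centralizer (B : Set G))) := by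
  obtain ⟨Q', Ψ, π, M, a⟩ := start hM hsQ hs hs1
  have : Fact (Nat.Prime 7) := ⟨by norm_num⟩
  rw [M.fact_cent2 a (n := 1) (m := 2 ^ 35 * 34974720) (by norm_num) (by norm_num), pow_one] at hBp
  obtain ⟨b, hb, ho, e, σ, hσ, h⟩ := M.reduce' a hB this.1 (by decide) hBp
  obtain ⟨k, hk | hk⟩ := cls7 hσ <;> obtain ⟨Ψ, π, M, a, l⟩ := h _ _ hk
  · exact good.setting M a this.1 (by decide) orderOf_w7 hBp hb
      (hB.trans (cent_pair z s ▸ inf_le_right)) l
  · exact good.setting M a this.1 (by decide) orderOf_w7 hBp (inv_mem hb)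
      (hB.trans (cent_pair z s ▸ inf_le_right)) (by simpa using l.inv)

end Cfsg.Agent.S5416
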