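import Cfsg.Statements.S5417
import Cfsg.Agent.HeR.M1
import Cfsg.Agent.HeR.T5

set_option autoImplicit false
open Cfsg

namespace Cfsg.Agent.S5417

open Cfsg.Spor Cfsg.Agent.GT Cfsg.Agent.TT Subgroup Cfsg.Agent.M24 MulAction Cfsg.Agent.Leech
  Cfsg.Agent.S5416 Cfsg.Agent.HeR

theorem main {G : Type*} [Group G] [Finite G] {Q B : Subgroup G} {z b s : G} {Ψ : Lv → G → Prop}
    {π : C1[z] →* Co1} (M : MT Q z Ψ π) (a : Ψ (e8 none) s) (hB : Nat.card B = 7) (hb : b ∈ B)
    (ho : orderOf b = 7) (hs : B ≤ C1[s]) (l : Lf π b (prm w7)) [(B.subgroupOf C[B]).Normal] :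
    IsoHe (C[B] ⧸ B.subgroupOf C[B]) := by
  have b1 : b ≠ 1 := fun h => by rw [h, orderOf_one] at ho; omega
  have e1 := eq_zpowers_of_card_prime (hB ▸ (by norm_num : Nat.Prime 7)) hb b1
  have e2 := cent_eq_cent1_of_card_prime (hB ▸ (by norm_num : Nat.Prime 7)) hb b1
  obtain ⟨R, r, da, db, g1, g2, -, -, h, -⟩ := exists_HH M a l ho (hs hb)
    ((QuotientGroup.mk' (B.subgroupOf C[B])).comp (MulEquiv.subgroupCongr e2.symm).toMonoidHom)
    ((QuotientGroup.mk'_surjective _).comp (MulEquiv.surjective _)) (by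
      ext x
      rw [mem_kr, ← e1]
      exact ⟨fun ⟨hx, h⟩ => (QuotientGroup.eq_one_iff (N := B.subgroupOf C[B]) ⟨x, e2.ge hx⟩).1 h,
        fun h => have hx : x ∈ C1[b] := zpowers_le.2 (self_mem_cent1 b) (e1.le h)
          ⟨hx, (QuotientGroup.eq_one_iff (N := B.subgroupOf C[B]) ⟨x, e2.ge hx⟩).2 h⟩⟩)
  exact h.isoHe

/-- Let G be a finite group of Monster type at the involution z with Q the extraspecial normal subgroup of order 2^25 of C = C_G(z) (so C/Q is identified with the first Conway group with Q modulo its centre the Leech lattice modulo 2, and z is not weakly closed in Q). Let s be a conjugate of z in Q other than z and let B be a Sylow 7-subgroup of the joint centralizer of z and s. Then the centralizer of B modulo B is isomorphic to the Held group (as presented on seven involutions). -/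
theorem result {G : Type*} [Group G] [Finite G] (z : G) (Q : Subgroup (Subgroup.centralizer ({z} : Set G))) [Q.Normal] (hM : Cfsg.IsOfMonsterType z Q) (s : G) (hsQ : ∃ hsc : s ∈ Subgroup.centralizer ({z} : Set G), (⟨s, hsc⟩ : Subgroup.centralizer ({z} : Set G)) ∈ Q) (hs : IsConj z s) (hs1 : s ≠ z) (B : Subgroup G) (hB : B ≤ Subgroup.centralizer ({z, s} : Set G)) (hBp : Nat.card B = 7 ^ (Nat.card ↥(Subgroup.centralizer ({z, s} : Set G))).factorization 7) [hn : (B.subgroupOf (Subgroup.centralizer (B : Set G))).Normal] : Cfsg.Spor.IsoHe (↥(Subgroup.centralizer (B : Set G)) ⧸ B.subgroupOf (Subgroup.centralizer (B : Set G))) := by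
  obtain ⟨Q', Ψ, π, M, a⟩ := start hM hsQ hs hs1
  have : Fact (Nat.Prime 7) := ⟨by norm_num⟩
  rw [M.fact_cent2 a (n := 1) (m := 2 ^ 35 * 34974720) (by norm_num) (by norm_num), pow_one] at hBp
  obtain ⟨b, hb, ho, e, σ, hσ, h⟩ := M.reduce' a hB this.1 (by decide) hBp
  obtain ⟨k, hk | hk⟩ := cls7 hσ <;> obtain ⟨Ψ, π, M, a, l⟩ := h _ _ hk
  · exact main M a hBp hb ho (hB.trans (cent_pair z s ▸ inf_le_right)) l
  · exact main M a hBp (inv_mem hb) (by rwa [orderOf_inv]) (hB.trans (cent_pair z s ▸ inf_le_right))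
      (by simpa using l.inv)

end Cfsg.Agent.S5417
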