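import Cfsg.Statements.S5418
import Cfsg.Agent.HeR.M1
import Cfsg.Agent.XL.SE

set_option autoImplicit false
open Cfsg

namespace Cfsg.Agent.S5418

open Cfsg.Spor Cfsg.Agent.GT Cfsg.Agent.TT Subgroup Cfsg.Agent.M24 MulAction Cfsg.Agent.Leech
  Cfsg.Agent.S5416 Cfsg.Agent.TC Cfsg.Agent.XL Cfsg.Agent.HeR

theorem solv_bot {H : Type*} [Group H] [Finite H] {R N : Subgroup H} {r : ℕ → H} {da db g1 g2 : H}
    (h : HH R r da db g1 g2) [N.Normal] (hs : Group.IsSolvable N) : N = ⊥ := by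
  have m2 : g1 * r 3 * g1⁻¹ ∈ R := by rw [h.s1]; exact h.gen.ge (Mb.of (by decide))
  have n2 : g1 * r 3 * g1⁻¹ ≠ r 3 := by rw [h.s1]; exact h.n1
  have ho := (h.lq.large_of_conj m2 n2 (h.lq.mem_conj' m2 n2 (by rw [h.cR]; norm_num))).2.2.2
  by_contra hn
  have hM : normalClosure {r 3} ≤ N := normalClosure_le_normal (by
    simpa using h.lq.mem_of_norm ho le_norm_of_normal hn)
  have cjm : ∀ {x}, IsConj (r 3) x → x ∈ normalClosure {r 3} := fun hx => by
    obtain ⟨g, rfl⟩ := isConj_iff.1 hx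
    exact (normalClosure_normal (s := {r 3})).conj_mem _ (subset_normalClosure (Set.mem_singleton _)) g
  have := large_structure (M := normalClosure {r 3}) h.lq ho rfl
  rcases this with ⟨h1, -⟩ | ⟨-, h1, h2⟩ | ⟨-, L, u, -, -, -, -, -, -, z₁, -, -, -, -, h1⟩
  · have c := isMulCommutative_iff_forall.1 h1 _ (cjm (isConj_iff.2 ⟨_, h.s1⟩)) _ (cjm h.c9)
    have := h.rel [2, 9, 2, 9, 3] (by decide)
    simp only [evl, one_mul] at this
    rw [mul_assoc, mul_assoc, mul_assoc, ← mul_assoc (r 2), c, mul_assoc, h.sq 2 (by decide), mul_one,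
      h.sq 9 (by decide), mul_one] at this
    exact h.lq.ne this
  · have := IsSimpleGroup.comm_iff_isSolvable.2 (solv_of_le hs hM)
    exact h2 (isMulCommutative_iff_forall.2 fun x hx y hy => congrArg Subtype.val (this ⟨x, hx⟩ ⟨y, hy⟩))
  · exact h1 h.o2.symm

section

variable {G : Type*} [Group G] [Finite G] {Q : Subgroup G} {z : G} {Ψ : Lv → G → Prop}
  {π : C1[z] →* Co1} {b c s : G} {y : Co0}

theorem eq_of_lf (M : MT Q z Ψ π) (hb : b ^ 7 = 1) (hc : c ∈ zpowers b) (l : Lf π b y) (l' : Lf π c y) :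
    c = b := by
  have h1 : c * b⁻¹ ∈ Q := M.lf_one.1 (mul_inv_cancel y ▸ l'.mul l.inv)
  exact mul_inv_eq_one.1 (PG.eq_one_of_mem_of_coprime M.isPGroup h1 (Nat.Coprime.coprime_dvd_left
    ((orderOf_dvd_of_mem_zpowers (mul_mem hc (inv_mem (mem_zpowers b)))).trans
      (orderOf_dvd_of_pow_eq_one hb)) (by norm_num)))

theorem conjQ (M : MT Q z Ψ π) (hb : b ^ 7 = 1) (hc : c ^ 7 = 1) (l : Lf π b y) (l' : Lf π c y) :
    ∃ q ∈ Q, q * c * q⁻¹ = b := by
  have : Fact (Nat.Prime 7) := ⟨by norm_num⟩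
  have hn : zpowers b ≤ N[Q] := zpowers_le.2 (M.nQ l.1)
  have p : ∀ {x : G}, x ^ 7 = 1 → IsPGroup 7 (zpowers x) := fun h =>
    PG.isPGroup_zpowers_of_pow_eq_one (k := 1) (by rwa [pow_one])
  have s : IsPiHallOf {7} (zpowers b) (Q ⊔ zpowers b) := syl_mk this.1 le_sup_right (p hb) fun h => by
    rw [sup_comm, relIndex_sup_eq_of_norm_or (Or.inl hn)] at h
    have h2 := h.trans (relIndex_dvd_card' _ _)
    rw [M.card] at h2
    exact absurd (this.1.dvd_of_dvd_pow h2) (by norm_num)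
  have h1 : c * b⁻¹ ∈ Q := M.lf_one.1 (mul_inv_cancel y ▸ l'.mul l.inv)
  obtain ⟨g, hg, e⟩ := syl_exists_conj_le this.1 s (p hc) (zpowers_le.2 (by
    rw [← inv_mul_cancel_right c b]; exact mul_mem_sup h1 (mem_zpowers b)))
  obtain ⟨u, hu, q, hq, rfl⟩ := (mem_sup_of_le_norm hn).1 (sup_comm Q _ ▸ hg)
  have h3 : q * c * q⁻¹ ∈ zpowers b := by
    have := mul_mem (mul_mem (inv_mem hu) (e (conj_mem_conj.2 (mem_zpowers c)))) hu
    simpa [mul_assoc] using this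
  exact ⟨q, hq, eq_of_lf M hb h3 l (by
    simpa using ((M.lf_one.2 hq).mul l').mul (M.lf_one.2 hq).inv)⟩

theorem exists_inv (M : MT Q z Ψ π) (a : Ψ (e8 none) s) {d : Finset GolayPt} (hd : IsCw d) (g : Co0) :
    ∃ t, t * t = 1 ∧ Lf π t (g * sgn d * g⁻¹) := by
  obtain ⟨h1, ne⟩ := (M.conj_z_iff a).2 (Eqv.refl _)
  obtain ⟨k, rfl⟩ := isConj_iff.1 h1
  have P := M.lp (M.memQ a) ne
  obtain ⟨g', -, h2, h3⟩ := M.pair (M.memQ a) ne a
  obtain ⟨t, ht, h5, e⟩ := mem_im.1 (h2.ge ⟨_, conj_mem_conj.2 (show sgn d ∈ Sg from ⟨d, hd, rfl⟩), rfl⟩)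
  have l : Lf π t (g' * sgn d * g'⁻¹) := ⟨ht, e⟩
  obtain ⟨u, hu, l'⟩ : ∃ u, u * u = 1 ∧ Lf π u (g' * sgn d * g'⁻¹) := by
    refine (P.hS.sq t h5.1).elim (fun h => ⟨t, h, l⟩) fun h => ?_
    by_cases hc : ∀ x ∈ Q ⊓ cj[k] Q, Commute t x
    · have hab : Q ⊓ cj[k] Q ⊔ zpowers t ≤ C[Q ⊓ cj[k] Q ⊔ zpowers t] := by
        have h6 : zpowers t ≤ C[Q ⊓ cj[k] Q] := zpowers_le.2 fun x hx => (hc x hx).eq.symm
        rw [cent_sup]
        exact sup_le (le_inf (fun x hx y hy => ((LP_elem P).2 y hy x hx).eq) (le_cent_symm h6))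
          (le_inf h6 (by rw [cent_zpowers]; exact zpowers_le.2 (self_mem_cent1 t)))
      have h7 := card_abelian_le P.hS.toES (sup_le inf_le_right (zpowers_le.2 h5.1))
        (mem_sup_left ⟨P.sQ, P.hS.mem⟩) fun x hx y hy => (hab hy x hx :)
      rw [card_conj, M.card] at h7
      have h8 := eq_of_le_of_card_ge (le_sup_left : Q ⊓ cj[k] Q ≤ _ ⊔ zpowers t) (by rw [h3]; nlinarith)
      exact absurd (h.symm.trans (P.E_sq (h8.ge (mem_sup_right (mem_zpowers t))))) P.hS.ne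
    · push Not at hc
      obtain ⟨x, hx, hc⟩ := hc
      refine ⟨t * x, ?_, by simpa using l.mul (M.lf_one.2 hx.1)⟩
      generalize k * z * k⁻¹ = s at P h
      rw [mul_assoc, ← mul_assoc x, P.hS.mul_eq hx.2 h5.1 fun h => hc h.symm, ← mul_assoc, ← mul_assoc,
        ← mul_assoc, h, (P.hS.zc x hx.2).eq, mul_assoc x, P.hS.zz, mul_one, P.E_sq hx]
  obtain ⟨h, lh⟩ := M.exists_lf (g * g'⁻¹)
  exact ⟨h * u * h⁻¹, by simpa using conj_mul_self h hu, by simpa [mul_assoc] using (lh.mul l').mul lh.inv⟩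

theorem exists_t (M : MT Q z Ψ π) (a : Ψ (e8 none) s) (l : Lf π b (prm w7)) (hb : orderOf b = 7) :
    ∃ t, t * t = 1 ∧ t * b * t⁻¹ = b⁻¹ := by
  obtain ⟨g, hg⟩ : ∃ g, mat g = nat_lit 0x5d78b57a1909d7225fe9401465ce3f94e05d48c2bb45e3578d86d59ea14594a0df00af46510f96f50003f36489610f5af5ad45490c00edbdde3fe84182d108b5870b290c00f42d11 :=
    exists_wmat (w := [nat_lit 0, nat_lit 0x4520d0ba663a4528a803abc96bad85fab7e2, nat_lit 0, nat_lit 0x6ac6f8b27680286149c8a854549c9777124b, nat_lit 0, nat_lit 0x9b0d7221748b8604aa456d84179eb076661a]) (by decide +kernel)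
  obtain ⟨T, hT⟩ : ∃ g, mat g = nat_lit 0x96f02b714dc6394f8817db0bdf2daebb6a47ed77c32fa9ab916ad578e1ee70cf920f9fabce70fa9754b8d05b093098d04076c26ee4f57725315082307f603110deb21f6117d6c9b1 :=
    exists_wmat (w := [nat_lit 0x48163645e4b22f4938c2854272b553be81e1, nat_lit 0, nat_lit 0xba6956d88500e0a71e6c5c64879841000000, nat_lit 0, nat_lit 0x1d656c6e4ad192822c674de348542288174, nat_lit 0x7baf40cea938e2c010c58284d5cac8eda08e, nat_lit 0, nat_lit 0xa1e4034d8a6deab241e5b0d21445c2000000, nat_lit 0, nat_lit 0x5a493a9ec2c26b41aa3b91c16d222fcd36b]) (by decide +kernel)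
  have hd := (isCw_unmask (m := 0x16d35a) (by norm_num)).2 (by decide +kernel)
  obtain ⟨t, tt, lt⟩ := exists_inv M a hd g⁻¹
  have e1 : pj (g * T) = pj (sgn (unmask 0x16d35a) * g) := by
    rw [← mat_eq, mat_mul, mat_mul, hg, hT, mat_sgn hd]; decide +kernel
  have e2 : pj (prm w7 * T * prm w7) = pj T := by
    rw [← mat_eq, mat_mul, mat_mul, hY, hT]; decide +kernel
  replace lt : Lf π t T := lt.congr (by
    rw [inv_inv, mul_assoc, map_mul, ← e1, ← map_mul, inv_mul_cancel_left])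
  have w7' : prm w7 ^ 7 = 1 := by rw [← map_pow, ← orderOf_w7, pow_orderOf_eq_one, map_one]
  have b7 : b ^ 7 = 1 := hb ▸ pow_orderOf_eq_one b
  have lx : Lf π (t * b * t⁻¹ * b⁻¹) ((prm w7)⁻¹ ^ 2) := (((lt.mul l).mul lt.inv).mul l.inv).congr (by
    rw [map_mul, map_mul] at e2
    simp only [map_mul, map_inv, map_pow]
    rw [eq_inv_mul_iff_mul_eq.2 ((mul_assoc _ _ _).symm.trans e2), mul_inv_cancel_right, sq])
  have x28 : ((t * b * t⁻¹ * b⁻¹) ^ 7) ^ 2 ^ 2 = 1 := M.pow_four (M.lf_one.1 (by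
    have := lx.pow 7
    rwa [← pow_mul, mul_comm, pow_mul, inv_pow, w7', inv_one, one_pow] at this))
  obtain ⟨q, -, e⟩ := conjQ M b7 (c := (t * b * t⁻¹ * b⁻¹) ^ 24) (by
    rw [← pow_mul, show 24 * 7 = 7 * 2 ^ 2 * 6 by norm_num, pow_mul, pow_mul, x28, one_pow]) l (by
    have := lx.pow 24
    rwa [← pow_mul, inv_pow, inv_eq_of_mul_eq_one_left (a := prm w7) (by
      rw [← pow_succ', show 2 * 24 + 1 = 7 * 7 by norm_num, pow_mul, w7', one_pow])] at this)
  have ti : t⁻¹ = t := inv_eq_of_mul_eq_one_left tt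
  have e3 : t * (t * b * t⁻¹ * b⁻¹) * t⁻¹ = (t * b * t⁻¹ * b⁻¹)⁻¹ := by
    simp only [mul_inv_rev, inv_inv, ti, ← mul_assoc, tt, one_mul]
  refine ⟨q * t * q⁻¹, by simpa using conj_mul_self q tt, ?_⟩
  rw [← e]
  conv_rhs => rw [conj_inv, ← inv_pow, ← e3, conj_pow]
  generalize (t * b * t⁻¹ * b⁻¹) ^ 24 = c
  group

theorem exists_three (M : MT Q z Ψ π) (l : Lf π b (prm w7)) (hb : orderOf b = 7) :
    ∃ u, u * b * u⁻¹ = b ^ 2 := by
  have hu : mcode (elt 0x71e0f9ca2d40eaa62d3435824b9440) = 0x71e0f9ca2d40eaa62d3435824b9440 :=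
    mcode_elt (by decide +kernel)
  generalize elt 0x71e0f9ca2d40eaa62d3435824b9440 = σ at hu
  have e : σ * w7 = w7 * w7 * σ := gcM.inj (by
    rw [gcM.code_mul, gcM.code_mul, gcM.code_mul, hu, mcode_w7]; decide +kernel)
  obtain ⟨h, lh⟩ := M.exists_lf (prm σ)
  have b7 : b ^ 7 = 1 := hb ▸ pow_orderOf_eq_one b
  obtain ⟨q, -, e⟩ := conjQ M (b := b ^ 2) (c := h * b * h⁻¹) (by rw [← pow_mul, mul_comm, pow_mul, b7, one_pow])
    (by rw [conj_pow, b7]; group) (l.pow 2) (by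
      have := (lh.mul l).mul lh.inv
      rwa [← map_mul, e, map_mul, mul_inv_cancel_right, map_mul, ← sq] at this)
  exact ⟨q * h, by rw [← e]; group⟩

theorem main (M : MT Q z Ψ π) (a : Ψ (e8 none) s) (l : Lf π b (prm w7)) (hb : orderOf b = 7)
    (hs : b ∈ C1[s]) : (C[zpowers b]).relIndex N[zpowers b] = 6 ∧ ∃ t : G, orderOf t = 2 ∧
      (∀ x ∈ zpowers b, t * x * t⁻¹ = x⁻¹) ∧ (∀ x ∈ layerOf C[zpowers b], t * x * t⁻¹ ∈ layerOf C[zpowers b]) ∧
      ¬ ∃ u ∈ layerOf C[zpowers b], ∀ x ∈ layerOf C[zpowers b], t * x * t⁻¹ = u * x * u⁻¹ := by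
  obtain ⟨t, tt, ht⟩ := exists_t M a l hb
  obtain ⟨u, hu⟩ := exists_three M l hb
  have b7 : b ^ 7 = 1 := hb ▸ pow_orderOf_eq_one b
  have b1 : b ≠ 1 := fun h => by rw [h, orderOf_one] at hb; omega
  have nm : ∀ {g : G}, g * b * g⁻¹ ∈ zpowers b → g ∈ N[zpowers b] := fun h =>
    mem_normalizer_of_conj_le (by rw [conj_zpowers]; exact zpowers_le.2 h)
  have tn := nm (ht ▸ inv_mem (mem_zpowers b))
  have un := nm (hu ▸ npow_mem_zpowers b 2)
  rw [cent_zpowers]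
  refine ⟨?_, t, orderOf_eq_prime (by rw [sq, tt]) fun h => ?_, ?_, fun x hx => ?_, ?_⟩
  · have e5 : u * t * b * (u * t)⁻¹ = b ^ 5 := by
      rw [show u * t * b * (u * t)⁻¹ = u * (t * b * t⁻¹) * u⁻¹ by group, ht, ← conj_inv, hu,
        inv_eq_iff_mul_eq_one, ← pow_add, b7]
    have ej : ∀ j : ℕ, (u * t) ^ j * b * ((u * t) ^ j)⁻¹ = b ^ 5 ^ j := fun j => by
      induction j with
      | zero => simp
      | succ j ih => rw [pow_succ 5, pow_mul, ← ih, conj_pow, ← e5, pow_succ]; group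
    rw [← ncard_cj, show 6 = 7 - 1 from rfl, ← hb, ← Nat.card_zpowers, ← SetLike.coe_sort_coe,
      Nat.card_coe_set_eq, ← Set.ncard_sdiff_singleton_of_mem (one_mem (zpowers b))]
    refine congrArg _ (Set.ext fun x => ⟨?_, fun ⟨h1, h2⟩ => ?_⟩)
    · rintro ⟨d, hd, rfl⟩
      exact ⟨conj_mem_of_mem_norm hd (mem_zpowers b), by simpa using b1⟩
    · obtain ⟨i, hi, rfl⟩ : ∃ i < orderOf b, b ^ i = x := by
        classical simpa using mem_zpowers_iff_mem_range_orderOf.1 h1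
      obtain ⟨j, -, e⟩ := ((by decide : ∀ i < 7, i = 0 ∨ ∃ j < 6, i ≡ 5 ^ j [MOD 7]) i (hb ▸ hi)).resolve_left
        (by rintro rfl; exact h2 (pow_zero b))
      exact ⟨_, pow_mem (mul_mem un tn) j, by rw [ej, pow_eq_pow_iff_modEq, hb]; exact e⟩
  · rw [h, one_mul, inv_one, mul_one, eq_inv_iff_mul_eq_one, ← sq] at ht
    have := orderOf_dvd_of_pow_eq_one ht
    rw [hb] at this; omega
  · rintro _ ⟨k, rfl⟩
    simp only [← conj_zpow, ht, inv_zpow]
  · exact conj_mem_of_mem_norm (norm_le_norm_layerOf _ (cent_zpowers b ▸ norm_le_norm_cent _ tn)) hx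
  rintro ⟨v, hv, e⟩
  have hv' := layerOf_le _ hv
  have hn : v⁻¹ * t ∈ N[C1[b]] := mul_mem (le_normalizer (inv_mem hv')) (cent_zpowers b ▸ norm_le_norm_cent _ tn)
  have hc : v⁻¹ * t ∈ C[layerOf C1[b]] := fun x hx => by
    rw [eq_comm, ← mul_inv_eq_iff_eq_mul,
      show v⁻¹ * t * x * (v⁻¹ * t)⁻¹ = v⁻¹ * (t * x * t⁻¹) * v by group, e x hx]
    group
  have hi : v⁻¹ * t * b * (v⁻¹ * t)⁻¹ = b⁻¹ := by
    rw [show v⁻¹ * t * b * (v⁻¹ * t)⁻¹ = v⁻¹ * (t * b * t⁻¹) * v by group, ht, mul_assoc,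
      ← ((show Commute v b from mem_cent1.1 hv').inv_right).eq, inv_mul_cancel_left]
  generalize v⁻¹ * t = w at hn hc hi
  have hB : zpowers b ≤ C1[b] := zpowers_le.2 (self_mem_cent1 b)
  have := GT.normal_subgroupOf (H := zpowers b) (M := C1[b]) (by
    rw [← cent_zpowers]; exact cent_le_norm _)
  let ρ := QuotientGroup.mk' ((zpowers b).subgroupOf C1[b])
  have hk : kr ρ = zpowers b := by
    rw [kr, pre, MonoidHom.comap_bot, QuotientGroup.ker_mk', subgroupOf_map_subtype, inf_eq_left.2 hB]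
  obtain ⟨R, r, da, db, g1, g2, -, -, h, -⟩ := exists_HH M a l hb hs ρ (QuotientGroup.mk'_surjective _) hk
  have hF : fittingOf C1[b] ≤ zpowers b := by
    have : (im ρ (fittingOf C1[b])).Normal := by
      rw [normal_iff_top_le_norm, ← im_dom_of_surj (QuotientGroup.mk'_surjective _)]
      exact im_norm (self_le_norm_fittingOf _)
    have := solv_bot h (N := im ρ (fittingOf C1[b])) (solvable_im (fittingOf_solvable _))
    rwa [im_eq_bot_iff (fittingOf_le _), hk] at this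
  have key : ∀ x ∈ C1[b], x * x = 1 → w ∈ C1[x] := fun x hx xx => by
    have h1 : w * x * w⁻¹ * x⁻¹ ∈ C1[b] := mul_mem (conj_mem_of_mem_norm hn hx) (inv_mem hx)
    have h2 : w * x * w⁻¹ * x⁻¹ ∈ zpowers b := hF (inf_cent_fstarOf_le _ ⟨h1, (cent_sup _ _).ge ⟨by
      rw [mul_assoc w, mul_assoc w]
      exact mul_mem hc (conj_mem_of_le_norm (le_norm_cent (le_norm_layerOf _)) hx (inv_mem hc)),
      cent_anti hF (cent_zpowers b ▸ h1)⟩⟩)
    have h3 : Commute (w * x * w⁻¹ * x⁻¹) x := (comm_zp (mem_cent1.1 hx) h2).symm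
    have h4 : (w * x * w⁻¹ * x⁻¹) ^ 2 = 1 := by
      have := h3.mul_pow 2
      rwa [inv_mul_cancel_right, sq, conj_mul_self w xx, sq x, xx, mul_one, eq_comm] at this
    exact mem_cent1.2 (mul_inv_eq_iff_eq_mul.1 (mul_inv_eq_one.1 (orderOf_eq_one_iff.1
      (Nat.eq_one_of_dvd_coprimes (by norm_num : Nat.Coprime 7 2) (hb ▸ orderOf_dvd_of_mem_zpowers h2)
        (orderOf_dvd_of_pow_eq_one h4)))))
  obtain ⟨g, lg⟩ := exists_lf π (key z (mem_cent1_comm.1 l.1) M.zz)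
  obtain ⟨d, σ, hd, rfl⟩ := mem_Nm.1 (St_e8.le (M.mem_St a lg (key s (mem_cent1_comm.1 hs)
    ((M.sq_iff a).2 (by rw [norm_e8]; norm_num)))))
  · have h3 := ((l.mul lg).mul l).pj_eq (by
      rw [show b * w * b = w by rw [mul_assoc, mul_inv_eq_iff_eq_mul.1 hi, mul_inv_cancel_left]]; exact lg)
    refine not_real σ (prm_eq_of_pj (hd.smul w7.2) hd ?_)
    rw [map_mul prm, map_mul prm, ← mul_assoc, ← mul_assoc, ← prm_mul_sgn _ hd, mul_assoc (prm w7), h3]

end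

/-- Let G be a finite group of Monster type at the involution z with Q the extraspecial normal subgroup of order 2^25 of C = C_G(z) (so C/Q is identified with the first Conway group with Q modulo its centre the Leech lattice modulo 2, and z is not weakly closed in Q). Let s be a conjugate of z in Q other than z and let B be a Sylow 7-subgroup of the joint centralizer of z and s. Then the centralizer of B has index 6 in the normalizer of B; and some involution inverting B induces, by conjugation, a non-inner automorphism of the layer of the centralizer of B. -/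
theorem result {G : Type*} [Group G] [Finite G] (z : G) (Q : Subgroup (Subgroup.centralizer ({z} : Set G))) [Q.Normal] (hM : Cfsg.IsOfMonsterType z Q) (s : G) (hsQ : ∃ hsc : s ∈ Subgroup.centralizer ({z} : Set G), (⟨s, hsc⟩ : Subgroup.centralizer ({z} : Set G)) ∈ Q) (hs : IsConj z s) (hs1 : s ≠ z) (B : Subgroup G) (hB : B ≤ Subgroup.centralizer ({z, s} : Set G)) (hBp : Nat.card B = 7 ^ (Nat.card ↥(Subgroup.centralizer ({z, s} : Set G))).factorization 7) : (Subgroup.centralizer (B : Set G)).relIndex (Subgroup.normalizer (B : Set G)) = 6 ∧ ∃ t : G, orderOf t = 2 ∧ (∀ b ∈ B, t * b * t⁻¹ = b⁻¹) ∧ (∀ x ∈ (Cfsg.layer ↥(Subgroup.centralizer (B : Set G))).map (Subgroup.centralizer (B : Set G)).subtype, t * x * t⁻¹ ∈ (Cfsg.layer ↥(Subgroup.centralizer (B : Set G))).map (Subgroup.centralizer (B : Set G)).subtype) ∧ ¬ ∃ l ∈ (Cfsg.layer ↥(Subgroup.centralizer (B : Set G))).map (Subgroup.centralizer (B : Set G)).subtype,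 ∀ x ∈ (Cfsg.layer ↥(Subgroup.centralizer (B : Set G))).map (Subgroup.centralizer (B : Set G)).subtype, t * x * t⁻¹ = l * x * l⁻¹ := by
  obtain ⟨Q', Ψ, π, M, a⟩ := start hM hsQ hs hs1
  have : Fact (Nat.Prime 7) := ⟨by norm_num⟩
  rw [M.fact_cent2 a (n := 1) (m := 2 ^ 35 * 34974720) (by norm_num) (by norm_num), pow_one] at hBp
  obtain ⟨b, hb, ho, e, σ, hσ, h⟩ := M.reduce' a hB this.1 (by decide) hBp
  have hs' : b ∈ C1[s] := (hB.trans (cent_pair z s ▸ inf_le_right)) hb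
  rw [map_subtype_layer, e]
  obtain ⟨k, hk | hk⟩ := cls7 hσ <;> obtain ⟨Ψ, π, M, a, l⟩ := h _ _ hk
  · exact main M a l ho hs'
  · rw [← zpowers_inv]
    exact main M a (by simpa using l.inv) (by rwa [orderOf_inv]) (inv_mem hs')

end Cfsg.Agent.S5418
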