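import Cfsg.Statements.S5420
import Cfsg.Agent.TT.Basic

set_option autoImplicit false
open Cfsg

namespace Cfsg.Agent.S5420

/-- Let Q be an extraspecial 2-subgroup of the finite group G whose centralizer in G is its centre Z and which is normal in the centralizer of Z. If Z lies in the largest normal 2-subgroup of G, then Q is a large extraspecial 2-subgroup of G: it normalizes no non-trivial subgroup of G of odd order. -/
theorem result {G : Type*} [Group G] [Finite G] (Q : Subgroup G) (hL1 : Cfsg.IsExtraspecial 2 ↥Q) (hL2 : Subgroup.centralizer (Q : Set G) = ((Subgroup.center ↥Q).map Q.subtype)) (hL3 : Subgroup.centralizer (((Subgroup.center ↥Q).map Q.subtype) : Set G) ≤ Subgroup.normalizer (Q : Set G)) (hZ : ((Subgroup.center ↥Q).map Q.subtype) ≤ Cfsg.pCore 2 G) : Cfsg.IsLargeExtraspecial Q := by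
  refine ⟨hL1, hL2, hL3, fun K hK hn => ?_⟩
  have h1 : K ≤ Subgroup.centralizer (((Subgroup.center ↥Q).map Q.subtype : Subgroup G) : Set G) := by
    rw [GT.le_cent_iff_commutator_eq_bot, eq_bot_iff,
      ← TT.inf_eq_bot_of_odd hK (TT.pCore_isPGroup (G := G))]
    refine le_inf (GT.commutator_le_of_le_norm_left ((Subgroup.map_subtype_le _).trans hn)) ?_
    exact (Subgroup.commutator_mono le_rfl hZ).trans (Subgroup.commutator_le_right _ _)
  have h2 := GT.le_cent_of_norm_of_inf_eq_bot (h1.trans hL3) hn
    (TT.inf_eq_bot_of_odd hK hL1.1.1)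
  rw [hL2] at h2
  rw [eq_bot_iff, ← TT.inf_eq_bot_of_odd hK hL1.1.1]
  exact le_inf le_rfl (h2.trans (Subgroup.map_subtype_le _))

end Cfsg.Agent.S5420
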