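import Cfsg.Statements.S5422
import Cfsg.Agent.TT.Large

set_option autoImplicit false
open Cfsg

namespace Cfsg.Agent.S5422

open Cfsg.Agent.GT Cfsg.Agent.TT Subgroup

/-- Let Q be an extraspecial 2-subgroup of the finite group G whose centralizer in G is its centre Z and which is normal in the centralizer of Z; suppose Q has width at least 2 (order 2^(2w+1) with w ≥ 2) and g is an element of G not normalizing Z with g Z g⁻¹ inside Q. Then Z lies inside g Q g⁻¹; writing V for the subgroup generated by Z and g Z g⁻¹ (a four-group), the normalizer of V induces on V its full automorphism group, that is, the centralizer of V has index 6 in the normalizer of V; and Q is a large extraspecial 2-subgroup of G. -/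
theorem result {G : Type*} [Group G] [Finite G] (Q : Subgroup G) (hL1 : Cfsg.IsExtraspecial 2 ↥Q) (hL2 : Subgroup.centralizer (Q : Set G) = ((Subgroup.center ↥Q).map Q.subtype)) (hL3 : Subgroup.centralizer (((Subgroup.center ↥Q).map Q.subtype) : Set G) ≤ Subgroup.normalizer (Q : Set G)) (w : ℕ) (hw : 2 ≤ w) (hcard : Nat.card ↥Q = 2 ^ (2 * w + 1)) (g : G) (hg : g ∉ Subgroup.normalizer (((Subgroup.center ↥Q).map Q.subtype) : Set G)) (hZg : (((Subgroup.center ↥Q).map Q.subtype)).map (MulAut.conj g).toMonoidHom ≤ Q) : ((Subgroup.center ↥Q).map Q.subtype) ≤ (Q).map (MulAut.conj g).toMonoidHom ∧ (Subgroup.centralizer ((((Subgroup.center ↥Q).map Q.subtype) ⊔ (((Subgroup.center ↥Q).map Q.subtype)).map (MulAut.conj g).toMonoidHom : Subgroup G) : Set G)).relIndex (Subgroup.normalizer ((((Subgroup.center ↥Q).map Q.subtype) ⊔ (((Subgroup.center ↥Q).map Q.subtype)).map (MulAut.conj g).toMonoidHom : Subgroup G) : Set G)) = 6 ∧ Cfsg.IsLargeExtraspecial Q := by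
  obtain ⟨z, h⟩ := LQ.of_hyp hL1 hL2 hL3
  rw [h.map_center] at hg hZg ⊢
  rw [conj_zpowers] at hZg ⊢
  have hs := zpowers_le.1 hZg
  have hne : g * z * g⁻¹ ≠ z := fun e => hg (conj_eq_self_iff.1 (by rw [conj_zpowers, e]))
  have hz := h.mem_conj' hs hne (eight_lt_of_width hw hcard)
  refine ⟨zpowers_le.2 hz, ?_, h.large_of_conj hs hne hz⟩
  have hS := h.conj_ g
  generalize g * z * g⁻¹ = s at *
  generalize cj[g] Q = S at *
  have e : zpowers z ⊔ zpowers s = closure ({z, s} : Set G) := by
    rw [zpowers_eq_closure, zpowers_eq_closure, ← Subgroup.closure_union]; rfl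
  rw [e]
  obtain ⟨q, hq, hqs⟩ := h.exists_not_commute hs hS.ne hne
  obtain ⟨n, hn, hnz⟩ := hS.exists_not_commute hz h.ne hne.symm
  have hzs := h.zc s hs
  have hn' : n ∈ N[closure ({z, s} : Set G)] := by
    rw [Set.pair_comm]; exact hS.le_norm_pair hz hn
  obtain ⟨ρ, h1, h2⟩ := exists_S3_hom h.zz hS.zz hzs h.ne hS.ne hne _ le_rfl
    (h.le_norm_pair hs hq) hn' (commute_iff_conj.1 (h.zc q hq).symm) (h.conj_of_not hq hs hqs)
    (commute_iff_conj.1 (hS.zc n hn).symm) (by rw [hS.conj_of_not hn hz hnz, hzs.eq])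
  rw [relIndex, ← h2, index_ker, MonoidHom.range_eq_top.2 h1, card_top, Nat.card_eq_fintype_card]
  rfl

end Cfsg.Agent.S5422
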