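import Cfsg.Statements.S5425
import Cfsg.Agent.M24.LinAct
import Cfsg.Agent.TT.Large
import Cfsg.Agent.PG.Rank
import Cfsg.Agent.Cl.SLCard

set_option autoImplicit false
open Cfsg

namespace Cfsg.Agent.S5425

open Cfsg.Agent.M24 Finset MulAction
open scoped symmDiff Pointwise

open Cfsg.Agent.GT Cfsg.Agent.TT Matrix

def cQ_t0 : T := (.node (.node (.node (.node (.node .nil (nat_lit 4) (nat_lit 0) (nat_lit
  0xbdab49ca307b9ac5a928398a418820) .nil) (nat_lit 6) (nat_lit 1) (nat_lit 0x9e085bc49b0e755358691014746e5)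
  .nil) (nat_lit 7) (nat_lit 68) (nat_lit 0x1517261833416aa4c1a7259cf05e23) (.node .nil (nat_lit 8) (nat_lit
  33) (nat_lit 0xbc92655a2c3b9706cea47d0a818820) .nil)) (nat_lit 9) (nat_lit 20) (nat_lit
  0x74d10928066dcf47d8895b05509471) (.node (.node .nil (nat_lit 10) (nat_lit 3) (nat_lit
  0xba64d4562f83a87312d362caa18820) .nil) (nat_lit 11) (nat_lit 35) (nat_lit 0xb1f33405648d12250ebaa80d746e5)
  (.node .nil (nat_lit 12) (nat_lit 4) (nat_lit 0x72cc93b40855e44b3e909d44c09471) .nil))) (nat_lit 13)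
  (nat_lit 34) (nat_lit 0x30f3a41d24c496419ebaa82d10cb7) (.node (.node (.node .nil (nat_lit 15) (nat_lit 38)
  (nat_lit 0x99b26504a20eb34c1674580f746e5) .nil) (nat_lit 16) (nat_lit 52) (nat_lit
  0x1acc97b4a498648b1e8c55630b81c2) (.node .nil (nat_lit 18) (nat_lit 6) (nat_lit
  0xba1474922b3398d85676a3cb218820) .nil)) (nat_lit 19) (nat_lit 2) (nat_lit 0x2a6cd25467808cfa225362eea8b801)
  (.node (.node .nil (nat_lit 20) (nat_lit 16) (nat_lit 0xbd8469c5590d499ae14b2006746e5) .nil) (nat_lit 21)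
  (nat_lit 5) (nat_lit 0x7288cb4c145dde63c9156c04909471) (.node .nil (nat_lit 22) (nat_lit 84) (nat_lit
  0x11267aa02b3158d82552a3dd605e23) .nil))))
def cQ_l0 : Lvl := ⟨nat_lit 4, [nat_lit 0xbd8469c5590d499ae14b2006746e5, nat_lit
  0x2d64b4246f60a87312ca836f38b801, nat_lit 0xba64d4562f83a87312d362caa18820, nat_lit
  0x72cc93b40855e44b3e909d44c09471, nat_lit 0x74d10928066dcf47d8895b05509471, nat_lit
  0xba1474922b3398d85676a3cb218820], [nat_lit 0, nat_lit 0, nat_lit 0, nat_lit 0, nat_lit 0, nat_lit 0],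
  cQ_t0⟩
def cQ_t1 : T := (.node (.node (.node (.node .nil (nat_lit 0) (nat_lit 0) (nat_lit
  0xbdab49ca307b9ac5a928398a418820) .nil) (nat_lit 1) (nat_lit 3) (nat_lit 0x2d9345486c789706cea839ae48b801)
  .nil) (nat_lit 2) (nat_lit 2) (nat_lit 0x1cab4558b03856c6cd2879a24b81c2) (.node .nil (nat_lit 3) (nat_lit 1)
  (nat_lit 0x15aa69c82c395706a9287d1c405e23) .nil)) (nat_lit 5) (nat_lit 1091) (nat_lit
  0xc9269d85078d6c6aaa83d004746e5) (.node (.node .nil (nat_lit 14) (nat_lit 67) (nat_lit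
  0x8c9349daec381b05aaa8798642844e) .nil) (nat_lit 17) (nat_lit 35) (nat_lit 0x75926548103ddac5cea87d04409471)
  (.node .nil (nat_lit 23) (nat_lit 34) (nat_lit 0x4aa6559cc7c5b05cd283d02410cb7) .nil)))
def cQ_l1 : Lvl := ⟨nat_lit 0, [nat_lit 0x15aa69c82c395706a9287d1c405e23, nat_lit
  0x1cab4558b03856c6cd2879a24b81c2, nat_lit 0x2d9345486c789706cea839ae48b801], [nat_lit 0x4c328c50, nat_lit
  0xa1a2428462, nat_lit 33905], cQ_t1⟩
def cQ : List Lvl := [cQ_l0, cQ_l1]
theorem cQ_chk : chkM cQ = true := by decide +kernel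
def cE_t0 : T := (.node (.node (.node (.node (.node .nil (nat_lit 4) (nat_lit 0) (nat_lit
  0xbdab49ca307b9ac5a928398a418820) .nil) (nat_lit 6) (nat_lit 1091) (nat_lit
  0xb9e086be3593a6952d94b10a618820) .nil) (nat_lit 7) (nat_lit 1) (nat_lit 0xb99b28523343aaa4b16f258a718820)
  (.node .nil (nat_lit 8) (nat_lit 2148) (nat_lit 0xbc92655a2c3b9706cea47d0a818820) .nil)) (nat_lit 9)
  (nat_lit 100) (nat_lit 0xba91094e346b9e63d8955b0a918820) (.node (.node .nil (nat_lit 10) (nat_lit 68)
  (nat_lit 0xba64d4562f83a87312d362caa18820) .nil) (nat_lit 11) (nat_lit 1124) (nat_lit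
  0xbb1f3a4232ab916218ed4a8ab18820) (.node .nil (nat_lit 12) (nat_lit 1092) (nat_lit
  0xbae957b6289ba44b1cd0524ac18820) .nil))) (nat_lit 13) (nat_lit 34) (nat_lit
  0xbc0ea332364b892451ebaccad18820) (.node (.node (.node .nil (nat_lit 15) (nat_lit 34916) (nat_lit
  0xbd17661a2a23933ac1a7448af18820) .nil) (nat_lit 16) (nat_lit 35) (nat_lit 0xbb4c93ae2453ac893e8c9d4b018820)
  (.node .nil (nat_lit 18) (nat_lit 4) (nat_lit 0xba1474922b3398d85676a3cb218820) .nil)) (nat_lit 19) (nat_lit
  3) (nat_lit 0xbd6cb22627638cfa224a834b318820) (.node (.node .nil (nat_lit 20) (nat_lit 36) (nat_lit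
  0xbbd8459e29b39559b606920b418820) .nil) (nat_lit 21) (nat_lit 2) (nat_lit 0xbcc8cb2a265b8f47c9096c0b518820)
  (.node .nil (nat_lit 22) (nat_lit 67) (nat_lit 0xb926faa22da3a0b6255231cb618820) .nil))))
def cE_l0 : Lvl := ⟨nat_lit 4, [nat_lit 0xb99b28523343aaa4b16f258a718820, nat_lit
  0xbcc8cb2a265b8f47c9096c0b518820, nat_lit 0xbd6cb22627638cfa224a834b318820, nat_lit
  0xba1474922b3398d85676a3cb218820], [nat_lit 0, nat_lit 0, nat_lit 0, nat_lit 0], cE_t0⟩
def cE : List Lvl := [cE_l0]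
theorem cE_chk : chkM cE = true := by decide +kernel
def cK_t0 : T := (.node (.node (.node (.node .nil (nat_lit 6) (nat_lit 0) (nat_lit
  0xbdab49ca307b9ac5a928398a418820) .nil) (nat_lit 7) (nat_lit 33) (nat_lit 0xb2d55c0aaa5cf37b648325c488c40)
  (.node .nil (nat_lit 9) (nat_lit 528) (nat_lit 0x7568f62472595569c0c869e24106e0) .nil)) (nat_lit 10)
  (nat_lit 16) (nat_lit 0x1ae6ca36e7b092fa99489402471620) (.node (.node .nil (nat_lit 11) (nat_lit 82448)
  (nat_lit 0x11d8b53c324ba9634e08ab4642c6e0) .nil) (nat_lit 12) (nat_lit 65) (nat_lit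
  0x8aac74cdd465da65d64883c44184a0) (.node .nil (nat_lit 13) (nat_lit 16912) (nat_lit
  0x14d967a9cda84cba1e084cae42c460) .nil))) (nat_lit 15) (nat_lit 514) (nat_lit
  0x75550926e7345af5da68a302419440) (.node (.node (.node .nil (nat_lit 16) (nat_lit 1) (nat_lit
  0x8bd73a9c2660e54b25a882844bb8a0) .nil) (nat_lit 18) (nat_lit 1057) (nat_lit
  0x2d1ebb18499c615648e8534640ddc0) (.node .nil (nat_lit 19) (nat_lit 80) (nat_lit
  0xbd8ec3487358aaa4d1e86c1c409620) .nil)) (nat_lit 20) (nat_lit 2) (nat_lit 0x1ad263b6305064cb3ea89d0a4b89c0)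
  (.node (.node .nil (nat_lit 21) (nat_lit 2576) (nat_lit 0xa4ca656edb15eb3c28894e2413860) .nil) (nat_lit 22)
  (nat_lit 16449) (nat_lit 0xb99725504c78d30acda83d8a474420) .nil)))
def cK_l0 : Lvl := ⟨nat_lit 6, [nat_lit 0x1ae6ca36e7b092fa99489402471620, nat_lit
  0x1ad263b6305064cb3ea89d0a4b89c0], [nat_lit 0, nat_lit 0], cK_t0⟩
def cK_t1 : T := (.node (.node (.node (.node .nil (nat_lit 7) (nat_lit 0) (nat_lit
  0xbdab49ca307b9ac5a928398a418820) .nil) (nat_lit 9) (nat_lit 545) (nat_lit 0xba9f484c7268ab64b0e859a24285c0)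
  (.node .nil (nat_lit 10) (nat_lit 65) (nat_lit 0x1c1547b22b4864db1e68a9ae42b840) .nil)) (nat_lit 11)
  (nat_lit 34) (nat_lit 0xbb1b4940b3a85ea3d968498648b840) (.node (.node .nil (nat_lit 12) (nat_lit 17)
  (nat_lit 0x1b65462eef50927ac2c8998a4885c0) .nil) (nat_lit 13) (nat_lit 1089) (nat_lit
  0x2d674b26ed604eb7c94881a241b840) .nil)) (nat_lit 15) (nat_lit 2097) (nat_lit
  0x2c9946d8693ba7552e0879ae488820) (.node (.node (.node .nil (nat_lit 16) (nat_lit 1569) (nat_lit
  0x8ced4aa8a758a0f6264869ae4185c0) .nil) (nat_lit 18) (nat_lit 1) (nat_lit 0x8be1451ef5b39696cd889186428820)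
  .nil) (nat_lit 19) (nat_lit 2) (nat_lit 0x8a5743d46a806d393da8618a4bb840) (.node (.node .nil (nat_lit 21)
  (nat_lit 49) (nat_lit 0x2acf44b63698992855e851864b85c0) .nil) (nat_lit 22) (nat_lit 17442) (nat_lit
  0x19d345bcac939509b6a8b1a24b8820) .nil)))
def cK_l1 : Lvl := ⟨nat_lit 7, [nat_lit 0x8be1451ef5b39696cd889186428820, nat_lit
  0x1b65462eef50927ac2c8998a4885c0], [nat_lit 1104, nat_lit 0x280a10140508421014210], cK_t1⟩
def cK : List Lvl := [cK_l0, cK_l1]
theorem cK_chk : chkM cK = true := by decide +kernel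

noncomputable def Q0 : Subgroup M24 := gen mcode (gensOf cQ)
noncomputable def K0 : Subgroup M24 := gen mcode (gensOf cK)

theorem card_Q0 : Nat.card Q0 = 2 ^ 7 := card_of_chk cQ_chk (by decide +kernel)
theorem card_K0 : Nat.card K0 = 168 := card_of_chk cK_chk (by decide +kernel)
theorem Q0_le : Q0 ≤ C1[zA] := cent_zA ▸ gen_le_gen cZA_chk (by decide +kernel)
theorem K0_le : K0 ≤ C1[zA] := cent_zA ▸ gen_le_gen cZA_chk (by decide +kernel)
theorem le_norm : C1[zA] ≤ N[Q0] :=
  cent_zA ▸ gcM.gen_le_normalizer (fun _ hg => (mem_iff_sift cQ_chk).2 hg) (by decide +kernel)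

theorem es : ES Q0 zA where
  mem := (mem_iff_sift cQ_chk).2 (by rw [mcode_zA]; decide +kernel)
  zz := by have := pow_orderOf_eq_one zA; rwa [orderOf_zA, pow_two] at this
  ne h := by have := orderOf_zA; rw [h, orderOf_one] at this; omega
  zc x hx := (Subgroup.mem_centralizer_singleton_iff.1 (Q0_le hx)).symm
  conj x hx y hy := by
    have h1 := forall_of_enum cQ_chk (f := fun x => force (inv x) fun x' => enum mul (fun y =>
      force (mul x y) fun a => force (mul a x') fun b => bor (Nat.beq b y) (Nat.beq b (mul y 979121071158219704299181131031480352))) cQ one)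
      (by decide +kernel) x hx
    rw [force_eq] at h1
    have h2 := forall_of_enum cQ_chk h1 y hy
    simpa only [force_eq, bor_eq, Bool.or_eq_true, ← mcode_zA, ← gcM.code_inv, ← gcM.code_mul,
      beq_mcode] using h2
  sq x hx := by
    have h1 := forall_of_enum cQ_chk (f := fun x => force (mul x x) fun b =>
      bor (Nat.beq b one) (Nat.beq b 979121071158219704299181131031480352)) (by decide +kernel) x hx
    simpa only [force_eq, bor_eq, Bool.or_eq_true, ← mcode_zA, ← gcM.code_one, ← gcM.code_mul,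
      beq_mcode] using h1
  cent x hx hc := by
    have h1 := forall_of_enum cQ_chk (f := fun x => bor (bor (Nat.beq x one) (Nat.beq x 979121071158219704299181131031480352))
      (lany (gensOf cQ) fun y => !Nat.beq (mul x y) (mul y x))) (by decide +kernel) x hx
    simp only [bor_eq, Bool.or_eq_true, ← mcode_zA, ← gcM.code_one, beq_mcode, lany_iff] at h1
    refine h1.resolve_right ?_
    rintro ⟨y, hy, h2⟩
    obtain ⟨y, rfl⟩ := (chkM_sound cQ_chk).1 y hy
    rw [← gcM.code_mul, ← gcM.code_mul, hc y (mem_gen_of_mem hy), Nat.beq_refl] at h2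
    exact absurd h2 (by simp)
  nonab := by
    by_contra hc
    push Not at hc
    have : (lany (gensOf cQ) fun x => lany (gensOf cQ) fun y => !Nat.beq (mul x y) (mul y x)) = true := by
      decide +kernel
    simp only [lany_iff] at this
    obtain ⟨x, hx, y, hy, h2⟩ := this
    obtain ⟨x, rfl⟩ := (chkM_sound cQ_chk).1 x hx
    obtain ⟨y, rfl⟩ := (chkM_sound cQ_chk).1 y hy
    rw [← gcM.code_mul, ← gcM.code_mul, hc x (mem_gen_of_mem hx) y (mem_gen_of_mem hy),
      Nat.beq_refl] at h2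
    exact absurd h2 (by simp)

theorem lq : LQ Q0 zA where
  toES := es
  nQ := le_norm
  cQ c hc := by
    have h0 : c ∈ gen mcode (gensOf cZA) := by
      rw [← cent_zA, Subgroup.mem_centralizer_singleton_iff]; exact (hc zA es.mem).symm
    have h1 := forall_of_enum cZA_chk (f := fun x => bor
      (lany (gensOf cQ) fun y => nany 24 fun i => !Nat.beq (ap x (ap y i)) (ap y (ap x i)))
      (sift mul one ap cQ x)) (by decide +kernel) c h0
    simp only [bor_eq, Bool.or_eq_true, lany_iff, nany_iff] at h1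
    refine (mem_iff_sift cQ_chk).2 (h1.resolve_left ?_)
    rintro ⟨y, hy, i, hi, h2⟩
    obtain ⟨y, rfl⟩ := (chkM_sound cQ_chk).1 y hy
    rw [← idx_pt hi, acM.ap_code y trivial, acM.ap_code c trivial, acM.ap_code c trivial,
      acM.ap_code y trivial, ← mul_smul, ← mul_smul, hc y (mem_gen_of_mem hy), Nat.beq_refl] at h2
    exact absurd h2 (by simp)

theorem large : IsLargeExtraspecial Q0 := by
  have hg : mcode (elt 587550600749962550665941958876206145) = 587550600749962550665941958876206145 := mcode_elt (by decide +kernel)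
  have h1 : elt 587550600749962550665941958876206145 * zA * (elt 587550600749962550665941958876206145)⁻¹ ∈ Q0 :=
    (mem_iff_sift cQ_chk).2 (by rw [← gcM.cjap_code, hg, mcode_zA]; decide +kernel)
  have h2 : elt 587550600749962550665941958876206145 * zA * (elt 587550600749962550665941958876206145)⁻¹ ≠ zA := fun e => by
    have := congrArg mcode e
    rw [← gcM.cjap_code, hg, mcode_zA] at this
    exact absurd this (by decide +kernel)
  exact lq.large_of_conj h1 h2 (lq.mem_conj' h1 h2 (by rw [card_Q0]; norm_num))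

theorem op_eq : Op 2 C1[zA] = Q0 := by
  refine le_antisymm (fun x hx => ?_) lq.le_Op
  have hP : Op 2 C1[zA] ≤ gen mcode (gensOf cP2) :=
    le_sylow_of_card (p := 2) (Op_le _) (le_norm_Op _) (Op_isPGroup _)
      (cent_zA ▸ gen_le_gen cZA_chk (by decide +kernel))
      (by rw [cent_zA, factorization_eq_of (a := 10) (m := 21)
        (card_of_chk cZA_chk (by decide +kernel)) (by norm_num)]
          exact card_of_chk cP2_chk (by decide +kernel))
  have hc : mcode (elt 961436138960034830614222945305168897) = 961436138960034830614222945305168897 := mcode_elt (by decide +kernel)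
  have h1 : elt 961436138960034830614222945305168897 ∈ C1[zA] :=
    cent_zA ▸ (mem_iff_sift cZA_chk).2 (by rw [hc]; decide +kernel)
  have h2 := (mem_iff_sift cP2_chk).1 (hP (conj_mem_of_le_norm (le_norm_Op _) h1 hx))
  have h3 := forall_of_enum cP2_chk (f := fun x => bor (!force (cjap mul inv 961436138960034830614222945305168897 x)
    (sift mul one ap cP2)) (sift mul one ap cQ x)) (by decide +kernel) x (hP hx)
  rw [force_eq, ← hc, gcM.cjap_code, h2] at h3
  exact (mem_iff_sift cQ_chk).2 (by simpa using h3)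

theorem inf_eq : Q0 ⊓ K0 = ⊥ := by
  refine eq_bot_iff.2 fun x hx => ?_
  have h1 := forall_of_enum cK_chk (f := fun x => bor (!sift mul one ap cQ x) (Nat.beq x one))
    (by decide +kernel) x hx.2
  rw [(mem_iff_sift cQ_chk).1 hx.1] at h1
  exact gcM.eq_one_iff.1 (by simpa using h1)

theorem sup_eq : Q0 ⊔ K0 = C1[zA] := by
  refine le_antisymm (sup_le Q0_le K0_le) ?_
  rw [cent_zA]
  refine gen_le_of_all (f := fun c => lany [nat_lit 0x7496785875a15499b1a833c448dc20, nat_lit 0x72692856ef9c5a75b0c8558a410460] fun k =>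
    band (band (isM24 k) (sift mul one ap cK k)) (force (inv k) fun k' => force (mul c k')
      (sift mul one ap cQ))) (fun g hg => ?_) (by decide +kernel)
  simp only [lany_iff, band_eq, Bool.and_eq_true, force_eq] at hg
  obtain ⟨k, -, ⟨h1, h2⟩, h3⟩ := hg
  obtain ⟨k, rfl⟩ := exists_mcode h1
  rw [← gcM.code_inv, ← gcM.code_mul] at h3
  have := Subgroup.mul_mem_sup ((mem_iff_sift cQ_chk).2 h3) ((mem_iff_sift cK_chk).2 h2)
  rwa [inv_mul_cancel_right] at this

/-- Mask of a linear combination. -/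
def ph (v : Fin 3 → ZMod 2) : ℕ := ((v 0).val * 46) ^^^ ((v 1).val * 147490) ^^^ ((v 2).val * 8405028)

theorem ph_facts : (∀ v, ph v < 2 ^ 24) ∧ (∀ u v, ph u = ph v → u = v) ∧
    (∀ u v, ph (u + v) = ph u ^^^ ph v) ∧ ∀ s ∈ gensOf cK, ∀ v, ∃ v', act s (ph v) = ph v' := by
  decide +kernel

theorem equiv_SL : Nonempty (K0 ≃* SpecialLinearGroup (Fin 3) (ZMod 2)) := by
  obtain ⟨p1, p2, p3, p4⟩ := ph_facts
  obtain ⟨f, hf⟩ := exists_hom_SL (G := K0) (X := Finset GolayPt) (fun a b => a ∆ b)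
    (fun g x y => smul_symmDiff _ x y) (fun v => unmask (ph v))
    (fun u v e => p2 u v (by rw [← mask_unmask (p1 u), ← mask_unmask (p1 v)]; exact congrArg mask e))
    (fun u v => by simp only [p3, unmask_xor (p1 u) (p1 v)])
    (fun g v => by
      have := closure_smul_mem (G := M24) (S := {g | mcode g ∈ gensOf cK})
        (E := Set.range fun v => unmask (ph v)) (Set.toFinite _) (by
          rintro s hs _ ⟨v, rfl⟩
          obtain ⟨v', e⟩ := p4 _ hs v
          exact ⟨v', by rw [M24_smul_def, smul_unmask _ (p1 v), ← mcode, e]⟩) g g.2 _ ⟨v, rfl⟩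
      obtain ⟨v', e⟩ := this
      exact ⟨v', e.symm⟩)
  have hi : Function.Injective f := (injective_iff_map_eq_one f).2 fun g hg => by
    have h1 := forall_of_enum cK_chk (f := fun x => bor (Nat.beq x one)
      (lany [46, 147490, 8405028] fun m => !Nat.beq (act x m) m)) (by decide +kernel) g g.2
    simp only [bor_eq, Bool.or_eq_true, gcM.eq_one_iff, lany_iff] at h1
    refine Subtype.ext (h1.resolve_right ?_)
    rintro ⟨m, hm, h2⟩
    have h3 : ∀ m ∈ [46, 147490, 8405028], ∃ v, ph v = m := by decide +kernel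
    obtain ⟨v, rfl⟩ := h3 m hm
    have h4 := hf g v
    rw [hg] at h4
    replace h4 : g • unmask (ph v) = unmask (ph v) := h4.trans (congrArg (fun v => unmask (ph v)) (one_mulVec v))
    rw [← mask_unmask (p1 v), acSM.ap_code _ trivial, show g.1 • _ = _ from h4, Nat.beq_refl] at h2
    exact absurd h2 (by simp)
  have hc := Cl.card_sl_mul (F := ZMod 2) 3 (by norm_num)
  simp only [ZMod.card, Fin.prod_univ_three] at hc
  refine ⟨MulEquiv.ofBijective f ((Nat.bijective_iff_injective_and_card f).2 ⟨hi, ?_⟩)⟩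
  rw [card_K0]
  exact ((one_mul _).symm.trans (hc.trans (by norm_num))).symm


/-- In the Mathieu group of degree 24 (the automorphism group of the length-24 binary Golay code, acting on the 24 coordinates), let z be an involution whose fixed points form an octad (the support of a code word of weight 8), and let Q be the largest normal 2-subgroup of the centralizer C of z. Then Q is extraspecial of order 2^7 with an elementary abelian subgroup of order 16 (plus type), Q is a large extraspecial 2-subgroup, and C is the split extension of Q by the special linear group of degree 3 over the field with two elements. -/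
theorem result (z : ↥Cfsg.M24) (hz : orderOf z = 2) (hfix : (Finset.univ.filter fun p : Cfsg.GolayPt => (z : Equiv.Perm Cfsg.GolayPt) p = p) ∈ Cfsg.octads) (Q : Subgroup ↥Cfsg.M24) (hQ : Q = (Cfsg.pCore 2 ↥(Subgroup.centralizer ({z} : Set ↥Cfsg.M24))).map (Subgroup.centralizer ({z} : Set ↥Cfsg.M24)).subtype) : Cfsg.IsExtraspecial 2 ↥Q ∧ Nat.card ↥Q = 2 ^ 7 ∧ (∃ E : Subgroup ↥Cfsg.M24, E ≤ Q ∧ Cfsg.IsElementaryAbelian 2 E ∧ Nat.card ↥E = 2 ^ 4) ∧ Cfsg.IsLargeExtraspecial Q ∧ ∃ K : Subgroup ↥Cfsg.M24, K ≤ Subgroup.centralizer ({z} : Set ↥Cfsg.M24) ∧ Q ⊓ K = ⊥ ∧ Q ⊔ K = Subgroup.centralizer ({z} : Set ↥Cfsg.M24) ∧ Nonempty (↥K ≃* Matrix.SpecialLinearGroup (Fin 3) (ZMod 2)) := by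
  obtain ⟨k, rfl⟩ := class2A hz (not_fpf_of_card (n := 7) hfix.2)
  have e : Q = cj[k] Q0 := by rw [hQ, ← op_eq, conj_Op, conj_cent1]
  have hl : IsLargeExtraspecial (cj[k] Q0) := (lq.conj_ k).isLarge fun K hK hn => by
    rw [← conj_eq_bot_iff (g := k⁻¹)]
    refine large.2.2.2 _ (by rw [card_conj]; exact hK) ?_
    rw [← conj_normalizer, ← conj_le_conj_iff (g := k), conj_inv_conj]
    exact hn
  rw [e]
  refine ⟨hl.1, by rw [card_conj, card_Q0], ⟨cj[k] (gen mcode (gensOf cE)),
    conj_mono k (gen_le_gen cQ_chk (by decide +kernel)), PG.elemAb_conj_iff.2 (PG.isElemAb_iff.2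
      ⟨fun x hx y hy => ?_, fun x hx => ?_⟩), ?_⟩, hl, cj[k] K0, ?_, ?_, ?_, ?_⟩
  · exact gcM.gen_le_centralizer (l := gensOf cE) (l' := gensOf cE) (by decide +kernel) hy x hx
  · have := forall_of_enum cE_chk (f := fun x => Nat.beq (cpow mul one x 2) one)
      (by decide +kernel) x hx
    rwa [gcM.cpow_code, gcM.eq_one_iff] at this
  · rw [card_conj]; exact card_of_chk cE_chk (by decide +kernel)
  · rw [← conj_cent1]; exact conj_mono k K0_le
  · rw [← conj_inf, inf_eq, conj_bot]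
  · rw [← conj_sup, sup_eq, conj_cent1]
  · obtain ⟨f⟩ := equiv_SL
    exact ⟨(conjEquiv k K0).symm.trans f⟩

end Cfsg.Agent.S5425
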