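import Cfsg.Statements.S5427
import Cfsg.Agent.TT.LargeT
import Cfsg.Agent.TT.Misc

set_option autoImplicit false
open Cfsg

namespace Cfsg.Agent.S5427

open Cfsg.Agent.TT Cfsg.Agent.GT Subgroup

/-- Let z be an involution of the finite group G whose centralizer C has generalized Fitting subgroup Q, an extraspecial 2-group of width at least 2 (order 2^(2w+1), w ≥ 2). Let K be a subgroup of G such that the subgroup U generated by the K-conjugates of z is abelian and C is generated by the C-conjugates of U. Suppose that either some K-conjugate of z other than z lies in Q, or some element u of U ∩ Q outside the subgroup generated by z has z in the largest normal 2-subgroup of its centralizer. Then G is simple and Q is a large extraspecial 2-subgroup of G. -/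
theorem result {G : Type*} [Group G] [Finite G] (z : G) (hz : orderOf z = 2) (Q : Subgroup G) (hQC : Q ≤ Subgroup.centralizer ({z} : Set G)) (hF : (Cfsg.generalizedFittingSubgroup ↥(Subgroup.centralizer ({z} : Set G))).map (Subgroup.centralizer ({z} : Set G)).subtype = Q) (hQ : Cfsg.IsExtraspecial 2 ↥Q) (w : ℕ) (hw : 2 ≤ w) (hcard : Nat.card ↥Q = 2 ^ (2 * w + 1)) (K U : Subgroup G) (hU : U = Subgroup.closure {x : G | ∃ k ∈ K, x = k * z * k⁻¹}) (hUab : IsMulCommutative ↥U) (hgen : Subgroup.closure {x : G | ∃ c ∈ Subgroup.centralizer ({z} : Set G), ∃ u ∈ U, x = c * u * c⁻¹} = Subgroup.centralizer ({z} : Set G)) (h3 : (∃ k ∈ K, k * z * k⁻¹ ∈ Q ∧ k * z * k⁻¹ ≠ z) ∨ ∃ u ∈ U ⊓ Q, u ∉ Subgroup.zpowers z ∧ (∃ hz' : z ∈ Subgroup.centralizer ({u} : Set G), (⟨z, hz'⟩ : ↥(Subgroup.centralizer ({u} : Set G))) ∈ Cfsg.pCore 2 ↥(Subgroup.centralizer ({u} : Set G)))) : IsSimpleGroup G ∧ Cfsg.IsLargeExtraspecial Q := by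
  rw [map_subtype_fstar] at hF
  have h := LQ.of_fstar hz hF hQ
  have hL : IsLargeExtraspecial Q := by
    rcases h3 with ⟨k, -, h1, h2⟩ | ⟨u, hu, h1, h2, h4⟩
    · exact h.large_of_conj h1 h2 (h.mem_conj' h1 h2 (eight_lt_of_width hw hcard))
    · refine h.large_of hu.2 ?_ h1 (Op_isPGroup C1[u]) ((mem_Op_iff h2).2 h4) (le_norm_Op _)
      have hc := isMulCommutative_iff_le_cent.1 hUab
      have : ∀ x ∈ U, x * x = 1 := by
        intro x hx
        have hx' := hx
        rw [hU] at hx'
        induction hx' using closure_induction with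
        | mem y hy => obtain ⟨k, -, rfl⟩ := hy; exact conj_mul_self k h.zz
        | one => simp
        | mul a b ha hb e1 e2 =>
          rw [← hU] at ha hb
          exact mul_self_of_commute (e1 ha) (e2 hb) (hc hb a ha)
        | inv a ha e => rw [← hU] at ha; rw [← mul_inv_rev, e ha, inv_one]
      exact this u hu.1
  refine ⟨simple_of_large h hF hL ?_, hL⟩
  have hUM : U ≤ normalClosure {z} := by
    rw [hU, closure_le]
    rintro _ ⟨k, -, rfl⟩
    exact conj_mem_normalClosure k z
  rw [← hgen, closure_le]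
  rintro _ ⟨c, -, u, hu, rfl⟩
  exact normalClosure_normal.conj_mem u (hUM hu) c

end Cfsg.Agent.S5427
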