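import Cfsg.Statements.S5428
import Cfsg.Agent.TT.LargeF

set_option autoImplicit false
open Cfsg

namespace Cfsg.Agent.S5428

open Cfsg.Agent.TT Cfsg.Agent.GT Subgroup

/-- Let z be an involution of the finite group G whose centralizer C has generalized Fitting subgroup Q extraspecial (as a 2-group), let A be a subgroup of C of odd order, and let R be the centralizer of A in Q; suppose R has order at least 32, the largest normal subgroup of odd order of the centralizer of the subgroup generated by A and R lies in A, the order of that centralizer is not divisible by 4, and g is an element of G with g z g⁻¹ in R but outside the centre Z of Q. Let M be the subgroup generated by A and the centralizer of A (A is normal in it). Then: the centralizer in M of the subgroup generated by R and A, joined with A, equals the subgroup generated by A and Z; the image of R in M/A is a large extraspecial 2-subgroup of M/A; and g z g⁻¹ is conjugate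 to z inside the subgroup generated by R and the centralizer of A in g Q g⁻¹. -/
theorem result {G : Type*} [Group G] [Finite G] (z : G) (hz : orderOf z = 2) (Q : Subgroup G) (hQC : Q ≤ Subgroup.centralizer ({z} : Set G)) (hF : (Cfsg.generalizedFittingSubgroup ↥(Subgroup.centralizer ({z} : Set G))).map (Subgroup.centralizer ({z} : Set G)).subtype = Q) (hQ : Cfsg.IsExtraspecial 2 ↥Q) (A : Subgroup G) (hA : A ≤ Subgroup.centralizer ({z} : Set G)) (hAodd : Odd (Nat.card ↥A)) (R : Subgroup G) (hR : R = Q ⊓ Subgroup.centralizer (A : Set G)) (hR32 : 32 ≤ Nat.card ↥R) (hO : (Cfsg.oddCore ↥(Subgroup.centralizer ((A ⊔ R : Subgroup G) : Set G))).map (Subgroup.centralizer ((A ⊔ R : Subgroup G) : Set G)).subtype ≤ A) (h4 : ¬ 4 ∣ Nat.card ↥(Subgroup.centralizer ((A ⊔ R : Subgroup G) : Set G))) (g : G) (hgR : g * z * g⁻¹ ∈ R) (hgZ : g * z * g⁻¹ ∉ ((Subgroup.center ↥Q).map Q.subtype)) (M : Subgroup G) (hM : M = Subgroup.centralizer (A : Set G)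 ⊔ A) [hn : (A.subgroupOf M).Normal] : (M ⊓ Subgroup.centralizer ((R ⊔ A : Subgroup G) : Set G)) ⊔ A = A ⊔ ((Subgroup.center ↥Q).map Q.subtype) ∧ Cfsg.IsLargeExtraspecial ((R.subgroupOf M).map (QuotientGroup.mk' (A.subgroupOf M))) ∧ ∃ x ∈ R ⊔ ((Q).map (MulAut.conj g).toMonoidHom ⊓ Subgroup.centralizer (A : Set G)), x * (g * z * g⁻¹) * x⁻¹ = z := by
  rw [map_subtype_fstar] at hF
  have hL := LQ.of_fstar hz hF hQ
  rw [hL.map_center] at hgZ ⊢
  have hne : g * z * g⁻¹ ≠ z := fun e => hgZ (e.symm ▸ mem_zpowers z)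
  have hRQ : R ≤ Q := hR ▸ inf_le_left
  have hRA : R ≤ C[A] := hR ▸ inf_le_right
  have h : LP Q z (cj[g] Q) (g * z * g⁻¹) := LP.of_conj hL (hRQ hgR) hne
    (lt_of_lt_of_le (by omega) (card_le_of_le hRQ))
  generalize g * z * g⁻¹ = s at *
  generalize cj[g] Q = S at *
  have hzA : z ∈ C[A] := fun a ha => mem_cent1.1 (hA ha)
  have hE : ES R z := by
    rcases hL.cent_odd (hA.trans hL.nQ) hAodd with e | e
    · rw [← hR] at e; exact absurd (e ▸ hgR) hgZ
    · rwa [← hR] at e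
  have hAs : A ≤ C1[s] := mem_cent_iff_le_cent1.1 (hRA hgR)
  have hE' : ES (S ⊓ C[A]) s := by
    rcases h.hS.cent_odd (hAs.trans h.hS.nQ) hAodd with e | e
    · exact absurd (h.eq_one (mem_zpowers z) (e ▸ ⟨h.zS, hzA⟩)) hL.ne
    · exact e
  obtain ⟨q, hq, hqs⟩ := hE.exists_not_commute hgR h.hS.ne hne
  obtain ⟨n, hn', hnz⟩ := hE'.exists_not_commute ⟨h.zS, hzA⟩ hL.ne hne.symm
  obtain ⟨f1, f2⟩ := swap_conj hL.zz h.hS.zz h.comm (commute_iff_conj.1 (hE.zc q hq).symm)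
    (hE.conj_of_not hq hgR hqs) (commute_iff_conj.1 (hE'.zc n hn').symm)
    (by rw [hE'.conj_of_not hn' ⟨h.zS, hzA⟩ hnz, h.comm.eq])
  have hD : C[A ⊔ R] ≤ A ⊔ zpowers z := by
    rw [map_subtype_pPrimeCore Nat.prime_two] at hO
    refine (le_sup_of_not_four hL.zz hL.ne ?_ (cent_le_cent1 (mem_sup_right hE.mem)) h4).trans
      (sup_le_sup_right hO _)
    rw [cent_sup]; exact ⟨hzA, fun y hy => (hE.zc y hy).eq.symm⟩
  have hCM : C[A] ≤ M := hM ▸ le_sup_left
  have hRM : R ≤ M := hRA.trans hCM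
  have hAR : ∀ x ∈ A, x ∈ Q → x = 1 := fun x h1 h2 => by
    have : x ∈ A ⊓ Q := ⟨h1, h2⟩
    rwa [inf_eq_bot_of_odd hAodd hL.isPGroup, mem_bot] at this
  refine ⟨le_antisymm (sup_le (inf_le_right.trans (by rwa [sup_comm R])) le_sup_left)
    (sup_le le_sup_right ((zpowers_le.2 (mem_inf.2 ⟨hRM hE.mem, ?_⟩)).trans le_sup_left)), ?_,
    n * q * n, mul_mem (mul_mem (mem_sup_right hn') (mem_sup_left hq)) (mem_sup_right hn'), f2⟩
  · rw [cent_sup]; exact ⟨fun y hy => (hE.zc y hy).eq.symm, hzA⟩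
  set π := QuotientGroup.mk' (A.subgroupOf M) with hπ
  have hk : ∀ x : M, π x = 1 ↔ (x : G) ∈ A := fun x => QuotientGroup.eq_one_iff x
  have hk2 : ∀ x y : M, Commute (π x) (π y) → (x : G) * y * (x : G)⁻¹ * (y : G)⁻¹ ∈ A := fun x y e => by
    refine (hk (x * y * x⁻¹ * y⁻¹)).1 ?_
    simp only [map_mul, map_inv]; rw [commute_iff_conj.1 e, mul_inv_cancel]
  have dec : ∀ m : M, ∃ c : M, π c = π m ∧ (c : G) ∈ C[A] := fun m => by
    have := m.2
    simp only [hM] at this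
    rw [mem_sup_of_le_norm (cent_le_norm A)] at this
    obtain ⟨c, hc, a, ha, e⟩ := this
    refine ⟨⟨c, hCM hc⟩, ?_, hc⟩
    rw [← inv_mul_eq_one, ← map_inv, ← map_mul, hk]
    simp [e, ha]
  have cz : ∀ c : M, (c : G) ∈ C[A] → Commute (π c) (π ⟨z, hRM hE.mem⟩) → (c : G) ∈ C1[z] := by
    intro c hc e
    have a1 := hk2 _ _ e
    have a2 : (c : G) * z * (c : G)⁻¹ * z⁻¹ = 1 := by
      refine eq_one_of_odd_card hAodd a1 (k := 1) ?_
      have a3 : (c : G) * z * (c : G)⁻¹ * z⁻¹ * z = z * ((c : G) * z * (c : G)⁻¹ * z⁻¹) := hzA _ a1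
      have a4 := conj_mul_self (c : G) hL.zz
      rw [pow_one, pow_two]
      show (c : G) * z * (c : G)⁻¹ * z⁻¹ * ((c : G) * z * (c : G)⁻¹ * z⁻¹) = 1
      generalize (c : G) * z * (c : G)⁻¹ = u at a3 a4 ⊢
      rw [hL.inv] at a3 ⊢
      rw [mul_assoc, ← a3, mul_assoc u z z, hL.zz, mul_one, a4]
    exact mem_cent1.2 (commute_iff_conj.2 (mul_inv_eq_one.1 a2))
  have nR : ∀ c : G, c ∈ C[A] → c ∈ C1[z] → c ∈ N[R] := fun c h1 h2 => by
    rw [hR]
    exact le_norm_inf (A := C[A] ⊓ C1[z]) (inf_le_right.trans hL.nQ) (le_norm_self inf_le_left) ⟨h1, h2⟩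
  refine large_quot π (QuotientGroup.mk'_surjective _) hRM (hRM hE.mem)
    ((hE.subgroupOf hRM).map π fun x hx e => Subtype.ext (hAR _ ((hk x).1 e) (hRQ hx)))
    (fun m hm => ?_) (fun m hm => ?_)
    (mul_mem (mul_mem (hCM hn'.2) (hRM hq)) (hCM hn'.2)) hgR f1 f2 (fun e => hne ?_)
  · obtain ⟨c, e, hc⟩ := dec m
    exact ⟨c, e, nR c hc (cz c hc (e ▸ hm))⟩
  · obtain ⟨c, e, hc⟩ := dec m
    rw [← e] at hm ⊢
    have a1 := nR c hc (cz c hc (hm _ hE.mem))
    have a2 : (c : G) ∈ C[A ⊔ R] := by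
      rw [cent_sup]
      refine ⟨hc, fun r hr => ?_⟩
      have := hAR _ (hk2 c ⟨r, hRM hr⟩ (hm _ hr))
        (hRQ (mul_mem (conj_mem_of_mem_norm a1 hr) (inv_mem hr)))
      exact (commute_iff_conj.2 (mul_inv_eq_one.1 this)).eq.symm
    have a3 := hD a2
    rw [mem_sup_of_le_norm' (le_norm_of_cent (zpowers_le.2 hzA))] at a3
    obtain ⟨a, ha, y, hy, e'⟩ := a3
    refine ⟨⟨y, hRM (hE.zp_le hy)⟩, ?_, hE.zp_le hy⟩
    rw [eq_comm, ← mul_inv_eq_one, ← map_inv, ← map_mul, hk]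
    simp [e', ha]
  · rw [← mul_inv_eq_one, ← map_inv, ← map_mul, hk] at e
    exact mul_inv_eq_one.1 (hAR _ e (mul_mem h.sQ (inv_mem hL.mem)))

end Cfsg.Agent.S5428
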