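import Cfsg.Statements.S5429
import Cfsg.Agent.TT.LargeF

set_option autoImplicit false
open Cfsg

namespace Cfsg.Agent.S5429

open Cfsg.Agent.TT Cfsg.Agent.GT Subgroup

/-- Let z be an involution of the finite group G with centralizer C whose generalized Fitting subgroup Q is extraspecial of width at least 3 (order 2^(2w+1), w ≥ 3); let g be an element of G with g z g⁻¹ in Q but outside the centre Z of Q, and t an involution lying in both Q and g Q g⁻¹ that is not conjugate to z; write P for the centralizer of t in Q and suppose that the elements of C acting trivially by conjugation on P modulo the subgroup generated by t and z are exactly the elements of Q. Then the image of P in the centralizer of t modulo the subgroup generated by t is a large extraspecial 2-subgroup there, and g z g⁻¹ is conjugate to z inside the subgroup generated by P and the centralizer of t in g Q g⁻¹. -/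
theorem result {G : Type*} [Group G] [Finite G] (z : G) (hz : orderOf z = 2) (Q : Subgroup G) (hQC : Q ≤ Subgroup.centralizer ({z} : Set G)) (hF : (Cfsg.generalizedFittingSubgroup ↥(Subgroup.centralizer ({z} : Set G))).map (Subgroup.centralizer ({z} : Set G)).subtype = Q) (hQ : Cfsg.IsExtraspecial 2 ↥Q) (w : ℕ) (hw : 3 ≤ w) (hcard : Nat.card ↥Q = 2 ^ (2 * w + 1)) (g : G) (hgQ : g * z * g⁻¹ ∈ Q) (hgZ : g * z * g⁻¹ ∉ ((Subgroup.center ↥Q).map Q.subtype)) (t : G) (ht : orderOf t = 2) (htQ : t ∈ Q ⊓ (Q).map (MulAut.conj g).toMonoidHom) (htz : ¬ IsConj z t) (P : Subgroup G) (hP : P = Q ⊓ Subgroup.centralizer ({t} : Set G)) (hCP : ∀ c ∈ Subgroup.centralizer ({z} : Set G), (∀ x ∈ P, ∃ y ∈ Subgroup.closure ({t, z} : Set G), c * x * c⁻¹ = x * y) ↔ c ∈ Q) [hn : ((Subgroup.zpowers t).subgroupOf (Subgroup.centralizer ({t} : Set G))).Normal] : Cfsg.IsLargeExtraspecial ((P.subgroupOf (Subgroup.centralizer ({t} : Set G))).map (QuotientGroup.mk'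 ((Subgroup.zpowers t).subgroupOf (Subgroup.centralizer ({t} : Set G))))) ∧ ∃ x ∈ P ⊔ ((Q).map (MulAut.conj g).toMonoidHom ⊓ Subgroup.centralizer ({t} : Set G)), x * (g * z * g⁻¹) * x⁻¹ = z := by
  rw [map_subtype_fstar] at hF
  have hL := LQ.of_fstar hz hF hQ
  rw [hL.map_center] at hgZ
  have hne : g * z * g⁻¹ ≠ z := fun e => hgZ (e.symm ▸ mem_zpowers z)
  have h8 := eight_lt_of_width (by omega) hcard
  have h : LP Q z (cj[g] Q) (g * z * g⁻¹) := LP.of_conj hL hgQ hne h8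
  have hsz : IsConj z (g * z * g⁻¹) := isConj_iff.2 ⟨g, rfl⟩
  generalize g * z * g⁻¹ = s at *
  generalize cj[g] Q = S at *
  have t2 := mul_self_of_orderOf ht
  have t1 := ne_one_of_orderOf ht
  have tz : t ≠ z := fun e => htz (e ▸ IsConj.refl _)
  have ts : t ≠ s := fun e => htz (e ▸ hsz)
  have tz' : ¬ IsConj z (t * z) := fun e => by
    obtain ⟨q, hq, hqt⟩ := hL.exists_not_commute htQ.1 t1 tz
    exact htz (e.trans (isConj_iff.2 ⟨q, hL.conj_of_not hq htQ.1 hqt⟩).symm)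
  have ts' : ¬ IsConj z (t * s) := fun e => by
    obtain ⟨q, hq, hqt⟩ := h.hS.exists_not_commute htQ.2 t1 ts
    exact htz (e.trans (isConj_iff.2 ⟨q, h.hS.conj_of_not hq htQ.2 hqt⟩).symm)
  have hzt := hL.zc t htQ.1
  have hst := h.hS.zc t htQ.2
  obtain ⟨q, hq, hqt, hqs⟩ : ∃ q ∈ Q, Commute q t ∧ ¬ Commute q s := by
    by_contra hc
    push Not at hc
    rcases hL.cent_cent htQ.1 h.sQ hc with e | e | e | e
    exacts [h.hS.ne e, hne e, ts e.symm, tz' (e ▸ hsz)]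
  obtain ⟨n, hn', hnt, hnz⟩ : ∃ n ∈ S, Commute n t ∧ ¬ Commute n z := by
    by_contra hc
    push Not at hc
    rcases h.hS.cent_cent htQ.2 h.zS hc with e | e | e | e
    exacts [hL.ne e, hne e.symm, tz e.symm, ts' (e ▸ IsConj.refl _)]
  obtain ⟨f1, f2⟩ := swap_conj hL.zz h.hS.zz h.comm (commute_iff_conj.1 (hL.zc q hq).symm)
    (hL.conj_of_not hq h.sQ hqs) (commute_iff_conj.1 (h.hS.zc n hn').symm)
    (by rw [h.hS.conj_of_not hn' h.zS hnz, h.comm.eq])
  have mP : ∀ x, x ∈ P ↔ x ∈ Q ∧ Commute x t := fun x => by rw [hP, mem_inf, mem_cent1]; rfl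
  have hqP := (mP q).2 ⟨hq, hqt⟩
  have hnP : n ∈ S ⊓ C1[t] := ⟨hn', mem_cent1.2 hnt⟩
  refine ⟨?_, n * q * n,
    mul_mem (mul_mem (mem_sup_right hnP) (mem_sup_left hqP)) (mem_sup_right hnP), f2⟩
  have hPM : P ≤ C1[t] := hP ▸ inf_le_right
  have hzP := (mP z).2 ⟨hL.mem, hzt⟩
  set π := QuotientGroup.mk' ((zpowers t).subgroupOf C1[t]) with hπ
  have hk : ∀ x : C1[t], π x = 1 ↔ (x : G) = 1 ∨ (x : G) = t := fun x =>
    (QuotientGroup.eq_one_iff x).trans (mem_zpowers_of_sq t2)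
  have hk2 : ∀ x y : C1[t], Commute (π x) (π y) → (x : G) * y * (x : G)⁻¹ = y ∨
      (x : G) * y * (x : G)⁻¹ = t * y := fun x y e => by
    have := (hk (x * y * x⁻¹ * y⁻¹)).1 (by
      simp only [map_mul, map_inv]; rw [commute_iff_conj.1 e, mul_inv_cancel])
    simpa only [coe_mul, coe_inv, mul_inv_eq_iff_eq_mul, one_mul] using this
  have hk3 : ∀ x y : C1[t], (x : G) ∈ P → (y : G) ∈ P → Commute (π x) (π y) → Commute (x : G) y := by
    intro x y hx hy e
    by_contra hc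
    have a1 := hL.conj_of_not ((mP _).1 hx).1 ((mP _).1 hy).1 hc
    rcases hk2 x y e with e' | e'
    · exact hc (commute_iff_conj.2 e')
    · rw [a1, ← ((mP _).1 hy).2.eq] at e'
      exact tz (mul_left_cancel e').symm
  have cz : ∀ c : C1[t], Commute (π c) (π ⟨z, hPM hzP⟩) → (c : G) ∈ C1[z] := fun c e => by
    rcases hk2 _ _ e with e' | e'
    · exact mem_cent1.2 (commute_iff_conj.2 e')
    · exact absurd (isConj_iff.2 ⟨(c : G), e'⟩) tz'
  refine large_quot π (QuotientGroup.mk'_surjective _) hPM (hPM hzP) ⟨mem_map_of_mem π hzP, ?_, ?_,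
      ?_, ?_, ?_, ?_, ?_⟩ (fun m hm => ⟨m, rfl, ?_⟩) (fun m hm => ⟨m, rfl, ?_⟩)
    (mul_mem (mul_mem hnP.2 (hPM hqP)) hnP.2) ((mP s).2 ⟨h.sQ, hst⟩) f1 f2 (fun e => ?_)
  · rw [← map_mul, hk]; exact Or.inl hL.zz
  · rw [Ne, hk]; rintro (e | e); exacts [hL.ne e, tz e.symm]
  · rintro _ ⟨x, hx, rfl⟩
    exact Commute.map (Subtype.ext (hL.zc x ((mP _).1 hx).1).eq) π
  · rintro _ ⟨x, hx, rfl⟩ _ ⟨y, hy, rfl⟩
    rw [← map_mul, ← map_inv, ← map_mul, ← map_mul]
    exact (hL.conj x ((mP _).1 hx).1 y ((mP _).1 hy).1).imp (fun e => congrArg π (Subtype.ext e))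
      (fun e => congrArg π (Subtype.ext e))
  · rintro _ ⟨x, hx, rfl⟩
    rw [← map_mul, ← map_one π]
    exact (hL.sq x ((mP _).1 hx).1).imp (fun e => congrArg π (Subtype.ext e))
      (fun e => congrArg π (Subtype.ext e))
  · rintro _ ⟨x, hx, rfl⟩ hc
    have ht' : π ⟨t, self_mem_cent1 t⟩ = 1 := (hk _).2 (Or.inr rfl)
    rcases hL.cent_cent htQ.1 ((mP _).1 hx).1 (fun y hy hyt => (hk3 x ⟨y, mem_cent1.2 hyt⟩ hx
      ((mP _).2 ⟨hy, hyt⟩) (hc _ (mem_map_of_mem π ((mP _).2 ⟨hy, hyt⟩)))).symm) with e | e | e | e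
    · exact Or.inl ((hk _).2 (Or.inl e))
    · exact Or.inr (congrArg π (Subtype.ext e))
    · exact Or.inl ((hk _).2 (Or.inr e))
    · right
      rw [← one_mul (π ⟨z, _⟩), ← ht', ← map_mul]
      exact congrArg π (Subtype.ext e)
  · obtain ⟨x, hx, y, hy, hxt, hyt, hc⟩ := hL.nonab_of_card htQ.1 t2 h8
    exact ⟨_, mem_map_of_mem π (x := ⟨x, mem_cent1.2 hxt⟩) ((mP _).2 ⟨hx, hxt⟩), _,
      mem_map_of_mem π (x := ⟨y, mem_cent1.2 hyt⟩) ((mP _).2 ⟨hy, hyt⟩),
      fun e => hc (hk3 _ _ ((mP _).2 ⟨hx, hxt⟩) ((mP _).2 ⟨hy, hyt⟩) e)⟩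
  · rw [hP]
    exact le_norm_inf (A := C1[z] ⊓ C1[t]) (inf_le_left.trans hL.nQ) (le_norm_self inf_le_right)
      ⟨cz m hm, m.2⟩
  · refine (mP _).2 ⟨(hCP m (cz m (hm _ hzP))).1 fun x hx => ?_, mem_cent1.1 m.2⟩
    rcases hk2 m ⟨x, hPM hx⟩ (hm _ hx) with e | e
    · exact ⟨1, one_mem _, by simpa using e⟩
    · exact ⟨t, subset_closure (by simp), by rw [((mP _).1 hx).2.eq]; exact e⟩
  · rw [← mul_inv_eq_one, ← map_inv, ← map_mul, hk] at e
    rcases e with e | e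
    · exact hne (mul_inv_eq_one.1 e)
    · exact tz' ((mul_inv_eq_iff_eq_mul.1 e : s = t * z) ▸ hsz)

end Cfsg.Agent.S5429
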