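import Cfsg.Statements.S5430
import Cfsg.Agent.TT.Pair

set_option autoImplicit false
open Cfsg

namespace Cfsg.Agent.S5430

open Cfsg.Agent.TT Cfsg.Agent.GT Subgroup

/-- Let Q be a large extraspecial 2-subgroup of the finite group G (extraspecial; centralizer equal to its centre; normal in the centralizer of its centre; normalizing no non-trivial subgroup of odd order) with centre generated by z, an involution, of width w ≥ 2 (order 2^(2w+1)); let g be an element outside the centralizer H of z with g z g⁻¹ in Q; write V for the subgroup generated by z and g z g⁻¹, X for the subgroup generated by Q and g Q g⁻¹, R for the subgroup generated by the centralizer of z in g Q g⁻¹ and the centralizer of g z g⁻¹ in Q, and E for the intersection of Q and g Q g⁻¹. Then R is the centralizer of V in X and is the largest normal 2-subgroup of X, and X/R is isomorphic to the symmetric group of degree 3; moreover the normalizer of V is the product of X and the centralizer of V in H, X is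 normal in it, and modulo R it is the direct product of X/R and of the centralizer of V in H modulo R. -/
theorem result {G : Type*} [Group G] [Finite G] (Q : Subgroup G) (hQ : Cfsg.IsLargeExtraspecial Q) (z : G) (hz : ((Subgroup.center ↥Q).map Q.subtype) = Subgroup.zpowers z) (hz2 : orderOf z = 2) (w : ℕ) (hw : 2 ≤ w) (hcard : Nat.card ↥Q = 2 ^ (2 * w + 1)) (g : G) (hgH : g ∉ Subgroup.centralizer ({z} : Set G)) (hgQ : g * z * g⁻¹ ∈ Q) (V X R E : Subgroup G) (hV : V = Subgroup.closure ({z, g * z * g⁻¹} : Set G)) (hX : X = Q ⊔ (Q).map (MulAut.conj g).toMonoidHom) (hR : R = ((Q).map (MulAut.conj g).toMonoidHom ⊓ Subgroup.centralizer ({z} : Set G)) ⊔ (Q ⊓ Subgroup.centralizer ({g * z * g⁻¹} : Set G))) (hE : E = Q ⊓ (Q).map (MulAut.conj g).toMonoidHom) : R = X ⊓ Subgroup.centralizer (V : Set G) ∧ R = (Cfsg.pCore 2 ↥X).map X.subtype ∧ (∃ h : (R.subgroupOf X).Normal, Nonempty (↥X ⧸ R.subgroupOf X ≃* Equiv.Perm (Fin 3))) ∧ Subgroup.normalizer (V : Set G) = X ⊔ (Subgroup.centralizer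 ({z} : Set G) ⊓ Subgroup.centralizer (V : Set G)) ∧ (∀ y ∈ Subgroup.normalizer (V : Set G), ∀ x ∈ X, y * x * y⁻¹ ∈ X) ∧ R ≤ Subgroup.centralizer ({z} : Set G) ⊓ Subgroup.centralizer (V : Set G) ∧ (∀ x ∈ X, ∀ c ∈ Subgroup.centralizer ({z} : Set G) ⊓ Subgroup.centralizer (V : Set G), x * c * x⁻¹ * c⁻¹ ∈ R) ∧ X ⊓ (Subgroup.centralizer ({z} : Set G) ⊓ Subgroup.centralizer (V : Set G)) = R := by
  have h : LP Q z (cj[g] Q) (g * z * g⁻¹) := (LP.of_conj (LQ.of_large' hQ hz) hgQ
    (fun e => hgH (mem_cent1.2 (commute_iff_conj.2 e))) (eight_lt_of_width hw hcard))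
  have hCV : C[V] = C1[z] ⊓ C1[g * z * g⁻¹] := by rw [hV, cent_closure_pair]
  have hCV' : C1[z] ⊓ C[V] = C1[z] ⊓ C1[g * z * g⁻¹] := by rw [hCV, ← inf_assoc, inf_idem]
  have h1 : R = X ⊓ (C1[z] ⊓ C1[g * z * g⁻¹]) := by rw [hR, hX]; exact h.R_eq
  rw [hCV', hCV]
  refine ⟨h1, by rw [hR, hX]; exact h.R_eq_Op, ?_, by rw [hV, hX]; exact h.norm_V_eq, ?_,
    h1 ▸ inf_le_right, ?_, h1.symm⟩
  · obtain ⟨ρ, hρ, hk⟩ := h.exists_hom X hX.ge (by rw [hX]; exact h.X_norm_V)
    have : R.subgroupOf X = ρ.ker := by rw [hk, h1, inf_subgroupOf_left]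
    rw [this]
    exact ⟨inferInstance, ⟨QuotientGroup.quotientKerEquivOfSurjective ρ hρ⟩⟩
  · intro y hy x hx
    rw [hV] at hy
    rw [hX] at hx ⊢
    exact conj_mem_of_mem_norm (h.normV_le_normX hy) hx
  · intro x hx c hc
    rw [hX] at hx
    rw [hR]
    exact h.comm_X_CV (commutator_mem_commutator hx hc)

end Cfsg.Agent.S5430
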