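import Cfsg.Statements.S5431
import Cfsg.Agent.TT.Pair

set_option autoImplicit false
open Cfsg

namespace Cfsg.Agent.S5431

open Cfsg.Agent.TT Cfsg.Agent.GT Subgroup
open scoped commutatorElement

/-- Let Q be a large extraspecial 2-subgroup of the finite group G (extraspecial; centralizer equal to its centre; normal in the centralizer of its centre; normalizing no non-trivial subgroup of odd order) with centre generated by z, an involution, of width w ≥ 2 (order 2^(2w+1)); let g be an element outside the centralizer H of z with g z g⁻¹ in Q; write V for the subgroup generated by z and g z g⁻¹, X for the subgroup generated by Q and g Q g⁻¹, R for the subgroup generated by the centralizer of z in g Q g⁻¹ and the centralizer of g z g⁻¹ in Q, and E for the intersection of Q and g Q g⁻¹. Then V is the centre of R, E lies in the second centre of R, R is nilpotent of class at most 3, E and R/E are elementary abelian, R/E is the direct product of the images of the centralizer of g z g⁻¹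 in Q and of the centralizer of z in g Q g⁻¹ (R is their product and they meet in E), and the commutator subgroup of X and E lies in V. -/
theorem result {G : Type*} [Group G] [Finite G] (Q : Subgroup G) (hQ : Cfsg.IsLargeExtraspecial Q) (z : G) (hz : ((Subgroup.center ↥Q).map Q.subtype) = Subgroup.zpowers z) (hz2 : orderOf z = 2) (w : ℕ) (hw : 2 ≤ w) (hcard : Nat.card ↥Q = 2 ^ (2 * w + 1)) (g : G) (hgH : g ∉ Subgroup.centralizer ({z} : Set G)) (hgQ : g * z * g⁻¹ ∈ Q) (V X R E : Subgroup G) (hV : V = Subgroup.closure ({z, g * z * g⁻¹} : Set G)) (hX : X = Q ⊔ (Q).map (MulAut.conj g).toMonoidHom) (hR : R = ((Q).map (MulAut.conj g).toMonoidHom ⊓ Subgroup.centralizer ({z} : Set G)) ⊔ (Q ⊓ Subgroup.centralizer ({g * z * g⁻¹} : Set G))) (hE : E = Q ⊓ (Q).map (MulAut.conj g).toMonoidHom) : (Subgroup.center ↥R).map R.subtype = V ∧ E ≤ (Subgroup.upperCentralSeries ↥R 2).map R.subtype ∧ Subgroup.upperCentralSeries ↥R 3 = ⊤ ∧ Cfsg.IsElementaryAbelian 2 E ∧ (∀ x ∈ R, ∀ y ∈ R, x * y * x⁻¹ * y⁻¹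 ∈ E ∧ x ^ 2 ∈ E) ∧ ((Q).map (MulAut.conj g).toMonoidHom ⊓ Subgroup.centralizer ({z} : Set G)) ⊓ (Q ⊓ Subgroup.centralizer ({g * z * g⁻¹} : Set G)) = E ∧ ⁅X, E⁆ ≤ V := by
  have h : LP Q z (cj[g] Q) (g * z * g⁻¹) := (LP.of_conj (LQ.of_large' hQ hz) hgQ
    (fun e => hgH (mem_cent1.2 (commute_iff_conj.2 e))) (eight_lt_of_width hw hcard))
  have h1 : (center R).map R.subtype = V := by
    rw [map_subtype_center, hR, hV]; exact h.center_R
  have h7 : ⁅X, E⁆ ≤ V := by rw [hX, hE, hV]; exact h.comm_X_E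
  have hRX : R ≤ X := by rw [hR, hX]; exact LP.R_le_X
  have hER : E ≤ R := by rw [hR, hE]; exact h.E_le.trans le_sup_right
  have h5 : ⁅R, R⁆ ≤ E := by rw [hR, hE]; exact h.comm_RR
  have h2 : ∀ x : R, (x : G) ∈ E → x ∈ Subgroup.upperCentralSeries R 2 := by
    intro x hx
    rw [Subgroup.mem_upperCentralSeries_succ_iff]
    intro y
    rw [Subgroup.upperCentralSeries_one]
    have : ⁅(x : G), (y : G)⁆ ∈ V := by
      rw [commutator_comm] at h7; exact h7 (commutator_mem_commutator hx (hRX y.2))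
    rw [← h1] at this
    obtain ⟨c, hc, e⟩ := this
    exact (Subtype.ext e : c = ⁅x, y⁆) ▸ hc
  refine ⟨h1, fun x hx => ⟨⟨x, hER hx⟩, h2 _ hx, rfl⟩, ?_, ⟨?_, fun a ha => ?_⟩,
    fun x hx y hy => ⟨h5 (commutator_mem_commutator hx hy), ?_⟩, by rw [hE]; exact h.inf_eq, h7⟩
  · rw [eq_top_iff]
    intro x _
    rw [Subgroup.mem_upperCentralSeries_succ_iff]
    exact fun y => h2 _ (h5 (commutator_mem_commutator x.2 y.2))
  · rw [hE]
    exact ⟨⟨fun a b => Subtype.ext (commute_of_sq (h.E_sq a.2) (h.E_sq b.2)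
      (by rw [pow_two]; exact h.E_sq (mul_mem a.2 b.2))).eq⟩⟩
  · rw [pow_two]; rw [hE] at ha; exact h.E_sq ha
  · rw [hE]; rw [hR] at hx; exact h.sq_R hx

end Cfsg.Agent.S5431
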