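import Cfsg.Statements.S5432
import Cfsg.Agent.Cl.OExtra

set_option autoImplicit false
open Cfsg

namespace Cfsg.Agent.S5432

open Cfsg.Agent.Cl.Orth

/-- Let E be an extraspecial 2-group of order 2^(2n+1), n ≥ 1. If E contains an elementary abelian subgroup of order 2^(n+1) (plus type), then its outer automorphism group is isomorphic to the full isometry group of the hyperbolic quadratic form in dimension 2n over the field with two elements; otherwise (minus type) it is isomorphic to the full isometry group of the elliptic quadratic form in dimension 2n over that field. -/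
theorem result {E : Type*} [Group E] [Finite E] (hE : Cfsg.IsExtraspecial 2 E) (n : ℕ) (hn : 1 ≤ n) (hcard : Nat.card E = 2 ^ (2 * n + 1)) : ((∃ A : Subgroup E, Cfsg.IsElementaryAbelian 2 A ∧ Nat.card ↥A = 2 ^ (n + 1)) → Nonempty (Cfsg.Out E ≃* Cfsg.isometryGroup (ZMod 2) (Cfsg.quadFormPlus n (ZMod 2)))) ∧ ((¬ ∃ A : Subgroup E, Cfsg.IsElementaryAbelian 2 A ∧ Nat.card ↥A = 2 ^ (n + 1)) → Nonempty (Cfsg.Out E ≃* Cfsg.isometryGroup (ZMod 2) (Cfsg.quadFormMinus (n - 1) (ZMod 2) 1 1))) := by
  obtain ⟨z, hz⟩ := TT.ES.of_top_abs hE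
  obtain ⟨_, Q, π, h, hB⟩ := exists_xs_of_es hz
  have hfin : Finite (Additive (Abelianization E)) := Finite.of_surjective π h.surj
  have hr : Module.finrank (ZMod 2) (Additive (Abelianization E)) = 2 * n := by
    have := h.card_eq
    rw [hcard, Module.natCard_eq_pow_finrank (K := ZMod 2), Nat.card_zmod, ← pow_succ'] at this
    have := Nat.pow_right_injective (le_refl 2) this
    omega
  rcases classify_two n _ Q hB hr with ⟨φ, hφ⟩ | ⟨m, rfl, φ, hφ⟩
  · have h' := h.congr φ hφ
    refine ⟨fun _ => ?_, fun hA => absurd ?_ hA⟩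
    · obtain ⟨ψ⟩ := h'.nonempty_out_equiv (bnondeg_HS bnondeg_zero)
      exact ⟨ψ.trans (oPlus n _).symm⟩
    · obtain ⟨U, hU, hU'⟩ := exists_sing_HS (0 : QuadraticForm (ZMod 2) PUnit.{1}) n
      have := h'.exists_elemAb U hU
      rwa [hU'] at this
  · have h' := h.congr φ hφ
    refine ⟨fun ⟨A, hA, hk⟩ => ?_, fun _ => ?_⟩
    · have := h'.le_of_elemAb (finrank_sing_HS_le (fun _ => aniso_one_one.eq_zero) m) A hA hk
      omega
    · obtain ⟨ψ⟩ := h'.nonempty_out_equiv (bnondeg_HS aniso_one_one.bnondeg)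
      exact ⟨ψ.trans (oMinus m 1 1).symm⟩

end Cfsg.Agent.S5432
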