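import Cfsg.Statements.S5434
import Cfsg.Agent.TT.Large

set_option autoImplicit false
open Cfsg

namespace Cfsg.Agent.S5434

open Cfsg.Agent.GT Cfsg.Agent.TT Subgroup

/-- Let Q be a large extraspecial 2-subgroup of the finite group G (extraspecial; centralizer equal to its centre; normal in the centralizer of its centre; normalizing no non-trivial subgroup of odd order), and A a non-trivial subgroup of odd order of the normalizer of Q. Then Q is the central product of the centralizer of A in Q and the commutator subgroup [Q, A] (they generate Q and commute elementwise), [Q, A] is extraspecial, and the centralizer of A in Q is either the centre of Q or extraspecial. -/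
theorem result {G : Type*} [Group G] [Finite G] (Q : Subgroup G) (hQ : Cfsg.IsLargeExtraspecial Q) (A : Subgroup G) (hA : A ≤ Subgroup.normalizer (Q : Set G)) (hAodd : Odd (Nat.card ↥A)) (hA1 : A ≠ ⊥) : (Q ⊓ Subgroup.centralizer (A : Set G)) ⊔ ⁅Q, A⁆ = Q ∧ (∀ x ∈ Q ⊓ Subgroup.centralizer (A : Set G), ∀ y ∈ ⁅Q, A⁆, x * y = y * x) ∧ Cfsg.IsExtraspecial 2 ↥⁅Q, A⁆ ∧ (Q ⊓ Subgroup.centralizer (A : Set G) = ((Subgroup.center ↥Q).map Q.subtype) ∨ Cfsg.IsExtraspecial 2 ↥(Q ⊓ Subgroup.centralizer (A : Set G))) := by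
  obtain ⟨z, h⟩ := LQ.of_large hQ
  obtain ⟨h1, h2, h3, h4, h5⟩ := h.coprime hA hAodd
  refine ⟨h1, h2, ?_, ?_⟩
  · refine (h.sub (commutator_le_of_le_norm_left hA) h5 ?_).isExtraspecial
    by_contra hn
    push Not at hn
    have h6 : ⁅Q, A⁆ ≤ C[A] := fun x hx => by
      rcases h5 x hx (hn x hx) with rfl | rfl
      · exact one_mem _
      · exact h3.2
    have h7 : Q ≤ C[A] := by
      rw [← h1]; exact sup_le inf_le_right h6
    apply hA1
    rw [eq_bot_iff, ← inf_eq_bot_of_odd hAodd h.isPGroup]
    exact le_inf le_rfl ((le_cent_symm h7).trans h.cQ)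
  · rw [h.map_center]
    rcases h.cent_odd hA hAodd with e | e
    · exact Or.inl e
    · exact Or.inr e.isExtraspecial

end Cfsg.Agent.S5434
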