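import Cfsg.Statements.S5435
import Cfsg.Agent.TT.Large
import Cfsg.Agent.TT.WordsData
import Cfsg.Agent.PG.Frattini
import Cfsg.Agent.GT.Transfer

set_option autoImplicit false
open Cfsg

namespace Cfsg.Agent.S5435

open Cfsg.Agent.TT Cfsg.Agent.GT Subgroup
open scoped commutatorElement

structure FZ {G : Type*} [Group G] (d : G) : Prop where
  zz : d * d = 1
  ne : d ≠ 1
  conj : ∀ x y : G, Commute x d → Commute y d → x * y * x⁻¹ = y ∨ x * y * x⁻¹ = y * d
  sq : ∀ x : G, Commute x d → x * x = 1 ∨ x * x = d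
  ex : ∃ x : G, x * x = d

section

variable {G : Type*} [Group G] {d e f x y n t g : G}

theorem FZ.conj_ (h : FZ d) (g : G) : FZ (g * d * g⁻¹) where
  zz := conj_mul_self g h.zz
  ne := by simpa using h.ne
  conj := fun x y hx hy => by
    have := h.conj (g⁻¹ * x * g⁻¹⁻¹) (g⁻¹ * y * g⁻¹⁻¹)
      (by simpa [mul_assoc] using (commute_conj_iff g⁻¹).2 hx)
      (by simpa [mul_assoc] using (commute_conj_iff g⁻¹).2 hy)
    refine this.imp (fun e => (conj_inj_iff g⁻¹).1 ?_) fun e => (conj_inj_iff g⁻¹).1 ?_ <;>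
    simpa [mul_assoc] using e
  sq := fun x hx => by
    have := h.sq (g⁻¹ * x * g⁻¹⁻¹) (by simpa [mul_assoc] using (commute_conj_iff g⁻¹).2 hx)
    refine this.imp (fun e => (conj_inj_iff g⁻¹).1 ?_) fun e => (conj_inj_iff g⁻¹).1 ?_ <;>
    simpa [mul_assoc] using e
  ex := by
    obtain ⟨x, e⟩ := h.ex
    exact ⟨g * x * g⁻¹, by simp [← e, mul_assoc]⟩

theorem FZ.sq_one (hd : FZ d) (he : FZ e) (hne : d ≠ e) (h1 : Commute x d) (h2 : Commute x e) :
    x * x = 1 := by
  rcases hd.sq x h1 with a | a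
  · exact a
  · exact (he.sq x h2).resolve_right fun b => hne (a.symm.trans b)

theorem FZ.comm (hd : FZ d) (he : FZ e) (hne : d ≠ e) (h1 : Commute x d) (h2 : Commute x e)
    (h3 : Commute y d) (h4 : Commute y e) : Commute x y :=
  commute_of_sq (hd.sq_one he hne h1 h2) (hd.sq_one he hne h3 h4)
    (by rw [pow_two]; exact hd.sq_one he hne (h1.mul_left h3) (h2.mul_left h4))

theorem FZ.exists_not (hd : FZ d) (he : FZ e) (hne : d ≠ e) (hc : Commute e d) :
    ∃ n, Commute n d ∧ n * e * n⁻¹ = e * d := by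
  obtain ⟨x, hx⟩ := hd.ex
  have h1 : Commute x d := hx ▸ (Commute.refl x).mul_right (Commute.refl x)
  exact ⟨x, h1, (hd.conj x e h1 hc).resolve_left fun a =>
    hd.ne (hx ▸ hd.sq_one he hne h1 (commute_iff_conj.2 a))⟩

theorem FZ.three (hd : FZ d) (he : FZ e) (hf : FZ f) (hne : d ≠ e) (hc : Commute e d)
    (h1 : Commute f d) (h2 : Commute f e) : f = d ∨ f = e ∨ f = e * d := by
  by_contra hn
  push Not at hn
  obtain ⟨t, t1, t2⟩ := hd.exists_not hf hn.1.symm h1
  obtain ⟨n, n1, n2⟩ := he.exists_not hd hne.symm hc.symm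
  have key : ∀ f, FZ f → Commute f d → Commute f e → f ≠ e → n * f * n⁻¹ = f * e :=
    fun f hf h1 h2 h3 => (he.conj n f n1 h2).resolve_left fun a => by
      have := he.comm hf h3.symm n1 (commute_iff_conj.2 a) hc.symm h1.symm
      rw [commute_iff_conj.1 this] at n2
      exact he.ne (by simpa using n2)
  have a1 := key f hf h1 h2 hn.2.1
  have a2 := key (f * d) (t2 ▸ hf.conj_ t) (h1.mul_left (Commute.refl d)) (h2.mul_left hc.symm)
    fun a => hn.2.2 (by rw [← a, mul_assoc, hd.zz, mul_one])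
  rw [show n * (f * d) * n⁻¹ = n * f * n⁻¹ * (n * d * n⁻¹) by group, a1, n2] at a2
  exact he.ne (by simpa [mul_assoc] using a2)

theorem FZ.lemA (hd : FZ d) {X : Subgroup G} (hX : ∀ g, Commute (g * d * g⁻¹) d → g * d * g⁻¹ ∈ X)
    (hg : Commute (g * d * g⁻¹) d) (h1 : Commute x d) (h2 : Commute x (g * d * g⁻¹)) :
    x⁻¹ * (g⁻¹ * x * g) ∈ X := by
  have hdX : d ∈ X := by simpa using hX 1 (by simp)
  have k1 : ∀ e, FZ e → e ∈ X → ∀ r y, Commute r e → Commute y e → y⁻¹ * (r⁻¹ * y * r) ∈ X :=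
    fun e he heX r y hr hy => by
      rcases he.conj r⁻¹ y hr.inv_left hy with a | a <;> rw [inv_inv] at a <;> rw [a] <;>
      simp [heX]
  by_cases hne : d = g * d * g⁻¹
  · exact k1 d hd hdX g x (commute_iff_conj.2 hne.symm) h1
  have he := hd.conj_ g
  have heX := hX g hg
  generalize hs : g * d * g⁻¹ = s at *
  obtain ⟨q, q1, q2⟩ := hd.exists_not he hne hg
  obtain ⟨n, n1, n2⟩ := he.exists_not hd (Ne.symm hne) hg.symm
  obtain ⟨f1, f2⟩ := swap_conj hd.zz he.zz hg.symm (commute_iff_conj.1 q1) q2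
    (commute_iff_conj.1 n1) (n2.trans hg.symm.eq)
  have c1 : ∀ y, Commute y d → Commute y s → Commute (n⁻¹ * y * n) d ∧ Commute (n⁻¹ * y * n) s :=
    fun y a b => by
      rcases he.conj n⁻¹ y n1.inv_left b with a' | a' <;> rw [inv_inv] at a' <;> rw [a']
      exacts [⟨a, b⟩, ⟨a.mul_left hg, b.mul_left (Commute.refl s)⟩]
  have c2 : ∀ y, Commute y d → Commute y s → Commute (q⁻¹ * y * q) d ∧ Commute (q⁻¹ * y * q) s :=
    fun y a b => by
      rcases hd.conj q⁻¹ y q1.inv_left a with a' | a' <;> rw [inv_inv] at a' <;> rw [a']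
      exacts [⟨a, b⟩, ⟨a.mul_left (Commute.refl d), b.mul_left hg.symm⟩]
  have d1 := c1 x h1 h2
  have d2 := c2 _ d1.1 d1.2
  have d3 := c1 _ d2.1 d2.2
  have r1 : Commute ((n * q * n)⁻¹ * g) d := by
    rw [commute_iff_conj, ← conj_inj_iff (n * q * n), f1, ← hs]; group
  have := mul_mem (mul_mem (mul_mem (k1 s he heX n x n1 h2) (k1 d hd hdX q _ q1 d1.1))
    (k1 s he heX n _ n1 d2.2)) (k1 d hd hdX _ _ r1 d3.1)
  simpa [mul_assoc] using this

end

/-- Let L be a finite non-abelian simple group with an involution z whose centralizer R is a Sylow 2-subgroup of L whose Frattini subgroup is the subgroup generated by z. Then R is dihedral of order 8. -/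
theorem result {L : Type*} [Group L] [Finite L] [IsSimpleGroup L] (hL : ¬ IsMulCommutative L) (z : L) (hz : orderOf z = 2) (R : Sylow 2 L) (hR : (R : Subgroup L) = Subgroup.centralizer ({z} : Set L)) (hΦ : (frattini ↥(R : Subgroup L)).map (R : Subgroup L).subtype = Subgroup.zpowers z) : Nonempty (↥(R : Subgroup L) ≃* DihedralGroup 4) := by
  have := Fact.mk Nat.prime_two
  have hS : IsPiHallOf {2} C1[z] ⊤ := hR ▸ syl_top_of_sylow Nat.prime_two R
  rw [hR]
  have hΦ' : PG.phi C1[z] = zpowers z := by rw [← hΦ, hR]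
  have h2 := syl_isPGroup Nat.prime_two hS
  have zz := mul_self_of_orderOf hz
  have mz := fun {x : L} => mem_zpowers_of_sq (x := x) zz
  obtain ⟨p1, p2⟩ := (PG.phi_le_iff h2).1 hΦ'.le
  have hsq : ∀ x : L, Commute x z → x * x = 1 ∨ x * x = z := fun x hx =>
    mz.1 (pow_two x ▸ p2 x (mem_cent1.2 hx))
  have h : FZ z := ⟨zz, ne_one_of_orderOf hz, fun x y hx hy => by
      rcases mz.1 (commutator_le.1 p1 x (mem_cent1.2 hx) y (mem_cent1.2 hy)) with e | e
      · left; rwa [commutatorElement_def, mul_inv_eq_one] at e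
      · right; rw [commutatorElement_def, mul_inv_eq_iff_eq_mul] at e; rw [e, hy.eq], hsq, by
      by_contra hn
      push Not at hn
      have a : ∀ x ∈ C1[z], x * x = 1 := fun x hx => (hsq x (mem_cent1.1 hx)).resolve_right (hn x)
      have : PG.phi C1[z] ≤ ⊥ := (PG.phi_le_iff h2).2 ⟨commutator_le.2 fun x hx y hy =>
        commutatorElement_eq_one_iff_commute.2 (commute_of_sq (a x hx) (a y hy)
          (by rw [pow_two]; exact a _ (mul_mem hx hy))), fun x hx => by rw [pow_two]; exact a x hx⟩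
      exact ne_one_of_orderOf hz (this (hΦ' ▸ mem_zpowers z))⟩
  have hper : ⁅(⊤ : Subgroup L), ⊤⁆ = ⊤ :=
    (IsSimpleGroup.eq_bot_or_eq_top_of_normal _ inferInstance).resolve_left fun e => hL
      ⟨⟨fun a b => commutatorElement_eq_one_iff_mul_comm.1
        (e.le (commutator_mem_commutator (mem_top a) (mem_top b)))⟩⟩
  have key : ∀ X : Subgroup L, (∀ g, Commute (g * z * g⁻¹) z → g * z * g⁻¹ ∈ X) → C1[z] ≤ X := by
    intro X hX
    have := focal_subgroup_le (X := X) Nat.prime_two hS fun x hx u _ hu => by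
      have hx' : Commute x z := mem_cent1.1 hx
      obtain ⟨P, hP, hzP⟩ := exists_syl_ge Nat.prime_two (Q := zpowers x ⊔ zpowers z) (M := C1[x])
        (h2.to_le (sup_le (zpowers_le.2 hx) (zpowers_le.2 (self_mem_cent1 z))))
        (sup_le (zpowers_le.2 (self_mem_cent1 x)) (zpowers_le.2 (mem_cent1.2 hx'.symm)))
      have hu' : Commute x (u⁻¹ * z * u) := by
        simpa [mul_assoc] using (commute_conj_iff u⁻¹).2 (mem_cent1.1 hu)
      obtain ⟨c, hc, hcP⟩ := syl_exists_conj_le Nat.prime_two hP (Q := zpowers (u⁻¹ * z * u))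
        (isPGroup_of_forall fun y hy => ⟨1, by
          rcases (mem_zpowers_of_sq (by simpa using conj_mul_self u⁻¹ zz)).1 hy with rfl | rfl
          · simp
          · simpa [pow_two] using conj_mul_self u⁻¹ zz⟩)
        (zpowers_le.2 (mem_cent1.2 hu'.symm))
      obtain ⟨g, -, hg⟩ := syl_exists_conj_le Nat.prime_two hS (syl_isPGroup Nat.prime_two hP) le_top
      have b : ∀ y ∈ P, Commute (g * y * g⁻¹) z := fun y hy => mem_cent1.1 (hg (conj_mem_conj.2 hy))
      have b1 := b x (hzP (mem_sup_left (mem_zpowers x)))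
      have b2 := h.lemA hX (b z (hzP (mem_sup_right (mem_zpowers z)))) b1
        ((commute_conj_iff g).2 hx')
      have hc' : Commute c x := mem_cent1.1 hc
      have b3 := h.lemA hX (g := g * c * u⁻¹) (x := g * x * g⁻¹)
        (by simpa [mul_assoc] using b _ (hcP (conj_mem_conj.2 (mem_zpowers _)))) b1 (by
          have := (commute_conj_iff (g * c)).2 hu'
          rw [show g * c * x * (g * c)⁻¹ = g * (c * x * c⁻¹) * g⁻¹ by group,
            commute_iff_conj.1 hc'] at this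
          simpa [mul_assoc] using this)
      have b4 := mul_mem (inv_mem b2) b3
      rw [show ((g * x * g⁻¹)⁻¹ * (g⁻¹ * (g * x * g⁻¹) * g))⁻¹ * ((g * x * g⁻¹)⁻¹ *
        ((g * c * u⁻¹)⁻¹ * (g * x * g⁻¹) * (g * c * u⁻¹))) = x⁻¹ * (u * (c⁻¹ * x * c⁻¹⁻¹) * u⁻¹) by group,
        commute_iff_conj.1 hc'.inv_left] at b4
      have hzX : z ∈ X := by simpa using hX 1 (by simp)
      rw [show ⁅x, u⁆ = x * (x⁻¹ * (u * x * u⁻¹))⁻¹ * x⁻¹ by rw [commutatorElement_def]; group]
      rcases h.conj x _ hx' (hx'.inv_left.mul_left (mem_cent1.1 hu)).inv_left with e | e <;> rw [e]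
      exacts [inv_mem b4, mul_mem (inv_mem b4) hzX]
    rwa [hper, inf_top_eq] at this
  obtain ⟨s, s', hs, hs', c1, c2, hn⟩ : ∃ s s', FZ s ∧ FZ s' ∧ Commute s z ∧ Commute s' z ∧
      ¬ Commute s s' := by
    by_contra hn
    push Not at hn
    obtain ⟨x, hx⟩ := h.ex
    have a1 : ∀ y ∈ C1[z], ∀ s, FZ s → Commute s z → Commute y s := fun y hy s hs hc =>
      mem_cent1.1 (key C1[s] (fun g hg => mem_cent1.2 (hn _ _ (h.conj_ g) hs hg hc)) hy)
    have hxz : Commute x z := hx ▸ (Commute.refl x).mul_right (Commute.refl x)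
    have a2 : x ∈ zpowers z := key _ (fun g hg => by
      by_contra hne
      exact h.ne (hx ▸ h.sq_one (h.conj_ g) (fun e => hne (e ▸ mem_zpowers z)) hxz
        (a1 x (mem_cent1.2 hxz) _ (h.conj_ g) hg))) (mem_cent1.2 hxz)
    rcases mz.1 a2 with e | e <;> rw [e] at hx
    exacts [h.ne (by simpa using hx.symm), h.ne (hx ▸ zz)]
  have e1 : s * s' * s⁻¹ = s' * z := (h.conj s s' c1 c2).resolve_left fun e => hn (commute_iff_conj.2 e)
  have e2 : s * s' * (s * s') = z := by
    rw [inv_of_sq hs.zz] at e1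
    rw [← mul_assoc, e1, mul_assoc, c2.symm.eq, sq_cancel hs'.zz]
  have hzs : z ≠ s := fun e => hn (e ▸ c2.symm)
  have hzs' : z ≠ s' := fun e => hn (e ▸ c1)
  obtain ⟨φ, f1, f2⟩ := Wd.exists_hom_D8 hs.zz hs'.zz (by
    rw [mul_assoc (s * s'), e2, ← inv_of_sq zz, ← e2]
    simp [mul_assoc, inv_of_sq hs.zz, inv_of_sq hs'.zz])
  have f3 : φ (DihedralGroup.r 2) = z := by
    rw [← e2, ← f1, ← f2, ← map_mul, ← map_mul]; rfl
  have m1 : s ∈ φ.range := ⟨_, f1⟩
  have m2 : s' ∈ φ.range := ⟨_, f2⟩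
  have m3 : z ∈ φ.range := ⟨_, f3⟩
  have : φ.range = C1[z] := by
    refine le_antisymm ?_ (key _ fun g hg => ?_)
    · rw [MonoidHom.range_eq_map, ← Wd.closure_D8, MonoidHom.map_closure, closure_le]
      rintro _ ⟨_, rfl | rfl, rfl⟩
      exacts [f1 ▸ mem_cent1.2 c1, f2 ▸ mem_cent1.2 c2]
    have he := h.conj_ g
    generalize g * z * g⁻¹ = e at *
    by_cases a1 : Commute e s
    · rcases h.three hs he hzs c1 hg a1 with rfl | rfl | rfl
      exacts [m3, m1, mul_mem m1 m3]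
    by_cases a2 : Commute e s'
    · rcases h.three hs' he hzs' c2 hg a2 with rfl | rfl | rfl
      exacts [m3, m2, mul_mem m2 m3]
    refine absurd (h.sq_one he (fun a => a1 (a ▸ c1.symm)) (c1.mul_left c2) (Commute.symm ?_))
      (e2 ▸ h.ne)
    have b1 := (h.conj e s hg c1).resolve_left fun a => a1 (commute_iff_conj.2 a)
    have b2 := (h.conj e s' hg c2).resolve_left fun a => a2 (commute_iff_conj.2 a)
    rw [commute_iff_conj, show e * (s * s') * e⁻¹ = e * s * e⁻¹ * (e * s' * e⁻¹) by group, b1, b2,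
      mul_assoc, c2.eq, sq_cancel zz]
  exact ⟨this ▸ (MonoidHom.ofInjective (Wd.injective_D8 φ (f3 ▸ h.ne))).symm⟩

end Cfsg.Agent.S5435
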