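import Cfsg.Statements.S5436
import Cfsg.Agent.TT.LargeT
import Cfsg.Agent.TT.Misc

set_option autoImplicit false
open Cfsg

namespace Cfsg.Agent.S5436

open Cfsg.Agent.TT Cfsg.Agent.GT Subgroup

/-- Let z be an involution of the finite group G with centralizer H whose generalized Fitting subgroup Q is extraspecial of width at least 2 (order 2^(2w+1), w ≥ 2); suppose some conjugate of z other than z lies in Q, H/Q is a non-abelian simple group, H acts irreducibly by conjugation on Q modulo the subgroup generated by z (the only H-invariant subgroups of Q containing z are that subgroup and Q), and Q is not the subgroup generated by the conjugates of z lying in H. Then G is simple. -/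
theorem result {G : Type*} [Group G] [Finite G] (z : G) (hz : orderOf z = 2) (Q : Subgroup (Subgroup.centralizer ({z} : Set G))) [Q.Normal] (hF : Cfsg.generalizedFittingSubgroup ↥(Subgroup.centralizer ({z} : Set G)) = Q) (hQ : Cfsg.IsExtraspecial 2 ↥Q) (w : ℕ) (hw : 2 ≤ w) (hcard : Nat.card ↥Q = 2 ^ (2 * w + 1)) (hnwc : ∃ g : G, (∃ hq : g * z * g⁻¹ ∈ Subgroup.centralizer ({z} : Set G), (⟨g * z * g⁻¹, hq⟩ : Subgroup.centralizer ({z} : Set G)) ∈ Q) ∧ g * z * g⁻¹ ≠ z) (hsimp : IsSimpleGroup (↥(Subgroup.centralizer ({z} : Set G)) ⧸ Q)) (hna : ¬ IsMulCommutative (↥(Subgroup.centralizer ({z} : Set G)) ⧸ Q)) (hirr : ∀ W : Subgroup (Subgroup.centralizer ({z} : Set G)), W.Normal → W ≤ Q → (W = Q ∨ ∀ x ∈ W, (x : G) ∈ Subgroup.zpowers z)) (hwcl : Subgroup.closure {x : Subgroup.centralizer ({z} : Set G) | IsConj z (x : G)} ≠ Q) : IsSimpleGroup G := by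
  have hF' : fstarOf C1[z] = Q.map (C1[z]).subtype := by rw [← map_subtype_fstar, hF]
  obtain ⟨w', hw'⟩ := ES.of_isExtraspecial hQ
  have h := LQ.of_fstar hz hF' (hw'.map _ fun x _ e => Subtype.ext e).isExtraspecial
  obtain ⟨g, ⟨hg, hgQ⟩, hne⟩ := hnwc
  have h1 : g * z * g⁻¹ ∈ Q.map (C1[z]).subtype := ⟨_, hgQ, rfl⟩
  have hL := h.large_of_conj h1 hne (h.mem_conj' h1 hne (eight_lt_of_width hw
    (by rw [card_map_of_injective (subtype_injective _), hcard])))
  refine simple_of_large h hF' hL ?_
  set W := closure {x : C1[z] | IsConj z (x : G)} with hW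
  have hWn : W.Normal := by
    refine normal_closure_of_conj_mem ?_
    intro a x hx
    exact IsConj.trans hx (isConj_iff.2 ⟨a, rfl⟩)
  have hQW : Q ≤ W := by
    rcases hirr (W ⊓ Q) inferInstance inf_le_right with e | e
    · exact inf_eq_right.1 e
    · have := e ⟨_, hg⟩ ⟨subset_closure (isConj_iff.2 ⟨g, rfl⟩), hgQ⟩
      rcases h.mem_zp.1 this with e | e
      · exact absurd (by simpa using e) h.ne
      · exact absurd e hne
  have hWt : W = ⊤ := by
    rcases hsimp.eq_bot_or_eq_top_of_normal (W.map (QuotientGroup.mk' Q))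
      (hWn.map _ (QuotientGroup.mk'_surjective Q)) with e | e
    · rw [Subgroup.map_eq_bot_iff, QuotientGroup.ker_mk'] at e
      exact absurd (le_antisymm e hQW) hwcl
    · have := congrArg (comap (QuotientGroup.mk' Q)) e
      rwa [comap_map_eq, QuotientGroup.ker_mk', sup_eq_left.2 hQW, comap_top] at this
  have : W ≤ (normalClosure {z}).subgroupOf C1[z] := by
    rw [hW, closure_le]
    intro x hx
    obtain ⟨c, hc⟩ := isConj_iff.1 hx
    exact mem_subgroupOf.2 (hc ▸ conj_mem_normalClosure c z)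
  intro x hx
  exact this (hWt ▸ mem_top (⟨x, hx⟩ : C1[z]))

end Cfsg.Agent.S5436
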