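import Cfsg.Statements.S5437
import Cfsg.Agent.TT.Basic

set_option autoImplicit false
open Cfsg

namespace Cfsg.Agent.S5437

/-- Let I be a set of involutions of the finite group G closed under conjugation, and H a subgroup of G. The following are equivalent: (1) for every member x of I lying in H, the conjugates of x lying in H form a single H-class and the centralizer of x lies in H; (2) for every g outside H, no member of I lies in both H and g H g⁻¹; (3) every member of I lying in H fixes exactly one coset in the action of G on the cosets of H. -/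
theorem result {G : Type*} [Group G] [Finite G] (I : Set G) (hI : ∀ x ∈ I, orderOf x = 2) (hIc : ∀ g : G, ∀ x ∈ I, g * x * g⁻¹ ∈ I) (H : Subgroup G) : ((∀ x ∈ I, x ∈ H → (∀ g : G, g * x * g⁻¹ ∈ H → ∃ h ∈ H, h * x * h⁻¹ = g * x * g⁻¹) ∧ Subgroup.centralizer ({x} : Set G) ≤ H) ↔ (∀ g : G, g ∉ H → ∀ x ∈ I, ¬ (x ∈ H ∧ x ∈ (H : Subgroup G).map (MulAut.conj g).toMonoidHom))) ∧ ((∀ g : G, g ∉ H → ∀ x ∈ I, ¬ (x ∈ H ∧ x ∈ (H : Subgroup G).map (MulAut.conj g).toMonoidHom)) ↔ ∀ x ∈ I, x ∈ H → ∃! c : G ⧸ H, x • c = c) := by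
  have fix : ∀ x g : G, x • (g : G ⧸ H) = (g : G ⧸ H) ↔ g⁻¹ * x * g ∈ H := by
    intro x g
    rw [MulAction.Quotient.smul_coe, smul_eq_mul, eq_comm, QuotientGroup.eq, mul_assoc]
  constructor
  · constructor
    · rintro h g hg x hx ⟨h1, h2⟩
      rw [GT.mem_conj] at h2
      obtain ⟨k, hk, e⟩ := (h x hx h1).1 g⁻¹ (by simpa using h2)
      have : g * k ∈ H := (h x hx h1).2 (GT.mem_cent1.2 (by
        have := congrArg (fun y => g * y * k) e
        simp only [mul_assoc, inv_inv, mul_inv_cancel_left, inv_mul_cancel, mul_one] at this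
        simpa [mul_assoc] using this))
      exact hg ((H.mul_mem_cancel_right hk).1 this)
    · intro h x hx hxH
      constructor
      · intro g hg
        by_cases hgH : g ∈ H
        · exact ⟨g, hgH, rfl⟩
        · exact absurd ⟨hg, GT.conj_mem_conj.2 hxH⟩ (h g hgH _ (hIc g x hx))
      · intro g hg
        by_contra hgH
        refine h g hgH x hx ⟨hxH, ?_⟩
        have : g * x * g⁻¹ = x := by rw [GT.mem_cent1.1 hg]; simp
        rw [← this]
        exact GT.conj_mem_conj.2 hxH
  · constructor
    · intro h x hx hxH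
      refine ⟨((1 : G) : G ⧸ H), (fix x 1).2 (by simpa using hxH), ?_⟩
      intro c hc
      obtain ⟨g, rfl⟩ := QuotientGroup.mk_surjective c
      rw [fix] at hc
      by_contra hne
      refine h g (fun hg => hne ?_) x hx ⟨hxH, GT.mem_conj.2 hc⟩
      rw [QuotientGroup.eq]; simpa using hg
    · rintro h g hg x hx ⟨h1, h2⟩
      rw [GT.mem_conj] at h2
      have := (h x hx h1).unique ((fix x g).2 h2) ((fix x 1).2 (by simpa using h1))
      rw [QuotientGroup.eq] at this
      exact hg (by simpa using this)

end Cfsg.Agent.S5437
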