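import Cfsg.Statements.S5438
import Cfsg.Agent.TT.Basic
import Cfsg.Agent.GT.SylowRel

set_option autoImplicit false
open Cfsg

namespace Cfsg.Agent.S5438

open Cfsg.Agent.TT Cfsg.Agent.GT Subgroup

theorem dih {G : Type*} [Group G] {H : Subgroup G} {a b g : G} (ha : a * a = 1) (hb : b * b = 1)
    (haH : a ∈ H) (h1 : ∀ k : G, k⁻¹ * a * k ∈ H → k ∈ H) (h2 : ∀ k : G, k⁻¹ * b * k ∈ H → g * k ∈ H)
    (n : ℕ) : 0 < n → (a * b) ^ n ∈ H → ∃ k : ℕ, g * (a * b) ^ k ∈ H := by
  induction n using Nat.strong_induction_on with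
  | _ n ih =>
    intro hn h
    obtain ⟨k, rfl | rfl⟩ := Nat.even_or_odd' n
    · exact ih k (by omega) (by omega) (h1 _ (mul_pow_even ha hb k ▸ mul_mem haH h))
    · exact ⟨k, h2 _ (mul_pow_odd ha hb k ▸ mul_mem haH h)⟩

/-- Let z be a 2-central involution of the finite group G (an involution central in some Sylow 2-subgroup) and H a subgroup containing z such that the coset H is the only coset of H fixed by z (in the action of G on the cosets of H). Then H has odd index in G, and for every 2-element x of H the conjugates of x lying in H form a single H-class. -/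
theorem result {G : Type*} [Group G] [Finite G] (z : G) (hz : Cfsg.IsTwoCentralInvolution z) (H : Subgroup G) (hzH : z ∈ H) (hfix : ∀ g : G, g⁻¹ * z * g ∈ H → g ∈ H) : Odd H.index ∧ ∀ x ∈ H, (∃ k : ℕ, orderOf x = 2 ^ k) → ∀ g : G, g * x * g⁻¹ ∈ H → ∃ h ∈ H, h * x * h⁻¹ = g * x * g⁻¹ := by
  obtain ⟨hz2, P, hzP, hP⟩ := hz
  have zz := mul_self_of_orderOf hz2
  have hPH : (P : Subgroup G) ≤ H := fun x hx => hfix x (by rwa [mul_assoc, ← hP x hx, inv_mul_cancel_left])
  have hS := syl_top_of_sylow Nat.prime_two P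
  refine ⟨Nat.not_even_iff_odd.1 fun e => syl_not_dvd Nat.prime_two hS ?_, fun x hx ⟨k, hk⟩ g hg => ?_⟩
  · rw [relIndex_top_right]
    exact (even_iff_two_dvd.1 e).trans (index_dvd_of_le hPH)
  have key : ∀ x ∈ H, x ^ 2 ^ k = 1 → ∃ h ∈ H, Commute x (h⁻¹ * z * h) := fun x hx e => by
    obtain ⟨h, hh, h1⟩ := syl_exists_conj_le Nat.prime_two (syl_of_le hS hPH le_top) (Q := zpowers x)
      (isPGroup_of_forall (by rintro _ ⟨n, rfl⟩; exact ⟨k, by
        rw [← zpow_natCast, ← zpow_mul, mul_comm, zpow_mul, zpow_natCast, e, one_zpow]⟩))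
      (zpowers_le.2 hx)
    exact ⟨h, hh, by simpa [mul_assoc] using
      (commute_conj_iff h⁻¹).2 (hP _ (h1 (conj_mem_conj.2 (mem_zpowers x))))⟩
  have e : x ^ 2 ^ k = 1 := hk ▸ pow_orderOf_eq_one x
  obtain ⟨h1, m1, c1⟩ := key x hx e
  obtain ⟨h2, m2, c2⟩ := key _ hg (by rw [conj_pow, e]; simp)
  have c3 : Commute x (g⁻¹ * (h2⁻¹ * z * h2) * g) := by
    simpa [mul_assoc] using (commute_conj_iff g⁻¹).2 c2
  obtain ⟨n, hn⟩ := dih (H := H) (a := h1⁻¹ * z * h1) (b := g⁻¹ * (h2⁻¹ * z * h2) * g) (g := g)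
    (by simpa using conj_mul_self h1⁻¹ zz) (by simpa [mul_assoc] using conj_mul_self (h2 * g)⁻¹ zz)
    (mul_mem (mul_mem (inv_mem m1) hzH) m1)
    (fun k hk => (mul_mem_cancel_left m1).1 (hfix _ (by simpa [mul_assoc] using hk)))
    (fun k hk => (mul_mem_cancel_left m2).1 (hfix _ (by simpa [mul_assoc] using hk)))
    _ (orderOf_pos _) (by rw [pow_orderOf_eq_one]; exact one_mem H)
  refine ⟨_, hn, ?_⟩
  rw [mul_inv_rev, ← mul_assoc, mul_assoc g, mul_assoc g,
    commute_iff_conj.1 ((c1.mul_right c3).pow_right n).symm]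

end Cfsg.Agent.S5438
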