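import Cfsg.Statements.S5439
import Cfsg.Agent.TT.Basic

set_option autoImplicit false
open Cfsg

namespace Cfsg.Agent.S5439

/-- Let I and J be two different conjugacy classes of involutions of the finite group G and H a subgroup such that every member of I ∪ J fixes exactly one coset in the action on the cosets of H, and such that for every a in I ∩ H and every b in (I ∪ J) ∩ H different from a and commuting with it, the centralizer of a b lies in H. Then H = G. -/
theorem result {G : Type*} [Group G] [Finite G] (I J : Set G) (a₀ b₀ : G) (ha₀ : orderOf a₀ = 2) (hb₀ : orderOf b₀ = 2) (hI : I = {x | IsConj a₀ x}) (hJ : J = {x | IsConj b₀ x}) (hIJ : I ≠ J) (H : Subgroup G) (hfix : ∀ x ∈ I ∪ J, ∃! c : G ⧸ H, x • c = c) (hcent : ∀ a ∈ I, a ∈ H → ∀ b ∈ I ∪ J, b ∈ H → a ≠ b → a * b = b * a → Subgroup.centralizer ({a * b} : Set G) ≤ H) : H = ⊤ := by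
  have fix : ∀ x g : G, x • (g : G ⧸ H) = (g : G ⧸ H) ↔ g⁻¹ * x * g ∈ H := by
    intro x g
    rw [MulAction.Quotient.smul_coe, smul_eq_mul, eq_comm, QuotientGroup.eq, mul_assoc]
  have hIc : ∀ g : G, ∀ x ∈ I, g * x * g⁻¹ ∈ I := by
    intro g x hx; rw [hI] at *; exact IsConj.trans hx (isConj_iff.2 ⟨g, rfl⟩)
  have hJc : ∀ g : G, ∀ x ∈ J, g * x * g⁻¹ ∈ J := by
    intro g x hx; rw [hJ] at *; exact IsConj.trans hx (isConj_iff.2 ⟨g, rfl⟩)
  have hc : ∀ g : G, ∀ x ∈ I ∪ J, g * x * g⁻¹ ∈ I ∪ J := by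
    rintro g x (hx | hx)
    · exact Or.inl (hIc g x hx)
    · exact Or.inr (hJc g x hx)
  have sqI : ∀ x ∈ I, x * x = 1 := by
    intro x hx; rw [hI] at hx
    obtain ⟨g, rfl⟩ := isConj_iff.1 hx
    exact TT.conj_mul_self g (TT.mul_self_of_orderOf ha₀)
  have sqJ : ∀ x ∈ J, x * x = 1 := by
    intro x hx; rw [hJ] at hx
    obtain ⟨g, rfl⟩ := isConj_iff.1 hx
    exact TT.conj_mul_self g (TT.mul_self_of_orderOf hb₀)
  have ha₀I : a₀ ∈ I := by rw [hI]; exact IsConj.refl a₀
  have hb₀J : b₀ ∈ J := by rw [hJ]; exact IsConj.refl b₀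
  obtain ⟨c, hc0, -⟩ := hfix a₀ (Or.inl ha₀I)
  obtain ⟨g, rfl⟩ := QuotientGroup.mk_surjective c
  rw [fix] at hc0
  have haI : g⁻¹ * a₀ * g ∈ I := by simpa using hIc g⁻¹ a₀ ha₀I
  set a := g⁻¹ * a₀ * g with ha
  have hJH : ∀ b ∈ J, b ∈ H := by
    intro b hb
    have hev : Even (orderOf (a * b)) := by
      rcases Nat.even_or_odd (orderOf (a * b)) with h | h
      · exact h
      · exfalso
        have h1 := TT.isConj_of_odd (sqI a haI) (sqJ b hb) h
        apply hIJ
        rw [hI] at haI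
        rw [hJ] at hb
        have h2 : IsConj a₀ b₀ := (IsConj.trans haI h1).trans (IsConj.symm hb)
        rw [hI, hJ]
        ext x
        exact ⟨fun h => h2.symm.trans h, fun h => h2.trans h⟩
    obtain ⟨m, hm, h1, h2, h3, h4⟩ := TT.exists_central_of_even (sqI a haI) (sqJ b hb) hev
    have hD := TT.mul_pow_mem hc (sqI a haI) (sqJ b hb) (Or.inl haI) (Or.inr hb) m
    have hzH : (a * b) ^ m ∈ H := by
      have e1 := (hfix a (Or.inl haI)).unique ((fix a ((a * b) ^ m)).2 (by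
        rw [mul_assoc, h3.eq]; simpa using hc0)) ((fix a 1).2 (by simpa using hc0))
      rw [QuotientGroup.eq] at e1
      simpa using e1
    have := hcent a haI hc0 _ hD (H.mul_mem hc0 hzH) (by simpa using h1)
      ((Commute.refl a).mul_right h3).eq
    rw [TT.sq_cancel (sqI a haI)] at this
    exact this (GT.mem_cent1.2 h4.eq)
  rw [eq_top_iff]
  intro x _
  have := (hfix b₀ (Or.inr hb₀J)).unique ((fix b₀ x).2 (hJH _ (by simpa using hJc x⁻¹ b₀ hb₀J)))
    ((fix b₀ 1).2 (by simpa using hJH b₀ hb₀J))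
  rw [QuotientGroup.eq] at this
  simpa using this

end Cfsg.Agent.S5439
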