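import Cfsg.Statements.S5440
import Cfsg.Agent.LF.Det

set_option autoImplicit false
open Cfsg

namespace Cfsg.Agent.S5440

/-- Let G be a finite group of large Fischer type at the involution z: the generalized Fitting subgroup Q of H = C_G(z) is extraspecial of order 2^13, H has normal subgroups Q ≤ H₁ ≤ H₂ with H₁/Q of order 3, H₂/H₁ the projective special unitary group of dimension 4 over the field with nine elements and H₂ of index 2 in H, and some conjugate of z other than z lies in Q. Then H has exactly two orbits, under conjugation, on the involutions of Q other than z. -/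
theorem result {G : Type*} [Group G] [Finite G] (z : G) (Q : Subgroup (Subgroup.centralizer ({z} : Set G))) [Q.Normal] (hF : Cfsg.IsOfLargeFischerTypeAt z Q) : ∃ s t : Subgroup.centralizer ({z} : Set G), s ∈ Q ∧ t ∈ Q ∧ orderOf s = 2 ∧ orderOf t = 2 ∧ (s : G) ≠ z ∧ (t : G) ≠ z ∧ (¬ ∃ h : Subgroup.centralizer ({z} : Set G), h * s * h⁻¹ = t) ∧ ∀ x : Subgroup.centralizer ({z} : Set G), x ∈ Q → orderOf x = 2 → (x : G) ≠ z → (∃ h : Subgroup.centralizer ({z} : Set G), h * s * h⁻¹ = x) ∨ ∃ h : Subgroup.centralizer ({z} : Set G), h * t * h⁻¹ = x := by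
  obtain ⟨π, r, S⟩ := LF.exists_LB hF
  have m : ∀ x : Subgroup.centralizer ({z} : Set G), x.1 ∈ Q.map (Subgroup.subtype _) ↔ x ∈ Q := fun x =>
    Subgroup.mem_map_iff_mem Subtype.val_injective
  obtain ⟨s, s1, s2, s3, s4, s5⟩ := S.exists_ty (n := 85) (by omega) (by decide +kernel) (by decide +kernel)
  obtain ⟨t, t1, t2, t3, t4, t5⟩ := S.exists_ty (n := 5) (by omega) (by decide +kernel) (by decide +kernel)
  have o : ∀ x (h : x ∈ Subgroup.centralizer ({z} : Set G)), x * x = 1 → x ≠ 1 →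
      orderOf (⟨x, h⟩ : Subgroup.centralizer ({z} : Set G)) = 2 := fun x h a b =>
    (Subgroup.orderOf_mk _ _).trans (orderOf_eq_prime (by rw [pow_two, a]) b)
  refine ⟨⟨s, S.le s1⟩, ⟨t, S.le t1⟩, (m _).1 s1, (m _).1 t1, o _ _ s3 s4, o _ _ t3 t4, s5, t5, ?_,
    fun x hx h2 hz => ?_⟩
  · rintro ⟨h, e⟩
    have := S.ty_conj h.2 s1
    rw [show h.1 * s * h.1⁻¹ = t from congrArg Subtype.val e, s2, t2] at this
    exact absurd this (by decide +kernel)
  · have a := (m x).2 hx
    have b : x.1 ≠ 1 := fun e => by rw [show x = 1 from Subtype.ext e, orderOf_one] at h2; omega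
    have c : π x ≠ 0 := fun e => ((S.ker _ a).1 e).elim b hz
    rcases S.ty_cases a (by rw [← pow_two, ← Subgroup.coe_pow, ← h2, pow_orderOf_eq_one]; rfl) b hz with e | e
    · obtain ⟨k, d, f⟩ := S.conj_of_ty t1 a c (by rw [e, t2]; decide +kernel)
      exact .inr ⟨⟨k, d⟩, Subtype.ext f⟩
    · obtain ⟨k, d, f⟩ := S.conj_of_ty s1 a c (by rw [e, s2]; decide +kernel)
      exact .inl ⟨⟨k, d⟩, Subtype.ext f⟩

end Cfsg.Agent.S5440
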