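import Cfsg.Statements.S5442
import Cfsg.Agent.LF.Det

set_option autoImplicit false
open Cfsg

namespace Cfsg.Agent.S5442

/-- Let G be a finite group of large Fischer type at the involution z: the generalized Fitting subgroup Q of H = C_G(z) is extraspecial of order 2^13, H has normal subgroups Q ≤ H₁ ≤ H₂ with H₁/Q of order 3, H₂/H₁ the projective special unitary group of dimension 4 over the field with nine elements and H₂ of index 2 in H, and some conjugate of z other than z lies in Q. Let s = g z g⁻¹ be a conjugate of z lying in Q and different from z. Then the intersection of Q and g Q g⁻¹ (as subgroups of G) is elementary abelian of order 2^7; and in H/Q, writing X for the image of the centralizer of s in H and E for the image of the intersection of g Q g⁻¹ with H, E is a normal subgroup of X, elementary abelian of order 32, with X/E isomorphic to the alternating group of degree 6. -/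
theorem result {G : Type*} [Group G] [Finite G] (z : G) (Q : Subgroup (Subgroup.centralizer ({z} : Set G))) [Q.Normal] (hF : Cfsg.IsOfLargeFischerTypeAt z Q) (s : G) (hsQ : ∃ hsc : s ∈ Subgroup.centralizer ({z} : Set G), (⟨s, hsc⟩ : Subgroup.centralizer ({z} : Set G)) ∈ Q) (hs : IsConj z s) (hs1 : s ≠ z) (g : G) (hg : g * z * g⁻¹ = s) (X E : Subgroup ((Subgroup.centralizer ({z} : Set G)) ⧸ Q)) (hX : X = ((Subgroup.centralizer ({z} : Set G) ⊓ Subgroup.centralizer ({s} : Set G)).subgroupOf (Subgroup.centralizer ({z} : Set G))).map (QuotientGroup.mk' Q)) (hE : E = ((((Q.map (Subgroup.centralizer ({z} : Set G)).subtype)).map (MulAut.conj g).toMonoidHom ⊓ Subgroup.centralizer ({z} : Set G)).subgroupOf (Subgroup.centralizer ({z} : Set G))).map (QuotientGroup.mk' Q)) : Cfsg.IsElementaryAbelian 2 ((Q.map (Subgroup.centralizer ({z} : Set G)).subtype) ⊓ ((Q.map (Subgroup.centralizer ({z} : Set G)).subtype)).map (MulAut.conj g).toMonoidHom) ∧ Nat.card ↥((Q.map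 (Subgroup.centralizer ({z} : Set G)).subtype) ⊓ ((Q.map (Subgroup.centralizer ({z} : Set G)).subtype)).map (MulAut.conj g).toMonoidHom) = 2 ^ 7 ∧ E ≤ X ∧ (∀ x ∈ X, ∀ y ∈ E, x * y * x⁻¹ ∈ E) ∧ Cfsg.IsElementaryAbelian 2 E ∧ Nat.card E = 32 ∧ ∃ _ : (E.subgroupOf X).Normal, Nonempty (↥X ⧸ E.subgroupOf X ≃* alternatingGroup (Fin 6)) := by
  obtain ⟨π, r, S⟩ := LF.exists_LB hF
  subst hg
  have a : g * z * g⁻¹ ∈ Q.map (Subgroup.subtype _) := ⟨_, hsQ.2, rfl⟩
  obtain ⟨π, r, S, h⟩ := S.exists_twist (n := 85) (by omega) ((S.ty_two a hs hs1).trans (by decide +kernel))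
  have P := S.lp a hs1
  obtain ⟨b, c⟩ := S.im_R P (S.card_cj g) h
  obtain ⟨j, j1, j2⟩ := S.exists_j
  have eX : X.map j = LF.St LF.H0 (LF.dc 85) := by
    rw [hX, Subgroup.map_map, j2, ← S.range_eq, ← h]; exact S.im_cent a (S.π_ne P)
  have eE : E.map j = LF.E0 := by rw [hE, Subgroup.map_map, j2]; exact b
  have mX : ∀ x, x ∈ X ↔ j x ∈ LF.St LF.H0 (LF.dc 85) := fun x => by rw [← eX, Subgroup.mem_map_iff_mem j1]
  have mE : ∀ x, x ∈ E ↔ j x ∈ LF.E0 := fun x => by rw [← eE, Subgroup.mem_map_iff_mem j1]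
  obtain ⟨θ, θ1, θ2⟩ := LF.exists_theta0
  let ψ := θ.comp ((j.domRestrict X).codRestrict _ fun x => (mX x).1 x.2)
  have k : E.subgroupOf X = ψ.ker := Subgroup.ext fun x => ((θ2 _).trans (mE x).symm).symm
  have le : E ≤ X := by
    rw [hE, hX]
    exact Subgroup.map_mono (Subgroup.comap_mono fun x hx => ⟨hx.2, P.hS.toES.le_cent1 hx.1⟩)
  have n : (E.subgroupOf X).Normal := k ▸ ψ.normal_ker
  have sq : ∀ x ∈ E, x ^ 2 = 1 := fun x hx => by
    rw [hE] at hx
    obtain ⟨y, hy, rfl⟩ := hx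
    rw [← map_pow]
    refine (QuotientGroup.eq_one_iff _).2 ((Subgroup.mem_map_iff_mem Subtype.val_injective).1
      (Subgroup.zpowers_le.2 a (P.hS.toES.mem_zp.2 ?_)))
    rw [pow_two]; exact P.hS.sq _ hy.1
  have ea : ∀ {H : Type _} [Group H] (B : Subgroup H), (∀ x ∈ B, x ^ 2 = 1) → IsElementaryAbelian 2 B :=
    fun B hB => ⟨⟨⟨fun x y => Subtype.ext (by
      have e : ∀ x ∈ B, x⁻¹ = x := fun x hx => inv_eq_of_mul_eq_one_right (by rw [← pow_two, hB x hx])
      change x.1 * y.1 = y.1 * x.1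
      rw [← e _ (B.mul_mem x.2 y.2), mul_inv_rev, e _ x.2, e _ y.2])⟩⟩, hB⟩
  refine ⟨ea _ fun x hx => (pow_two x).trans (P.E_sq hx), c, le, fun x hx y hy => n.1 ⟨y, le hy⟩ hy ⟨x, hx⟩,
    ea _ sq, by rw [← LF.card_E0, ← eE, Subgroup.card_map_of_injective j1], n,
    ⟨(QuotientGroup.quotientMulEquivOfEq k).trans (QuotientGroup.quotientKerEquivOfSurjective ψ fun σ => ?_)⟩⟩
  obtain ⟨⟨_, hy⟩, rfl⟩ := θ1 σ
  obtain ⟨y, hy', rfl⟩ := eX.ge hy
  exact ⟨⟨y, hy'⟩, rfl⟩

end Cfsg.Agent.S5442
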