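import Cfsg.Statements.S5443
import Cfsg.Agent.LF.Det
import Cfsg.Agent.LF.O6

set_option autoImplicit false
open Cfsg

namespace Cfsg.Agent.S5443

/-- Let G be a finite group of large Fischer type at the involution z: the generalized Fitting subgroup Q of H = C_G(z) is extraspecial of order 2^13, H has normal subgroups Q ≤ H₁ ≤ H₂ with H₁/Q of order 3, H₂/H₁ the projective special unitary group of dimension 4 over the field with nine elements and H₂ of index 2 in H, and some conjugate of z other than z lies in Q. Let t be an involution of Q not conjugate to z in G, and S the set of elements of H conjugating t to t or to t z (the stabilizer of the image of t in Q modulo its centre). Then the image of S in H/Q is isomorphic to the full isometry group of the elliptic quadratic form in dimension 6 over the field with two elements. -/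
theorem result {G : Type*} [Group G] [Finite G] (z : G) (Q : Subgroup (Subgroup.centralizer ({z} : Set G))) [Q.Normal] (hF : Cfsg.IsOfLargeFischerTypeAt z Q) (t : Subgroup.centralizer ({z} : Set G)) (htQ : t ∈ Q) (ht2 : orderOf t = 2) (ht : ¬ IsConj z (t : G)) (S : Subgroup (Subgroup.centralizer ({z} : Set G))) (hS : ∀ h : Subgroup.centralizer ({z} : Set G), h ∈ S ↔ (h * t * h⁻¹ = t ∨ ((h * t * h⁻¹ : Subgroup.centralizer ({z} : Set G)) : G) = t * z)) : Nonempty (↥(S.map (QuotientGroup.mk' Q)) ≃* Cfsg.isometryGroup (ZMod 2) (Cfsg.quadFormMinus 2 (ZMod 2) 1 1)) := by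
  obtain ⟨π, r, S0⟩ := LF.exists_LB hF
  have a : t.1 ∈ Q.map (Subgroup.subtype _) := ⟨_, htQ, rfl⟩
  have b : t.1 ≠ 1 := fun e => by rw [show t = 1 from Subtype.ext e, orderOf_one] at ht2; omega
  obtain ⟨π, r, M, h⟩ := S0.exists_twist (n := 5) (by omega) ((S0.ty_one a
    (by rw [← pow_two, ← Subgroup.coe_pow, ← ht2, pow_orderOf_eq_one]; rfl) b ht).trans (by decide +kernel))
  obtain ⟨j, j1, j2⟩ := M.exists_j
  have e : (S.map (QuotientGroup.mk' Q)).map j = LF.St LF.H0 (LF.dc 5) := by
    have k : ∀ x, x ∈ S ↔ M.ρ x (LF.dc 5) = LF.dc 5 := fun x => by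
      rw [hS, Subtype.ext_iff, ← h, eq_comm (b := π t)]
      exact ((M.π_eq_iff a (M.conj_mem x.2 a)).symm.trans (by rw [M.act x x.2 _ a]; rfl))
    rw [Subgroup.map_map, j2, ← M.range_eq]
    exact Subgroup.ext fun y => ⟨fun ⟨x, c, d⟩ => d ▸ ⟨⟨x, rfl⟩, (k x).1 c⟩,
      fun ⟨⟨x, c⟩, d⟩ => ⟨x, (k x).2 (c ▸ d), c⟩⟩
  obtain ⟨f⟩ := LF.X1_equiv
  exact ⟨((Subgroup.equivMapOfInjective _ j j1).trans (MulEquiv.subgroupCongr e)).trans f⟩

end Cfsg.Agent.S5443
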