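import Cfsg.Statements.S5444
import Cfsg.Agent.LF.Th

set_option autoImplicit false
open Cfsg

namespace Cfsg.Agent.S5444

/-- Let G be a finite group of large Fischer type at the involution z: the generalized Fitting subgroup Q of H = C_G(z) is extraspecial of order 2^13, H has normal subgroups Q ≤ H₁ ≤ H₂ with H₁/Q of order 3, H₂/H₁ the projective special unitary group of dimension 4 over the field with nine elements and H₂ of index 2 in H, and some conjugate of z other than z lies in Q. Let T be a Sylow 2-subgroup of H. Then T has exactly one elementary abelian subgroup A of largest order; A has order 2^11, it meets Q in a subgroup of order 2^7, and its image in H/Q has order 16. -/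
theorem result {G : Type*} [Group G] [Finite G] (z : G) (Q : Subgroup (Subgroup.centralizer ({z} : Set G))) [Q.Normal] (hF : Cfsg.IsOfLargeFischerTypeAt z Q) (T : Sylow 2 ↥(Subgroup.centralizer ({z} : Set G))) : ∃ A : Subgroup ↥(T : Subgroup (Subgroup.centralizer ({z} : Set G))), Cfsg.maxElementaryAbelianSubgroups 2 ↥(T : Subgroup (Subgroup.centralizer ({z} : Set G))) = {A} ∧ Nat.card A = 2 ^ 11 ∧ Nat.card ↥(A.map (T : Subgroup (Subgroup.centralizer ({z} : Set G))).subtype ⊓ Q) = 2 ^ 7 ∧ Nat.card ↥((A.map (T : Subgroup (Subgroup.centralizer ({z} : Set G))).subtype).map (QuotientGroup.mk' Q)) = 16 := by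
  obtain ⟨π, r, S⟩ := LF.exists_LB hF
  obtain ⟨g, g1, g2⟩ := GT.syl_exists_conj_le Nat.prime_two (GT.syl_of_sylow Nat.prime_two T)
    (TT2.isPGroup_of_elem S.A_sq) S.A_le
  have q := GT.conj_eq_self_iff.2 (S.nQ g1)
  have c7 := S.card_pq LF.P0
  rw [LF.card_P0, ← S.A_inf, ← GT.card_conj g, GT.conj_inf, q] at c7
  have s := LF.sq_cj S.A_sq g
  have c := (GT.card_conj g S.A).trans S.card_A
  generalize Subgroup.map (MulAut.conj g).toMonoidHom S.A = B at g2 c7 s c
  let f := (Subgroup.subtype _).comp (T : Subgroup (Subgroup.centralizer ({z} : Set G))).subtype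
  have fi : Function.Injective f := (Subgroup.subtype_injective _).comp (Subgroup.subtype_injective _)
  have fr : f.range = (T : Subgroup (Subgroup.centralizer ({z} : Set G))).map (Subgroup.subtype _) := by
    rw [MonoidHom.range_comp, Subgroup.range_subtype]
  have e : (B.comap f).map f = B := Subgroup.map_comap_eq_self (fr ▸ g2)
  have c1 : Nat.card (B.comap f) = 2 ^ 11 := by rw [← Subgroup.card_map_of_injective fi, e, c]
  have key : ∀ D, IsElementaryAbelian 2 D → 2 ^ 11 ≤ Nat.card D → D = B.comap f := fun D a b => by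
    rw [← S.uniq11 (F := D.map f) (T.isPGroup'.map _) (by
      rintro _ ⟨b, hb, rfl⟩; rw [← map_mul, TT2.isElem_iff.1 a b hb, map_one])
      (by rwa [Subgroup.card_map_of_injective fi]) (fr ▸ Subgroup.map_le_range _ _) s c.ge g2,
      Subgroup.comap_map_eq_self_of_injective fi]
  have h1 : IsElementaryAbelian 2 (B.comap f) := TT2.isElem_iff.2 fun a ha => fi (by rw [map_mul, s _ ha, map_one])
  have c2 : Nat.card ↥((B.comap f).map (Subgroup.subtype _) ⊓ Q) = 2 ^ 7 := by
    rw [← Subgroup.card_map_of_injective (Subgroup.subtype_injective _),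
      Subgroup.map_inf _ _ _ (Subgroup.subtype_injective _), Subgroup.map_map, e, c7]; rfl
  refine ⟨B.comap f, Set.ext fun D => ⟨fun h => key D h.1 (c1 ▸ h.2 _ h1), ?_⟩, c1, c2, ?_⟩
  · rintro rfl
    exact ⟨h1, fun D a => (le_total _ _).elim id fun h => by rw [key D a (c1 ▸ h)]⟩
  · have := GT.card_mul_relIndex (inf_le_left (a := (B.comap f).map (Subgroup.subtype _)) (b := Q))
    rw [c2, Subgroup.card_subtype, c1, Subgroup.inf_relIndex_left] at this
    rw [← Subgroup.relIndex_ker, QuotientGroup.ker_mk']
    omega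

end Cfsg.Agent.S5444
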