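import Cfsg.Statements.S5447
import Cfsg.Agent.LF.Cx

set_option autoImplicit false
open Cfsg

namespace Cfsg.Agent.S5447

/-- Let G be a finite group of large Fischer type at the involution z: the generalized Fitting subgroup Q of H = C_G(z) is extraspecial of order 2^13, H has normal subgroups Q ≤ H₁ ≤ H₂ with H₁/Q of order 3, H₂/H₁ the projective special unitary group of dimension 4 over the field with nine elements and H₂ of index 2 in H, and some conjugate of z other than z lies in Q. Let T be a Sylow 2-subgroup of G, A its Thompson subgroup and M = N_G(A) its normalizer. Then M controls fusion in A (elements of A conjugate in G are conjugate in M), and M has exactly two orbits on the non-identity elements of A: those conjugate to z in G and those not. -/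
theorem result {G : Type*} [Group G] [Finite G] (z : G) (Q : Subgroup (Subgroup.centralizer ({z} : Set G))) [Q.Normal] (hF : Cfsg.IsOfLargeFischerTypeAt z Q) (T : Sylow 2 G) (A M : Subgroup G) (hA : A = Cfsg.thompsonSubgroupOf 2 (T : Subgroup G)) (hM : M = Subgroup.normalizer (A : Set G)) : (∀ a ∈ A, ∀ g : G, g * a * g⁻¹ ∈ A → ∃ m ∈ M, m * a * m⁻¹ = g * a * g⁻¹) ∧ (∃ a ∈ A, a ≠ 1 ∧ IsConj z a) ∧ (∃ a ∈ A, a ≠ 1 ∧ ¬ IsConj z a) ∧ ∀ a ∈ A, ∀ b ∈ A, a ≠ 1 → b ≠ 1 → (IsConj z a ↔ IsConj z b) → ∃ m ∈ M, m * a * m⁻¹ = b := by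
  obtain ⟨π, r, S⟩ := LF.exists_LB hF
  obtain ⟨g, e⟩ := S.exists_thompson T
  obtain ⟨x, X⟩ := (S.conj_ g).exists_x
  obtain ⟨T', μ, -, F⟩ := (S.conj_ g).exists_FS X
  rw [e] at hA
  subst hA hM
  have c : IsConj z (g * z * g⁻¹) := isConj_iff.2 ⟨g, rfl⟩
  have n : ∀ {a}, ¬IsConj z a ↔ ¬IsConj (g * z * g⁻¹) a := not_congr ⟨c.symm.trans, c.trans⟩
  refine ⟨fun a ha k => (S.conj_ g).fusion ha, ⟨_, (S.conj_ g).z_A, (S.conj_ g).ne, c⟩,
    ⟨T' 1, F.co.mem 1, fun h => by simpa using F.co.inj 1 (by omega) h,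
      n.2 ((F.cls 1 (by omega) (by omega)).2 (by decide +kernel))⟩, fun a ha b hb a1 b1 h => ?_⟩
  by_cases k : IsConj z a
  · obtain ⟨u, rfl⟩ := isConj_iff.1 (k.symm.trans (h.1 k))
    exact (S.conj_ g).fusion ha hb
  · obtain ⟨Y, y, rfl⟩ := F.exists_duad ha a1 (n.1 k)
    obtain ⟨Y', y', rfl⟩ := F.exists_duad hb b1 (n.1 (mt h.2 k))
    obtain ⟨m, -, d⟩ := F.exists_conj y y'
    exact ⟨m, m.2, d⟩

end Cfsg.Agent.S5447
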