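import Cfsg.Statements.S5448
import Cfsg.Agent.LF.Cx

set_option autoImplicit false
open scoped Pointwise
open Cfsg

namespace Cfsg.Agent.S5448

/-- Let G be a finite group of large Fischer type at the involution z: the generalized Fitting subgroup Q of H = C_G(z) is extraspecial of order 2^13, H has normal subgroups Q ≤ H₁ ≤ H₂ with H₁/Q of order 3, H₂/H₁ the projective special unitary group of dimension 4 over the field with nine elements and H₂ of index 2 in H, and some conjugate of z other than z lies in Q. Let T be a Sylow 2-subgroup of G, A its Thompson subgroup, M = N_G(A) its normalizer, and t an involution of A not conjugate to z in G. Then the centralizer of t in M, modulo A, is isomorphic to the setwise stabilizer of a two-element subset of the 24 points in the Mathieu group of degree 24 (the automorphism group of the smaller Mathieu group on 22 points). -/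
theorem result {G : Type*} [Group G] [Finite G] (z : G) (Q : Subgroup (Subgroup.centralizer ({z} : Set G))) [Q.Normal] (hF : Cfsg.IsOfLargeFischerTypeAt z Q) (T : Sylow 2 G) (A M : Subgroup G) (hA : A = Cfsg.thompsonSubgroupOf 2 (T : Subgroup G)) (hM : M = Subgroup.normalizer (A : Set G)) (t : G) (htA : t ∈ A) (ht2 : orderOf t = 2) (ht : ¬ IsConj z t) : ∃ _ : (A.subgroupOf (M ⊓ Subgroup.centralizer ({t} : Set G))).Normal, Nonempty (↥(M ⊓ Subgroup.centralizer ({t} : Set G)) ⧸ A.subgroupOf (M ⊓ Subgroup.centralizer ({t} : Set G)) ≃* ↥(Cfsg.M24 ⊓ MulAction.stabilizer (Equiv.Perm Cfsg.GolayPt) ({none, some 0} : Set Cfsg.GolayPt))) := by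
  obtain ⟨π, r, S⟩ := LF.exists_LB hF
  obtain ⟨g, e⟩ := S.exists_thompson T
  obtain ⟨x, X⟩ := (S.conj_ g).exists_x
  obtain ⟨T', μ, -, F⟩ := (S.conj_ g).exists_FS X
  rw [e] at hA
  subst hA hM
  obtain ⟨Y, y, rfl⟩ := F.exists_duad htA (TT.ne_one_of_orderOf ht2)
    fun h => ht ((isConj_iff.2 ⟨g, rfl⟩ : IsConj z _).trans h)
  have y' : ({none, some 0} : Finset GolayPt).card = 2 := rfl
  obtain ⟨m, d, -⟩ := F.exists_conj y y'
  have k : ∀ n : Subgroup.normalizer ((S.conj_ g).A : Set G), (n : G) ∈ Subgroup.centralizer {T' (LF.tv (M24.mask Y))} ↔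
      ((μ (m * n * m⁻¹) : M24) : Equiv.Perm GolayPt) ∈
        MulAction.stabilizer (Equiv.Perm GolayPt) ({none, some 0} : Set GolayPt) := fun n => by
    rw [Subgroup.mem_centralizer_singleton_iff, ← mul_inv_eq_iff_eq_mul, F.conj n Y (by rw [y]; decide),
      MulAction.mem_stabilizer_iff, ← Finset.coe_pair, ← Finset.coe_smul_finset, Finset.coe_inj, ← M24.M24_smul_def,
      ← d, ← mul_smul, ← map_mul, inv_mul_cancel_right, map_mul, mul_smul, smul_left_cancel_iff]
    exact ⟨F.co.duad_inj (by rw [LF.card_smul24, y]) y, fun h => by rw [h]⟩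
  let φ := (M24.subtype.comp ((μ.comp (MulAut.conj m).toMonoidHom).comp (Subgroup.inclusion inf_le_left))).codRestrict
    (M24 ⊓ MulAction.stabilizer (Equiv.Perm GolayPt) ({none, some 0} : Set GolayPt))
    fun n => ⟨Subtype.property _, (k _).1 n.2.2⟩
  have hφ : (S.conj_ g).A.subgroupOf _ = φ.ker := Subgroup.ext fun n => by
    exact ((Subgroup.mem_normalizer_iff.1 m.2 _).trans (F.ker (m * ⟨n, n.2.1⟩ * m⁻¹)).symm).trans
      (Subtype.ext_iff.trans (Subtype.ext_iff (a1 := φ n) (a2 := 1)).symm)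
  have : ((S.conj_ g).A.subgroupOf _).Normal := hφ ▸ φ.normal_ker
  refine ⟨this, ⟨(QuotientGroup.quotientMulEquivOfEq hφ).trans
    (QuotientGroup.quotientKerEquivOfSurjective φ fun p => ?_)⟩⟩
  obtain ⟨n, a⟩ := F.onto ⟨p, p.2.1⟩
  have b : μ (m * (m⁻¹ * n * m) * m⁻¹) = ⟨p, p.2.1⟩ := by rw [← a]; congr 1; group
  exact ⟨⟨(m⁻¹ * n * m :), (m⁻¹ * n * m).2, (k _).2 (b ▸ p.2.2)⟩, Subtype.ext (congrArg (Subtype.val (p := (· ∈ M24))) b)⟩

end Cfsg.Agent.S5448
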