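import Cfsg.Statements.S5449
import Cfsg.Agent.LF.U6b

set_option autoImplicit false
open Cfsg

namespace Cfsg.Agent.S5449

/-- Let G be a finite group of large Fischer type at the involution z: the generalized Fitting subgroup Q of H = C_G(z) is extraspecial of order 2^13, H has normal subgroups Q ≤ H₁ ≤ H₂ with H₁/Q of order 3, H₂/H₁ the projective special unitary group of dimension 4 over the field with nine elements and H₂ of index 2 in H, and some conjugate of z other than z lies in Q. Then Q contains a four-group E, not containing z and containing an involution not conjugate to z in G, whose centralizer in G is quasisimple with quotient by E isomorphic to the projective special unitary group of dimension 6 over the field with four elements. -/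
theorem result {G : Type*} [Group G] [Finite G] (z : G) (Q : Subgroup (Subgroup.centralizer ({z} : Set G))) [Q.Normal] (hF : Cfsg.IsOfLargeFischerTypeAt z Q) : ∃ E : Subgroup G, E ≤ (Q.map (Subgroup.centralizer ({z} : Set G)).subtype) ∧ Cfsg.IsElementaryAbelian 2 E ∧ Nat.card E = 4 ∧ z ∉ E ∧ (∃ t ∈ E, orderOf t = 2 ∧ ¬ IsConj z t) ∧ Cfsg.IsQuasisimple ↥(Subgroup.centralizer (E : Set G)) ∧ ∃ (_ : (E.subgroupOf (Subgroup.centralizer (E : Set G))).Normal) (K : Type) (_ : Field K) (_ : Fintype K), Fintype.card K = 4 ∧ Nonempty (↥(Subgroup.centralizer (E : Set G)) ⧸ E.subgroupOf (Subgroup.centralizer (E : Set G)) ≃* Cfsg.PSU 6 K 2) := by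
  obtain ⟨π, r, S⟩ := LF.exists_LB hF
  obtain ⟨x, T, μ, σ, δ, C⟩ := S.exists_UD
  obtain ⟨a, -, ψ, b, c⟩ := C.quasi
  have : ((LF.Eg T).subgroupOf (LF.Yg T)).Normal := c ▸ ψ.normal_ker
  refine ⟨LF.Eg T, fun y h => ?_, TT2.isElem_iff.2 fun y h => ?_, C.card_Eg, fun h => ?_,
    ⟨T 1, C.mem_Eg.2 ⟨1, by omega, rfl⟩, C.T_ncj (by decide +kernel)⟩, ?_⟩
  · exact let ⟨n, d, e⟩ := C.mem_Eg.1 h; e ▸ (C.Tp n (by omega)).1
  · exact let ⟨n, _, e⟩ := C.mem_Eg.1 h; e ▸ C.co.sq n
  · obtain ⟨n, d, e⟩ := C.mem_Eg.1 h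
    exact absurd (C.co.eq (b := 1024) (by omega) (by omega) (e.trans C.Tz.symm)) (by omega)
  · rw [LF.cent_Eg]
    exact ⟨a, this, LF.K4, _, _, LF.card_K4, ⟨(QuotientGroup.quotientMulEquivOfEq c.symm).trans
      (QuotientGroup.quotientKerEquivOfSurjective ψ b)⟩⟩

end Cfsg.Agent.S5449
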