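import Cfsg.Statements.S5450
import Cfsg.Agent.LF.F22b

set_option autoImplicit false
open Cfsg

namespace Cfsg.Agent.S5450

/-- Let G be a finite group of large Fischer type at the involution z: the generalized Fitting subgroup Q of H = C_G(z) is extraspecial of order 2^13, H has normal subgroups Q ≤ H₁ ≤ H₂ with H₁/Q of order 3, H₂/H₁ the projective special unitary group of dimension 4 over the field with nine elements and H₂ of index 2 in H, and some conjugate of z other than z lies in Q. Let t be an involution of Q not conjugate to z in G, and K the generalized Fitting subgroup of the centralizer of t. Then K is quasisimple of index 2 in the centralizer of t, contains t, and the centralizer of t modulo the subgroup generated by t is isomorphic to the full automorphism group of the Fischer group Fi₂₂ (as presented). -/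
theorem result {G : Type*} [Group G] [Finite G] (z : G) (Q : Subgroup (Subgroup.centralizer ({z} : Set G))) [Q.Normal] (hF : Cfsg.IsOfLargeFischerTypeAt z Q) (t : G) (htQ : ∃ htc : t ∈ Subgroup.centralizer ({z} : Set G), (⟨t, htc⟩ : Subgroup.centralizer ({z} : Set G)) ∈ Q) (ht2 : orderOf t = 2) (ht : ¬ IsConj z t) (K : Subgroup ↥(Subgroup.centralizer ({t} : Set G))) (hK : K = Cfsg.generalizedFittingSubgroup ↥(Subgroup.centralizer ({t} : Set G))) [hn : ((Subgroup.zpowers t).subgroupOf (Subgroup.centralizer ({t} : Set G))).Normal] : Cfsg.IsQuasisimple ↥K ∧ K.index = 2 ∧ (∃ htc : t ∈ Subgroup.centralizer ({t} : Set G), (⟨t, htc⟩ : ↥(Subgroup.centralizer ({t} : Set G))) ∈ K) ∧ Nonempty (↥(Subgroup.centralizer ({t} : Set G)) ⧸ (Subgroup.zpowers t).subgroupOf (Subgroup.centralizer ({t} : Set G)) ≃* MulAut Cfsg.Spor.Fi22) := by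
  obtain ⟨π, r, S⟩ := LF.exists_LB hF
  obtain ⟨x, T, μ, σ, δ, C⟩ := S.exists_UD
  obtain ⟨L, U⟩ := C.exists_UK
  obtain ⟨a, b, -⟩ := C.Tp 1 (by omega)
  obtain ⟨c, d⟩ := htQ
  have q : t ∈ Q.map (Subgroup.centralizer {z}).subtype := ⟨_, d, rfl⟩
  obtain ⟨g, -, e⟩ := S.conj_of_ty q a (by rw [b, Ne, ← LF.ty_eq_zero]; decide +kernel) (by
    rw [S.ty_one q (TT.mul_self_of_orderOf ht2) (TT.ne_one_of_orderOf ht2) ht, b]; decide +kernel)
  let φ := (GT.conjEquiv g (Subgroup.centralizer {t})).trans (MulEquiv.subgroupCongr ((GT.conj_cent1 g t).trans (by rw [e])))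
  let ι := (Subgroup.subtype _).comp φ.toMonoidHom
  have i : Function.Injective ι := (Subgroup.subtype_injective _).comp φ.injective
  have j : ι.range = Subgroup.centralizer {T 1} := by
    rw [MonoidHom.range_comp, MonoidHom.range_eq_top.2 φ.surjective, ← MonoidHom.range_eq_map, Subgroup.range_subtype]
  have k : K.map ι = L := by rw [hK, ← TT.fstarOf_top, TT.fstarOf_map i, ← MonoidHom.range_eq_map, j, C.K_fstar U]
  have l : K = L.comap ι := by rw [← k, Subgroup.comap_map_eq_self_of_injective i]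
  obtain ⟨⟨ψ⟩, -, α, m, n, -⟩ := C.aut U
  refine ⟨TT.qs_iff.1 ((TT.qs_map_iff i).1 (k ▸ TT.qs_iff.2 (C.K_qs U).1)),
    by rw [l, Subgroup.index_comap, j, C.K_idx U], ⟨GT.self_mem_cent1 t, l.ge (e ▸ U.Y (C.TY 1) :)⟩,
    ⟨(QuotientGroup.quotientMulEquivOfEq ?_).trans ((QuotientGroup.quotientKerEquivOfSurjective
      (α.comp φ.toMonoidHom) (m.comp φ.surjective)).trans (MulAut.congr ψ))⟩⟩
  rw [← MonoidHom.comap_ker, n]
  ext y
  change (y : G) ∈ Subgroup.zpowers t ↔ g * y * g⁻¹ ∈ Subgroup.zpowers (T 1)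
  rw [← GT.conj_mem_conj (g := g), GT.conj_zpowers, e]

end Cfsg.Agent.S5450
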