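import Cfsg.Statements.S5451
import Cfsg.Agent.LF.Cent3

set_option autoImplicit false
open Cfsg

namespace Cfsg.Agent.S5451

/-- Let G be a finite group of large Fischer type at the involution z: the generalized Fitting subgroup Q of H = C_G(z) is extraspecial of order 2^13, H has normal subgroups Q ≤ H₁ ≤ H₂ with H₁/Q of order 3, H₂/H₁ the projective special unitary group of dimension 4 over the field with nine elements and H₂ of index 2 in H, and some conjugate of z other than z lies in Q. Let X be a subgroup of H of order 3 whose product with Q is normal in H (X maps onto the normal subgroup of order 3 of H/Q). Then the centralizer of X in H is quasisimple with cyclic centre of order 6 and central quotient isomorphic to the projective special unitary group of dimension 4 over the field with nine elements. -/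
theorem result {G : Type*} [Group G] [Finite G] (z : G) (Q : Subgroup (Subgroup.centralizer ({z} : Set G))) [Q.Normal] (hF : Cfsg.IsOfLargeFischerTypeAt z Q) (X : Subgroup (Subgroup.centralizer ({z} : Set G))) (hX : Nat.card X = 3) (hXQ : (X ⊔ Q).Normal) : Cfsg.IsQuasisimple ↥(Subgroup.centralizer ((X : Subgroup (Subgroup.centralizer ({z} : Set G))) : Set (Subgroup.centralizer ({z} : Set G)))) ∧ IsCyclic ↥(Subgroup.center ↥(Subgroup.centralizer ((X : Subgroup (Subgroup.centralizer ({z} : Set G))) : Set (Subgroup.centralizer ({z} : Set G))))) ∧ Nat.card ↥(Subgroup.center ↥(Subgroup.centralizer ((X : Subgroup (Subgroup.centralizer ({z} : Set G))) : Set (Subgroup.centralizer ({z} : Set G))))) = 6 ∧ ∃ (K : Type) (_ : Field K) (_ : Fintype K), Fintype.card K = 9 ∧ Nonempty (↥(Subgroup.centralizer ((X : Subgroup (Subgroup.centralizer ({z} : Set G))) : Set (Subgroup.centralizer ({z} : Set G)))) ⧸ Subgroup.center ↥(Subgroup.centralizer ((X : Subgroup (Subgroup.centralizer ({z} : Set G))) : Set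 (Subgroup.centralizer ({z} : Set G)))) ≃* Cfsg.PSU 4 K 3) := by
  obtain ⟨π, r, S⟩ := LF.exists_LB hF
  have k : ∀ h : Subgroup.centralizer ({z} : Set G), S.ρ h = 1 ↔ h ∈ Q := fun h =>
    (S.r_eq_one h.2).trans (Subgroup.mem_map_iff_mem (Subgroup.subtype_injective _))
  have := Fact.mk Nat.prime_three
  obtain ⟨⟨y, y1⟩, y2⟩ := exists_prime_orderOf_dvd_card' (G := X) 3 hX.symm.dvd
  rw [Subgroup.orderOf_mk] at y2
  have e : ∀ x ∈ X, orderOf x = 3 → Subgroup.zpowers x = X := fun x a b =>
    Subgroup.eq_of_le_of_card_ge (Subgroup.zpowers_le.2 a) (by rw [Nat.card_zpowers, hX, b])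
  have y3 : y ^ 3 = 1 := y2 ▸ pow_orderOf_eq_one y
  have a := LF.mem_zW_of_normal (k := S.ρ y) (S.memH y.2) (by rw [← map_pow, y3, map_one]) fun j hj => by
    obtain ⟨h, b, rfl⟩ := S.exK j hj
    obtain ⟨u, u1, q, q1, c⟩ := Subgroup.mem_sup_of_normal_right.1
      (hXQ.1 y (Subgroup.mem_sup_left y1) ⟨h, b⟩)
    have := congrArg S.ρ c
    rw [map_mul, (k q).2 q1, mul_one, map_mul, map_mul, map_inv] at this
    rw [← MonoidHom.map_zpowers, e y y1 y2]
    exact ⟨u, u1, this⟩
  have b : S.ρ y ≠ 1 := fun b => by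
    have := orderOf_dvd_of_pow_eq_one (x := y) (Subtype.ext (S.toES.pow_four ⟨y, (k y).1 b, rfl⟩))
    rw [y2] at this; omega
  obtain ⟨x, x1, x2⟩ : LF.W ∈ X.map S.ρ := by
    rw [← e y y1 y2, MonoidHom.map_zpowers, Subgroup.eq_of_le_of_card_ge (Subgroup.zpowers_le.2 a) (by
      rw [Nat.card_zpowers, Nat.card_zpowers, LF.orderOf_W, orderOf_eq_prime (by rw [← map_pow, y3, map_one]) b])]
    exact Subgroup.mem_zpowers _
  have x3 : x ^ 3 = 1 := congrArg Subtype.val (hX ▸ pow_card_eq_one' (x := (⟨x, x1⟩ : X)))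
  have x4 := e x x1 (orderOf_eq_prime x3 fun h => by
    have := LF.orderOf_W; rw [← x2, h, map_one, orderOf_one] at this; omega)
  obtain ⟨c1, c2, c3, ⟨c4⟩⟩ := S.cent_x ⟨x.2, x2, by rw [← pow_three']; exact congrArg Subtype.val x3⟩
    ((Subgroup.subtype _).comp (Subgroup.centralizer (X : Set (Subgroup.centralizer ({z} : Set G)))).subtype)
    ((Subgroup.subtype_injective _).comp (Subgroup.subtype_injective _)) (by
      rw [MonoidHom.range_comp, Subgroup.range_subtype, ← x4, GT.cent_zpowers]
      exact Subgroup.ext fun g => ⟨fun ⟨h, a, b⟩ => b ▸ ⟨h.2, GT.mem_cent1.2 (congrArg Subtype.val (GT.mem_cent1.1 a))⟩,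
        fun h => ⟨⟨g, h.1⟩, GT.mem_cent1.2 (Subtype.ext (GT.mem_cent1.1 h.2)), rfl⟩⟩) _ Leech.U43.card_K9
  have := LF.simple_psu43 Leech.U43.card_K9
  exact ⟨⟨c1, c4.isSimpleGroup⟩, c2, c3, _, _, _, Leech.U43.card_K9, ⟨c4⟩⟩

end Cfsg.Agent.S5451
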