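import Cfsg.Statements.S5454
import Cfsg.Agent.TT2.Amb
import Cfsg.Agent.TT2.Thom

set_option autoImplicit false
open Cfsg

namespace Cfsg.Agent.S5454

/-- Let G be a finite group with an involution d whose centralizer C is quasisimple with C modulo the subgroup generated by d isomorphic to the projective special unitary group of dimension 6 over the field with four elements, and suppose some conjugate of d other than d commutes with d. Let S be a Sylow 2-subgroup of C and A the Thompson subgroup of S (generated by the elementary abelian subgroups of S of largest order), regarded as a subgroup of G. Then A is elementary abelian of order 2^10, exactly 22 conjugates of d lie in A, and the normalizer of A permutes them transitively. -/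
theorem result {G : Type*} [Group G] [Finite G] (d : G) (hd : orderOf d = 2) (hq : Cfsg.IsQuasisimple ↥(Subgroup.centralizer ({d} : Set G))) [hzn : ((Subgroup.zpowers d).subgroupOf (Subgroup.centralizer ({d} : Set G))).Normal] (K : Type) [Field K] [Fintype K] (hK : Fintype.card K = 4) (e : ↥(Subgroup.centralizer ({d} : Set G)) ⧸ (Subgroup.zpowers d).subgroupOf (Subgroup.centralizer ({d} : Set G)) ≃* Cfsg.PSU 6 K 2) (hnwc : ∃ g : G, g * d * g⁻¹ ∈ Subgroup.centralizer ({d} : Set G) ∧ g * d * g⁻¹ ≠ d) (S : Sylow 2 ↥(Subgroup.centralizer ({d} : Set G))) (A : Subgroup G) (hA : A = (Cfsg.thompsonSubgroupOf 2 (S : Subgroup ↥(Subgroup.centralizer ({d} : Set G)))).map (Subgroup.centralizer ({d} : Set G)).subtype) : Cfsg.IsElementaryAbelian 2 A ∧ Nat.card A = 2 ^ 10 ∧ Set.ncard {x : G | x ∈ A ∧ IsConj d x} = 22 ∧ ∀ x ∈ A, ∀ y ∈ A, IsConj d x → IsConj d y → ∃ n ∈ Subgroup.normalizer (A : Set G), n * x * n⁻¹ = y := by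
  obtain ⟨τ, h⟩ := TT2.exists_Dbl hd hq.1 hK e
  have hu : TT2.UniqE d (TT2.Apl τ) := fun S h1 h2 => by rw [h.card_Apl]; exact h.syl h1 h2
  obtain ⟨h1, h2, h3, h4⟩ := hu.main (fun a ha => h.rep.Apl_sq ha) h.d_mem S hA
  refine ⟨h1, by rw [h2, h.card_Apl]; norm_num, h3.trans ?_, h4⟩
  have : {x | x ∈ TT2.Apl τ ∧ IsConj d x} = insert d (τ '' {k | (k : ℕ) < 21}) := by
    ext x
    constructor
    · rintro ⟨h5, h6⟩
      rcases h.cases h6 (h.rep.Apl_comm h.d_mem h5) with rfl | ⟨i, rfl⟩
      exacts [Or.inl rfl, Or.inr ⟨i, h.mem_Apl_iff.1 h5, rfl⟩]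
    · rintro (rfl | ⟨i, hi, rfl⟩)
      · exact ⟨h.d_mem, IsConj.refl _⟩
      · obtain ⟨g, h5, h6⟩ := hnwc
        exact ⟨TT2.mem_Apl hi,
          h.isConj ⟨g, (Subgroup.mem_centralizer_singleton_iff.1 h5).symm, h6⟩ i⟩
  rw [this, Set.ncard_insert_of_notMem (by rintro ⟨i, -, e⟩; exact h.ne i e),
    Set.ncard_image_of_injective _ h.rep.inj, TT2.ncard_lt21]

end Cfsg.Agent.S5454
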