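import Cfsg.Statements.S5459
import Cfsg.Agent.TT.Comp

set_option autoImplicit false
open Cfsg

namespace Cfsg.Agent.S5459

open Cfsg.Agent.TT Cfsg.Agent.GT Subgroup Relation

/-- Let G be a finite group with a quasisimple normal subgroup L and an involution d such that G is generated by L and d, the centre of L has odd order, and d inverts every element of the centre of L. If the commuting graph on the conjugacy class of the image of d in G modulo the centre of L is connected, then the commuting graph on the conjugacy class of d is connected. -/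
theorem result {G : Type*} [Group G] [Finite G] (L : Subgroup G) [L.Normal] (hL : Cfsg.IsQuasisimple ↥L) (d : G) (hd : orderOf d = 2) (hgen : L ⊔ Subgroup.zpowers d = ⊤) (hodd : Odd (Nat.card ↥(Subgroup.center ↥L))) (hinv : ∀ c ∈ (Subgroup.center ↥L).map L.subtype, d * c * d⁻¹ = c⁻¹) [hn : ((Subgroup.center ↥L).map L.subtype).Normal] (hconn : (Cfsg.commutingGraph (conjugatesOf (QuotientGroup.mk d : G ⧸ (Subgroup.center ↥L).map L.subtype))).Connected) : (Cfsg.commutingGraph (conjugatesOf d)).Connected := by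
  have hodd' : Odd (Nat.card ((center L).map L.subtype)) := by
    rwa [card_map_of_injective L.subtype_injective]
  have hZ : (center L).map L.subtype = L ⊓ C[L] := map_subtype_center L
  generalize (center L).map L.subtype = Z at *
  let r : G → G → Prop := fun x y => x ∈ conjugatesOf d ∧ y ∈ conjugatesOf d ∧ Commute x y
  have hD : ∀ g x : G, x ∈ conjugatesOf d → g * x * g⁻¹ ∈ conjugatesOf d := fun g x hx =>
    IsConj.trans hx (isConj_iff.2 ⟨g, rfl⟩)
  have hd0 : d ∈ conjugatesOf d := IsConj.refl d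
  have hcj : ∀ g x y : G, ReflTransGen r x y → ReflTransGen r (g * x * g⁻¹) (g * y * g⁻¹) :=
    fun g x y h => by
      induction h with
      | refl => rfl
      | tail _ e ih => exact ih.tail ⟨hD g _ e.1, hD g _ e.2.1, (commute_conj_iff g).2 e.2.2⟩
  have hsym : ∀ x y, ReflTransGen r x y → ReflTransGen r y x := fun x y h => by
    induction h with
    | refl => rfl
    | tail _ e ih => exact ih.head ⟨e.2.1, e.1, e.2.2.symm⟩
  have hinv' : ∀ x ∈ conjugatesOf d, ∀ c ∈ Z, x * c * x⁻¹ = c⁻¹ := fun x hx c hc => by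
    obtain ⟨g, rfl⟩ := isConj_iff.1 hx
    have := hinv _ (hn.conj_mem c hc g⁻¹)
    rw [← conj_inj_iff g⁻¹]
    simpa [mul_assoc] using this
  have hsqrt : ∀ c ∈ Z, ∃ e ∈ Z, e * e = c := fun c hc => by
    obtain ⟨k, hk⟩ := hodd'
    refine ⟨c ^ (k + 1), pow_mem hc _, ?_⟩
    have : c ^ (2 * k + 1) = 1 := by
      rw [← hk]; exact congrArg Subtype.val (pow_card_eq_one' (x := (⟨c, hc⟩ : Z)))
    rw [← pow_add, show k + 1 + (k + 1) = 2 * k + 1 + 1 by ring, pow_succ, this, one_mul]
  have hfib : ∀ x ∈ conjugatesOf d, ∀ c ∈ Z, ∃ e ∈ Z, x * c = e⁻¹ * x * e⁻¹⁻¹ := fun x hx c hc => by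
    obtain ⟨e, he, rfl⟩ := hsqrt c hc
    exact ⟨e, he, by rw [inv_inv, ← hinv' x hx e he]; group⟩
  have hlift : ∀ y : conjugatesOf (d : G ⧸ Z), ∃ x : G, (x : G ⧸ Z) = y ∧ x ∈ conjugatesOf d ∧
      ReflTransGen r d x := fun y => by
    have := (SimpleGraph.reachable_iff_reflTransGen _ _).1 (hconn.preconnected ⟨_, IsConj.refl _⟩ y)
    induction this with
    | refl => exact ⟨d, rfl, hd0, ReflTransGen.refl⟩
    | @tail a b _ hab ih =>
      obtain ⟨x, e, hx, hr⟩ := ih
      have hc : Commute (a : G ⧸ Z) b :=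
        ((SimpleGraph.fromRel_adj _ _ _).1 hab).2.elim id Commute.symm
      obtain ⟨g, hg⟩ := isConj_iff.1 b.2
      obtain ⟨g, rfl⟩ := QuotientGroup.mk_surjective g
      have hy := hD g d hd0
      have e' : ((g * d * g⁻¹ : G) : G ⧸ Z) = b := by simpa using hg
      generalize g * d * g⁻¹ = y at hy e'
      have : y⁻¹ * (x * y * x⁻¹) ∈ Z := by
        rw [← QuotientGroup.eq]; simp [e, e', hc.eq]
      obtain ⟨c, hc', e2⟩ := hsqrt _ this
      obtain ⟨f, -, e3⟩ := hfib y hy c hc'
      refine ⟨y * c, by simp [e', (QuotientGroup.eq_one_iff c).2 hc'], e3 ▸ hD _ y hy,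
        hr.tail ⟨hx, e3 ▸ hD _ y hy, commute_iff_conj.2 ?_⟩⟩
      rw [show x * (y * c) * x⁻¹ = y * (y⁻¹ * (x * y * x⁻¹)) * (x * c * x⁻¹) by group, ← e2,
        hinv' x hx c hc']
      group
  let S : Subgroup G :=
    { carrier := {g | ReflTransGen r d (g * d * g⁻¹)}
      one_mem' := by simpa using ReflTransGen.refl
      mul_mem' := fun {a b} ha hb => ReflTransGen.trans ha (by simpa [mul_assoc] using hcj a _ _ hb)
      inv_mem' := fun {a} ha => hsym _ _ (by simpa [mul_assoc] using hcj a⁻¹ _ _ ha) }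
  have hS : ∀ g : G, ∃ e ∈ Z, e * g ∈ S := fun g => by
    obtain ⟨x, e, hx, hr⟩ := hlift ⟨((g * d * g⁻¹ : G) : G ⧸ Z), isConj_iff.2 ⟨g, by simp⟩⟩
    obtain ⟨f, hf, e3⟩ := hfib x hx _ (QuotientGroup.eq.1 e)
    refine ⟨f, hf, ?_⟩
    show ReflTransGen r d (f * g * d * (f * g)⁻¹)
    rw [mul_inv_cancel_left] at e3
    rwa [show f * g * d * (f * g)⁻¹ = f * (g * d * g⁻¹) * f⁻¹ by group, e3, show
      f * (f⁻¹ * x * f⁻¹⁻¹) * f⁻¹ = x by group]
  have hLS : L ≤ S ⊓ L := (qs_iff.2 hL).le_of_le_sup (X := Z) (fun g hg => by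
      obtain ⟨e, he, h⟩ := hS g
      simpa using mul_mem (mem_sup_right (inv_mem he))
        (mem_sup_left (S := S ⊓ L) (T := Z) ⟨h, mul_mem (hZ.le he).1 hg⟩))
    (hZ.le.trans (inf_le_right.trans (cent_anti (sup_le inf_le_right (hZ.le.trans inf_le_left)))))
  have key : ∀ y, ReflTransGen r d y → ∀ hy : y ∈ conjugatesOf d,
      (commutingGraph (conjugatesOf d)).Reachable ⟨d, hd0⟩ ⟨y, hy⟩ := fun y h => by
    induction h with
    | refl => exact fun _ => SimpleGraph.Reachable.refl _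
    | @tail a b _ hab ih =>
      intro hb
      refine (ih hab.1).trans ?_
      by_cases e : a = b
      · subst e; rfl
      · exact SimpleGraph.Adj.reachable ((SimpleGraph.fromRel_adj _ _ _).2
          ⟨fun h => e (congrArg Subtype.val h), Or.inl hab.2.2⟩)
  rw [SimpleGraph.connected_iff_exists_forall_reachable]
  refine ⟨⟨d, hd0⟩, fun ⟨y, hy⟩ => key y ?_ hy⟩
  obtain ⟨g, rfl⟩ := isConj_iff.1 hy
  obtain ⟨e, he, h⟩ := hS g
  exact (mul_mem_cancel_left (H := S) (hLS (hZ.le he).1).1).1 h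

end Cfsg.Agent.S5459
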