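import Cfsg.Statements.S5461
import Cfsg.Agent.S5415
import Cfsg.Agent.P24.Mon
import Cfsg.Agent.P24.Ext

set_option autoImplicit false
open Cfsg

namespace Cfsg.Agent.S5461

open Cfsg.Agent.Leech Cfsg.Agent.M24 Cfsg.Agent.GT Cfsg.Agent.P24 Subgroup MulAction Cfsg.Spor

theorem qs_ext {C H : Type*} [Group C] [Group H] [IsSimpleGroup H] [Group.IsPerfect H] (φ : C →* H)
    (hφ : Function.Surjective φ) (h1 : φ.ker ≤ center C) (h2 : φ.ker ≤ commutator C) : IsQuasisimple C := by
  have z : center H = ⊥ := (IsSimpleGroup.eq_bot_or_eq_top_of_normal (center H) inferInstance).resolve_right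
    fun h => Group.IsPerfect.not_isMulCommutative H (center_eq_top_iff.1 h)
  have e : center C = φ.ker := le_antisymm (fun g hg => z.le (mem_center_iff.2 fun y => by
    obtain ⟨x, rfl⟩ := hφ y
    rw [← map_mul, ← map_mul, mem_center_iff.1 hg])) h1
  refine ⟨⟨?_⟩, ((QuotientGroup.quotientMulEquivOfEq e).trans
    (QuotientGroup.quotientKerEquivOfSurjective φ hφ)).isSimpleGroup⟩
  rw [← comap_map_eq_self h2, _root_.commutator_def, map_commutator, map_top_of_surjective _ hφ,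
    ← _root_.commutator_def, Group.IsPerfect.commutator_eq_top, comap_top]

theorem dich {G : Type*} [Group G] [Finite G] {b n : G} (ho : orderOf b = 3) (hn : n ∈ N[zpowers b]) :
    n ∈ C1[b] ∨ n * b * n⁻¹ = b⁻¹ := by
  classical
  have := mem_zpowers_iff_mem_range_orderOf.1 ((mem_normalizer_iff.1 hn b).1 (mem_zpowers b))
  rw [ho] at this
  obtain ⟨k, hk, e⟩ := Finset.mem_image.1 this
  rw [Finset.mem_range] at hk
  interval_cases k
  · rw [pow_zero, eq_comm, conj_eq_one_iff] at e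
    simp [e] at ho
  · exact Or.inl (mem_cent1.2 (mul_inv_eq_iff_eq_mul.1 (e.symm.trans (pow_one b))))
  · exact Or.inr (e.symm.trans (eq_inv_of_mul_eq_one_left (by rw [← pow_succ]; exact orderOf_dvd_iff_pow_eq_one.1 ho.dvd)))

/-- Let G be a finite group of Monster type at the involution z with Q the extraspecial normal subgroup of order 2^25 of C_G(z) (C_G(z)/Q identified with the first Conway group with Q modulo its centre the Leech lattice modulo 2, z not weakly closed in Q). Let s be a conjugate of z (in G) lying in Q and other than z, and Y a subgroup of order 3 of the joint centralizer of z and s lying in the centre of some Sylow 3-subgroup of it. Then the centralizer of Y is quasisimple, its quotient by Y is isomorphic to the commutator subgroup of the presented Fischer group Fi₂₄, and the normalizer of Y modulo Y is generated by a conjugacy class of 3-transpositions with respect to which it is of type M(24). -/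
theorem result {G : Type*} [Group G] [Finite G] (z : G) (Q : Subgroup (Subgroup.centralizer ({z} : Set G))) [Q.Normal] (hM : Cfsg.IsOfMonsterType z Q) (s : G) (hsQ : ∃ hsc : s ∈ Subgroup.centralizer ({z} : Set G), (⟨s, hsc⟩ : Subgroup.centralizer ({z} : Set G)) ∈ Q) (hs : IsConj z s) (hs1 : s ≠ z) (Y : Subgroup G) (hY : Y ≤ Subgroup.centralizer ({z, s} : Set G)) (hY3 : Nat.card Y = 3) (hc : ∃ P : Sylow 3 ↥(Subgroup.centralizer ({z, s} : Set G)), Y.subgroupOf (Subgroup.centralizer ({z, s} : Set G)) ≤ (Subgroup.center ↥(P : Subgroup ↥(Subgroup.centralizer ({z, s} : Set G)))).map (P : Subgroup ↥(Subgroup.centralizer ({z, s} : Set G))).subtype) [hn : (Y.subgroupOf (Subgroup.centralizer (Y : Set G))).Normal] [hn' : (Y.subgroupOf (Subgroup.normalizer (Y : Set G))).Normal] : Cfsg.IsQuasisimple ↥(Subgroup.centralizer (Y : Set G)) ∧ Cfsg.Spor.IsoFi24' (↥(Subgroup.centralizer (Y : Set G)) ⧸ Y.subgroupOf (Subgroup.centralizer (Y : Set G))) ∧ ∃ E : Set (↥(Subgroup.normalizer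 (Y : Set G)) ⧸ Y.subgroupOf (Subgroup.normalizer (Y : Set G))), Cfsg.IsThreeTranspositionClass E ∧ Cfsg.IsOfTypeM24 _ E := by
  obtain ⟨Q', Ψ, π, M, a⟩ := start hM hsQ hs hs1
  obtain ⟨b, hb, ho, e, σ, hσ, h⟩ := M.reduce' a hY Nat.prime_three (by decide) hY3
  obtain ⟨k, hk | hk⟩ := cls3 hσ <;> obtain ⟨Ψ, π, M, a, l⟩ := h _ _ hk
  swap
  · have := (M.dvd_iff a (hY hb) l ho orderOf_wB).1 ((central_iff e (hY hb) (ho ▸ pow_orderOf_eq_one b)
      (M.fact_cent2 a (n := 3) (m := 2 ^ 35 * 9067520) (by norm_num) (by norm_num))).1 hc)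
    rw [card_NB] at this
    norm_num at this
  obtain ⟨L, _, α, n, h1, h2, h3⟩ := S5415.good
  have bs : b ∈ C1[s] := (hY.trans (cent_pair z s ▸ inf_le_right)) hb
  clear hc hb
  subst e
  have o : Odd (orderOf b) := by rw [ho]; decide
  have e2 : C[zpowers b] = C1[b] := cent_zpowers b
  have le : C1[b] ≤ N[zpowers b] := e2 ▸ centralizer_le_normalizer _
  have zl : zpowers b ≤ C1[b] := zpowers_le.2 (self_mem_cent1 b)
  let f := QuotientGroup.mk' ((zpowers b).subgroupOf N[zpowers b])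
  let ρ := (f.comp (inclusion le)).rangeRestrict
  have k1 : ∀ n : N[zpowers b], f n = 1 ↔ n.1 ∈ zpowers b := fun n => QuotientGroup.eq_one_iff n
  have k2 : ∀ n, f n ∈ (f.comp (inclusion le)).range ↔ n.1 ∈ C1[b] := fun n =>
    ⟨fun ⟨c, hc⟩ => (mul_mem_cancel_left (inv_mem c.2)).1 (zl ((k1 ((inclusion le c)⁻¹ * n)).1 (by
      rw [map_mul, map_inv, inv_mul_eq_one]; exact hc))), fun h => ⟨⟨n, h⟩, rfl⟩⟩
  have k3 : ∀ c : C1[b], ρ c = 1 ↔ c.1 ∈ zpowers b := fun c => Subtype.ext_iff.trans (k1 _)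
  obtain ⟨θ, g1, g2, g3, g4, g5, -⟩ := id h1
  obtain ⟨z', Q', _, h4, ⟨e⟩, h5⟩ := odd_set M a bs l o (odd_prm orderOf_wA (by decide)) θ g1 g2 g3 g4 g5 ρ
    (MonoidHom.rangeRestrict_surjective _) (Subgroup.ext fun x => mem_kr.trans
      ⟨fun ⟨_, h⟩ => (k3 _).1 h, fun h => ⟨zl h, (k3 _).2 h⟩⟩)
  obtain ⟨t, t1, t2⟩ := exists_inv M l ho
  have idx : (f.comp (inclusion le)).range.index = 2 := index_eq_two_iff.2 ⟨f ⟨t, t1⟩, fun y => by
    obtain ⟨n, rfl⟩ := QuotientGroup.mk'_surjective _ y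
    change Xor' (f n * f _ ∈ _) (f n ∈ _)
    rw [← map_mul, k2, k2]
    by_cases c : n.1 ∈ C1[b]
    · exact Or.inr ⟨c, fun h => t2 ((mul_mem_cancel_left c).1 h)⟩
    · refine Or.inl ⟨mem_cent1.2 (mul_inv_eq_iff_eq_mul.1 ?_), c⟩
      calc n.1 * t * b * (n.1 * t)⁻¹ = n.1 * (t * b * t⁻¹) * n.1⁻¹ := by group
        _ = (n.1 * b * n.1⁻¹)⁻¹ := by rw [(dich ho t1).resolve_left t2]; group
        _ = b := by rw [(dich ho n.2).resolve_left c, inv_inv]⟩
  obtain ⟨r1, r2, r3, ⟨r4⟩⟩ := ext24 idx (S5415.fischer h4 e α h2 h3) fun y hy => by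
    obtain ⟨n, rfl⟩ := QuotientGroup.mk'_surjective _ y
    refine (k2 n).2 ((dich ho n.2).resolve_right fun c => cent_of_fix h1 M l ho c fun r hr hr' => ?_)
    have i := (hy _ (h5 ⟨r, hr'⟩ hr)).eq
    change f n * f ⟨r, le hr'⟩ = f ⟨r, le hr'⟩ * f n at i
    rw [← mul_inv_eq_iff_eq_mul, ← mul_inv_eq_one, ← map_inv, ← map_inv, ← map_mul, ← map_mul, ← map_mul, k1] at i
    change n.1 * r * n.1⁻¹ * r⁻¹ ∈ zpowers b at i
    have j : Commute (n.1 * r * n.1⁻¹ * r⁻¹) r := by
      obtain ⟨k, hk⟩ := i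
      rw [← hk]; exact (Commute.zpow_right (mem_cent1.1 hr') k).symm
    have m := j.mul_pow (2 ^ 2)
    rw [inv_mul_cancel_right, conj_pow, M.pow_four hr, mul_one, mul_one, mul_inv_cancel] at m
    exact mul_inv_eq_iff_eq_mul.1 (mul_inv_eq_one.1 (orderOf_eq_one_iff.1 (Nat.eq_one_of_dvd_coprimes
      (Nat.coprime_two_right.2 o |>.pow_right 2) (orderOf_dvd_of_mem_zpowers i)
      (orderOf_dvd_of_pow_eq_one m.symm))))
  let φ := ρ.comp (MulEquiv.subgroupCongr e2).toMonoidHom
  have hφ : Function.Surjective φ := (MonoidHom.rangeRestrict_surjective _).comp (MulEquiv.surjective _)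
  have kφ : (zpowers b).subgroupOf C[zpowers b] = φ.ker := Subgroup.ext fun c => (k3 ⟨c, e2.le c.2⟩).symm
  refine ⟨qs_ext φ hφ (fun c hc => mem_center_iff.2 fun x => Subtype.ext (x.2 _ (kφ.ge hc)).symm) fun c hc => ?_,
    ⟨((QuotientGroup.quotientMulEquivOfEq kφ).trans (QuotientGroup.quotientKerEquivOfSurjective φ hφ)).trans r4⟩, r1⟩
  obtain ⟨k, hk⟩ := kφ.ge hc
  have := zpow_mem (map_commutator ⊤ ⊤ (MulEquiv.subgroupCongr e2.symm).toMonoidHom ▸
    mem_map_of_mem (MulEquiv.subgroupCongr e2.symm).toMonoidHom (mem_comm M l ho)) k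
  rw [show (MulEquiv.subgroupCongr e2.symm).toMonoidHom ⟨b, self_mem_cent1 b⟩ ^ k = c from Subtype.ext hk] at this
  exact commutator_mono le_top le_top this

end Cfsg.Agent.S5461
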