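import Cfsg.Statements.S5462
import Cfsg.Agent.FA.L72
import Cfsg.Agent.Fi.Rec22

set_option autoImplicit false
open Cfsg

namespace Cfsg.Agent.S5462

open Cfsg.Agent.Fi Cfsg.Agent.FA Cfsg.Agent.GT Cfsg.Agent.TT Subgroup
open Cfsg.Agent.FM hiding Pts Mdl testBit_fixOf

theorem ck : ∀ a ∈ L72.reps, cdA.ap a 13 = 13 := by decide +kernel

/-- Let G be a finite group with trivial centre generated by a conjugation-invariant set D of 3-transpositions on which it acts primitively, such that for some d in D the subgroup generated by the members of D other than d commuting with d has central largest normal 2- and 3-subgroups, and suppose G with D is of type M(22). Then every automorphism of G of order 2 fixes some member of D. -/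
theorem result {G : Type*} [Group G] [Finite G] {D : Set G} (hD : Cfsg.IsThreeTranspositionGroup D) (hprim : Cfsg.IsPrimitiveUnderConj D) (d₀ : G) (hd₀ : d₀ ∈ D) (h3 : Cfsg.pCore 3 ↥(Subgroup.closure {y : G | y ∈ D ∧ y ≠ d₀ ∧ Commute d₀ y}) ≤ Subgroup.center ↥(Subgroup.closure {y : G | y ∈ D ∧ y ≠ d₀ ∧ Commute d₀ y})) (h2 : Cfsg.pCore 2 ↥(Subgroup.closure {y : G | y ∈ D ∧ y ≠ d₀ ∧ Commute d₀ y}) ≤ Subgroup.center ↥(Subgroup.closure {y : G | y ∈ D ∧ y ≠ d₀ ∧ Commute d₀ y})) (h22 : Cfsg.IsOfTypeM22 G D) (φ : MulAut G) (hφ : orderOf φ = 2) : ∃ d ∈ D, φ d = d := by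
  obtain ⟨β, h⟩ := rec22 hD hprim h22
  obtain ⟨A, hA⟩ := exists_am h
  by_cases c : φ ∈ Inn G
  · obtain ⟨g, rfl⟩ := c
    have k := hA.fix_inv (g := g) (by rwa [orderOf_injective _ hA.inj] at hφ)
    obtain ⟨d, h1, h2⟩ := Set.nonempty_of_ncard_ne_zero (s := {y | y ∈ D ∧ Commute g y}) fun e => by
      rw [e] at k; simp at k
    exact ⟨d, h1, mul_inv_eq_iff_eq_mul.2 h2.eq⟩
  · obtain ⟨a, h1, h2⟩ := L72.outer hA hφ c
    obtain ⟨ψ, e⟩ := isConj_iff.1 h2.symm
    refine ⟨_, aut_mem h ψ (h.mem 13 (by decide)), ?_⟩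
    simp [← e, hA.ap a (show 13 < 3510 by decide), ck a h1]

end Cfsg.Agent.S5462
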