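import Cfsg.Statements.S5463
import Cfsg.Agent.FM.S22
import Cfsg.Agent.Fi.Ge22

set_option autoImplicit false
open Cfsg

namespace Cfsg.Agent.S5463

/-- Let G be a finite group with trivial centre generated by a conjugation-invariant set D of 3-transpositions on which it acts primitively, such that for some d in D the subgroup generated by the members of D other than d commuting with d has central largest normal 2- and 3-subgroups, and suppose G with D is of type M(22). A product j of two distinct commuting members of D determines the pair: any two 2-element sets of commuting members of D with product j coincide. A product j of three distinct pairwise commuting members of D arises from exactly two such 3-element sets. -/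
theorem result {G : Type*} [Group G] [Finite G] {D : Set G} (hD : Cfsg.IsThreeTranspositionGroup D) (hprim : Cfsg.IsPrimitiveUnderConj D) (d₀ : G) (hd₀ : d₀ ∈ D) (h3 : Cfsg.pCore 3 ↥(Subgroup.closure {y : G | y ∈ D ∧ y ≠ d₀ ∧ Commute d₀ y}) ≤ Subgroup.center ↥(Subgroup.closure {y : G | y ∈ D ∧ y ≠ d₀ ∧ Commute d₀ y})) (h2 : Cfsg.pCore 2 ↥(Subgroup.closure {y : G | y ∈ D ∧ y ≠ d₀ ∧ Commute d₀ y}) ≤ Subgroup.center ↥(Subgroup.closure {y : G | y ∈ D ∧ y ≠ d₀ ∧ Commute d₀ y})) (h22 : Cfsg.IsOfTypeM22 G D) : (∀ (j : G) (l l' : List G), (l.Nodup ∧ l.length = 2 ∧ (∀ a ∈ l, a ∈ D) ∧ (∀ a ∈ l, ∀ b ∈ l, Commute a b) ∧ l.prod = j) → (l'.Nodup ∧ l'.length = 2 ∧ (∀ a ∈ l', a ∈ D) ∧ (∀ a ∈ l', ∀ b ∈ l', Commute a b) ∧ l'.prod = j) → (∀ x : G, x ∈ l ↔ x ∈ l')) ∧ ∀ (j : G) (l₀ : List G), (l₀.Nodup ∧ l₀.length = 3 ∧ (∀ a ∈ l₀, a ∈ D) ∧ (∀ a ∈ l₀, ∀ b ∈ l₀, Commute a b) ∧ l₀.prod = j) → ∃ l₁ l₂ : List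 G, (l₁.Nodup ∧ l₁.length = 3 ∧ (∀ a ∈ l₁, a ∈ D) ∧ (∀ a ∈ l₁, ∀ b ∈ l₁, Commute a b) ∧ l₁.prod = j) ∧ (l₂.Nodup ∧ l₂.length = 3 ∧ (∀ a ∈ l₂, a ∈ D) ∧ (∀ a ∈ l₂, ∀ b ∈ l₂, Commute a b) ∧ l₂.prod = j) ∧ ¬ (∀ x : G, x ∈ l₁ ↔ x ∈ l₂) ∧ ∀ l : List G, (l.Nodup ∧ l.length = 3 ∧ (∀ a ∈ l, a ∈ D) ∧ (∀ a ∈ l, ∀ b ∈ l, Commute a b) ∧ l.prod = j) → ((∀ x : G, x ∈ l ↔ x ∈ l₁) ∨ (∀ x : G, x ∈ l ↔ x ∈ l₂)) := by
  obtain ⟨⟨M⟩, -⟩ := FM.F22.exists22 hD h22
  constructor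
  · rintro j l l' ⟨a1, a2, a3, a4, rfl⟩ ⟨b1, b2, b3, b4, e⟩ x
    have hq : Fi.unqChk FM.F22.cd [693, 0] [10, 21, 93] = true := by decide +kernel
    exact ⟨(Fi.g8_tr22_2 M).unique (by decide) hq ⟨b1, b3, b4⟩ ⟨a1, a3, a4⟩ b2 (by omega) e x,
      (Fi.g8_tr22_2 M).unique (by decide) hq ⟨a1, a3, a4⟩ ⟨b1, b3, b4⟩ a2 (by omega) e.symm x⟩
  · rintro j l₀ ⟨a1, a2, a3, a4, rfl⟩
    obtain ⟨g, hg⟩ := Fi.g8_tr22_3 M l₀ ⟨a1, a3, a4⟩ a2
    have e0 : l₀ = [10, 693, 0].map (M.conj g⁻¹).pt := by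
      have := congrArg (List.map (MulAut.conj g⁻¹)) hg
      rw [List.map_map, List.map_map] at this
      refine Eq.trans ?_ this
      simp [Function.comp_def, mul_assoc]
    generalize M.conj g⁻¹ = N at e0
    subst e0
    obtain ⟨p1, p2, p3⟩ := Fi.pwc_prd N (l := [105, 668, 673]) (by decide +kernel)
    have h6 : FM.F22.cd.ltL [10, 693, 0, 105, 668, 673] = true := by decide +kernel
    have hl := FM.Mdl.ltL_spec h6
    have e1 : ([105, 668, 673].map N.pt).prod = ([10, 693, 0].map N.pt).prod := by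
      rw [← N.ev_ps' (by decide +kernel), ← N.ev_ps' (by decide +kernel)]
      exact N.eq_of_eqE (by decide +kernel)
    refine ⟨_, [105, 668, 673].map N.pt, ⟨a1, a2, a3, a4, rfl⟩, ⟨p2, rfl, ?_, p3, e1⟩, fun h => ?_, ?_⟩
    · simp only [List.mem_map]; rintro _ ⟨r, hr, rfl⟩; exact N.mem r (p1 r hr)
    · obtain ⟨r, hr, e⟩ := List.mem_map.1 ((h (N.pt 0)).1 (by simp))
      rw [N.inj _ (p1 r hr) _ N.npos e] at hr
      simp at hr
    rintro l ⟨b1, b2, b3, b4, e⟩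
    have k : ∀ x ∈ l, x ∈ [10, 693, 0, 105, 668, 673].map N.pt := fun x hx => by
      refine Fi.unqChk_spec N (Q := [13, 26]) (by decide +kernel) (b3 x hx) fun q hq => ?_
      have h8 : ∀ q ∈ [10, 693, 0, 105, 668, 673] ++ [13, 26], q < FM.F22.cd.n ∧
          FM.F22.cd.ap (.ps [10, 693, 0]) q = q := by decide +kernel
      refine Fi.CL.fix N.t3 ⟨b1, b3, b4⟩ b2.le (N.mem q (h8 q hq).1) ?_ x hx
      rw [e, ← N.ev_ps' (by decide +kernel)]
      exact ((N.ac_fix_iff (h8 q hq).1).1 (by rw [← N.ap_eq _ (h8 q hq).1, (h8 q hq).2])).symm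
    obtain ⟨a, b, c, rfl⟩ := List.length_eq_three.1 b2
    obtain ⟨a, ha, rfl⟩ := List.mem_map.1 (k a (by simp))
    obtain ⟨b, hb, rfl⟩ := List.mem_map.1 (k b (by simp))
    obtain ⟨c, hc, rfl⟩ := List.mem_map.1 (k c (by simp))
    have h9 : ∀ a ∈ [10, 693, 0, 105, 668, 673], ∀ b ∈ [10, 693, 0, 105, 668, 673],
        ∀ c ∈ [10, 693, 0, 105, 668, 673], a = b ∨ a = c ∨ b = c ∨
        FM.F22.cd.eqE (.ps [a, b, c]) (.ps [10, 693, 0]) = false ∨ [a, b, c].Perm [10, 693, 0] ∨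
        [a, b, c].Perm [105, 668, 673] := by decide +kernel
    rcases h9 a ha b hb c hc with rfl | rfl | rfl | h | h | h
    · simp at b1
    · simp at b1
    · simp at b1
    · refine (N.ne_of_eqE h ?_).elim
      rw [N.ev_ps' (by simp [FM.CD.ltL, hl a ha, hl b hb, hl c hc]), N.ev_ps' (by decide +kernel)]
      exact e
    · exact Or.inl fun x => (h.map N.pt).mem_iff
    · exact Or.inr fun x => (h.map N.pt).mem_iff

end Cfsg.Agent.S5463
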