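import Cfsg.Statements.S5469
import Cfsg.Agent.FA.B73
import Cfsg.Agent.Fi.Rec22

set_option autoImplicit false
open Cfsg

namespace Cfsg.Agent.S5469

open Cfsg.Agent.Fi Cfsg.Agent.FA Cfsg.Agent.FA.A73 Cfsg.Agent.GT Cfsg.Agent.TT Subgroup

/-- Let G be a finite group with trivial centre generated by a conjugation-invariant set D of 3-transpositions on which it acts primitively, such that for some d in D the subgroup generated by the members of D other than d commuting with d has central largest normal 2- and 3-subgroups, and suppose G with D is of type M(22). Let d₁, d₂ be distinct commuting members of D, j = d₁ d₂, K the joint centralizer of d₁ and d₂, C the centralizer of j and V the subgroup generated by d₁ and d₂. Then K has index 2 in C, V is the centre of K, and C has a normal subgroup E containing V with E/V elementary abelian of order 2^8 and C/E isomorphic to the full automorphism group of the projective special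 unitary group of dimension 4 over the field with four elements. -/
theorem result {G : Type*} [Group G] [Finite G] {D : Set G} (hD : Cfsg.IsThreeTranspositionGroup D) (hprim : Cfsg.IsPrimitiveUnderConj D) (d₀ : G) (hd₀ : d₀ ∈ D) (h3 : Cfsg.pCore 3 ↥(Subgroup.closure {y : G | y ∈ D ∧ y ≠ d₀ ∧ Commute d₀ y}) ≤ Subgroup.center ↥(Subgroup.closure {y : G | y ∈ D ∧ y ≠ d₀ ∧ Commute d₀ y})) (h2 : Cfsg.pCore 2 ↥(Subgroup.closure {y : G | y ∈ D ∧ y ≠ d₀ ∧ Commute d₀ y}) ≤ Subgroup.center ↥(Subgroup.closure {y : G | y ∈ D ∧ y ≠ d₀ ∧ Commute d₀ y})) (h22 : Cfsg.IsOfTypeM22 G D) (d₁ d₂ : G) (h₁ : d₁ ∈ D) (h₂ : d₂ ∈ D) (hne : d₁ ≠ d₂) (hc : Commute d₁ d₂) (K C V : Subgroup G) (hK : K = Subgroup.centralizer ({d₁, d₂} : Set G)) (hC : C = Subgroup.centralizer ({d₁ * d₂} : Set G)) (hV : V = Subgroup.closure ({d₁, d₂} : Set G)) : K ≤ C ∧ (K.subgroupOf C).index = 2 ∧ (Subgroup.center ↥K).map K.subtype = V ∧ ∃ E : Subgroup G, V ≤ E ∧ E ≤ C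 ∧ (∀ c ∈ C, ∀ x ∈ E, c * x * c⁻¹ ∈ E) ∧ Nat.card E = 2 ^ 10 ∧ (∀ x ∈ E, ∀ y ∈ E, x * y * x⁻¹ * y⁻¹ ∈ V ∧ x ^ 2 ∈ V) ∧ ∃ (_ : (E.subgroupOf C).Normal) (F : Type) (_ : Field F) (_ : Fintype F), Fintype.card F = 4 ∧ Nonempty (↥C ⧸ E.subgroupOf C ≃* MulAut (Cfsg.PSU 4 F 2)) := by
  obtain ⟨β0, h0⟩ := rec22 hD hprim h22
  obtain ⟨β, h, rfl, rfl⟩ := wl_c h0 h₁ h₂ hne hc
  obtain ⟨A, hA⟩ := exists_am h
  subst hK hC hV
  have k1 : centralizer ({β 693, β 0} : Set G) ≤ C1[β 693 * β 0] := fun x hx => by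
    rw [mem_cent1, ← mul_assoc, ← hx (β 693) (by simp), mul_assoc, ← hx (β 0) (by simp), mul_assoc]
  have k2 : zpowers (β 693 * β 0) ≤ closure ({β 693, β 0} : Set G) :=
    zpowers_le.2 (mul_mem (Subgroup.subset_closure (by simp)) (Subgroup.subset_closure (by simp)))
  obtain ⟨φ, f1, f2⟩ := grpC hA
  obtain ⟨n, ⟨e⟩⟩ := fa_quot φ f1 f2
  obtain ⟨F, i1, i2, hF, ⟨u⟩⟩ := o6_aut
  refine ⟨k1, ?_, le_antisymm ?_ fun x hx => ?_, _, vE, eC hA, fun c hc x hx => ?_, (e_G hA).2,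
    fun x hx y hy => ⟨k2 (abE hA x hx y hy).1, k2 (abE hA x hx y hy).2⟩, n, F, i1, i2, hF, ⟨e.trans u⟩⟩
  · have := ((centralizer ({β 693, β 0} : Set G)).subgroupOf C1[β 693 * β 0]).index_mul_card
    rw [card_subgroupOf k1, cardC hA, eqK hA, (k_G hA).1, (k_G hA).2] at this
    rw [eqK hA, (k_G hA).1]
    omega
  · rintro _ ⟨x, hx, rfl⟩
    exact centE hA fun y hy => congrArg Subtype.val (mem_center_iff.1 hx ⟨y, eK hA hy⟩)
  · refine ⟨⟨x, eK hA (vE hx)⟩, mem_center_iff.2 fun y => Subtype.ext ?_, rfl⟩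
    have : closure ({β 693, β 0} : Set G) ≤ C1[(y : G)] := (closure_le _).2 fun u hu => mem_cent1.2 (y.2 u hu)
    exact (mem_cent1.1 (this hx)).symm
  · exact (mem_normalizer_iff.1 ((normal_subgroupOf_iff_le_normalizer (eC hA)).1 n hc) x).1 hx

end Cfsg.Agent.S5469
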