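import Cfsg.Statements.S5517
import Cfsg.Agent.Fi.XR2
import Cfsg.Agent.Fi.Y0
import Cfsg.Agent.S0292

set_option autoImplicit false
open Cfsg

namespace Cfsg.Agent.S5517

open Cfsg.Agent.Fi Cfsg.Agent.FM Subgroup

set_option maxRecDepth 100000 in
theorem chk : (F22.cd.accChk ⟨[0, 2, 10, 37, 13, 46, 107, 693, 694], [], []⟩
      (.dif (.and (.and (.and (.adj 0) (.adj 1)) (.and (.adj 2) (.adj 4))) (.and (.and (.adj 5) (.adj 6))
        (.and (.adj 7) (.adj 8)))) (.adj 3)) .tt 105 &&
    F22.cd.enumChk ⟨[0, 2, 10, 37, 13, 46, 107, 693, 694], [], []⟩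
      (.dif (.and (.and (.and (.adj 0) (.adj 1)) (.and (.adj 2) (.adj 4))) (.and (.and (.adj 5) (.adj 6))
        (.and (.adj 7) (.adj 8)))) (.adj 3)) .tt (sgl 105) []) = true := by decide +kernel

/-- Let G be a finite group with trivial centre generated by a conjugation-invariant set D of 3-transpositions on which it acts primitively, such that for some d in D the subgroup generated by the members of D other than d commuting with d has central largest normal 2- and 3-subgroups, and suppose G with D is of type M(22). Then G has a subgroup L generated by the members of D it contains and isomorphic to Ω(7, 3) (the commutator subgroup of the isometry group of a non-degenerate 7-dimensional quadratic form over the field with three elements, modulo its centre), and every Sylow 3-subgroup of L is a Sylow 3-subgroup of G. -/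
theorem result {G : Type*} [Group G] [Finite G] {D : Set G} (hD : Cfsg.IsThreeTranspositionGroup D) (hprim : Cfsg.IsPrimitiveUnderConj D) (d₀ : G) (hd₀ : d₀ ∈ D) (h3 : Cfsg.pCore 3 ↥(Subgroup.closure {y : G | y ∈ D ∧ y ≠ d₀ ∧ Commute d₀ y}) ≤ Subgroup.center ↥(Subgroup.closure {y : G | y ∈ D ∧ y ≠ d₀ ∧ Commute d₀ y})) (h2 : Cfsg.pCore 2 ↥(Subgroup.closure {y : G | y ∈ D ∧ y ≠ d₀ ∧ Commute d₀ y}) ≤ Subgroup.center ↥(Subgroup.closure {y : G | y ∈ D ∧ y ≠ d₀ ∧ Commute d₀ y})) (h22 : Cfsg.IsOfTypeM22 G D) : ∃ L : Subgroup G, Cfsg.IsDSubgroup D L ∧ Nonempty (↥L ≃* Cfsg.POmega (ZMod 3) (Cfsg.quadFormOdd 3 (ZMod 3))) ∧ ∀ P : Sylow 3 ↥L, ∃ P' : Sylow 3 G, (P : Subgroup ↥L).map L.subtype = (P' : Subgroup G) := by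
  obtain ⟨β, h⟩ := rec22 hD hprim h22
  obtain ⟨M, hM⟩ := F22.exists_mdl h.toModel
  let Δ : Set G := {x | ∃ p < 3510, β p = x ∧ pt (R23 11 p) = p}
  have c := (refl22' h.toLab (Δ := Δ) fun _ => Iff.rfl).1
  obtain ⟨e⟩ := omega22 h.toLab (Δ := Δ) fun _ => Iff.rfl
  have hz : center (closure Δ) = ⊥ := by
    rw [eq_bot_iff]
    intro z hz
    have h1 : ∀ i ∈ [0, 1, 2, 3, 5, 6, 7, 8, 9], Commute (z : G) (β (gp i)) := fun i hi =>
      congrArg Subtype.val (mem_center_iff.1 hz ⟨β (gp i), c ▸ gv_mem hi⟩).symm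
    have h2 : (z : G) ∈ M.FixL [0, 2, 10, 37, 13, 46, 107, 693, 694] := by
      rw [M.mem_FixL', hM]
      intro p hp
      obtain ⟨i, hi, rfl⟩ := List.mem_map.1 ((by decide +kernel : [0, 2, 10, 37, 13, 46, 107, 693, 694] =
        [0, 1, 2, 3, 5, 6, 7, 8, 9].map gp) ▸ hp)
      exact h1 i hi
    have k := chk
    rw [Bool.and_eq_true] at k
    have h3 := ((Mdl.stab_top (M := M)).ctx (by decide) ⟨mem_top _, h2⟩).img_mem k.1 k.2
    rw [testBit_sgl, decide_eq_true_eq, M.ac_fix_iff (by decide), hM] at h3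
    refine Subtype.ext (h.toModel.eq_one fun i hi => ?_)
    by_cases c4 : i = 4
    · subst c4; exact h3
    · exact h1 i (by revert i; decide)
  obtain ⟨e'⟩ := xr_quot_bot hz
  have hc : Nat.card (closure Δ) = 3 ^ 9 * 232960 := by
    have := S0292.result (F := ZMod 3) (q := 3) (by simp) (by decide) 3 le_rfl
    rw [← Nat.card_congr (e'.symm.trans e).toEquiv] at this
    simp [Finset.prod_range_succ] at this
    omega
  refine ⟨closure Δ, le_antisymm ((closure_le _).2 fun x hx => hx.2) (closure_mono fun x hx =>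
    ⟨?_, subset_closure hx⟩), ⟨e'.symm.trans e⟩, fun P => ?_⟩
  · obtain ⟨p, hp, rfl, -⟩ := hx
    exact h.mem p hp
  · obtain ⟨P', hP⟩ := y_sylow (p := 3) (k := 9) (m := 2 ^ 17 * 5 ^ 2 * 7 * 11 * 13)
      (by rw [h.card]; norm_num) (by norm_num) (H := (P : Subgroup (closure Δ)).map (closure Δ).subtype) (by
        rw [card_map_of_injective (closure Δ).subtype_injective, Cl.card_sylow_of_card_eq P hc (by norm_num)])
    exact ⟨P', hP.symm⟩

end Cfsg.Agent.S5517
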