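import Cfsg.Statements.S5518
import Cfsg.Agent.Fi.Rec24
import Cfsg.Agent.FM.G2.T13

set_option autoImplicit false
open Cfsg

namespace Cfsg.Agent.S5518

open Cfsg.Agent.GT Subgroup

/-- Let G be a finite group with trivial centre generated by a conjugation-invariant set D of 3-transpositions on which it acts primitively, such that for some d in D the subgroup generated by the members of D other than d commuting with d has central largest normal 2- and 3-subgroups, and suppose G with D is of type M(24). Then any two subgroups of order 13 are conjugate; and there are members a, b, c, d of D generating the direct product T of two symmetric groups of degree 3 (a, d non-commuting; b, c non-commuting; b and c commuting with a and d) whose centralizer K is isomorphic to the Chevalley group G₂(3), such that for every subgroup B of K of order 13: the normalizer of B lies in the normalizer of K, the normalizer F of B in K is a Frobenius group of order 78 with kernel B (order 78, centralizer of B in it equal to B), and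 the subgroup generated by F and T has index 2 in the normalizer of B. -/
theorem result {G : Type*} [Group G] [Finite G] {D : Set G} (hD : Cfsg.IsThreeTranspositionGroup D) (hprim : Cfsg.IsPrimitiveUnderConj D) (d₀ : G) (hd₀ : d₀ ∈ D) (h3 : Cfsg.pCore 3 ↥(Subgroup.closure {y : G | y ∈ D ∧ y ≠ d₀ ∧ Commute d₀ y}) ≤ Subgroup.center ↥(Subgroup.closure {y : G | y ∈ D ∧ y ≠ d₀ ∧ Commute d₀ y})) (h2 : Cfsg.pCore 2 ↥(Subgroup.closure {y : G | y ∈ D ∧ y ≠ d₀ ∧ Commute d₀ y}) ≤ Subgroup.center ↥(Subgroup.closure {y : G | y ∈ D ∧ y ≠ d₀ ∧ Commute d₀ y})) (h24 : Cfsg.IsOfTypeM24 G D) : (∀ X Y : Subgroup G, Nat.card X = 13 → Nat.card Y = 13 → ∃ g : G, X.map (MulAut.conj g).toMonoidHom = Y) ∧ ∃ (a b c d : G) (T K : Subgroup G), (∀ x ∈ [a, b, c, d], x ∈ D) ∧ ¬ Commute a d ∧ ¬ Commute b c ∧ Commute a b ∧ Commute a c ∧ Commute d b ∧ Commute d c ∧ T = Subgroup.closure ({a, b, c, d} : Set G) ∧ K = Subgroup.centralizer (T : Set G) ∧ Nonempty (↥K ≃* ↥(Cfsg.Lie.chevG2.group (ZMod 3))) ∧ ∀ B : Subgroup G, B ≤ K → Nat.card B = 13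 → Subgroup.normalizer ((B : Subgroup G) : Set G) ≤ Subgroup.normalizer ((K : Subgroup G) : Set G) ∧ Nat.card ↥(K ⊓ Subgroup.normalizer ((B : Subgroup G) : Set G)) = 78 ∧ K ⊓ Subgroup.centralizer ((B : Subgroup G) : Set G) = B ∧ (((K ⊓ Subgroup.normalizer ((B : Subgroup G) : Set G)) ⊔ T).subgroupOf (Subgroup.normalizer ((B : Subgroup G) : Set G))).index = 2 := by
  obtain ⟨β, h⟩ := Fi.rec24 hD hprim h24
  obtain ⟨M, -⟩ := FM.F24.exists_mdl h.toModel
  have cm : ∀ p q, p < FM.F24.cd.n → q < FM.F24.cd.n → FM.F24.cd.comm p q = true → Commute (M.pt p) (M.pt q) :=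
    fun p q hp hq h => (M.comm_iff hp hq).1 h
  refine ⟨fun X Y => Fi.g8_conj_prime (by norm_num) (n := 2 ^ 22 * 3 ^ 16 * 5 ^ 2 * 7 ^ 3 * 11 * 17 * 23 * 29)
    (by rw [h.card]; norm_num) (by norm_num), M.pt 31721, M.pt 23220, M.pt 100651, M.pt 90675, _, _, ?_,
    fun h => absurd ((M.comm_iff (by decide) (by decide)).2 h) (by decide +kernel),
    fun h => absurd ((M.comm_iff (by decide) (by decide)).2 h) (by decide +kernel),
    cm _ _ (by decide) (by decide) (by decide +kernel), cm _ _ (by decide) (by decide) (by decide +kernel),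
    cm _ _ (by decide) (by decide) (by decide +kernel), cm _ _ (by decide) (by decide) (by decide +kernel),
    rfl, rfl, FM.F24.fixLg_eq M ▸ FM.F24.equiv_g2K M, fun B hB hc => ?_⟩
  · simp only [List.mem_cons, List.not_mem_nil, or_false]
    rintro _ (rfl | rfl | rfl | rfl) <;> exact M.mem _ (by decide)
  · rw [FM.F24.fixLg_eq] at hB
    have k : ∀ X ≤ M.FixL FM.F24.Lg, Nat.card X = 13 → IsPiHallOf {13} X (M.FixL FM.F24.Lg) := fun X a b =>
      syl_mk (by norm_num) a (IsPGroup.of_card (n := 1) (by simpa using b)) (by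
        have := card_mul_relIndex a
        rw [FM.F24.card_g2K, b] at this
        omega)
    obtain ⟨g, hg, rfl⟩ := syl_exists_conj (by norm_num) (k _ (zpowers_le.2 (FM.F24.x13_mem M))
      (by rw [Nat.card_zpowers, FM.F24.ord_x13])) (k B hB hc)
    have e : ∀ p ∈ FM.F24.Lg, (M.conj g).pt p = M.pt p := fun p hp =>
      mul_inv_eq_iff_eq_mul.2 (M.mem_FixL'.1 hg p hp)
    rw [conj_zpowers, ← M.conj_ev]
    refine FM.F24.main13 (M.conj g) ?_ rfl
    rw [e _ (by decide), e _ (by decide), e _ (by decide), e _ (by decide)]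

end Cfsg.Agent.S5518
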