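import Cfsg.Statements.S5519
import Cfsg.Agent.FA.B73
import Cfsg.Agent.Fi.Rec22

set_option autoImplicit false
open Cfsg

namespace Cfsg.Agent.S5519

open Cfsg.Agent.Fi Cfsg.Agent.FA Cfsg.Agent.FA.A73 Cfsg.Agent.GT Cfsg.Agent.TT Subgroup

/-- Let G be a finite group with trivial centre generated by a conjugation-invariant set D of 3-transpositions on which it acts primitively, such that for some d in D the subgroup generated by the members of D other than d commuting with d has central largest normal 2- and 3-subgroups, and suppose G with D is of type M(22). Let d₁, d₂ be distinct commuting members of D and C the centralizer of their product. Then the generalized Fitting subgroup of C is the direct product of a group of order 2 and an extraspecial 2-group of order 2^9, and C modulo it is isomorphic to the full isometry group of the elliptic quadratic form in dimension 6 over the field with two elements. -/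
theorem result {G : Type*} [Group G] [Finite G] {D : Set G} (hD : Cfsg.IsThreeTranspositionGroup D) (hprim : Cfsg.IsPrimitiveUnderConj D) (d₀ : G) (hd₀ : d₀ ∈ D) (h3 : Cfsg.pCore 3 ↥(Subgroup.closure {y : G | y ∈ D ∧ y ≠ d₀ ∧ Commute d₀ y}) ≤ Subgroup.center ↥(Subgroup.closure {y : G | y ∈ D ∧ y ≠ d₀ ∧ Commute d₀ y})) (h2 : Cfsg.pCore 2 ↥(Subgroup.closure {y : G | y ∈ D ∧ y ≠ d₀ ∧ Commute d₀ y}) ≤ Subgroup.center ↥(Subgroup.closure {y : G | y ∈ D ∧ y ≠ d₀ ∧ Commute d₀ y})) (h22 : Cfsg.IsOfTypeM22 G D) (d₁ d₂ : G) (h₁ : d₁ ∈ D) (h₂ : d₂ ∈ D) (hne : d₁ ≠ d₂) (hc : Commute d₁ d₂) (C : Subgroup G) (hC : C = Subgroup.centralizer ({d₁ * d₂} : Set G)) [hn : (Cfsg.generalizedFittingSubgroup ↥C).Normal] : (∃ (E : Type) (_ : Group E) (_ : Finite E), Cfsg.IsExtraspecial 2 E ∧ Nat.card E = 2 ^ 9 ∧ Nonempty (↥(Cfsg.generalizedFittingSubgroup ↥C) ≃* Multiplicative (ZMod 2) × E)) ∧ Nonempty (↥C ⧸ Cfsg.generalizedFittingSubgroup ↥C ≃* Cfsg.isometryGroup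 (ZMod 2) (Cfsg.quadFormMinus 2 (ZMod 2) 1 1)) := by
  obtain ⟨β0, h0⟩ := rec22 hD hprim h22
  obtain ⟨β, h, rfl, rfl⟩ := wl_c h0 h₁ h₂ hne hc
  obtain ⟨A, hA⟩ := exists_am h
  subst hC
  have e1 : generalizedFittingSubgroup C1[β 693 * β 0] = (pcl β eW).subgroupOf _ := by
    rw [← fstarC hA, ← map_subtype_fstar, subgroupOf, comap_map_eq_self_of_injective (subtype_injective _)]
  obtain ⟨φ, f1, f2⟩ := grpC hA
  obtain ⟨n, ⟨e⟩⟩ := fa_quot φ f1 f2
  obtain ⟨u⟩ := o6_iso
  obtain ⟨P, p1, p2, ⟨v⟩⟩ := splitE hA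
  obtain ⟨E, i1, i2, q1, ⟨w⟩⟩ := es_type0 p1
  exact ⟨⟨E, i1, i2, q1, p2 ▸ (Nat.card_congr w.toEquiv).symm, ⟨(((MulEquiv.subgroupCongr e1).trans
    (subgroupOfEquivOfLe (eC hA))).trans v).trans ((MulEquiv.refl _).prodCongr w)⟩⟩,
    ⟨((QuotientGroup.quotientMulEquivOfEq e1).trans e).trans u⟩⟩

end Cfsg.Agent.S5519
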