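import Cfsg.Statements.S5541

set_option autoImplicit false
open Cfsg

namespace Cfsg.Agent.S5541

/-- Let ρ be a representation of a group H on a finite-dimensional real vector space U whose only ρ-invariant subspaces are the zero subspace and U, and suppose U carries a non-zero ρ-invariant symmetric bilinear form. Then the following are equivalent: (1) there is a non-zero ρ-equivariant commutative bilinear product on U of which every ρ-equivariant bilinear product is a scalar multiple; (2) there is a non-zero ρ-invariant trilinear form on U that is symmetric under all permutations of its arguments and of which every ρ-invariant trilinear form is a scalar multiple. -/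
theorem result {H : Type*} [Group H] {U : Type*} [AddCommGroup U] [Module ℝ U] [FiniteDimensional ℝ U] (ρ : Representation ℝ H U) (hirr : ∀ W : Submodule ℝ U, (∀ g : H, W.map (ρ g) ≤ W) → W = ⊥ ∨ W = ⊤) (B : LinearMap.BilinForm ℝ U) (hB0 : B ≠ 0) (hBs : ∀ u v, B u v = B v u) (hBi : ∀ (g : H) (u v : U), B (ρ g u) (ρ g v) = B u v) : (∃ m : U →ₗ[ℝ] U →ₗ[ℝ] U, m ≠ 0 ∧ (∀ u v, m u v = m v u) ∧ (∀ (g : H) (u v : U), m (ρ g u) (ρ g v) = ρ g (m u v)) ∧ ∀ m' : U →ₗ[ℝ] U →ₗ[ℝ] U, (∀ (g : H) (u v : U), m' (ρ g u) (ρ g v) = ρ g (m' u v)) → ∃ c : ℝ, m' = c • m) ↔ (∃ t : U →ₗ[ℝ] U →ₗ[ℝ] U →ₗ[ℝ] ℝ, t ≠ 0 ∧ (∀ u v w, t u v w = t v u w ∧ t u v w = t u w v) ∧ (∀ (g : H) (u v w : U), t (ρ g u) (ρ g v) (ρ g w) = t u v w) ∧ ∀ t' : U →ₗ[ℝ] U →ₗ[ℝ] U →ₗ[ℝ] ℝ, (∀ (g : H) (u v w : U), t' (ρ g u) (ρ g v) (ρ g w) = t' u v w) → ∃ c : ℝ, t' = c • t) := by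
  have hsurj : ∀ (g : H) (w : U), ∃ w', w = ρ g w' := fun g w =>
    ⟨ρ g⁻¹ w, by rw [← Module.End.mul_apply, ← map_mul]; simp⟩
  have hker : ∀ u, (∀ v, B u v = 0) → u = 0 := by
    rcases hirr (LinearMap.ker B) (fun g => by
      rintro _ ⟨u, hu, rfl⟩
      ext w
      obtain ⟨w, rfl⟩ := hsurj g w
      rw [hBi, LinearMap.mem_ker.1 hu]; rfl) with h | h
    · intro u hu
      have : u ∈ LinearMap.ker B := by ext v; exact hu v
      rwa [h] at this
    · exact absurd (LinearMap.ker_eq_top.1 h) hB0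
  have hnd : B.Nondegenerate := ⟨hker, fun u hu => hker u fun v => by rw [hBs]; exact hu v⟩
  have hext : ∀ u u', (∀ v, B u v = B u' v) → u = u' := fun u u' h =>
    sub_eq_zero.1 (hker _ fun v => by simp [h])
  have k1 : ∀ m : U →ₗ[ℝ] U →ₗ[ℝ] U, ∃ t : U →ₗ[ℝ] U →ₗ[ℝ] U →ₗ[ℝ] ℝ,
      ∀ u v w, t u v w = B (m u v) w := fun m => ⟨m.compr₂ B, fun _ _ _ => rfl⟩
  have k2 : ∀ t : U →ₗ[ℝ] U →ₗ[ℝ] U →ₗ[ℝ] ℝ, ∃ m : U →ₗ[ℝ] U →ₗ[ℝ] U,
      ∀ u v w, t u v w = B (m u v) w := fun t =>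
    ⟨t.compr₂ (B.toDual hnd).symm.toLinearMap, fun u v w => by
      simp [LinearMap.BilinForm.apply_toDual_symm_apply]⟩
  have k3 : ∀ (m : U →ₗ[ℝ] U →ₗ[ℝ] U) (t : U →ₗ[ℝ] U →ₗ[ℝ] U →ₗ[ℝ] ℝ),
      (∀ u v w, t u v w = B (m u v) w) →
      ((∀ (g : H) (u v : U), m (ρ g u) (ρ g v) = ρ g (m u v)) ↔
        ∀ (g : H) (u v w : U), t (ρ g u) (ρ g v) (ρ g w) = t u v w) := fun m t h => by
    constructor
    · intro h1 g u v w; rw [h, h, h1, hBi]
    · intro h1 g u v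
      refine hext _ _ fun w => ?_
      obtain ⟨w, rfl⟩ := hsurj g w
      rw [← h, h1, h, hBi]
  constructor
  · rintro ⟨m, hm0, hmc, hmi, hmu⟩
    obtain ⟨t, ht⟩ := k1 m
    have ht0 : t ≠ 0 := fun e => hm0 (by
      ext u v; exact hker _ fun w => by rw [← ht, e]; rfl)
    have hti := (k3 m t ht).1 hmi
    have htu : ∀ t' : U →ₗ[ℝ] U →ₗ[ℝ] U →ₗ[ℝ] ℝ,
        (∀ (g : H) (u v w : U), t' (ρ g u) (ρ g v) (ρ g w) = t' u v w) → ∃ c : ℝ, t' = c • t := by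
      intro t' ht'
      obtain ⟨m', hm'⟩ := k2 t'
      obtain ⟨c, hc⟩ := hmu m' ((k3 m' t' hm').2 ht')
      exact ⟨c, by ext u v w; simp [hm', hc, ht]⟩
    have s1 : ∀ u v w, t u v w = t v u w := fun u v w => by rw [ht, ht, hmc]
    refine ⟨t, ht0, fun u v w => ⟨s1 u v w, ?_⟩, hti, htu⟩
    obtain ⟨c, hc⟩ := htu (LinearMap.lflip.toLinearMap ∘ₗ t) fun g u v w => hti g u w v
    have s2 : ∀ u v w, t u w v = c * t u v w := fun u v w =>
      congrArg (fun s : U →ₗ[ℝ] U →ₗ[ℝ] U →ₗ[ℝ] ℝ => s u v w) hc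
    by_cases hc1 : c = 1
    · rw [s2 u v w, hc1, one_mul]
    · exfalso
      apply ht0
      ext u v w
      have a1 : t u v w = c * (c * t u v w) := by rw [← s2, ← s2]
      have a2 : t u v w = c * (c * (c * t u v w)) := by
        rw [← s2, s1 u w v, ← s2, s1 w v u, ← s2, s1 v u w]
      have : (c - 1) * t u v w = 0 := by linear_combination c * a1 - a2
      simpa using (mul_eq_zero.1 this).resolve_left (sub_ne_zero.2 hc1)
  · rintro ⟨t, ht0, hts, hti, htu⟩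
    obtain ⟨m, hm⟩ := k2 t
    refine ⟨m, fun e => ht0 (by ext u v w; simp [hm, e]),
      fun u v => hext _ _ fun w => by rw [← hm, ← hm, (hts u v w).1], (k3 m t hm).2 hti,
      fun m' hm' => ?_⟩
    obtain ⟨t', ht'⟩ := k1 m'
    obtain ⟨c, hc⟩ := htu t' ((k3 m' t' ht').1 hm')
    exact ⟨c, by ext u v; exact hext _ _ fun w => by rw [← ht', hc]; simp [hm]⟩

end Cfsg.Agent.S5541
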