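import Cfsg.Statements.S5543
import Cfsg.Agent.TT.Majorana

set_option autoImplicit false
open Cfsg

namespace Cfsg.Agent.S5543

open Cfsg.Agent.TT Cfsg.Axial

/-- Let V be a finite-dimensional real vector space with a commutative bilinear product and a positive-definite symmetric bilinear form that associates with the product and satisfies the Norton inequality (the Majorana setting of the definitions). Let X be a group of linear automorphisms of V in which every element squares to the identity, and suppose every non-identity element x of X is a Majorana involution with an axial vector a(x) of squared length 1, such that for any two distinct non-identity x, y the product a(x) ∘ a(y) equals (1/8)(a(x) + a(y) − a(xy)) (the dihedral subalgebra of type 2A whose third axis belongs to the involution xy). Then X has order at most 4. -/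
theorem result {V : Type*} [AddCommGroup V] [Module ℝ V] [FiniteDimensional ℝ V] (mul : V →ₗ[ℝ] V →ₗ[ℝ] V) (B : LinearMap.BilinForm ℝ V) (hV : Cfsg.Axial.IsMajoranaAmbient mul B) (X : Subgroup (V ≃ₗ[ℝ] V)) (hX : ∀ x ∈ X, x * x = 1) (ax : (V ≃ₗ[ℝ] V) → V) (hax : ∀ x ∈ X, x ≠ 1 → Cfsg.Axial.IsMajoranaPair mul B x (ax x)) (h1 : ∀ x ∈ X, x ≠ 1 → B (ax x) (ax x) = 1) (h2A : ∀ x ∈ X, ∀ y ∈ X, x ≠ 1 → y ≠ 1 → x ≠ y → mul (ax x) (ax y) = (1 / 8 : ℝ) • (ax x + ax y - ax (x * y))) : Nat.card ↥X ≤ 4 := by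
  classical
  by_contra hcard
  push Not at hcard
  have hfin : Finite X := Nat.finite_of_card_ne_zero (by omega)
  have hF := Fintype.ofFinite X
  have ex : ∀ a b c d : X, ∃ z : X, z ≠ a ∧ z ≠ b ∧ z ≠ c ∧ z ≠ d := fun a b c d => by
    obtain ⟨z, -, hz⟩ := Finset.exists_mem_notMem_of_card_lt_card (s := {a, b, c, d})
      (t := Finset.univ) (lt_of_le_of_lt Finset.card_le_four (by
        rwa [Finset.card_univ, ← Nat.card_eq_fintype_card]))
    exact ⟨z, by simpa using hz⟩
  have sq : ∀ x : X, x * x = 1 := fun x => Subtype.ext (hX x x.2)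
  have cm : ∀ x y : X, x * y = y * x := fun x y => by
    have := sq (x * y)
    rw [mul_eq_one_iff_eq_inv, mul_inv_rev, inv_eq_of_mul_eq_one_right (sq x),
      inv_eq_of_mul_eq_one_right (sq y)] at this
    exact this
  have ne1 : ∀ {x y : X}, x ≠ y → x * y ≠ 1 := fun {x y} h e => h (by
    rw [mul_eq_one_iff_eq_inv, inv_eq_of_mul_eq_one_right (sq y)] at e; exact e)
  have A : ∀ x : X, x ≠ 1 → Ax mul B x (ax x) := fun x hx =>
    Ax.of hV (hax x x.2 fun e => hx (Subtype.ext e)) (h1 x x.2 fun e => hx (Subtype.ext e))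
  have P : ∀ x y : X, x ≠ 1 → y ≠ 1 → x ≠ y →
      mul (ax x) (ax y) = (1 / 8 : ℝ) • (ax x + ax y - ax (x * y : X)) := fun x y hx hy h =>
    h2A x x.2 y y.2 (fun e => hx (Subtype.ext e)) (fun e => hy (Subtype.ext e))
      fun e => h (Subtype.ext e)
  have E : ∀ x y : X, x ≠ 1 → y ≠ 1 → x ≠ y → mul (ax x) (ax y - ax (x * y : X)) =
      (1 / 4 : ℝ) • (ax y - ax (x * y : X)) := fun x y hx hy h => by
    rw [map_sub, P x y hx hy h, P x (x * y) hx (ne1 h) (by simpa using hy), ← mul_assoc, sq, one_mul]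
    module
  obtain ⟨x, hx, -⟩ := ex 1 1 1 1
  obtain ⟨y, hy, hyx, -⟩ := ex 1 x 1 1
  obtain ⟨z, hz, hzx, hzy, hzxy⟩ := ex 1 x y (x * y)
  have n1 : x ≠ y * z := fun e => hzxy (by rw [e, cm, ← mul_assoc, sq, one_mul])
  have n2 : y ≠ x * z := fun e => hzxy (by rw [e, ← mul_assoc, sq, one_mul])
  have e1 := (A x hx).f44 _ _ (E x y hx hy hyx.symm) (E x z hx hz hzx.symm)
  have e2 : mul (ax y - ax (x * y : X)) (ax z - ax (x * z : X)) =
      (-1 / 4 : ℝ) • (ax (y * z : X) - ax (x * (y * z) : X)) := by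
    simp only [map_sub, LinearMap.sub_apply]
    rw [P y z hy hz hzy.symm, P y (x * z) hy (ne1 hzx.symm) n2, P (x * y) z (ne1 hyx.symm) hz hzxy.symm,
      P (x * y) (x * z) (ne1 hyx.symm) (ne1 hzx.symm) (by simpa using hzy.symm),
      show y * (x * z) = x * (y * z) by rw [← mul_assoc, cm y x, mul_assoc],
      show x * y * (x * z) = y * z by rw [cm x y, mul_assoc, ← mul_assoc x, sq, one_mul], mul_assoc]
    module
  have e3 := E x (y * z) hx (ne1 hzy.symm) n1
  rw [e2, map_smul, map_smul, orth_of_eigen hV (A x hx).idem (by norm_num) e3, e3] at e1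
  have e4 : ax (y * z : X) = ax (x * (y * z) : X) := by
    linear_combination (norm := module) (-16 : ℝ) • e1
  have := (A _ (ne1 hzy.symm)).unique (e4 ▸ A _ (ne1 n1))
  exact hx (by simpa using (Subtype.ext this : y * z = x * (y * z)).symm)

end Cfsg.Agent.S5543
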