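import Cfsg.Statements.S5545
import Cfsg.Agent.TT.Sakuma

set_option autoImplicit false
open Cfsg

namespace Cfsg.Agent.S5545

open Cfsg.Agent.TT Cfsg.Axial

theorem pair_conj {V : Type*} [AddCommGroup V] [Module ℝ V] {mul : V →ₗ[ℝ] V →ₗ[ℝ] V}
    {B : LinearMap.BilinForm ℝ V} {μ : V ≃ₗ[ℝ] V} {a : V} (h : IsMajoranaPair mul B μ a)
    (T : V ≃ₗ[ℝ] V) (hT : ∀ u v, T (mul u v) = mul (T u) (T v)) (hc : ∀ u, μ (T u) = T (μ u)) :
    IsMajoranaPair mul B μ (T a) := by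
  obtain ⟨h1, h2, ⟨⟨h0, h3, h4, h5⟩, h6⟩, h7, h8⟩ := h
  have e1 : ∀ c, eigen mul (T a) c = (eigen mul a c).map (T : V →ₗ[ℝ] V) := fun c => by
    ext x
    obtain ⟨x, rfl⟩ := T.surjective x
    rw [mem_eigen, ← hT, ← map_smul, T.injective.eq_iff, ← mem_eigen]
    simp
  have e2 : ∀ S, eigenSum mul (T a) S = (eigenSum mul a S).map (T : V →ₗ[ℝ] V) := fun S => by
    simp only [eigenSum, Submodule.map_iSup, e1]
  refine ⟨h1, h2, ⟨⟨by simpa using h0, by rw [← hT, h3], by rw [e2, h4]; simp, ?_⟩, ?_⟩, ?_, ?_⟩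
  · intro c hc d hd u hu v hv
    rw [e1] at hu hv
    obtain ⟨u, hu, rfl⟩ := hu
    obtain ⟨v, hv, rfl⟩ := hv
    rw [e2]
    exact ⟨_, h5 c hc d hd u hu v hv, hT u v⟩
  · rw [e1, h6, Submodule.map_span]; simp
  · intro v hv
    rw [e2] at hv
    obtain ⟨v, hv, rfl⟩ := hv
    exact (hc v).trans (congrArg T (h7 v hv))
  · intro v hv
    rw [e1] at hv
    obtain ⟨v, hv, rfl⟩ := hv
    exact (hc v).trans ((congrArg T (h8 v hv)).trans (map_neg T v))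

/-- Let V be a finite-dimensional real vector space with a commutative bilinear product and a positive-definite symmetric bilinear form that associates with the product and satisfies the Norton inequality (the Majorana setting of the definitions). Let μ₀, μ₁ be commuting Majorana involutions with distinct axial vectors a₀ ≠ a₁ of squared length 1, each involution having no other axial vector. Then either a₀ and a₁ are orthogonal with a₀ ∘ a₁ = 0 (type 2B), or their inner product is 1/8 and, with a₂ = a₀ + a₁ − 8 a₀ ∘ a₁, the vector a₂ is an idempotent and a₀ ∘ a₂ = (1/8)(a₀ + a₂ − a₁), a₁ ∘ a₂ = (1/8)(a₁ + a₂ − a₀) (type 2A: the three idempotents span a subalgebra with aᵢ ∘ aⱼ = (1/8)(aᵢ + aⱼ − aₖ)). -/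
theorem result {V : Type*} [AddCommGroup V] [Module ℝ V] [FiniteDimensional ℝ V] (mul : V →ₗ[ℝ] V →ₗ[ℝ] V) (B : LinearMap.BilinForm ℝ V) (hV : Cfsg.Axial.IsMajoranaAmbient mul B) (μ₀ μ₁ : V ≃ₗ[ℝ] V) (a₀ a₁ : V) (h₀ : Cfsg.Axial.IsMajoranaPair mul B μ₀ a₀) (h₁ : Cfsg.Axial.IsMajoranaPair mul B μ₁ a₁) (hu₀ : ∀ a : V, Cfsg.Axial.IsMajoranaPair mul B μ₀ a → a = a₀) (hu₁ : ∀ a : V, Cfsg.Axial.IsMajoranaPair mul B μ₁ a → a = a₁) (hn₀ : B a₀ a₀ = 1) (hn₁ : B a₁ a₁ = 1) (hc : μ₀ * μ₁ = μ₁ * μ₀) (hne : a₀ ≠ a₁) : (B a₀ a₁ = 0 ∧ mul a₀ a₁ = 0) ∨ (B a₀ a₁ = 1 / 8 ∧ mul (a₀ + a₁ - (8 : ℝ) • mul a₀ a₁) (a₀ + a₁ - (8 : ℝ) • mul a₀ a₁) = a₀ + a₁ - (8 : ℝ) • mul a₀ a₁ ∧ mul a₀ (a₀ + a₁ - (8 : ℝ) • mul a₀ a₁) = (1 / 8 : ℝ) • (a₀ + (a₀ + a₁ - (8 : ℝ) • mul a₀ a₁) - a₁) ∧ mul a₁ (a₀ + a₁ - (8 : ℝ) • mul a₀ a₁) = (1 / 8 : ℝ) • (a₁ + (a₀ + a₁ - (8 : ℝ) • mul a₀ a₁) - a₀)) :=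 by
  have A0 := Ax.of hV h₀ hn₀
  have A1 := Ax.of hV h₁ hn₁
  have f1 : μ₀ a₁ = a₁ := hu₁ _ (pair_conj h₁ μ₀ h₀.1 fun u => by
    rw [← LinearEquiv.mul_apply, ← hc, LinearEquiv.mul_apply])
  have f0 : μ₁ a₀ = a₀ := hu₀ _ (pair_conj h₀ μ₁ h₁.1 fun u => by
    rw [← LinearEquiv.mul_apply, hc, LinearEquiv.mul_apply])
  have M0 := (sak_main hV A0 A1 A1 f1 f0 f0 A0.fix).2
  have M1 := (sak_main hV A1 A0 A0 f0 f1 f1 A1.fix).2
  have s0 := (A0.sg_facts a₁).2.2.2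
  have s1 := (A1.sg_facts a₀).2.2.2
  have m := mul_eq_sg (mul := mul) a₀ a₁
  have t0 : sg mul a₀ a₀ = (15 / 16 : ℝ) • a₀ := by unfold sg; rw [A0.idem]; module
  have t1 : sg mul a₁ a₁ = (15 / 16 : ℝ) • a₁ := by unfold sg; rw [A1.idem]; module
  rw [sg_comm hV a₁ a₀, hV.2.1 a₁ a₀] at M1 s1
  rw [t0, t1, hn₁] at M0
  rw [t0, t1, hn₀] at M1
  rw [f1] at s0
  rw [f0] at s1
  have key : (B a₀ a₁ * (B a₀ a₁ - 1 / 8)) • (a₀ - a₁) = 0 := by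
    linear_combination (norm := module) (6 / 7 : ℝ) • M1 - (6 / 7 : ℝ) • M0
  rcases mul_eq_zero.1 ((smul_eq_zero.1 key).resolve_right (sub_ne_zero.2 hne)) with e | e
  · left
    refine ⟨e, ?_⟩
    have := hV.2.2.2.2 a₀ a₁
    rw [A0.idem, A1.idem, e] at this
    by_contra h
    exact absurd (hV.2.2.1 _ h) (not_lt.2 this)
  · right
    have e' : B a₀ a₁ = 1 / 8 := by linarith
    rw [e'] at M0 s0 s1
    rw [m]
    generalize sg mul a₀ a₁ = s at *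
    refine ⟨e', ?_, ?_, ?_⟩ <;>
    · simp only [map_add, map_sub, map_smul, LinearMap.add_apply, LinearMap.sub_apply,
        LinearMap.smul_apply, hV.1 s a₀, hV.1 s a₁, hV.1 a₁ a₀, A0.idem, A1.idem, m, M0, s0, s1]
      module

end Cfsg.Agent.S5545
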