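import Cfsg.Statements.S5546
import Cfsg.Agent.Leech.Xi

set_option autoImplicit false
open Cfsg

namespace Cfsg.Agent.S5546

open Finset Cfsg.Agent.M24 Cfsg.Agent.Leech Cfsg.Spor

instance fact13 : Fact (Nat.Prime 13) := ⟨by norm_num⟩

/-- Reduction modulo 13. -/
def red13 (v : Lv) : GolayPt → ZMod 13 := fun i => (v.1 i : ZMod 13)

/-- The action modulo 13. -/
def rho (g : Co0) : Module.End (ZMod 13) (GolayPt → ZMod 13) :=
  Matrix.toLin' fun i j => 5 * red13 (g • e8 j) i

theorem rho_apply (g : Co0) (x : GolayPt → ZMod 13) (i : GolayPt) :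
    rho g x i = ∑ j, 5 * red13 (g • e8 j) i * x j := rfl

theorem h40 : (40 : ZMod 13) = 1 := rfl

theorem rho_red (g : Co0) (v : Lv) : rho g (red13 v) = red13 (g • v) := by
  funext i
  have := congrArg (fun n : ℤ => (n : ZMod 13)) (eight_mul_smul g v i)
  push_cast at this
  simp only [rho_apply, red13, mul_assoc, ← mul_sum, ← this]
  linear_combination ((g • v).1 i : ZMod 13) * h40

theorem ext_red {M : Type*} [AddCommGroup M] [Module (ZMod 13) M]
    {f f' : (GolayPt → ZMod 13) →ₗ[ZMod 13] M} (h : ∀ v, f (red13 v) = f' (red13 v)) : f = f' := by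
  refine LinearMap.pi_ext' fun j => LinearMap.ext_ring ?_
  have : (Pi.single j 1 : GolayPt → ZMod 13) = (5 : ZMod 13) • red13 (e8 j) := by
    funext i
    by_cases hi : i = j
    · subst hi; simp [red13, e8_apply]; rfl
    · simp [red13, e8_apply, hi]
  simp [this, h]

/-- Inner product with the fixed vector. -/
def phi : (GolayPt → ZMod 13) →ₗ[ZMod 13] ZMod 13 :=
  LinearMap.proj (R := ZMod 13) (φ := fun _ : GolayPt => ZMod 13) none +
    LinearMap.proj (R := ZMod 13) (φ := fun _ : GolayPt => ZMod 13) (some 0)

theorem phi_apply (x : GolayPt → ZMod 13) : phi x = x none + x (some 0) := rfl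

theorem phi_red (v : Lv) : phi (red13 v) = 10 * ((dotInt v.1 leechU.1 : ℤ) : ZMod 13) := by
  have : leechU = v44 none (some 0) 1 odd_one := Subtype.ext (by decide +kernel)
  rw [this, dot_v44]
  simp only [phi_apply, red13]
  push_cast
  linear_combination (-(v.1 none : ZMod 13) - v.1 (some 0)) * h40

/-- The inclusion in the full automorphism group. -/
def inc (g : Co2) : Co0 := ⟨g.1, g.2.1⟩

theorem inc_U (g : Co2) : inc g • leechU = leechU := g.2.2

theorem phi_rho (g : Co2) (x : GolayPt → ZMod 13) : phi (rho (inc g) x) = phi x :=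
  LinearMap.congr_fun (ext_red (f := phi ∘ₗ rho (inc g)) (f' := phi) fun v => by
    rw [LinearMap.comp_apply, rho_red, phi_red, phi_red, ← dot_smul (inc g) v, inc_U]) x

/-- The action on the orthogonal complement. -/
def rho' : Co2 →* Module.End (ZMod 13) (LinearMap.ker phi) where
  toFun g := (rho (inc g)).restrict fun x hx => by rwa [LinearMap.mem_ker, phi_rho]
  map_one' := LinearMap.ext fun x => Subtype.ext (LinearMap.congr_fun
    (ext_red (f := rho (inc 1)) (f' := LinearMap.id) fun v => rho_red _ v) x.1)
  map_mul' g h := LinearMap.ext fun x => Subtype.ext (LinearMap.congr_fun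
    (ext_red (f := rho (inc (g * h))) (f' := rho (inc g) ∘ₗ rho (inc h)) fun v => by
      rw [LinearMap.comp_apply, rho_red, rho_red, rho_red]; rfl) x.1)

theorem phi_U : phi (red13 leechU) = 8 := by decide +kernel

theorem eq_one_of_rho (g : Co0) (h1 : ∀ x, rho g x = x) : g = 1 := ext8 fun j => by
  have h2 : ∀ i, ((g • e8 j).1 i - (e8 j).1 i) % 13 = 0 := fun i => by
    have := congrFun ((rho_red _ _).symm.trans (h1 (red13 (e8 j)))) i
    simp only [red13, ZMod.intCast_eq_intCast_iff'] at this
    push_cast at this; omega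
  have hn := (norm_smul g (e8 j)).trans (norm_e8 j)
  have h3 : ∀ i, i ≠ j → (g • e8 j).1 i = 0 := fun i hi => by
    have h4 := sq_le_sqNorm (g • e8 j).1 i
    have h5 := h2 i
    rw [e8_apply, if_neg hi] at h5
    rw [hn] at h4
    have := abs_le_of_sq_le_sq' (b := (8 : ℤ)) (h4.trans (by norm_num)) (by norm_num)
    omega
  rw [sqNorm, sum_eq_single j (fun i _ hi => by rw [h3 i hi]; simp) (by simp)] at hn
  have h5 := h2 j
  rw [e8_apply, if_pos rfl] at h5
  refine Subtype.ext (funext fun i => ?_)
  rw [one_smul, e8_apply]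
  split_ifs with hi
  · subst hi
    rcases sq_eq_sq_iff_eq_or_eq_neg.1 (hn.trans (show (64 : ℤ) = 8 ^ 2 by norm_num)) with h | h <;>
      omega
  · exact h3 i hi

theorem rho'_val (g : Co2) (x : LinearMap.ker phi) : (rho' g x).1 = rho (inc g) x.1 := rfl

theorem rho'_ker (g : Co2) (h : rho' g = 1) : g = 1 := by
  have h1 : ∀ x, rho (inc g) x = x := fun x => by
    have h2 : x - (5 * phi x) • red13 leechU ∈ LinearMap.ker phi := by
      rw [LinearMap.mem_ker, map_sub, map_smul, phi_U, smul_eq_mul]
      linear_combination (-phi x) * h40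
    have h3 := rho'_val g ⟨_, h2⟩
    rw [h, Module.End.one_apply, map_sub, map_smul, rho_red, inc_U] at h3
    exact sub_left_inj.1 h3.symm
  have : (inc g).1 = (1 : Co0).1 := congrArg Subtype.val (eq_one_of_rho _ h1)
  exact Subtype.ext this

theorem rho'_inj : Function.Injective rho' := (injective_iff_map_eq_one _).2 rho'_ker

/-- The second Conway group (the stabilizer in the Leech lattice automorphism group of the short vector fixed in the definitions) is isomorphic to a subgroup of the general linear group of degree 23 over the field with 13 elements: there is an injective homomorphism into it. -/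
theorem result : ∃ f : ↥Cfsg.Spor.Co2 →* GL (Fin 23) (ZMod 13), Function.Injective f := by
  have hd : Module.finrank (ZMod 13) (LinearMap.ker phi) = 23 := by
    have := Module.Dual.finrank_ker_add_one_of_ne_zero (f := phi) (fun h => by
      have := phi_U; rw [h] at this; exact absurd this (by decide))
    rw [Module.finrank_fintype_fun_eq_card, card_golayPt] at this
    omega
  let b := Module.finBasisOfFinrankEq (ZMod 13) _ hd
  let F : Co2 →* Matrix (Fin 23) (Fin 23) (ZMod 13) :=
    (LinearMap.toMatrixAlgEquiv b).toMulEquiv.toMonoidHom.comp rho'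
  refine ⟨F.toHomUnits, fun g h e => rho'_inj ((LinearMap.toMatrixAlgEquiv b).injective ?_)⟩
  exact congrArg Units.val e

end Cfsg.Agent.S5546
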