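import Cfsg.Statements.S5548
import Cfsg.Agent.M24.InvSub

set_option autoImplicit false
open Cfsg

namespace Cfsg.Agent.S5548

open Cfsg.Agent.M24 Finset MulAction
open scoped symmDiff Pointwise


/-- For the automorphism group of the length-24 binary Golay code of the definitions (the Mathieu group of degree 24) acting on binary words of length 24 by permuting coordinates, the only invariant subspaces of the space of all words are: zero, the span of the all-ones word, the code itself, the even-weight words, and the whole space. (So the permutation module has a unique composition series.) -/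
theorem result (W : Submodule (ZMod 2) (Cfsg.GolayPt → ZMod 2)) (hW : ∀ σ ∈ Cfsg.M24, ∀ w ∈ W, (fun p => w (σ.symm p)) ∈ W) : W = ⊥ ∨ W = Submodule.span (ZMod 2) {fun _ => (1 : ZMod 2)} ∨ W = Cfsg.golayCode ∨ (W : Set (Cfsg.GolayPt → ZMod 2)) = {w | ∑ p, w p = 0} ∨ W = ⊤ := by
  by_cases hle : W ≤ golayCode
  · rcases sub_golay W hW hle with h | h | h <;> simp [h]
  obtain ⟨w, hw, hwc⟩ := SetLike.not_le_iff_exists.1 hle
  have hI := invFam_of W hW
  have he := hI.even_of_not_cw (w := support₂ w) (fun h => hwc (isCw_support.1 h)) (by simpa using hw)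
  have he' : ∀ v : GolayPt → ZMod 2, ∑ p, v p = 0 → v ∈ W := fun v hv => by
    rw [sum_eq_card, ZMod.natCast_eq_zero_iff_even] at hv
    simpa using he _ hv
  by_cases hodd : ∃ u ∈ W, ∑ p, u p ≠ 0
  · obtain ⟨u, hu, hu'⟩ := hodd
    refine Or.inr (Or.inr (Or.inr (Or.inr (eq_top_iff.2 fun v _ => ?_))))
    by_cases hv : ∑ p, v p = 0
    · exact he' v hv
    · have := he' (v - u) (by
        simp only [Pi.sub_apply, sum_sub_distrib, zmod2_ne_zero.1 hv, zmod2_ne_zero.1 hu', sub_self])
      simpa using W.add_mem this hu
  · push Not at hodd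
    exact Or.inr (Or.inr (Or.inr (Or.inl (Set.ext fun v => ⟨hodd v, he' v⟩))))

end Cfsg.Agent.S5548
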