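import Cfsg.Statements.S5549
import Cfsg.Agent.M24.Dod

set_option autoImplicit false
open Cfsg

namespace Cfsg.Agent.S5549

open Cfsg.Agent.M24 Finset MulAction
open scoped symmDiff Pointwise

theorem sum_mem (w : GolayPt → ZMod 2) (u : Finset GolayPt) :
    ∑ p ∈ u, w p = ((support₂ w ∩ u).card : ZMod 2) := by
  rw [← support_ind u, ← sum_mul_eq, support_ind, ← sum_subset (subset_univ u)]
  · exact sum_congr rfl fun p hp => by simp [ind, hp]
  · intro p _ hp; simp [ind, hp]

/-- Number of words of weight 8 or 16 meeting `u` oddly. -/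
noncomputable def N (u : Finset GolayPt) : ℕ :=
  {s | IsCw s ∧ ((s.card = 8 ∨ s.card = 16) ∧ (s ∩ u).card % 2 = 1)}.ncard

theorem N_smul {g : Equiv.Perm GolayPt} (hg : g ∈ M24) (u : Finset GolayPt) : N (g • u) = N u := by
  symm
  refine Set.ncard_congr (fun s _ => g • s) (fun s hs => ⟨hs.1.smul hg, ?_⟩)
    (fun s t _ _ e => MulAction.injective g e) fun s hs => ⟨g⁻¹ • s, ⟨hs.1.smul (M24.inv_mem hg), ?_⟩,
      smul_inv_smul g s⟩
  · rw [← smul_finset_inter, card_smul_finset, card_smul_finset]; exact hs.2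
  · rw [← inv_smul_smul g u, ← smul_finset_inter, card_smul_finset, card_smul_finset]; exact hs.2

theorem N_eq {u : Finset GolayPt} (h : u.card ≤ 4) : N u = 704 ↔ u.card = 2 := by
  have h1 : ∀ k ≤ 4, (unmask (2 ^ k - 1)).card = k := by decide +kernel
  obtain ⟨g, hg, e⟩ := trans_sets (h1 _ h) (by rw [h1 _ h]; omega)
  have h2 : ∀ k ≤ 4, (bsum (fun x => b2n (force (cw x) fun m => band (bor (Nat.beq (pc m) 8)
    (Nat.beq (pc m) 16)) (Nat.beq (pc (Nat.land m (2 ^ k - 1)) % 2) 1))) 12 0 = 704 ↔ k = 2) := by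
    decide +kernel
  rw [← h2 _ h, ← ncard_cw (P := fun s => (s.card = 8 ∨ s.card = 16) ∧
    (s ∩ unmask (2 ^ u.card - 1)).card % 2 = 1)]
  · conv_lhs => rw [← e, N_smul hg]
    rfl
  · intro s _
    have : 2 ^ u.card - 1 < 2 ^ 24 :=
      lt_of_le_of_lt (Nat.sub_le _ _) (Nat.pow_lt_pow_right (by norm_num) (by omega))
    rw [card_eq_pc (s ∩ _), mask_inter, mask_unmask this, card_eq_pc s]
    simp only [band_eq, bor_eq, Bool.and_eq_true, Bool.or_eq_true, Nat.beq_eq]

theorem N_eq_words (u : Finset GolayPt) : N u = {c : golayCode |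
    ((support₂ c.1).card = 8 ∨ (support₂ c.1).card = 16) ∧ ∑ p ∈ u, c.1 p = 1}.ncard := by
  symm
  have h : ∀ n : ℕ, (n : ZMod 2) = 1 ↔ n % 2 = 1 := fun n => by
    rw [ZMod.natCast_eq_one_iff_odd, Nat.odd_iff]
  refine Set.ncard_congr (fun c _ => support₂ c.1) (fun c hc => ⟨isCw_support.2 c.2, hc.1, ?_⟩)
    (fun s t _ _ e => Subtype.ext (support₂_inj e)) fun s hs =>
      ⟨⟨ind s, isCw_iff_ind.1 hs.1⟩, ⟨?_, ?_⟩, support_ind s⟩
  · rw [← h, ← sum_mem]; exact hc.2
  · simpa using hs.2.1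
  · rw [sum_mem, support_ind, h]; exact hs.2.2

theorem sum_symmDiff' (w : GolayPt → ZMod 2) (u v : Finset GolayPt) :
    ∑ p ∈ u ∆ v, w p = ∑ p ∈ u, w p + ∑ p ∈ v, w p := by
  have h : ∀ u : Finset GolayPt, ∑ p ∈ u, w p = ∑ p, w p * ind u p := fun u => by
    rw [sum_mem, sum_mul_eq, support_ind]
  simp only [h, ind_symmDiff, Pi.add_apply, mul_add, sum_add_distrib]

theorem sum_cw {w : GolayPt → ZMod 2} (hw : w ∈ golayCode) {u : Finset GolayPt} (hu : IsCw u) :
    ∑ p ∈ u, w p = 0 := by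
  rw [sum_mem, ZMod.natCast_eq_zero_iff]; exact (isCw_support.2 hw).even_inter hu

theorem exists_small (ψ : golayCode →ₗ[ZMod 2] ZMod 2) :
    ∃ u : Finset GolayPt, u.card ≤ 4 ∧ ∀ c, ψ c = ∑ p ∈ u, c.1 p := by
  obtain ⟨g, hg⟩ := ψ.exists_extend
  obtain ⟨u, hu, hc⟩ := exists_leader (support₂ fun p => g fun j => if p = j then 1 else 0)
  refine ⟨u, hu, fun c => ?_⟩
  have h1 := sum_cw c.2 hc
  rw [sum_symmDiff', add_eq_zero_iff_eq_neg, ZMod.neg_eq_self_mod_two] at h1
  rw [← h1, ← hg, LinearMap.comp_apply, LinearMap.pi_apply_eq_sum_univ, sum_mem c.1, ← sum_mul_eq]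
  rfl

theorem eq_of_sums {u : Finset GolayPt} (h : ∀ c : golayCode, ∑ p ∈ u, c.1 p = 0) : IsCw u := by
  obtain ⟨v, hv, hc⟩ := exists_leader u
  have h1 : ∀ s, IsCw s → 2 ∣ (s ∩ v).card := fun s hs => by
    have := sum_cw (isCw_iff_ind.1 hs) hc
    rwa [sum_symmDiff', h ⟨_, isCw_iff_ind.1 hs⟩, zero_add, sum_mem, support_ind,
      ZMod.natCast_eq_zero_iff] at this
  have h2 : v = ∅ := by
    by_contra hne
    obtain ⟨a, ha⟩ := nonempty_iff_ne_empty.2 hne
    have h3 : ∀ k ≤ 4, (unmask (2 ^ k - 1)).card = k := by decide +kernel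
    obtain ⟨g, hg, e⟩ := trans_sets (h3 _ hv) (by rw [h3 _ hv]; omega)
    have h4 : ∀ k ≤ 4, k ≠ 0 → ¬ 2 ∣ (unmask (cw 1) ∩ unmask (2 ^ k - 1)).card := by decide +kernel
    refine h4 _ hv (card_ne_zero_of_mem ha) ?_
    rw [← card_smul_finset g, smul_finset_inter, e]
    exact h1 _ ((isCw_cw (by norm_num)).smul hg)
  rwa [h2, ← bot_eq_empty, symmDiff_bot] at hc

theorem star {α : Type*} [DecidableEq α] {I : Finset α} (hI : 4 < I.card) {D : α → Finset α}
    (h2 : ∀ a ∈ I, (D a).card = 2) (h : ∀ a ∈ I, ∀ b ∈ I, a ≠ b → (D a ∩ D b).card = 1) :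
    ∃ p, ∀ a ∈ I, p ∈ D a := by
  by_contra hc
  push Not at hc
  have hne : ∀ a ∈ I, ∀ b ∈ I, (D a ∩ D b).Nonempty := fun a ha b hb => by
    by_cases e : a = b
    · rw [e, inter_self, ← card_pos, h2 b hb]; norm_num
    · rw [← card_pos, h a ha b hb e]; norm_num
  have h3 : ∀ p, (I.filter fun a => p ∈ D a).card ≤ 2 := fun p => by
    obtain ⟨a₀, ha₀, hp⟩ := hc p
    choose! r hr using fun a ha => hne a ha a₀ ha₀
    rw [← h2 a₀ ha₀]
    refine card_le_card_of_injOn r (fun a ha => (mem_inter.1 (hr a (mem_filter.1 ha).1)).2)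
      fun a ha b hb e => ?_
    rw [mem_coe, mem_filter] at ha hb
    by_contra hab
    have h4 := h a ha.1 b hb.1 hab
    have h5 := mem_inter.1 (hr a ha.1)
    have h6 := mem_inter.1 (hr b hb.1)
    have h7 : p ≠ r a := fun e => hp (e ▸ h5.2)
    have := card_le_card (show {p, r a} ⊆ D a ∩ D b by
      simp only [insert_subset_iff, singleton_subset_iff, mem_inter]
      exact ⟨⟨ha.2, hb.2⟩, h5.1, e ▸ h6.1⟩)
    rw [card_pair h7] at this
    omega
  obtain ⟨a, ha⟩ := card_pos.1 (show 0 < I.card by omega)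
  have h4 : I ⊆ (D a).biUnion fun p => I.filter fun b => p ∈ D b := fun b hb => by
    obtain ⟨p, hp⟩ := hne a ha b hb
    exact mem_biUnion.2 ⟨p, (mem_inter.1 hp).1, mem_filter.2 ⟨hb, (mem_inter.1 hp).2⟩⟩
  have := (card_le_card h4).trans (card_biUnion_le_card_mul _ _ _ fun p _ => h3 p)
  rw [h2 a ha] at this
  omega


/-- Let X be a group of linear automorphisms of the length-24 binary Golay code of the definitions that fix the all-ones word, containing the coordinate-permutation action of every element of the code's automorphism group (the Mathieu group of degree 24), and such that every element of X sends each codeword into its orbit under that Mathieu group up to adding the all-ones word (X has the same orbits as the Mathieu group on the code modulo the all-ones word). Then every element of X agrees, modulo the all-ones word, with the action of a single element of the Mathieu group: X induces exactly the Mathieu group on the code modulo the all-ones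 word. -/
theorem result (X : Subgroup (↥Cfsg.golayCode ≃ₗ[ZMod 2] ↥Cfsg.golayCode)) (h1 : ∀ x ∈ X, ∀ e : ↥Cfsg.golayCode, (e : (Cfsg.GolayPt → ZMod 2)) = (fun _ => (1 : ZMod 2)) → x e = e) (hM : ∀ σ ∈ Cfsg.M24, ∃ x ∈ X, ∀ c : ↥Cfsg.golayCode, ((x c : ↥Cfsg.golayCode) : (Cfsg.GolayPt → ZMod 2)) = fun p => (c : (Cfsg.GolayPt → ZMod 2)) (σ.symm p)) (horb : ∀ x ∈ X, ∀ c : ↥Cfsg.golayCode, ∃ σ ∈ Cfsg.M24, ((x c : ↥Cfsg.golayCode) : (Cfsg.GolayPt → ZMod 2)) = (fun p => (c : (Cfsg.GolayPt → ZMod 2)) (σ.symm p)) ∨ ((x c : ↥Cfsg.golayCode) : (Cfsg.GolayPt → ZMod 2)) = (fun p => (c : (Cfsg.GolayPt → ZMod 2)) (σ.symm p)) + fun _ => (1 : ZMod 2)) (x : ↥Cfsg.golayCode ≃ₗ[ZMod 2] ↥Cfsg.golayCode) (hx : x ∈ X) : ∃ σ ∈ Cfsg.M24, ∀ c : ↥Cfsg.golayCode, ((x c : ↥Cfsg.golayCode) : (Cfsg.GolayPt → ZMod 2)) = (fun p => (c : (Cfsg.GolayPt → ZMod 2)) (σ.symm p)) ∨ ((x c : ↥Cfsg.golayCode) : (Cfsg.GolayPt → ZMod 2)) = (fun p => (c : (Cfsg.GolayPt → ZMod 2)) (σ.symm p)) + fun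 _ => (1 : ZMod 2) := by
  have hT : ∀ c : golayCode, ((support₂ (x c).1).card = 8 ∨ (support₂ (x c).1).card = 16) ↔
      ((support₂ c.1).card = 8 ∨ (support₂ c.1).card = 16) := fun c => by
    obtain ⟨σ, -, e | e⟩ := horb x hx c
    · rw [e, support_perm, card_smul_finset]
    · rw [e, support₂_add, support_perm, ← ind_univ, support_ind, ← univ_sdiff_eq, card_univ_sdiff,
        card_smul_finset, card_golayPt]
      omega
  have hD : ∀ a b : GolayPt, a ≠ b → ∃ D : Finset GolayPt, D.card = 2 ∧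
      ∀ c : golayCode, (x c).1 a + (x c).1 b = ∑ p ∈ D, c.1 p := fun a b hab => by
    obtain ⟨u, hu, e⟩ := exists_small
      ((LinearMap.proj (R := ZMod 2) (φ := fun _ => ZMod 2) a +
        LinearMap.proj (R := ZMod 2) (φ := fun _ => ZMod 2) b) ∘ₗ golayCode.subtype ∘ₗ x.toLinearMap)
    refine ⟨u, (N_eq hu).1 ?_, e⟩
    rw [← (N_eq (u := {a, b}) (by rw [card_pair hab]; norm_num)).2 (card_pair hab), N_eq_words,
      N_eq_words]
    refine Set.ncard_congr (fun c _ => x c) (fun c hc => ⟨(hT c).2 hc.1, ?_⟩)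
      (fun s t _ _ e => x.injective e) fun c hc => ⟨x.symm c, ⟨(hT _).1 (by simpa using hc.1), ?_⟩,
        x.apply_symm_apply c⟩
    · rw [sum_pair hab, ← hc.2]; exact e c
    · rw [← e, ← hc.2, sum_pair hab]; simp
  choose! D hD2 hDe using fun a => hD a none
  have h11 : ∀ t : ZMod 2, t + t = 0 := by decide
  obtain ⟨p, hp⟩ := star (I := univ.erase none) (D := D) (by decide +kernel)
    (fun a ha => hD2 a (mem_erase.1 ha).1) fun a ha b hb hab => by
      obtain ⟨E, hE, e⟩ := hD a b hab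
      have h1 := eq_of_sums (u := (D a ∆ D b) ∆ E) fun c => by
        rw [sum_symmDiff', sum_symmDiff', ← hDe a (mem_erase.1 ha).1, ← hDe b (mem_erase.1 hb).1, ← e]
        linear_combination h11 ((x c).1 a) + h11 ((x c).1 b) + h11 ((x c).1 none)
      have h2 := card_symmDiff_add (D a) (D b)
      have h3 := card_symmDiff_add (D a ∆ D b) E
      rw [hD2 a (mem_erase.1 ha).1, hD2 b (mem_erase.1 hb).1] at h2
      have h4 := h1.eq_empty (by omega)
      rw [← bot_eq_empty, symmDiff_eq_bot] at h4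
      rw [h4] at h2
      omega
  have hτ : ∀ a : GolayPt, ∃ q, ∀ c : golayCode, (x c).1 a + (x c).1 none = c.1 q + c.1 p := by
    intro a
    by_cases ha : a = none
    · exact ⟨p, fun c => by rw [ha, h11, h11]⟩
    · have h1 := hp a (mem_erase.2 ⟨ha, mem_univ a⟩)
      obtain ⟨q, hq⟩ := card_eq_one.1 (show ((D a).erase p).card = 1 by
        rw [card_erase_of_mem h1, hD2 a ha])
      exact ⟨q, fun c => by rw [hDe a ha, ← sum_erase_add _ _ h1, hq, sum_singleton]⟩
  choose τ hτ using hτ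
  have hinj : Function.Injective τ := fun a b e => by
    by_contra hab
    have h1 := eq_of_sums (u := {a, b}) fun c => by
      have h1 := hτ a (x.symm c)
      have h2 := hτ b (x.symm c)
      rw [x.apply_symm_apply] at h1 h2
      rw [sum_pair hab]
      rw [e] at h1
      linear_combination h1 + h2 - h11 (c.1 none) + h11 ((x.symm c).1 (τ b)) + h11 ((x.symm c).1 p)
    have := h1.card
    rw [card_pair hab] at this
    omega
  let σ : Equiv.Perm GolayPt := (Equiv.ofBijective τ (Finite.injective_iff_bijective.1 hinj)).symm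
  have key : ∀ c : golayCode, (x c).1 = (fun p => c.1 (σ.symm p)) ∨
      (x c).1 = (fun p => c.1 (σ.symm p)) + fun _ => 1 := fun c => by
    by_cases h0 : (x c).1 none + c.1 p = 0
    · left; funext a
      change _ = c.1 (τ a)
      linear_combination hτ a c + h0 - h11 ((x c).1 none)
    · right; funext a
      change _ = c.1 (τ a) + 1
      linear_combination hτ a c + zmod2_ne_zero.1 h0 - h11 ((x c).1 none)
  refine ⟨σ, mem_M24.2 fun s hs => ?_, key⟩
  rw [isCw_iff_ind, ind_smul]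
  rcases key ⟨_, isCw_iff_ind.1 hs⟩ with e | e
  · rw [← e]; exact (x _).2
  · rw [← sub_eq_iff_eq_add] at e
    rw [← e]
    exact golayCode.sub_mem (x _).2 (Submodule.subset_span (Set.mem_union_right _ rfl))

end Cfsg.Agent.S5549
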