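import Cfsg.Statements.S5550
import Cfsg.Agent.M24.Dod

set_option autoImplicit false
open Cfsg

namespace Cfsg.Agent.S5550

open Cfsg.Agent.M24 Finset MulAction
open scoped symmDiff Pointwise

theorem moves {l : List ℕ} (hv : Valid mcode l)
    (h : ball (fun s => bor (Nat.beq s 0) (lany l fun g => !Nat.beq (apS g s) s)) 12 0 = true)
    {W : Finset GolayPt} (hW : ¬ IsCw W) : ∃ g ∈ gen mcode l, ¬ IsCw ((g • W) ∆ W) := by
  have := ball_zero h _ (syn_lt (mask_lt W))
  simp only [bor_eq, Bool.or_eq_true, Nat.beq_eq, lany_iff, Bool.not_eq_true'] at this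
  rcases this with h1 | ⟨s, hs, h1⟩
  · exact absurd (isCw_iff.2 h1) hW
  · obtain ⟨g, rfl⟩ := hv s hs
    refine ⟨g, mem_gen_of_mem hs, fun h2 => ?_⟩
    rw [mcode, apS_syn g.2, ← Bool.not_eq_true, Nat.beq_eq] at h1
    exact h1 (syn_eq_iff.2 h2)

theorem tr {U : Finset GolayPt} (h : ∀ W, ¬ IsCw W → ∃ g : M24, g • U = U ∧ ¬ IsCw ((g • W) ∆ W))
    (k : M24) : ∀ W, ¬ IsCw W → ∃ g : M24, g • k • U = k • U ∧ ¬ IsCw ((g • W) ∆ W) := by
  intro W hW
  obtain ⟨g, h1, h2⟩ := h (k⁻¹ • W) (by rwa [M24_smul_def, isCw_smul_iff (k⁻¹).2])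
  refine ⟨k * g * k⁻¹, by rw [mul_smul, mul_smul, inv_smul_smul, h1], fun h3 => h2 ?_⟩
  have := h3.smul (k⁻¹).2
  rwa [smul_symmDiff, ← M24_smul_def, ← M24_smul_def, mul_smul, mul_smul, inv_smul_smul] at this

theorem oct {o : Finset GolayPt} (ho : o ∈ octads) :
    ∀ W, ¬ IsCw W → ∃ g : M24, g • o = o ∧ ¬ IsCw ((g • W) ∆ W) := by
  obtain ⟨k, rfl⟩ := exists_smul_O0 ho
  refine tr (fun W hW => ?_) k
  obtain ⟨g, hg, h⟩ := moves (chkM_sound cO_chk).1 (by decide +kernel) hW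
  rw [← stab_O0] at hg
  exact ⟨g, hg, h⟩

theorem dod {o : Finset GolayPt} (ho : o ∈ dodecads) :
    ∀ W, ¬ IsCw W → ∃ g : M24, g • o = o ∧ ¬ IsCw ((g • W) ∆ W) := by
  obtain ⟨k, rfl⟩ := exists_smul_D0 ho
  refine tr (fun W hW => ?_) k
  obtain ⟨g, hg, h⟩ := moves (chkM_sound cD_chk).1 (by decide +kernel) hW
  rw [← stab_D0] at hg
  exact ⟨g, hg, h⟩

theorem key {U W : Finset GolayPt} (hU : IsCw U) (hW : ¬ IsCw W) :
    ∃ g : M24, g • U = U ∧ ¬ IsCw ((g • W) ∆ W) := by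
  rcases hU.card with h | h | h | h | h
  · obtain ⟨g, -, hg⟩ := oct O0_mem W hW
    exact ⟨g, by rw [card_eq_zero.1 h, smul_finset_empty], hg⟩
  · exact oct ⟨hU, h⟩ W hW
  · exact dod ⟨hU, h⟩ W hW
  · obtain ⟨g, h1, hg⟩ := oct (o := univ \ U) ⟨hU.compl, by
      rw [card_univ_sdiff, card_golayPt, h]⟩ W hW
    exact ⟨g, (smul_compl_eq_iff g U).1 h1, hg⟩
  · obtain ⟨g, -, hg⟩ := oct O0_mem W hW
    exact ⟨g, by rw [eq_univ_of_card U (h.trans card_golayPt.symm), smul_finset_univ], hg⟩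


/-- Let u be a word of the length-24 binary Golay code of the definitions (possibly zero or all-ones) and w any binary word of length 24 outside the code. Then some automorphism of the code (a coordinate permutation preserving it) fixes u but moves w to a word not congruent to w modulo the code: the stabilizer of a codeword fixes no non-zero element of the quotient of the space of all words by the code. -/
theorem result (u : (Cfsg.GolayPt → ZMod 2)) (hu : u ∈ Cfsg.golayCode) (w : (Cfsg.GolayPt → ZMod 2)) (hw : w ∉ Cfsg.golayCode) : ∃ σ ∈ Cfsg.M24, (fun p => u (σ.symm p)) = u ∧ (fun p => w (σ.symm p)) - w ∉ Cfsg.golayCode := by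
  obtain ⟨g, h1, h2⟩ := key (isCw_support.2 hu) (fun h => hw (isCw_support.1 h))
  refine ⟨g, g.2, support₂_inj (by rw [support_perm]; exact h1), fun h => h2 ?_⟩
  rwa [← isCw_support, word_sub, support₂_add, support_perm] at h

end Cfsg.Agent.S5550
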