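import Cfsg.Statements.S5553
import Cfsg.Agent.Leech.Basic

set_option autoImplicit false
open Cfsg

namespace Cfsg.Agent.S5553

open Finset Cfsg.Agent.M24 Cfsg.Agent.Leech

theorem par (x : leechLattice) (i : GolayPt) : (x.1 i - x.1 none) % 2 = 0 := by
  obtain ⟨m, c, y, -, -, e⟩ := Leech.mem_iff.1 x.2
  rw [e, e]; omega

/-- The homomorphism onto the code. -/
def phi : leechLattice →+ (GolayPt → ZMod 2) :=
  AddMonoidHom.mk' (fun x i => (((x.1 i - x.1 none) / 2 + x.1 none : ℤ) : ZMod 2)) (by
    intro x y; funext i
    have h1 := par x i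
    have h2 := par y i
    rw [Pi.add_apply, ← Int.cast_add, AddSubgroup.coe_add, Pi.add_apply, Pi.add_apply]
    congr 1; omega)

theorem phi_form (x : leechLattice) {m : ℤ} {c : Finset GolayPt} {y : GolayPt → ℤ}
    (e : ∀ i, x.1 i = m + 2 * chi c i + 4 * y i) (i : GolayPt) :
    phi x i = ind c i + ((m + chi c none : ℤ) : ZMod 2) := by
  have : ind c i = ((chi c i : ℤ) : ZMod 2) := by unfold ind chi; split_ifs <;> simp
  rw [this, ← Int.cast_add]
  change (((x.1 i - x.1 none) / 2 + x.1 none : ℤ) : ZMod 2) = _
  rw [ZMod.intCast_eq_intCast_iff', e, e]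
  push_cast; omega

theorem range_phi : (phi.range : Set (GolayPt → ZMod 2)) = ind '' {s | IsCw s ∧ True} := by
  ext w
  constructor
  · rintro ⟨x, rfl⟩
    obtain ⟨m, c, y, hc, -, e⟩ := Leech.mem_iff.1 x.2
    refine ⟨_, ⟨isCw_support.2 ?_, trivial⟩, ind_support _⟩
    have : phi x = ind c + ((m + chi c none : ℤ) : ZMod 2) • ind univ := by
      funext i; rw [phi_form x e]; simp [ind]
    rw [this]
    exact add_mem (isCw_iff_ind.1 hc) (Submodule.smul_mem _ _ (isCw_iff_ind.1 isCw_univ))
  · rintro ⟨c, ⟨hc, -⟩, rfl⟩
    by_cases h : none ∈ c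
    · refine ⟨⟨_, mem_of_form 1 (chi {none}) hc.compl (by rw [sum_chi]; simp) fun _ => rfl⟩, ?_⟩
      funext i
      rw [phi_form _ fun _ => rfl]
      by_cases hi : i ∈ c <;> simp [ind, chi, h, hi]
      rfl
    · refine ⟨⟨_, mem_of_form 0 0 hc (by simp) fun _ => rfl⟩, ?_⟩
      funext i
      rw [phi_form _ fun _ => rfl]
      simp [chi, h]


/-- The Leech lattice of the definitions has an additive subgroup A containing twice the lattice, of index 2^12 in the lattice, all of whose vectors have squared length divisible by 32: the invariant quadratic form 'squared length over 16 modulo 2' on the lattice modulo twice the lattice (a 24-dimensional space over the field with two elements) vanishes on a 12-dimensional subspace, so it is of plus type. -/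
theorem result : ∃ A : AddSubgroup (Cfsg.GolayPt → ℤ), A ≤ Cfsg.leechLattice ∧ (∀ v ∈ Cfsg.leechLattice, (2 : ℤ) • v ∈ A) ∧ (A.addSubgroupOf Cfsg.leechLattice).index = 2 ^ 12 ∧ ∀ v ∈ A, (32 : ℤ) ∣ Cfsg.sqNorm v := by
  refine ⟨phi.ker.map leechLattice.subtype, ?_, fun v hv => ?_, ?_, ?_⟩
  · rintro _ ⟨x, -, rfl⟩; exact x.2
  · refine ⟨(2 : ℤ) • ⟨v, hv⟩, ?_, rfl⟩
    rw [SetLike.mem_coe, AddMonoidHom.mem_ker, map_zsmul]
    funext i
    simp only [Pi.smul_apply, zsmul_eq_mul, Pi.zero_apply]
    exact mul_eq_zero_of_left rfl _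
  · rw [AddSubgroup.addSubgroupOf, AddSubgroup.comap_map_eq_self_of_injective
      leechLattice.subtype_injective, AddSubgroup.index_ker]
    change Nat.card (phi.range : Set (GolayPt → ZMod 2)) = _
    rw [range_phi, Nat.card_coe_set_eq, Set.ncard_image_of_injective _ ind_inj,
      ncard_cw (f := fun _ => true) (by simp)]
    decide +kernel
  · rintro _ ⟨x, hx, rfl⟩
    obtain ⟨m, c, y, hm, hc, hy, e⟩ := exists_form x.2
    have h : ∀ i, ind c i + ((m + chi c none : ℤ) : ZMod 2) = 0 := fun i => by
      rw [← phi_form x e]; exact congrFun (AddMonoidHom.mem_ker.1 hx) i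
    have h5 := sqNorm_form e
    have h6 := even_sum_sq_sub y
    change 32 ∣ sqNorm x.1
    by_cases h0 : none ∈ c
    · have h1 := h none
      have hm0 : m = 0 := by
        rcases hm with rfl | rfl
        · rfl
        · simp [ind, chi, h0] at h1; exact absurd h1 (by decide)
      have : c = univ := eq_univ_of_forall fun i => by
        by_contra hi
        have := h i
        simp [ind, chi, h0, hi, hm0] at this
      simp only [this, chi_univ, one_mul, card_univ, card_golayPt, hm0, Int.even_iff] at h5 h6 hy
      push_cast at h5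
      omega
    · have h1 := h none
      have hm0 : m = 0 := by
        rcases hm with rfl | rfl
        · rfl
        · simp [ind, chi, h0] at h1
      have : c = ∅ := eq_empty_of_forall_notMem fun i hi => by
        have := h i
        simp [ind, chi, h0, hi, hm0] at this
      simp only [this, chi_empty, Pi.zero_apply, zero_mul, sum_const_zero, card_empty, hm0,
        Int.even_iff] at h5 h6 hy
      push_cast at h5
      omega

end Cfsg.Agent.S5553
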