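import Cfsg.Statements.S5563
import Cfsg.Agent.J4.TA

set_option autoImplicit false
open Cfsg

namespace Cfsg.Agent.S5563

open Cfsg.Agent.J4 Cfsg.Agent.GT Cfsg.Agent.M24 Subgroup

/-- Let G be a finite non-abelian simple group of Janko-four type (an involution z whose centralizer H has an extraspecial largest normal 2-subgroup E of order 2^13 containing its centralizer in H, a normal subgroup N ≥ E of H with N/E of order 3 and H/N the automorphism group of M₂₂, and a subgroup P ≤ N of order 3 with C_E(P) = ⟨z⟩, N_H(P) ≠ C_H(P) and P ≤ C_H(P)′). Then the centralizer of P in H is the perfect sixfold cover of M₂₂ — it is perfect, its centre is cyclic of order 6 and its central quotient is isomorphic to M₂₂ — and the normalizer of P in G lies in H. -/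
theorem result {G : Type*} [Group G] [Finite G] [IsSimpleGroup G] (hG : ¬ IsMulCommutative G) (z : G) (P : Subgroup G) (hJ : Cfsg.IsOfJankoFourTypeWith z P) :
    ⁅(Subgroup.centralizer ({z} : Set G) ⊓ Subgroup.centralizer (P : Set G)), (Subgroup.centralizer ({z} : Set G) ⊓ Subgroup.centralizer (P : Set G))⁆ = (Subgroup.centralizer ({z} : Set G) ⊓ Subgroup.centralizer (P : Set G)) ∧
    IsCyclic ↥(Subgroup.center ↥(Subgroup.centralizer ({z} : Set G) ⊓ Subgroup.centralizer (P : Set G))) ∧ Nat.card ↥(Subgroup.center ↥(Subgroup.centralizer ({z} : Set G) ⊓ Subgroup.centralizer (P : Set G))) = 6 ∧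
    Cfsg.Spor.IsoM22 (↥(Subgroup.centralizer ({z} : Set G) ⊓ Subgroup.centralizer (P : Set G)) ⧸ Subgroup.center ↥(Subgroup.centralizer ({z} : Set G) ⊓ Subgroup.centralizer (P : Set G))) ∧ Subgroup.normalizer (P : Set G) ≤ Subgroup.centralizer ({z} : Set G) := by
  obtain ⟨ω, s, Λ, M, rfl⟩ := GM.of_type hJ
  obtain ⟨y, g, T, π, κ, J⟩ := M.exists_jd hG
  have e : C1[z] ⊓ C[zpowers (ω : G)] = C1[ω].map C1[z].subtype := by
    rw [cent_zpowers]
    exact ((congrArg _ (top_inf_eq _).symm).trans ((map_inf_cent1 M.inj).trans (by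
      rw [← MonoidHom.range_eq_map, range_subtype]; rfl))).symm
  have h := hJ.2.2.2.2.2.2.2.2 (mem_zpowers _)
  rw [e] at h ⊢
  rw [← map_commutator] at h ⊢
  obtain ⟨a, b, c⟩ := M.six_cover (C1[ω].equivMapOfInjective _ M.inj)
  exact ⟨by rw [J.perfect_K ((mem_map_inj M.inj).1 h)], a, b, c, fun n hn => mem_cent1.2 (J.norm_ω hn)⟩

end Cfsg.Agent.S5563
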