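import Cfsg.Statements.S5570
import Cfsg.Agent.J4.AX

set_option autoImplicit false
open Cfsg

namespace Cfsg.Agent.S5570

open Cfsg.Agent.J4 Cfsg.Agent.GT Cfsg.Agent.M24 Subgroup

/-- Let G be a finite non-abelian simple group of Janko-four type (an involution z whose centralizer H has an extraspecial largest normal 2-subgroup E of order 2^13 containing its centralizer in H, a normal subgroup N ≥ E of H with N/E of order 3 and H/N the automorphism group of M₂₂, and a subgroup P ≤ N of order 3 with C_E(P) = ⟨z⟩, N_H(P) ≠ C_H(P) and P ≤ C_H(P)′). Then G has self-centralizing elementary abelian subgroups of order 2^10, any two of them are conjugate, and for such a subgroup A the normalizer of A is a split extension of A by a complement isomorphic to L₅(2) under which A has no proper non-trivial invariant subgroup. -/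
theorem result {G : Type*} [Group G] [Finite G] [IsSimpleGroup G] (hG : ¬ IsMulCommutative G) (hJ : Cfsg.IsOfJankoFourType G) :
    (∃ A : Subgroup G, Cfsg.IsElementaryAbelian 2 A ∧ Nat.card ↥A = 2 ^ 10 ∧ Subgroup.centralizer (A : Set G) = A) ∧
    (∀ A A' : Subgroup G, Cfsg.IsElementaryAbelian 2 A → Nat.card ↥A = 2 ^ 10 → Subgroup.centralizer (A : Set G) = A → Cfsg.IsElementaryAbelian 2 A' → Nat.card ↥A' = 2 ^ 10 → Subgroup.centralizer (A' : Set G) = A' → ∃ g : G, A' = A.map (MulAut.conj g).toMonoidHom) ∧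
    ∀ A : Subgroup G, Cfsg.IsElementaryAbelian 2 A → Nat.card ↥A = 2 ^ 10 → Subgroup.centralizer (A : Set G) = A →
      (∃ B : Subgroup G, B ≤ Subgroup.normalizer (A : Set G) ∧ B ⊓ A = ⊥ ∧ B ⊔ A = Subgroup.normalizer (A : Set G) ∧
        Nonempty (↥B ≃* Matrix.SpecialLinearGroup (Fin 5) (ZMod 2))) ∧
      ∀ W : Subgroup G, W ≤ A → Subgroup.normalizer (A : Set G) ≤ Subgroup.normalizer (W : Set G) → W = ⊥ ∨ W = A := by
  obtain ⟨z, P, hJ⟩ := hJ
  obtain ⟨ω, s, Λ, M, -⟩ := GM.of_type hJ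
  obtain ⟨y, g, T, π, κ, J⟩ := M.exists_jd hG
  refine ⟨⟨M.A, elem_of_sq M.A_sq, M.card_A, M.cent_A⟩, fun A A' a1 a2 a3 b1 b2 b3 => ?_, fun A a1 a2 a3 => ?_⟩
  · obtain ⟨x, hx⟩ := M.conj_A' a1 a2 a3
    obtain ⟨x', hx'⟩ := M.conj_A' b1 b2 b3
    exact ⟨x'⁻¹ * x, by rw [mul_conj, hx, ← hx', inv_conj_conj]⟩
  · obtain ⟨x, hx⟩ := M.conj_A' a1 a2 a3
    obtain rfl := conj_eq_iff.1 hx
    obtain ⟨⟨B, h1, h2, h3, ⟨e⟩⟩, h4⟩ := J.ms.norm_A OA_mem (elem_of_sq M.A_sq) M.card_A M.A_le_norm J.pi_A J.card_A_inf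
      M.seven_A J.duad_A M.z_mem_A M.fusion_A M.card_norm_A_inf M.cent_A
    refine ⟨⟨cj[x⁻¹] B, by rw [← conj_normalizer]; exact conj_mono _ h1, by rw [← conj_inf, h2, conj_bot],
      by rw [← conj_sup, h3, conj_normalizer], ⟨(conjEquiv _ B).symm.trans e⟩⟩, fun W h5 h6 => ?_⟩
    rw [← conj_inv_conj x⁻¹ W, inv_inv] at h5 h6 ⊢
    rw [conj_eq_bot_iff, conj_inj]
    rw [← conj_normalizer, ← conj_normalizer, conj_le_conj_iff] at h6
    exact h4 _ (conj_le_conj_iff.1 h5) h6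

end Cfsg.Agent.S5570
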