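import Cfsg.Statements.S5571
import Cfsg.Agent.J4.AX

set_option autoImplicit false
open Cfsg

namespace Cfsg.Agent.S5571

open Cfsg.Agent.J4 Cfsg.Agent.GT Cfsg.Agent.M24 Subgroup

/-- Let G be a finite non-abelian simple group of Janko-four type (an involution z whose centralizer H has an extraspecial largest normal 2-subgroup E of order 2^13 containing its centralizer in H, a normal subgroup N ≥ E of H with N/E of order 3 and H/N the automorphism group of M₂₂, and a subgroup P ≤ N of order 3 with C_E(P) = ⟨z⟩, N_H(P) ≠ C_H(P) and P ≤ C_H(P)′). Let A be a self-centralizing elementary abelian subgroup of G of order 2^10. Then under conjugation by the normalizer of A the non-identity elements of A fall into two orbits, of lengths 155 and 868. -/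
theorem result {G : Type*} [Group G] [Finite G] [IsSimpleGroup G] (hG : ¬ IsMulCommutative G) (hJ : Cfsg.IsOfJankoFourType G) (A : Subgroup G) (hA : Cfsg.IsElementaryAbelian 2 A) (hcard : Nat.card ↥A = 2 ^ 10) (hself : Subgroup.centralizer (A : Set G) = A) :
    ∃ a b : G, a ∈ A ∧ b ∈ A ∧ Set.ncard {v : G | ∃ n ∈ Subgroup.normalizer (A : Set G), n * a * n⁻¹ = v} = 155 ∧
    Set.ncard {v : G | ∃ n ∈ Subgroup.normalizer (A : Set G), n * b * n⁻¹ = v} = 868 := by
  obtain ⟨z, P, hJ⟩ := hJ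
  obtain ⟨ω, s, Λ, M, -⟩ := GM.of_type hJ
  obtain ⟨y, g, T, π, κ, J⟩ := M.exists_jd hG
  obtain ⟨x, hx⟩ := M.conj_A' hA hcard hself
  obtain rfl := conj_eq_iff.1 hx
  obtain ⟨a, b, h1, h2, h3, h4⟩ := J.ms.orbits_A OA_mem (elem_of_sq M.A_sq) M.card_A M.A_le_norm J.pi_A J.card_A_inf
    M.seven_A J.duad_A M.z_mem_A M.fusion_A
  have key : ∀ a : G, {v : G | ∃ n ∈ N[cj[x⁻¹] M.A], n * (x⁻¹ * a * x⁻¹⁻¹) * n⁻¹ = v} =
      (MulAut.conj x⁻¹) '' {v : G | ∃ n ∈ N[M.A], n * a * n⁻¹ = v} := fun a => by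
    ext v
    rw [← conj_normalizer]
    constructor
    · rintro ⟨n, hn, rfl⟩
      obtain ⟨m, hm, rfl⟩ := mem_conj_iff_exists.1 hn
      exact ⟨_, ⟨m, hm, rfl⟩, by simp [mul_assoc]⟩
    · rintro ⟨_, ⟨m, hm, rfl⟩, rfl⟩
      exact ⟨_, conj_mem_conj.2 hm, by simp [mul_assoc]⟩
  exact ⟨_, _, conj_mem_conj.2 h1, conj_mem_conj.2 h2,
    by rw [key, Set.ncard_image_of_injective _ (MulEquiv.injective _), h3],
    by rw [key, Set.ncard_image_of_injective _ (MulEquiv.injective _), h4]⟩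

end Cfsg.Agent.S5571
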