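import Cfsg.Statements.S5574
import Cfsg.Agent.J4.PS

set_option autoImplicit false
open Cfsg

namespace Cfsg.Agent.S5574

open Cfsg.Agent.J4 Cfsg.Agent.GT Cfsg.Agent.M24 Subgroup

theorem no_compl {G H : Type*} [Group G] [Group H] [Finite G] {ι : H →* G} {z ω : H} {s : ℕ → H} {Λ : H →* R}
    {M : GM ι z ω s Λ} {q : H} {ψ : N[M.Z] →* Equiv.Perm (Fin 5) × SL3} (P : PT M q ψ) {K : Subgroup G}
    (h : IsComplIn M.L K N[M.L]) : False := by
  obtain ⟨e, a1, -, a3⟩ := P.exists_x8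
  have hx := cent_le_norm _ P.x_cent
  obtain ⟨l, hl, k, hk, e1⟩ := h.exists_mul (P.norm_L.ge hx)
  have h1 := P.norm_L.le (h.left_le hl)
  have h2 : k ^ 5 = 1 := h.inf_eq.le ⟨by
    rw [eq_inv_mul_of_mul_eq e1.symm]
    exact (P.ker (((⟨l, h1⟩ : N[M.Z])⁻¹ * ⟨_, hx⟩) ^ 5)).1 (by
      rw [map_pow, map_mul, map_inv, (P.ker _).2 hl, P.ψx]; decide), pow_mem hk 5⟩
  obtain ⟨n, hn, e2⟩ := conj_of_coset (m := ι q) M.pg_L (h.right_le hk)
    (Odd.of_dvd_nat (by decide) (orderOf_dvd_of_pow_eq_one h2)) (by rw [P.ordx]; decide) (by simpa [e1] using hl)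
  have h3 := h.conj n
  rw [conj_eq_self_of_mem hn, conj_eq_self_of_mem (h.left_le hn)] at h3
  obtain ⟨v, hv, c, hc, e3⟩ := h3.exists_mul (P.norm_L.ge e.2)
  have h4 : ι q ∈ cj[n] K := e2 ▸ conj_mem_conj.2 hk
  replace e3 := eq_inv_mul_of_mul_eq e3.symm
  have h5 : c * ι q * c⁻¹ * (ι q)⁻¹ = 1 := h3.inf_eq.le (mem_inf.2 ⟨by
    rw [e3, mul_assoc v⁻¹, mem_cent1.1 a1, show v⁻¹ * (ι q * e) * (v⁻¹ * e)⁻¹ * (ι q)⁻¹ = v⁻¹ * (ι q * v * (ι q)⁻¹) by group]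
    exact mul_mem (inv_mem hv) (conj_mem_of_mem_norm (P.norm_L.ge hx) hv),
    mul_mem (mul_mem (mul_mem hc h4) (inv_mem hc)) (inv_mem h4)⟩)
  have h6 : v⁻¹ ∈ M.Z := P.L_inf.le (mem_inf.2 ⟨inv_mem hv, by
    rw [eq_mul_inv_of_mul_eq e3.symm]
    exact mul_mem (mem_cent1.2 (mul_inv_eq_iff_eq_mul.1 (mul_inv_eq_one.1 h5))) (inv_mem a1)⟩)
  exact M.ne (M.inj ((h3.inf_eq.le ⟨M.Z_le_L M.z_mem_Z, a3 _ h6 ▸ e3 ▸ pow_mem hc 4⟩ : ι z = 1).trans (map_one ι).symm))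

/-- Let G be a finite non-abelian simple group of Janko-four type (an involution z whose centralizer H has an extraspecial largest normal 2-subgroup E of order 2^13 containing its centralizer in H, a normal subgroup N ≥ E of H with N/E of order 3 and H/N the automorphism group of M₂₂, and a subgroup P ≤ N of order 3 with C_E(P) = ⟨z⟩, N_H(P) ≠ C_H(P) and P ≤ C_H(P)′). Then G has a special 2-subgroup L of order 2^15 with centre of order 8 whose normalizer M satisfies: M/L is isomorphic to the direct product of the symmetric group of degree 5 and L₃(2); L has no complement in M; M nevertheless contains subgroups isomorphic to the symmetric group of degree 5 and to L₃(2); and M contains the normalizer of some Sylow 5-subgroup and of some Sylow 7-subgroup of G. -/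
theorem result {G : Type*} [Group G] [Finite G] [IsSimpleGroup G] (hG : ¬ IsMulCommutative G) (hJ : Cfsg.IsOfJankoFourType G) :
    ∃ L : Subgroup G, Cfsg.IsSpecial 2 ↥L ∧ Nat.card ↥L = 2 ^ 15 ∧ Nat.card ↥(Subgroup.center ↥L) = 8 ∧
    Nonempty (↥(Subgroup.normalizer (L : Set G)) ⧸ L.subgroupOf (Subgroup.normalizer (L : Set G)) ≃* Equiv.Perm (Fin 5) × Matrix.SpecialLinearGroup (Fin 3) (ZMod 2)) ∧
    (∀ K : Subgroup ↥(Subgroup.normalizer (L : Set G)), ¬ (L.subgroupOf (Subgroup.normalizer (L : Set G))).IsComplement' K) ∧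
    (∃ K₁ : Subgroup G, K₁ ≤ Subgroup.normalizer (L : Set G) ∧ Nonempty (↥K₁ ≃* Equiv.Perm (Fin 5))) ∧
    (∃ K₂ : Subgroup G, K₂ ≤ Subgroup.normalizer (L : Set G) ∧ Nonempty (↥K₂ ≃* Matrix.SpecialLinearGroup (Fin 3) (ZMod 2))) ∧
    (∃ Q : Sylow 5 G, Subgroup.normalizer ((Q : Subgroup G) : Set G) ≤ Subgroup.normalizer (L : Set G)) ∧
    (∃ S : Sylow 7 G, Subgroup.normalizer ((S : Subgroup G) : Set G) ≤ Subgroup.normalizer (L : Set G)) := by
  obtain ⟨z, P, hJ⟩ := hJ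
  obtain ⟨ω, s, Λ, M, -⟩ := GM.of_type hJ
  obtain ⟨y, g, T, π, κ, J⟩ := M.exists_jd hG
  obtain ⟨q, ψ, P⟩ := J.exists_pt
  obtain ⟨β, hβ, -⟩ := J.co3.exists_SL3
  obtain ⟨u, hu, -, h1, -, h2⟩ := J.norm5 P
  obtain ⟨Q, hQ⟩ := exists_sylow_of_syl_top (by norm_num) (syl_of_card_norm (p := 5) (by norm_num)
    ((Nat.card_zpowers _).trans P.ordx) (by rw [h2]; norm_num)).1
  obtain ⟨S, hS⟩ := exists_sylow_of_syl_top (by norm_num) (J.syl7 P).1
  refine ⟨M.L, (J.special P).1, M.card_L, (J.special P).2, P.quot_L, fun K h => no_compl P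
    ((isComplIn_iff_isComplement' le_normalizer (map_subtype_le K)).2 (by rwa [subgroupOf_map_subtype_self])), ?_⟩
  rw [P.norm_L]
  exact ⟨⟨C[M.Z] ⊓ C1[(κ (elt p7) : G)], inf_le_of_left_le (cent_le_norm M.Z), J.exists_I0 P⟩, ⟨_, J.L3_le, ⟨MulEquiv.ofBijective _ (J.bij_L3 hβ)⟩⟩,
    ⟨Q, hQ ▸ h1 ▸ sup_le (zpowers_le.2 (cent_le_norm _ hu)) (J.X_le P)⟩, S, hS ▸ (J.norm7 P).1⟩

end Cfsg.Agent.S5574
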