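import Cfsg.Statements.S5578
import Cfsg.Agent.J4.QI

set_option autoImplicit false
open Cfsg

namespace Cfsg.Agent.S5578

open Cfsg.Agent.J4 Cfsg.Agent.GT Cfsg.Agent.M24 Subgroup

/-- Let G be a finite non-abelian simple group of Janko-four type (an involution z whose centralizer H has an extraspecial largest normal 2-subgroup E of order 2^13 containing its centralizer in H, a normal subgroup N ≥ E of H with N/E of order 3 and H/N the automorphism group of M₂₂, and a subgroup P ≤ N of order 3 with C_E(P) = ⟨z⟩, N_H(P) ≠ C_H(P) and P ≤ C_H(P)′). Then G has a subgroup isomorphic to PGL₂(23) (the general linear group of degree 2 over the integers modulo 23, modulo its centre). -/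
theorem result {G : Type*} [Group G] [Finite G] [IsSimpleGroup G] (hG : ¬ IsMulCommutative G) (hJ : Cfsg.IsOfJankoFourType G) :
    ∃ K : Subgroup G, Nonempty (↥K ≃* GL (Fin 2) (ZMod 23) ⧸ Subgroup.center (GL (Fin 2) (ZMod 23))) := by
  obtain ⟨z, hJ⟩ := hJ
  obtain ⟨ω, s, Λ, M, y, g, T, π, κ, J, h⟩ := exists_jg hG hJ
  have o := (J.mc.oκ x23).trans orderOf_x23
  obtain ⟨x, hx, rfl⟩ : ∃ x ∈ N[M.V], x = κ x23 := ⟨_, (κ x23).2, rfl⟩
  generalize (κ x23 : G) = x at hx o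
  obtain ⟨c, e, n, he⟩ := J.big h J.card_c7 (p := 23) (by decide) o
  obtain rfl : e = 22 := by simpa using he
  have xP : x ∈ N[zpowers x] := le_normalizer (mem_zpowers x)
  obtain ⟨k, k1, k2⟩ := syl_count (by norm_num) (syl_zp (p := 23) (by norm_num) hx o (by rw [J.mc.card_N]; norm_num))
  have b1 := card_inf_mul_relIndex N[M.V] N[zpowers x]
  have b2 : 23 ∣ Nat.card ↥(N[M.V] ⊓ N[zpowers x]) := o ▸ orderOf_dvd_card_of_mem ⟨hx, xP⟩
  rw [J.mc.card_N] at k2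
  rw [n] at b1
  obtain ⟨b, hb⟩ := b2
  rw [hb] at b1 k2
  have b3 : b * N[M.V].relIndex N[zpowers x] = 22 := Nat.eq_of_mul_eq_mul_left (by norm_num) ((mul_assoc _ _ _).symm.trans b1)
  obtain rfl : b = 11 := by
    have : b ≤ 22 := Nat.le_of_dvd (by norm_num) ⟨_, b3.symm⟩
    interval_cases b <;> omega
  have i2 : (N[M.V].subgroupOf N[zpowers x]).index = 2 := by change N[M.V].relIndex _ = 2; omega
  have mm : ∀ a ∈ N[zpowers x], ∀ b ∈ N[zpowers x], a * b ∈ N[M.V] ↔ (a ∈ N[M.V] ↔ b ∈ N[M.V]) := fun a ha b hb =>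
    mul_mem_iff_of_index_two i2 (a := ⟨a, ha⟩) (b := ⟨b, hb⟩)
  obtain ⟨j, j1, j2⟩ : ∃ j ∈ N[zpowers x], j ∉ N[M.V] := by
    by_contra! k
    rw [inf_eq_right.2 k, n] at hb
    omega
  have j3 : j⁻¹ ∉ N[M.V] := fun k => j2 (inv_mem_iff.1 k)
  have f1 : ∀ a ∈ N[zpowers x], a ∉ N[M.V] → cj[a] M.V = cj[j] M.V := fun a ha k => by
    rw [← mul_inv_cancel_left j a, mul_conj, conj_eq_self ((mm _ (inv_mem j1) _ ha).2 (iff_of_false j3 k))]
  have f2 : N[M.V] ⊓ N[zpowers x] ≤ N[cj[j] M.V] := fun a ha => conj_eq_self_iff.1 (by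
    rw [← mul_conj, f1 _ (mul_mem ha.2 j1) fun k => j2 (((mm _ ha.2 _ j1).1 k).1 ha.1)])
  have f3 := J.fix23 hx o (q := j) (pq_mk j ▸ f2 ⟨hx, xP⟩) fun k => j2 (conj_eq_self_iff.1 (pq_mk j ▸ k))
  have f4 := (J.arith f3).1 (o ▸ orderOf_dvd_card_of_mem (H := N[M.V] ⊓ N[pq M.V j]) ⟨hx, pq_mk j ▸ f2 ⟨hx, xP⟩⟩)
  rw [pq_mk] at f4
  have f5 : N[zpowers x] ≤ N[N[M.V] ⊓ N[cj[j] M.V]] := fun a ha => conj_eq_self_iff.1 (by
    rw [conj_inf, conj_normalizer, conj_normalizer]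
    by_cases k : a ∈ N[M.V]
    · rw [conj_eq_self k, conj_eq_self (f2 ⟨k, ha⟩)]
    · rw [f1 a ha k, ← mul_conj, conj_eq_self ((mm _ ha _ j1).2 (iff_of_false k j2)), inf_comm])
  have f6 := card_sup_mul_card_inf f5
  rw [← inf_assoc, inf_comm N[zpowers x], inf_eq_left.2 f2, hb, n, show Nat.card _ = 6072 from f4] at f6
  obtain ⟨e1⟩ := rec23 (K := ↥(N[zpowers x] ⊔ N[M.V] ⊓ N[cj[j] M.V])) (by omega) (x := ⟨x, mem_sup_left xP⟩)
    ((Subgroup.orderOf_mk _ _).trans o) fun u hu => by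
      obtain ⟨i, hi⟩ : u.1 ∈ zpowers x := c.le (mem_cent1.2 (congrArg Subtype.val (mem_cent1.1 hu)))
      exact ⟨i, Subtype.ext hi⟩
  obtain ⟨e2⟩ := pgl23
  exact ⟨_, ⟨e1.trans e2.symm⟩⟩

end Cfsg.Agent.S5578
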