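import Cfsg.Statements.S5581
import Cfsg.Agent.J4M.All
import Cfsg.Agent.J4M.Main
import Cfsg.Agent.J4V.G
import Cfsg.Agent.J4W.E
import Cfsg.Agent.J4U.PD
import Cfsg.Agent.J4U.UM
-- import your own Cfsg.Agent.* helpers here

set_option autoImplicit false
open Cfsg

namespace Cfsg.Agent.S5581

/-- Let G be a finite non-abelian simple group of Janko-four type (Janko's involution-centralizer conditions; such a group is the fourth Janko group). Then G has maximal subgroups of each of the following kinds: one with a normal subgroup of index 2 isomorphic to U₃(11); one isomorphic to the automorphism group of M₂₂; one with a normal subgroup of index 5 isomorphic to L₂(32); one isomorphic to PGL₂(23); and one isomorphic to U₃(3). -/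
theorem result {G : Type*} [Group G] [Finite G] [IsSimpleGroup G] (hG : ¬ IsMulCommutative G) (hJ : Cfsg.IsOfJankoFourType G) :
    (∃ M : Subgroup G, IsCoatom M ∧ ∃ (K : Subgroup ↥M) (F : Type) (_ : Field F) (_ : Fintype F),
        Fintype.card F = 121 ∧ K.Normal ∧ K.index = 2 ∧ Nonempty (↥K ≃* Cfsg.PSU 3 F 11)) ∧
    (∃ M : Subgroup G, IsCoatom M ∧ Nonempty (↥M ≃* MulAut ↥Cfsg.Spor.M22)) ∧
    (∃ M : Subgroup G, IsCoatom M ∧ ∃ (K : Subgroup ↥M) (F : Type) (_ : Field F) (_ : Fintype F),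
        Fintype.card F = 32 ∧ K.Normal ∧ K.index = 5 ∧ Nonempty (↥K ≃* Matrix.ProjectiveSpecialLinearGroup (Fin 2) F)) ∧
    (∃ M : Subgroup G, IsCoatom M ∧ Nonempty (↥M ≃* GL (Fin 2) (ZMod 23) ⧸ Subgroup.center (GL (Fin 2) (ZMod 23)))) ∧
    (∃ M : Subgroup G, IsCoatom M ∧ ∃ (F : Type) (_ : Field F) (_ : Fintype F), Fintype.card F = 9 ∧ Nonempty (↥M ≃* Cfsg.PSU 3 F 3)) := by
  obtain ⟨z, hz⟩ := id hJ
  obtain ⟨-, ⟨e⟩⟩ := J4T.jt_iso hG hz
  obtain ⟨-, -, h37, h43⟩ := J4M.odd_max hG hz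
  have F := J4U.jf_of_type hG hJ
  exact ⟨J4V.coatom_u311 hG hJ h37 h43, J4M.m22 F e, J4W.l232 hG hJ, J4U.coatom_pgl hG hJ e, J4U.coatom_u33 F e⟩

end Cfsg.Agent.S5581
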