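import Cfsg.Statements.S5585
import Cfsg.Agent.JQ.A
import Cfsg.Agent.JQ.D

set_option autoImplicit false
open Cfsg

namespace Cfsg.Agent.S5585


/-- Let G be a finite non-abelian simple group with an involution τ whose centralizer C has generalized Fitting subgroup an extraspecial 2-group Q of order 2^13 of plus type (Q contains an elementary abelian subgroup of order 2^7), with a normal subgroup N ≥ Q of C such that N/Q has order 3 and is not complemented in C/Q, and C/N isomorphic to the automorphism group of M₂₂; suppose some conjugate of τ other than τ lies in Q. Then G is isomorphic to the fourth Janko group. -/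
theorem result {G : Type*} [Group G] [Finite G] [IsSimpleGroup G] (hG : ¬ IsMulCommutative G) (τ : G) (Q N : Subgroup ↥(Subgroup.centralizer ({τ} : Set G))) [Q.Normal] [N.Normal] (hS : Cfsg.IsExtraspecialCentralizerSetting τ Q 6) (hplus : ∃ E : Subgroup ↥Q, Cfsg.IsElementaryAbelian 2 E ∧ Nat.card ↥E = 2 ^ 7) (hQN : Q ≤ N) (hN3 : Nat.card ↥N = 3 * Nat.card ↥Q) (hns : ∀ K : Subgroup ↥(Subgroup.centralizer ({τ} : Set G)), K ⊓ N = Q → K ⊔ N = ⊤ → False) (hAut : Nonempty (↥(Subgroup.centralizer ({τ} : Set G)) ⧸ N ≃* MulAut ↥Cfsg.Spor.M22)) :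
    Cfsg.Spor.IsoJ4 G := by
  obtain ⟨h1, h2, h3, h4, -⟩ := hS
  obtain ⟨φ⟩ := hAut
  obtain ⟨ψ⟩ := J4.autM22
  obtain ⟨w, hw⟩ := TT.ES.of_isExtraspecial h3
  have hc : ∀ h : Subgroup.centralizer ({τ} : Set G), h * ⟨τ, GT.self_mem_cent1 τ⟩ = ⟨τ, GT.self_mem_cent1 τ⟩ * h :=
    fun h => Subtype.ext (GT.mem_cent1.1 h.2)
  have hC : Subgroup.centralizer (Q : Set (Subgroup.centralizer ({τ} : Set G))) ≤ Q := h2 ▸ TT.cent_fstar_le
  obtain rfl : ⟨τ, GT.self_mem_cent1 τ⟩ = w := hw.unique (hC fun y _ => hc y)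
    (fun e => by rw [show τ = 1 from congrArg Subtype.val e, orderOf_one] at h1; omega) fun y _ => (hc y).symm
  let θ : Subgroup.centralizer ({τ} : Set G) →* M24 :=
    J4.Dd.subtype.comp (((φ.trans ψ).toMonoidHom).comp (QuotientGroup.mk' _))
  obtain ⟨ω, s, Λ, M⟩ := JQ.hm_of_nonsplit hw hc h4 hC hQN (by rw [hN3, h4]) θ (by ext g; simp [θ]) (by
      rw [MonoidHom.range_comp, MonoidHom.range_eq_top.2, ← MonoidHom.range_eq_map, Subgroup.range_subtype]
      exact (φ.trans ψ).surjective.comp (QuotientGroup.mk'_surjective _)) hns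
  exact JQ.iso_of_gm (ι := (Subgroup.centralizer ({τ} : Set G)).subtype) hG
    ⟨M, Subgroup.subtype_injective _, fun g hg => ⟨⟨g, GT.mem_cent1.2 hg⟩, rfl⟩⟩

end Cfsg.Agent.S5585
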