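import Cfsg.Statements.S5594
import Cfsg.Agent.Leech.Types

set_option autoImplicit false
open Cfsg

namespace Cfsg.Agent.S5594

open Finset Cfsg.Agent.M24 Cfsg.Agent.Leech
open scoped symmDiff Pointwise


/-- The automorphism group of the Leech lattice contains the negation map, and the subgroup of order 2 it generates has no complement: the automorphism group is a non-split extension of its quotient by that subgroup (it is not the direct product of a group of order 2 with the first Conway group). -/
theorem result :
    ∃ n : ↥Cfsg.Co0, (∀ v : ↥Cfsg.leechLattice, ((n • v : ↥Cfsg.leechLattice) : Cfsg.GolayPt → ℤ) = -(v : Cfsg.GolayPt → ℤ)) ∧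
    ∀ K : Subgroup ↥Cfsg.Co0, ¬ (Subgroup.zpowers n).IsComplement' K := by
  refine ⟨ng, fun v => by rw [ng_smul]; rfl, fun K hK => ?_⟩
  have hp : isM24 63098155598130777866857538834072290 = true := by decide +kernel
  have hc : IsCw (unmask 3629894) := (isCw_unmask (by norm_num)).2 (by decide +kernel)
  have h1 : (elt 63098155598130777866857538834072290) * (elt 63098155598130777866857538834072290) = 1 :=
    gcM.inj (by rw [gcM.code_mul, mcode_elt hp, gcM.code_one]; decide +kernel)
  have h2 : unmask 3629894 ∆ ((elt 63098155598130777866857538834072290).1 • unmask 3629894) = univ := by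
    rw [smul_unmask _ (by norm_num), show pcode _ = _ from mcode_elt hp]; decide +kernel
  have h3 : (sgn (unmask 3629894) * prm (elt 63098155598130777866857538834072290)) *
      (sgn (unmask 3629894) * prm (elt 63098155598130777866857538834072290)) = ng := by
    rw [mul_assoc, ← mul_assoc (prm _), prm_mul_sgn _ hc, mul_assoc, ← map_mul, h1, map_one, mul_one,
      ← sgn_symmDiff hc (hc.smul (elt _).2), h2, ng]
  have ho : orderOf ng = 2 := orderOf_eq_prime (by rw [sq, ng_mul_self]) ng_ne_one
  have h4 : K.index = 2 := by rw [hK.index_eq_card, Nat.card_zpowers, ho]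
  have h5 : ng ∈ K := h3 ▸ Subgroup.mul_self_mem_of_index_two h4 _
  exact ng_ne_one (Subgroup.mem_bot.1 (hK.disjoint.le_bot ⟨Subgroup.mem_zpowers ng, h5⟩))

end Cfsg.Agent.S5594
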