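import Cfsg.Statements.S5599
import Cfsg.Agent.M24.Six

set_option autoImplicit false
open scoped Pointwise
open Cfsg

namespace Cfsg.Agent.S5599

open Cfsg.Agent.M24 Finset MulAction
open scoped symmDiff Pointwise


/-- In the automorphism group of the length-24 code, the two-point Mathieu group (permutations of the code's group fixing the extra point and the residue 0) has index 2 in the setwise stabiliser of that pair of points, and an element of the code's group interchanging the two points normalises the two-point group and induces on it, by conjugation, an automorphism that is not inner. -/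
theorem result (g : Equiv.Perm Cfsg.GolayPt) (hg : g ∈ Cfsg.M24) (h₁ : g none = some 0) (h₂ : g (some 0) = none) : Cfsg.Spor.M22.relIndex (Cfsg.M24 ⊓ MulAction.stabilizer (Equiv.Perm Cfsg.GolayPt) ({none, some 0} : Finset Cfsg.GolayPt)) = 2 ∧ (∀ x ∈ Cfsg.Spor.M22, g * x * g⁻¹ ∈ Cfsg.Spor.M22) ∧ ¬ ∃ h ∈ Cfsg.Spor.M22, ∀ x ∈ Cfsg.Spor.M22, g * x * g⁻¹ = h * x * h⁻¹ := by
  have mem22 : ∀ x : Equiv.Perm GolayPt, x ∈ Cfsg.Spor.M22 ↔
      x ∈ Cfsg.M24 ∧ x none = none ∧ x (some 0) = some 0 := by
    intro x
    simp only [Cfsg.Spor.M22, Cfsg.Spor.M23, Subgroup.mem_inf, mem_stabilizer_iff,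
      Equiv.Perm.smul_def, and_assoc]
  have hne : (none : GolayPt) ≠ some 0 := by simp
  refine ⟨?_, fun x hx => ?_, ?_⟩
  · rw [Subgroup.relIndex, Subgroup.index_eq_two_iff]
    refine ⟨⟨g, hg, ?_⟩, fun b => ?_⟩
    · change g • ({none, some 0} : Finset GolayPt) = _
      rw [smul_finset_insert, smul_finset_singleton, Equiv.Perm.smul_def,
        Equiv.Perm.smul_def, h₁, h₂, pair_comm]
    · obtain ⟨b, hb, hb'⟩ := b
      replace hb : b ∈ Cfsg.M24 := hb
      have hb'' := hb'
      change b • ({none, some 0} : Finset GolayPt) = _ at hb''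
      rw [smul_finset_insert, smul_finset_singleton, Equiv.Perm.smul_def,
        Equiv.Perm.smul_def] at hb''
      have m1 : b none ∈ ({none, some 0} : Finset GolayPt) := hb'' ▸ mem_insert_self _ _
      have m2 : b (some 0) ∈ ({none, some 0} : Finset GolayPt) :=
        hb'' ▸ mem_insert_of_mem (mem_singleton_self _)
      have hbn : b none ≠ b (some 0) := fun e => hne (b.injective e)
      simp only [Subgroup.mem_subgroupOf, mem22, Subgroup.coe_mul, Equiv.Perm.mul_apply, h₁, h₂,
        M24.mul_mem hb hg, hb, true_and]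
      simp only [mem_insert, mem_singleton] at m1 m2
      rcases m1 with m1 | m1 <;> rcases m2 with m2 | m2 <;> simp_all
  · rw [mem22] at hx ⊢
    refine ⟨M24.mul_mem (M24.mul_mem hg hx.1) (M24.inv_mem hg), ?_, ?_⟩
    · have : g⁻¹ none = some 0 := by rw [Equiv.Perm.inv_eq_iff_eq, h₂]
      simp only [Equiv.Perm.mul_apply, this, hx.2.2, h₂]
    · have : g⁻¹ (some 0) = none := by rw [Equiv.Perm.inv_eq_iff_eq, h₁]
      simp only [Equiv.Perm.mul_apply, this, hx.2.1, h₁]
  · rintro ⟨h, hh, hc⟩
    have hh' := (mem22 h).1 hh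
    set c := h⁻¹ * g with hcdef
    have hcm : c ∈ Cfsg.M24 := M24.mul_mem (M24.inv_mem hh'.1) hg
    have hcomm : ∀ x ∈ Cfsg.Spor.M22, c * x = x * c := by
      intro x hx
      have := hc x hx
      calc c * x = h⁻¹ * (g * x * g⁻¹) * g := by simp [hcdef, mul_assoc]
        _ = x * c := by rw [this]; simp [hcdef, mul_assoc]
    have c1 : c none = some 0 := by
      simp only [hcdef, Equiv.Perm.mul_apply, h₁]; rw [Equiv.Perm.inv_eq_iff_eq, hh'.2.2]
    have c2 : c (some 0) = none := by
      simp only [hcdef, Equiv.Perm.mul_apply, h₂]; rw [Equiv.Perm.inv_eq_iff_eq, hh'.2.1]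
    have cfix : ∀ p, p ≠ none → p ≠ some 0 → c p = p := by
      intro p hp1 hp2
      by_contra hq
      have hq1 : c p ≠ none := fun e => hp2 (c.injective (e.trans c2.symm))
      have hq2 : c p ≠ some 0 := fun e => hp1 (c.injective (e.trans c1.symm))
      obtain ⟨r, hr⟩ : ∃ r, r ∉ ({none, some 0, p, c p} : Finset GolayPt) := by
        by_contra hcon
        push Not at hcon
        have := card_le_card (fun a _ => hcon a : (univ : Finset GolayPt) ⊆ _)
        rw [card_univ, card_golayPt] at this
        have := card_le_four (a := none) (b := some 0) (c := p) (d := c p)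
        omega
      simp only [mem_insert, mem_singleton, not_or] at hr
      obtain ⟨x, hx, e⟩ := agree5 (Equiv.swap (c p) r) (F := {none, some 0, p, c p})
        (card_le_four.trans (by norm_num))
      have e1 := e none (by simp)
      have e2 := e (some 0) (by simp)
      have e3 := e p (by simp)
      have e4 := e (c p) (by simp)
      rw [Equiv.swap_apply_of_ne_of_ne hq1.symm (Ne.symm hr.1)] at e1
      rw [Equiv.swap_apply_of_ne_of_ne hq2.symm (Ne.symm hr.2.1)] at e2
      rw [Equiv.swap_apply_of_ne_of_ne (Ne.symm hq) (Ne.symm hr.2.2.1)] at e3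
      rw [Equiv.swap_apply_left] at e4
      have := congrArg (fun f : Equiv.Perm GolayPt => f p) (hcomm x ((mem22 x).2 ⟨hx, e1, e2⟩))
      simp only [Equiv.Perm.mul_apply, e3, e4] at this
      exact hr.2.2.2 this.symm
    have h7 : c = 1 := by
      have hfix : ∀ a ∈ unmask 8388606, c a = a := by
        intro a ha
        refine cfix a ?_ ?_ <;> rintro rfl <;> revert ha <;> decide +kernel
      have := fix_step hcm (F' := 16777215) (os := [5279]) (by norm_num) (by decide +kernel) hfix
      ext1 a
      exact this a (by rw [← mask_univ, unmask_mask]; exact mem_univ a)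
    rw [h7] at c1
    exact hne c1

end Cfsg.Agent.S5599
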