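import Cfsg.Statements.S5600
import Cfsg.Agent.M24.Six

set_option autoImplicit false
open scoped Pointwise
open Cfsg

namespace Cfsg.Agent.S5600

open Cfsg.Agent.M24 Finset MulAction
open scoped symmDiff Pointwise


/-- Although the group of the length-24 code is only 5-transitive on the 24 points, it induces the full symmetric group on every 6-element subset: every permutation of a 6-set E is the restriction of an element of the group mapping E to itself. The pointwise stabiliser of E has order 16 when E lies in an octad and order 3 otherwise; in the latter case the setwise stabiliser of E has order 2160. -/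
theorem result (E : Finset Cfsg.GolayPt) (hE : E.card = 6) : (∀ σ : Equiv.Perm ↥E, ∃ g ∈ Cfsg.M24, ∀ p : ↥E, g p = σ p) ∧ ((∃ o ∈ Cfsg.octads, E ⊆ o) → Nat.card {g : Equiv.Perm Cfsg.GolayPt // g ∈ Cfsg.M24 ∧ ∀ p ∈ E, g p = p} = 16) ∧ ((¬ ∃ o ∈ Cfsg.octads, E ⊆ o) → Nat.card {g : Equiv.Perm Cfsg.GolayPt // g ∈ Cfsg.M24 ∧ ∀ p ∈ E, g p = p} = 3 ∧ Nat.card ↥(MulAction.stabilizer Cfsg.M24 E) = 2160) := by
  have h1 : ∀ σ : Equiv.Perm ↥E, ∃ g ∈ Cfsg.M24, ∀ p : ↥E, g p = σ p := by
    intro σ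
    have hs : (Equiv.Perm.ofSubtype σ) • E = E := by
      apply eq_of_subset_of_card_le _ (by rw [card_smul_finset])
      intro a ha
      obtain ⟨b, hb, rfl⟩ := mem_smul_finset.1 ha
      rw [Equiv.Perm.smul_def, Equiv.Perm.ofSubtype_apply_of_mem σ hb]
      exact (σ ⟨b, hb⟩).2
    have : ∃ g ∈ Cfsg.M24, ∀ a ∈ E, g a = Equiv.Perm.ofSubtype σ a := by
      by_cases h : ∃ o ∈ Cfsg.octads, E ⊆ o
      · obtain ⟨o, ho, h⟩ := h
        exact agree6_in _ hE ho ho h (by rwa [hs])
      · exact agree6_out _ hE h (by rwa [hs])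
    obtain ⟨g, hg, e⟩ := this
    exact ⟨g, hg, fun p => by rw [e p p.2, Equiv.Perm.ofSubtype_apply_of_mem σ p.2]⟩
  refine ⟨h1, fun ⟨o, ho, h⟩ => ?_, fun h => ⟨?_, ?_⟩⟩
  · rw [card_pstab_eq, card_pstab_six_in hE ho h]
  · rw [card_pstab_eq, card_pstab_six_out hE h]
  · have hst : ∀ g ∈ stabilizer Cfsg.M24 E, g • E = E := fun g hg => hg
    have hsurj : Function.Surjective (resHom _ E hst) := by
      intro σ
      obtain ⟨g, hg, e⟩ := h1 σ
      refine ⟨⟨⟨g, hg⟩, ?_⟩, Equiv.ext fun p => Subtype.ext (e p)⟩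
      apply eq_of_subset_of_card_le _ (by rw [card_smul_finset])
      intro a ha
      obtain ⟨b, hb, rfl⟩ := mem_smul_finset.1 ha
      have := e ⟨b, hb⟩
      change g b ∈ E
      rw [this]; exact (σ ⟨b, hb⟩).2
    have hle : pstab E ≤ stabilizer Cfsg.M24 E := fun g hg => by
      rw [mem_stabilizer_iff, M24_smul_def, smul_eq_of_agree (σ := 1) hg, one_smul]
    have e := Subgroup.card_mul_index (resHom _ E hst).ker
    rw [Subgroup.index_ker, MonoidHom.range_eq_top.2 hsurj, Subgroup.card_top, Nat.card_perm,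
      Nat.card_eq_finsetCard, hE, ker_resHom,
      Nat.card_congr (Subgroup.subgroupOfEquivOfLe hle).toEquiv, card_pstab_six_out hE h] at e
    rw [← e]; rfl

end Cfsg.Agent.S5600
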