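import Cfsg.Statements.S5601
import Cfsg.Agent.M24.Fixed

set_option autoImplicit false
open scoped Pointwise
open Cfsg

namespace Cfsg.Agent.S5601

open Cfsg.Agent.M24 Finset MulAction
open scoped symmDiff Pointwise

theorem fix_zpowers (x : M24) :
    {p : GolayPt | ∀ y ∈ Subgroup.zpowers x, ((y : M24) : Equiv.Perm GolayPt) p = p}.ncard =
      (fixs x).card := by
  rw [← Set.ncard_coe_finset]
  congr 1
  ext p
  rw [mem_coe, mem_fixs]
  refine ⟨fun h => h x (Subgroup.mem_zpowers x), fun h y hy => ?_⟩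
  have : Subgroup.zpowers x ≤ stabilizer M24 p := (Subgroup.zpowers_le).2 h
  exact this hy

theorem exists_gen {X : Subgroup M24} (h : Nat.card X = 3) :
    ∃ x : M24, orderOf x = 3 ∧ X = Subgroup.zpowers x := by
  have : Fact (Nat.Prime 3) := ⟨by norm_num⟩
  obtain ⟨x, hx⟩ := (Subgroup.isCyclic_iff_exists_zpowers_eq_top X).1 (isCyclic_of_prime_card h)
  exact ⟨x, by rw [← Nat.card_zpowers, hx, h], hx.symm⟩

theorem conj_zpowers {k x y : M24} (h : k * x * k⁻¹ = y) :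
    MulAut.conj k • Subgroup.zpowers x = Subgroup.zpowers y := by
  rw [← h]
  exact MonoidHom.map_zpowers _ _


/-- The group of the length-24 code has exactly two conjugacy classes of subgroups of order 3: a subgroup of order 3 fixes either exactly 6 of the 24 points or none of them, both cases occur, and two subgroups of order 3 with the same number of fixed points are conjugate. -/
theorem result : (∀ X : Subgroup ↥Cfsg.M24, Nat.card X = 3 → {p : Cfsg.GolayPt | ∀ x ∈ X, ((x : ↥Cfsg.M24) : Equiv.Perm Cfsg.GolayPt) p = p}.ncard = 6 ∨ {p : Cfsg.GolayPt | ∀ x ∈ X, ((x : ↥Cfsg.M24) : Equiv.Perm Cfsg.GolayPt) p = p}.ncard = 0) ∧ (∃ X : Subgroup ↥Cfsg.M24, Nat.card X = 3 ∧ {p : Cfsg.GolayPt | ∀ x ∈ X, ((x : ↥Cfsg.M24) : Equiv.Perm Cfsg.GolayPt) p = p}.ncard = 6) ∧ (∃ X : Subgroup ↥Cfsg.M24, Nat.card X = 3 ∧ {p : Cfsg.GolayPt | ∀ x ∈ X, ((x : ↥Cfsg.M24) : Equiv.Perm Cfsg.GolayPt) p = p}.ncard = 0) ∧ ∀ X Y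 : Subgroup ↥Cfsg.M24, Nat.card X = 3 → Nat.card Y = 3 → {p : Cfsg.GolayPt | ∀ x ∈ X, ((x : ↥Cfsg.M24) : Equiv.Perm Cfsg.GolayPt) p = p}.ncard = {p : Cfsg.GolayPt | ∀ x ∈ Y, ((x : ↥Cfsg.M24) : Equiv.Perm Cfsg.GolayPt) p = p}.ncard → ∃ k : ↥Cfsg.M24, MulAut.conj k • X = Y := by
  refine ⟨fun X hX => ?_, ⟨Subgroup.zpowers yA, ?_, ?_⟩, ⟨Subgroup.zpowers yB, ?_, ?_⟩,
    fun X Y hX hY e => ?_⟩
  · obtain ⟨x, hx, rfl⟩ := exists_gen hX
    rw [fix_zpowers]
    obtain ⟨k, rfl | rfl⟩ := class3 hx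
    · left; rw [card_fixs_conj, card_fixs_yA]
    · right; rw [card_fixs_conj, card_fixs_yB]
  · rw [Nat.card_zpowers, orderOf_yA]
  · rw [fix_zpowers, card_fixs_yA]
  · rw [Nat.card_zpowers, orderOf_yB]
  · rw [fix_zpowers, card_fixs_yB]
  · obtain ⟨x, hx, rfl⟩ := exists_gen hX
    obtain ⟨y, hy, rfl⟩ := exists_gen hY
    rw [fix_zpowers, fix_zpowers] at e
    obtain ⟨a, ea | ea⟩ := class3 hx <;> obtain ⟨b, eb | eb⟩ := class3 hy
    · exact ⟨_, conj_zpowers (conj_of_two ea eb)⟩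
    · rw [ea, eb, card_fixs_conj, card_fixs_conj, card_fixs_yA, card_fixs_yB] at e; omega
    · rw [ea, eb, card_fixs_conj, card_fixs_conj, card_fixs_yA, card_fixs_yB] at e; omega
    · exact ⟨_, conj_zpowers (conj_of_two ea eb)⟩

end Cfsg.Agent.S5601
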