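import Cfsg.Statements.S5607
import Cfsg.Agent.M24.Fixed

set_option autoImplicit false
open scoped Pointwise
open Cfsg

namespace Cfsg.Agent.S5607

open Cfsg.Agent.M24 Finset MulAction
open scoped symmDiff Pointwise

theorem trans_B (p : GolayPt) : ∃ c ∈ Subgroup.centralizer {zB}, c • (none : GolayPt) = p := by
  obtain ⟨-, ⟨x₀, -, e, hok⟩, -⟩ := (chkM_sound cZB_chk).2.1
  obtain rfl : x₀ = none := idx_inj e
  have : p ∈ orbit (gen mcode cZB_l0.gens) (none : GolayPt) := by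
    rw [hok.orb]
    refine ⟨trivial, ?_⟩
    revert p; decide +kernel
  obtain ⟨⟨c, hc⟩, rfl⟩ := this
  exact ⟨c, cent_zB ▸ hc, rfl⟩

theorem conj_cent {G : Type*} [Group G] (k z c : G) : c ∈ Subgroup.centralizer {z} ↔
    k * c * k⁻¹ ∈ Subgroup.centralizer {k * z * k⁻¹} := by
  rw [← stabilizer_toCj, ← stabilizer_toCj, ← smul_toCj, ← conj_mem_stabilizer]


/-- For a fixed-point-free involution t of the group of the length-24 code: its centraliser in that group has order 7680, is transitive on the 24 points, and is contained, together with t, in the stabiliser of some sextet. -/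
theorem result (t : Equiv.Perm Cfsg.GolayPt) (ht : t ∈ Cfsg.M24) (h₂ : orderOf t = 2) (h₀ : ∀ p, t p ≠ p) : Nat.card {c : Equiv.Perm Cfsg.GolayPt // c ∈ Cfsg.M24 ∧ c * t = t * c} = 7680 ∧ (∀ p q : Cfsg.GolayPt, ∃ c ∈ Cfsg.M24, c * t = t * c ∧ c p = q) ∧ ∃ S ∈ Cfsg.sextets, t • S = S ∧ ∀ c ∈ Cfsg.M24, c * t = t * c → c • S = S := by
  obtain ⟨k, e⟩ := class2B (g := ⟨t, ht⟩) ((orderOf_mk ht).trans h₂) h₀
  obtain rfl : t = (k * zB * k⁻¹ : M24) := congrArg Subtype.val e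
  have hc : ∀ c : M24, c ∈ Subgroup.centralizer {k * zB * k⁻¹} ↔
      (c : Equiv.Perm GolayPt) * (k * zB * k⁻¹ : M24) = (k * zB * k⁻¹ : M24) * c := fun c => by
    rw [Subgroup.mem_centralizer_singleton_iff, Subtype.ext_iff]; rfl
  have hS : ∀ c : M24, c ∈ Subgroup.centralizer {k * zB * k⁻¹} → c • k • S0 = k • S0 := fun c h => by
    have := cent_zB_le ((conj_cent k zB (k⁻¹ * c * k)).2 (by simpa [mul_assoc] using h))
    rw [mem_stabilizer_iff, mul_smul, mul_smul, inv_smul_eq_iff] at this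
    exact this
  refine ⟨?_, fun p q => ?_, k • S0, sextet_smul S0_mem k.2, ?_, fun c h1 h2 => ?_⟩
  · rw [← card_of_chk cZB_chk (n := 7680) (by decide +kernel), ← cent_zB,
      card_eq_of_conj k (conj_cent k zB)]
    exact Nat.card_congr
      { toFun := fun c => ⟨⟨c.1, c.2.1⟩, (hc _).2 c.2.2⟩
        invFun := fun c => ⟨c.1.1, c.1.2, (hc _).1 c.2⟩
        left_inv := fun _ => rfl
        right_inv := fun _ => rfl }
  · obtain ⟨a, ha, ea⟩ := trans_B (k⁻¹ • p)
    obtain ⟨b, hb, eb⟩ := trans_B (k⁻¹ • q)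
    refine ⟨_, (k * (b * a⁻¹) * k⁻¹).2, (hc _).1 ((conj_cent k zB _).1
      (Subgroup.mul_mem _ hb (Subgroup.inv_mem _ ha))), ?_⟩
    rw [← M24_smul_pt, mul_smul, mul_smul, mul_smul, ← ea, inv_smul_smul, eb, smul_inv_smul]
  · exact hS _ ((hc _).2 rfl)
  · exact hS ⟨c, h1⟩ ((hc _).2 h2)

end Cfsg.Agent.S5607
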