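import Cfsg.Statements.S5608
import Cfsg.Agent.M24.Fixed

set_option autoImplicit false
open scoped Pointwise
open Cfsg

namespace Cfsg.Agent.S5608

open Cfsg.Agent.M24 Finset MulAction
open scoped symmDiff Pointwise

def cA_t0 : T := (.node (.node .nil (nat_lit 0) (nat_lit 0) (nat_lit 0xbdab49ca307b9ac5a928398a418820) .nil)
  (nat_lit 3) (nat_lit 1) (nat_lit 0x1a0f4491d09864cb55eb518ad00a37) (.node .nil (nat_lit 23) (nat_lit 16)
  (nat_lit 0x2d547b4304c48c41e76a98b2b89c3) .nil))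
def cA_l0 : Lvl := ⟨nat_lit 0, [nat_lit 0x2d547b4304c48c41e76a98b2b89c3], [nat_lit 0], cA_t0⟩
def cA : List Lvl := [cA_l0]
def cA_cl : T := (.node (.node .nil (nat_lit 0x2d547b4304c48c41e76a98b2b89c3) (nat_lit
  0xbdab49ca307b9ac5a928398a418820) (nat_lit 0x2d547b4304c48c41e76a98b2b89c3) .nil) (nat_lit
  0x1a0f4491d09864cb55eb518ad00a37) (nat_lit 0x52405405a6592227ded31c28e3b255) (nat_lit
  0x2d547b4304c48c41e76a98b2b89c3) .nil)
theorem cA_chk : chkM cA = true := by decide +kernel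
theorem cA_cls : enum mul (clsChk 3 [nat_lit 0x2d547b4304c48c41e76a98b2b89c3] cA_cl) cA one = true := by
  decide +kernel
def cB_t0 : T := (.node (.node .nil (nat_lit 0) (nat_lit 0) (nat_lit 0xbdab49ca307b9ac5a928398a418820) .nil)
  (nat_lit 17) (nat_lit 1) (nat_lit 0x426c68440a3dde51ceae690540b172) (.node .nil (nat_lit 18) (nat_lit 16)
  (nat_lit 0x75524502536a0e20c2d77d18659471) .nil))
def cB_l0 : Lvl := ⟨nat_lit 0, [nat_lit 0x75524502536a0e20c2d77d18659471], [nat_lit 0], cB_t0⟩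
def cB : List Lvl := [cB_l0]
def cB_cl : T := (.node (.node .nil (nat_lit 0x426c68440a3dde51ceae690540b172) (nat_lit
  0x3aa640c643634ae4ae0f11914b5ea0) (nat_lit 0x75524502536a0e20c2d77d18659471) .nil) (nat_lit
  0x75524502536a0e20c2d77d18659471) (nat_lit 0xbdab49ca307b9ac5a928398a418820) (nat_lit
  0x75524502536a0e20c2d77d18659471) .nil)
theorem cB_chk : chkM cB = true := by decide +kernel
theorem cB_cls : enum mul (clsChk 3 [nat_lit 0x75524502536a0e20c2d77d18659471] cB_cl) cB one = true := by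
  decide +kernel

theorem three_zA {x : M24} (hx : orderOf x = 3) (h : x ∈ Subgroup.centralizer {zA}) :
    ∃ k : M24, x = k * yA * k⁻¹ := by
  have : Fact (Nat.Prime 3) := ⟨by norm_num⟩
  rw [cent_zA] at h
  obtain ⟨r, hr, k, e⟩ := classes_of_chk cA_chk (H := gen mcode (gensOf cZA))
    (gen_le_of_all (fun g hg => ((chkM_sound cZA_chk).2.2.2 g).2 hg) (by decide +kernel))
    (a := 1) (m := 7168) (card_of_chk cZA_chk (by decide +kernel)) (by norm_num) (by decide +kernel)
    (by decide +kernel) cA_cls h hx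
  rw [List.mem_singleton.1 hr] at e
  exact ⟨k, e⟩

theorem three_zB {x : M24} (hx : orderOf x = 3) (h : x ∈ Subgroup.centralizer {zB}) :
    ∃ k : M24, x = k * yB * k⁻¹ := by
  have : Fact (Nat.Prime 3) := ⟨by norm_num⟩
  rw [cent_zB] at h
  obtain ⟨r, hr, k, e⟩ := classes_of_chk cB_chk (H := gen mcode (gensOf cZB))
    (gen_le_of_all (fun g hg => ((chkM_sound cZB_chk).2.2.2 g).2 hg) (by decide +kernel))
    (a := 1) (m := 2560) (card_of_chk cZB_chk (by decide +kernel)) (by norm_num) (by decide +kernel)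
    (by decide +kernel) cB_cls h hx
  rw [List.mem_singleton.1 hr] at e
  exact ⟨k, e⟩

theorem aux {x k z : M24} (hx : orderOf x = 3) (h : x * (k * z * k⁻¹) = (k * z * k⁻¹) * x) :
    orderOf (k⁻¹ * x * k⁻¹⁻¹) = 3 ∧ k⁻¹ * x * k⁻¹⁻¹ ∈ Subgroup.centralizer {z} := by
  refine ⟨((MulAut.conj k⁻¹).orderOf_eq x).trans hx, ?_⟩
  rw [Subgroup.mem_centralizer_singleton_iff, inv_inv]
  calc k⁻¹ * x * k * z = k⁻¹ * (x * (k * z * k⁻¹)) * k := by group
    _ = _ := by rw [h]; group


/-- If an element of order 3 and an involution of the group of the length-24 code commute, then either the element of order 3 has exactly 6 fixed points and the involution exactly 8, or both are fixed-point-free. -/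
theorem result (x s : Equiv.Perm Cfsg.GolayPt) (hx : x ∈ Cfsg.M24) (hs : s ∈ Cfsg.M24) (h₃ : orderOf x = 3) (h₂ : orderOf s = 2) (hc : Commute x s) : ((Finset.univ.filter fun p => x p = p).card = 6 ∧ (Finset.univ.filter fun p => s p = p).card = 8) ∨ ((Finset.univ.filter fun p => x p = p).card = 0 ∧ (Finset.univ.filter fun p => s p = p).card = 0) := by
  have hx3 := (orderOf_mk hx).trans h₃
  obtain ⟨k, e | e⟩ := class2 (g := ⟨s, hs⟩) ((orderOf_mk hs).trans h₂)
  · obtain ⟨h1, h2⟩ := aux (k := k) (z := zA) hx3 (by rw [← e]; exact Subtype.ext hc)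
    obtain ⟨a, ea⟩ := three_zA h1 h2
    have := card_fixs_conj k⁻¹ ⟨x, hx⟩
    rw [ea, card_fixs_conj, card_fixs_yA] at this
    obtain rfl : s = (k * zA * k⁻¹ : M24) := congrArg Subtype.val e
    exact Or.inl ⟨this.symm, (card_fixs_conj k zA).trans card_fixs_zA⟩
  · obtain ⟨h1, h2⟩ := aux (k := k) (z := zB) hx3 (by rw [← e]; exact Subtype.ext hc)
    obtain ⟨a, ea⟩ := three_zB h1 h2
    have := card_fixs_conj k⁻¹ ⟨x, hx⟩
    rw [ea, card_fixs_conj, card_fixs_yB] at this
    obtain rfl : s = (k * zB * k⁻¹ : M24) := congrArg Subtype.val e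
    exact Or.inr ⟨this.symm, (card_fixs_conj k zB).trans card_fixs_zB⟩

end Cfsg.Agent.S5608
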