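import Cfsg.Statements.S5609
import Cfsg.Agent.M24.OctOrb

set_option autoImplicit false
open scoped Pointwise
open Cfsg

namespace Cfsg.Agent.S5609

open Cfsg.Agent.M24 Finset MulAction
open scoped symmDiff Pointwise

theorem adj_iff {a b : octads} : (blockGraph octads).Adj a b ↔ Disjoint a.1 b.1 := by
  rw [blockGraph, SimpleGraph.fromRel_adj]
  constructor
  · rintro ⟨-, h | h⟩
    · exact h
    · exact h.symm
  · intro h
    exact ⟨fun e => ne_of_disjoint_octad a.2 h (congrArg Subtype.val e), Or.inl h⟩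

theorem walk_le {a b : octads} : ∃ w : (blockGraph octads).Walk a b,
    ((a.1 ∩ b.1).card = 4 → w.length ≤ 2) ∧ w.length ≤ 3 := by
  have h4 : ∀ a b : octads, (a.1 ∩ b.1).card = 4 → ∃ w : (blockGraph octads).Walk a b,
      w.length = 2 := by
    intro a b h
    obtain ⟨c, hc, h1, h2⟩ := exists_mid4 a.2 b.2 h
    exact ⟨.cons (adj_iff (b := ⟨c, hc⟩).2 h1) (.cons (adj_iff.2 h2) .nil), rfl⟩
  by_cases hne : a = b
  · subst hne; exact ⟨.nil, by simp⟩
  rcases octad_inter a.2 b.2 (fun e => hne (Subtype.ext e)) with h | h | h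
  · exact ⟨.cons (adj_iff.2 (disjoint_iff_inter_eq_empty.2 (card_eq_zero.1 h))) .nil, by simp⟩
  · obtain ⟨c, hc, h1, h2⟩ := exists_mid2 a.2 b.2 h
    obtain ⟨w, hw⟩ := h4 ⟨c, hc⟩ b h2
    exact ⟨.cons (adj_iff (b := ⟨c, hc⟩).2 h1) w, by omega, by simp [hw]⟩
  · obtain ⟨w, hw⟩ := h4 a b h
    exact ⟨w, by omega, by omega⟩


/-- In the graph on the 759 octads of the length-24 code in which two octads are adjacent when they are disjoint, the graph is connected (of diameter 3) and two distinct octads are at distance 1, 2 or 3 exactly when they meet in 0, 4 or 2 points respectively. -/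
theorem result (o o' : Finset Cfsg.GolayPt) (ho : o ∈ Cfsg.octads) (ho' : o' ∈ Cfsg.octads) (hne : o ≠ o') : (Cfsg.blockGraph Cfsg.octads).Connected ∧ ((Cfsg.blockGraph Cfsg.octads).dist ⟨o, ho⟩ ⟨o', ho'⟩ = 1 ↔ (o ∩ o').card = 0) ∧ ((Cfsg.blockGraph Cfsg.octads).dist ⟨o, ho⟩ ⟨o', ho'⟩ = 2 ↔ (o ∩ o').card = 4) ∧ ((Cfsg.blockGraph Cfsg.octads).dist ⟨o, ho⟩ ⟨o', ho'⟩ = 3 ↔ (o ∩ o').card = 2) := by
  have hconn : (blockGraph octads).Connected :=
    @SimpleGraph.Connected.mk _ _ (fun a b => ⟨walk_le.choose⟩) ⟨⟨o, ho⟩⟩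
  obtain ⟨w, hw1, hw2⟩ := walk_le (a := ⟨o, ho⟩) (b := ⟨o', ho'⟩)
  have hle := SimpleGraph.dist_le w
  have hpos := hconn.pos_dist_of_ne (u := ⟨o, ho⟩) (v := ⟨o', ho'⟩) fun e => hne (congrArg Subtype.val e)
  have h1 : (blockGraph octads).dist ⟨o, ho⟩ ⟨o', ho'⟩ = 1 ↔ (o ∩ o').card = 0 := by
    rw [SimpleGraph.dist_eq_one_iff_adj, adj_iff, disjoint_iff_inter_eq_empty, card_eq_zero]
  have h2 : (blockGraph octads).dist ⟨o, ho⟩ ⟨o', ho'⟩ = 2 → (o ∩ o').card ≠ 2 := by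
    intro h hc
    obtain ⟨p, hp⟩ := hconn.exists_walk_length_eq_dist ⟨o, ho⟩ ⟨o', ho'⟩
    rw [h] at hp
    match p, hp with
    | .cons (v := c) a1 (.cons a2 .nil), _ =>
      exact no_mid2 ho ho' c.2 hc (adj_iff.1 a1) (adj_iff.1 a2)
  have h3 := octad_inter ho ho' hne
  simp only at hw1
  refine ⟨hconn, h1, ?_, ?_⟩ <;> omega

end Cfsg.Agent.S5609
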