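import Cfsg.Statements.S5614
import Cfsg.Agent.M24.OctOrb

set_option autoImplicit false
open scoped Pointwise
open Cfsg

namespace Cfsg.Agent.S5614

open Cfsg.Agent.M24 Finset MulAction
open scoped symmDiff Pointwise

def cH_t0 : T := (.node (.node (.node (.node .nil (nat_lit 4) (nat_lit 0) (nat_lit
  0xbdab49ca307b9ac5a928398a418820) .nil) (nat_lit 6) (nat_lit 1) (nat_lit 0x71acf84855484eb42a8c69013b8e25)
  .nil) (nat_lit 9) (nat_lit 1584) (nat_lit 0x8d132ac04fb38ed5a08c54ca6b8460) (.node (.node .nil (nat_lit 15)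
  (nat_lit 49) (nat_lit 0x74e967c02920d4b6224d398158dc45) .nil) (nat_lit 16) (nat_lit 2) (nat_lit
  0xb9a9392424844ec536ab43cb613860) .nil)) (nat_lit 18) (nat_lit 529) (nat_lit
  0x199f0492f4b45485b24d3d41370825) (.node (.node (.node .nil (nat_lit 19) (nat_lit 16) (nat_lit
  0x1d60924833a5ce8629eb6d806145c5) .nil) (nat_lit 20) (nat_lit 514) (nat_lit
  0x1d92493dc6985a851e0c5d0158dc45) .nil) (nat_lit 21) (nat_lit 80) (nat_lit 0x15095b24729dd0b6360a3980f70625)
  (.node .nil (nat_lit 22) (nat_lit 17) (nat_lit 0xb9135a4dcf3094c42e476d8b008e20) .nil)))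
def cH_l0 : Lvl := ⟨nat_lit 4, [nat_lit 0x1d60924833a5ce8629eb6d806145c5, nat_lit
  0xb9135a4dcf3094c42e476d8b008e20], [nat_lit 0, nat_lit 0], cH_t0⟩
def cH_t1 : T := (.node (.node (.node (.node .nil (nat_lit 6) (nat_lit 0) (nat_lit
  0xbdab49ca307b9ac5a928398a418820) .nil) (nat_lit 9) (nat_lit 1) (nat_lit 0xcd3593c50b0ce8534cc5d0a4bc5c0)
  .nil) (nat_lit 15) (nat_lit 2) (nat_lit 0x13e92b5469305a74326b54004746e5) (.node .nil (nat_lit 16) (nat_lit
  17) (nat_lit 0xce554d046b0daa41e0b63c048ddc5) .nil)) (nat_lit 18) (nat_lit 65) (nat_lit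
  0xbda74a9a297b94b636074480410c25) (.node (.node (.node .nil (nat_lit 19) (nat_lit 49) (nat_lit
  0x749e9356349dced62e0a4580410465) .nil) (nat_lit 20) (nat_lit 16) (nat_lit 0x1be86b4c50905483aeac6a4a4746e0)
  .nil) (nat_lit 21) (nat_lit 33) (nat_lit 0x748c97da309dd6c69e88554a408860) (.node .nil (nat_lit 22) (nat_lit
  66) (nat_lit 0x89a557d1d385daa59ec8624a408c40) .nil)))
def cH_l1 : Lvl := ⟨nat_lit 6, [nat_lit 0x1be86b4c50905483aeac6a4a4746e0, nat_lit
  0xce554d046b0daa41e0b63c048ddc5], [nat_lit 1058, nat_lit 0x44218c0420c43180841], cH_t1⟩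
def cH_t2 : T := (.node (.node (.node .nil (nat_lit 1) (nat_lit 0) (nat_lit 0xbdab49ca307b9ac5a928398a418820)
  .nil) (nat_lit 3) (nat_lit 33) (nat_lit 0xba613a3dd5945075aacd618a408860) .nil) (nat_lit 14) (nat_lit 16)
  (nat_lit 0x151e9b5472804ed52e6c418a475e20) (.node .nil (nat_lit 17) (nat_lit 1) (nat_lit
  0x14e564c02fa8d8852e87698a48ddc0) .nil))
def cH_l2 : Lvl := ⟨nat_lit 1, [nat_lit 0x151e9b5472804ed52e6c418a475e20, nat_lit
  0xbd2164c9d57c58d52e674180418825], [nat_lit 0x210850, nat_lit 526864], cH_t2⟩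
def cH_t3 : T := (.node (.node .nil (nat_lit 0) (nat_lit 0) (nat_lit 0xbdab49ca307b9ac5a928398a418820) .nil)
  (nat_lit 5) (nat_lit 1) (nat_lit 0xbd2164c9d57c58d52e674180418825) .nil)
def cH_l3 : Lvl := ⟨nat_lit 0, [nat_lit 0xbd2164c9d57c58d52e674180418825], [nat_lit 0x1010850], cH_t3⟩
def cH : List Lvl := [cH_l0, cH_l1, cH_l2, cH_l3]
theorem cH_chk : chkM cH = true := by decide +kernel

theorem stab_eq' : stabilizer M24 O0 ⊓ stabilizer M24 (unmask 15777) = gen mcode (gensOf cH) := by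
  rw [stab_O0]
  refine inf_stab_of_chk acSM trivial cO_chk cH_chk (mask_unmask (by norm_num)) (hi := 2 ^ 24)
    (t := oO448) ?_ (by decide +kernel)
  have := oO448_chk
  rw [band_eq, Bool.and_eq_true] at this
  exact this.1


/-- In the group of the length-24 code, the joint stabiliser of two octads meeting in exactly two points is isomorphic to the symmetric group of degree 6. -/
theorem result (o o' : Finset Cfsg.GolayPt) (ho : o ∈ Cfsg.octads) (ho' : o' ∈ Cfsg.octads) (h₂ : (o ∩ o').card = 2) : Nonempty (↥(MulAction.stabilizer Cfsg.M24 o ⊓ MulAction.stabilizer Cfsg.M24 o') ≃* Equiv.Perm (Fin 6)) := by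
  obtain ⟨g, rfl, rfl⟩ := std_pair2 ho ho' h₂
  obtain ⟨e⟩ := nonempty_equiv_perm (stabilizer M24 O0 ⊓ stabilizer M24 (unmask 15777))
    (O0 \ unmask 15777) (fun g hg => by
      rw [smul_finset_sdiff, mem_stabilizer_iff.1 hg.1, mem_stabilizer_iff.1 hg.2]) (n := 6)
    (by decide +kernel) (by rw [stab_eq']; exact card_of_chk cH_chk (by decide +kernel))
    (by
      rw [stab_eq']
      refine faithful_of_enum cH_chk (m := 8536078) ?_ (by decide +kernel)
      rw [show O0 \ unmask 15777 = unmask 8536078 by decide +kernel, mask_unmask (by norm_num)])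
  exact ⟨(equivOfConj g (fun x => conj_mem_inf_stab g x O0 _)).symm.trans e⟩

end Cfsg.Agent.S5614
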