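import Cfsg.Statements.S5615
import Cfsg.Agent.M24.OctOrb

set_option autoImplicit false
open scoped Pointwise
open Cfsg

namespace Cfsg.Agent.S5615

open Cfsg.Agent.M24 Finset MulAction
open scoped symmDiff Pointwise

def t15 : T := (.node (.node (.node (.node .nil (nat_lit 0x82402f0527c0) (nat_lit 145) (nat_lit
  0x82402f258c50) .nil) (nat_lit 0x82402f099590) (nat_lit 16) (nat_lit 0x82402f149f00) (.node .nil (nat_lit
  0x82402f0cb250) (nat_lit 97) (nat_lit 0x82402f1d0a90) .nil)) (nat_lit 0x82402f11b8c0) (nat_lit 112) (nat_lit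
  0x82402f20ab90) (.node (.node .nil (nat_lit 0x82402f149f00) (nat_lit 0) (nat_lit 0x82402f149f00) .nil)
  (nat_lit 0x82402f182d50) (nat_lit 177) (nat_lit 0x82402f0cb250) (.node .nil (nat_lit 0x82402f1d0a90)
  (nat_lit 48) (nat_lit 0x82402f099590) .nil))) (nat_lit 0x82402f20ab90) (nat_lit 65) (nat_lit 0x82402f099590)
  (.node (.node (.node .nil (nat_lit 0x82402f258c50) (nat_lit 81) (nat_lit 0x82402f2c19c0) .nil) (nat_lit
  0x82402f293e00) (nat_lit 225) (nat_lit 0x82402f311350) (.node .nil (nat_lit 0x82402f2c19c0) (nat_lit 33)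
  (nat_lit 0x82402f149f00) .nil)) (nat_lit 0x82402f311350) (nat_lit 160) (nat_lit 0x82402f0cb250) (.node
  (.node .nil (nat_lit 0x82402f343490) (nat_lit 208) (nat_lit 0x82402f311350) .nil) (nat_lit 0x82402f3886c0)
  (nat_lit 193) (nat_lit 0x82402f0527c0) (.node .nil (nat_lit 0x82402f3da100) (nat_lit 129) (nat_lit
  0x82402f20ab90) .nil))))
def t14 : T := (.node (.node (.node (.node .nil (nat_lit 0x82402f0527c0) (nat_lit 48) (nat_lit 0x82402f182d50)
  .nil) (nat_lit 0x82402f099590) (nat_lit 0) (nat_lit 0x82402f099590) (.node .nil (nat_lit 0x82402f0cb250)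
  (nat_lit 97) (nat_lit 0x82402f343490) .nil)) (nat_lit 0x82402f11b8c0) (nat_lit 113) (nat_lit 0x82402f0527c0)
  (.node (.node .nil (nat_lit 0x82402f182d50) (nat_lit 16) (nat_lit 0x82402f099590) .nil) (nat_lit
  0x82402f1d0a90) (nat_lit 145) (nat_lit 0x82402f311350) (.node .nil (nat_lit 0x82402f20ab90) (nat_lit 193)
  (nat_lit 0x82402f1d0a90) .nil))) (nat_lit 0x82402f258c50) (nat_lit 128) (nat_lit 0x82402f311350) (.node
  (.node (.node .nil (nat_lit 0x82402f293e00) (nat_lit 160) (nat_lit 0x82402f2c19c0) .nil) (nat_lit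
  0x82402f2c19c0) (nat_lit 80) (nat_lit 0x82402f343490) (.node .nil (nat_lit 0x82402f311350) (nat_lit 65)
  (nat_lit 0x82402f182d50) .nil)) (nat_lit 0x82402f343490) (nat_lit 33) (nat_lit 0x82402f099590) (.node (.node
  .nil (nat_lit 0x82402f3886c0) (nat_lit 209) (nat_lit 0x82402f3da100) .nil) (nat_lit 0x82402f3da100) (nat_lit
  177) (nat_lit 0x82402f2c19c0) .nil)))
def c1_t0 : T := (.node (.node (.node (.node (.node .nil (nat_lit 4) (nat_lit 0) (nat_lit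
  0xbdab49ca307b9ac5a928398a418820) .nil) (nat_lit 6) (nat_lit 2113) (nat_lit 0xdaac32e2745e6a7a692811cd10ca0)
  .nil) (nat_lit 7) (nat_lit 17457) (nat_lit 0x1cce9b3c3060aa8a2d52218ad8bae0) (.node .nil (nat_lit 8)
  (nat_lit 65) (nat_lit 0xd18651ee9b1573855a443c7213811) .nil)) (nat_lit 9) (nat_lit 545) (nat_lit
  0xc9535d40c6c527b1890a206f13ae5) (.node (.node .nil (nat_lit 10) (nat_lit 2576) (nat_lit
  0x1d1905362998176310f543c32708b7) .nil) (nat_lit 11) (nat_lit 2081) (nat_lit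
  0x2df55346c3451024cf6a24b270ae1) (.node .nil (nat_lit 12) (nat_lit 66593) (nat_lit
  0xba13351cafa8684b41a65b23213860) .nil))) (nat_lit 13) (nat_lit 561) (nat_lit
  0x34d23bcb64388a4ad94ace3018837) (.node (.node (.node .nil (nat_lit 15) (nat_lit 2) (nat_lit
  0x8a1365340f20e95998f05b2f270825) .nil) (nat_lit 16) (nat_lit 66) (nat_lit 0x40e8350a493ac95316f9d62d18837)
  (.node .nil (nat_lit 18) (nat_lit 17) (nat_lit 0x2d18d592e880e463ceb64a80f70831) .nil)) (nat_lit 19)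
  (nat_lit 66609) (nat_lit 0x2d60824816639a9a29eb3cc2688ae3) (.node (.node .nil (nat_lit 20) (nat_lit 80)
  (nat_lit 0x2ade451c2c85d06ad9b3a241213a23) .nil) (nat_lit 21) (nat_lit 2128) (nat_lit
  0xbcc9232c357c60c4a28ab1cad10c0e) (.node .nil (nat_lit 22) (nat_lit 2082) (nat_lit
  0xb91b4aae36908cc53d0984c272b803) .nil))))
def c1_l0 : Lvl := ⟨nat_lit 4, [nat_lit 0x1e0f9a426416ca6524b6d62410eee, nat_lit
  0x2d18d592e880e463ceb64a80f70831], [nat_lit 0, nat_lit 0], c1_t0⟩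
def c1_t1 : T := (.node (.node (.node (.node .nil (nat_lit 0) (nat_lit 0) (nat_lit
  0xbdab49ca307b9ac5a928398a418820) .nil) (nat_lit 1) (nat_lit 1) (nat_lit 0x1b6a93d0337b8c85b24a85ae428811)
  .nil) (nat_lit 2) (nat_lit 49) (nat_lit 0xcec8ad05055cf24bd8b334642822e) (.node .nil (nat_lit 3) (nat_lit
  2113) (nat_lit 0x1c1b4b22274866a7ae4c355c405c45) .nil)) (nat_lit 5) (nat_lit 66) (nat_lit
  0x755a83c8a64860b7b28ab4c041de22) (.node (.node .nil (nat_lit 14) (nat_lit 2) (nat_lit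
  0x29a6b6caf6500f44258f855c41c441) .nil) (nat_lit 17) (nat_lit 16) (nat_lit 0x29ab2824077baca5a28c9b464b8a21)
  (.node .nil (nat_lit 23) (nat_lit 529) (nat_lit 0x1daaaa45360e1493d0bb18a4bc42e) .nil)))
def c1_l1 : Lvl := ⟨nat_lit 0, [nat_lit 0x29ab2824077baca5a28c9b464b8a21, nat_lit
  0x8c0ccac84741669a3d4b6dae41840e], [nat_lit 558114, nat_lit 0x842846211062110831], c1_t1⟩
def c1_t2 : T := (.node (.node (.node (.node .nil (nat_lit 8) (nat_lit 0) (nat_lit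
  0xbdab49ca307b9ac5a928398a418820) .nil) (nat_lit 9) (nat_lit 1090) (nat_lit
  0x8ce123bdd648eaba290c33424116e0) .nil) (nat_lit 10) (nat_lit 1) (nat_lit 0x2d4f46bc5065cd25212bb4dc488c20)
  (.node .nil (nat_lit 11) (nat_lit 16) (nat_lit 0x71ed4330709166f42d2aab6e414420) .nil)) (nat_lit 12)
  (nat_lit 34) (nat_lit 0xc2a933c73a08e862e4a6d8a4bba20) (.node (.node .nil (nat_lit 15) (nat_lit 529)
  (nat_lit 0xbda72ab0a7408c953e8b6c22408dc0) .nil) (nat_lit 18) (nat_lit 1104) (nat_lit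
  0x13609b22f3794d45324ba9c2470e20) (.node .nil (nat_lit 20) (nat_lit 16945) (nat_lit
  0x8ccc86b056506b45a64f81c64716e0) .nil)))
def c1_l2 : Lvl := ⟨nat_lit 8, [nat_lit 0x71ed4330709166f42d2aab6e414420, nat_lit
  0x2d5af3c9d658e694328a340440c6e0], [nat_lit 0x1082110850, nat_lit 526416], c1_t2⟩
def c1_t3 : T := (.node (.node (.node .nil (nat_lit 1) (nat_lit 0) (nat_lit 0xbdab49ca307b9ac5a928398a418820)
  .nil) (nat_lit 2) (nat_lit 34) (nat_lit 0x8ced4aa8a758a0f6264869ae4185c0) (.node .nil (nat_lit 3) (nat_lit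
  49) (nat_lit 0x19acc3d1cd4966b53e48ac2e40c440) .nil)) (nat_lit 5) (nat_lit 16) (nat_lit
  0x2d60b324767ba72551883b424146e0) (.node (.node .nil (nat_lit 14) (nat_lit 17) (nat_lit
  0x136b23add3604caa3d28858a4b8e20) .nil) (nat_lit 17) (nat_lit 2) (nat_lit 0x19aab85027546cf931289b4a415dc0)
  (.node .nil (nat_lit 23) (nat_lit 1) (nat_lit 0xc2ca6b0557b8c9a2e483cee488ca0) .nil)))
def c1_l3 : Lvl := ⟨nat_lit 1, [nat_lit 0x2d60b324767ba72551883b424146e0, nat_lit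
  0x136b23add3604caa3d28858a4b8e20], [nat_lit 0x10104420c630, nat_lit 0x10884318423108841], c1_t3⟩
def c1_t4 : T := (.node (.node .nil (nat_lit 2) (nat_lit 0) (nat_lit 0xbdab49ca307b9ac5a928398a418820) .nil)
  (nat_lit 5) (nat_lit 16) (nat_lit 0x71db2abcb0a0e6c5256835844bc420) (.node .nil (nat_lit 17) (nat_lit 1)
  (nat_lit 0x19a6f6d05095eac4ad48b1e2471420) .nil))
def c1_l4 : Lvl := ⟨nat_lit 2, [nat_lit 0x71db2abcb0a0e6c5256835844bc420], [nat_lit 0x8082208630], c1_t4⟩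
def c1 : List Lvl := [c1_l0, c1_l1, c1_l2, c1_l3, c1_l4]
def c2_t0 : T := (.node (.node (.node (.node (.node .nil (nat_lit 4) (nat_lit 0) (nat_lit
  0xbdab49ca307b9ac5a928398a418820) .nil) (nat_lit 6) (nat_lit 67) (nat_lit 0xc0ef32875a5e6b64909b11cd044a2)
  .nil) (nat_lit 7) (nat_lit 1) (nat_lit 0x55ab85067614ca4a24f259d388457) (.node .nil (nat_lit 8) (nat_lit 3)
  (nat_lit 0x524d79aec98930a9ec452dc8884a3) .nil)) (nat_lit 9) (nat_lit 17) (nat_lit
  0x1299349c346b9158189693cabb8c11) (.node (.node .nil (nat_lit 10) (nat_lit 35) (nat_lit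
  0xbae866580a80647692b3424af189d1) .nil) (nat_lit 11) (nat_lit 2) (nat_lit 0x1a190a1c0b339f525a6d928a915e21)
  (.node .nil (nat_lit 12) (nat_lit 1059) (nat_lit 0x2576556e838a8434db07c9cc884a3) .nil))) (nat_lit 13)
  (nat_lit 113) (nat_lit 0x9e0fb28ad4889262d1434dd504477) (.node (.node (.node .nil (nat_lit 15) (nat_lit 112)
  (nat_lit 0x1ae8645a2f23a536c2a76244ab9420) .nil) (nat_lit 16) (nat_lit 33) (nat_lit
  0xbb4c93ae2453ac893e8c9d4b018820) (.node .nil (nat_lit 18) (nat_lit 34) (nat_lit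
  0x8bd47592e9b158d9d606a21d208062) .nil)) (nat_lit 19) (nat_lit 16) (nat_lit 0x1ad222473416afa316a835c788457)
  (.node (.node .nil (nat_lit 20) (nat_lit 65) (nat_lit 0xb1e45c052a95569b4e64a1d4046e3) .nil) (nat_lit 21)
  (nat_lit 82) (nat_lit 0x4c8833055a160b549e9b1e2d0bae3) (.node .nil (nat_lit 22) (nat_lit 98) (nat_lit
  0x8920c6a87558a72451e931dd6082e5) .nil))))
def c2_l0 : Lvl := ⟨nat_lit 4, [nat_lit 0x1ad222473416afa316a835c788457, nat_lit
  0x1299349c346b9158189693cabb8c11, nat_lit 0x8a5767d46c9969031da45482803857], [nat_lit 0, nat_lit 0, nat_lit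
  0], c2_t0⟩
def c2_t1 : T := (.node (.node (.node (.node .nil (nat_lit 0) (nat_lit 0) (nat_lit
  0xbdab49ca307b9ac5a928398a418820) .nil) (nat_lit 1) (nat_lit 49) (nat_lit 0x1b6a93d0337b8c85b24a85ae428811)
  .nil) (nat_lit 2) (nat_lit 1058) (nat_lit 0x9ad23a4507dea8a296c9b62470065) (.node .nil (nat_lit 3) (nat_lit
  1) (nat_lit 0x736d484873508cf4a16c3d624006e5) .nil)) (nat_lit 5) (nat_lit 2) (nat_lit
  0x758d23a6f0409afa316a9d4040c4a3) (.node (.node .nil (nat_lit 14) (nat_lit 33857) (nat_lit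
  0xbd4d2825c7501af5b2889d84428c31) .nil) (nat_lit 17) (nat_lit 33) (nat_lit 0x119b49c810406aa5b12f3d8642ddd1)
  (.node .nil (nat_lit 23) (nat_lit 1073) (nat_lit 0x1acb3d2f050aac4be489b5c4884a3) .nil)))
def c2_l1 : Lvl := ⟨nat_lit 0, [nat_lit 0xd4d4848b365ec84bd6a3b4048b843, nat_lit
  0x8d8cb3d05065daa4a24f9d42403865], [nat_lit 0x388e11, nat_lit 0x310651], c2_t1⟩
def c2_t2 : T := (.node (.node (.node .nil (nat_lit 2) (nat_lit 0) (nat_lit 0xbdab49ca307b9ac5a928398a418820)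
  .nil) (nat_lit 3) (nat_lit 49) (nat_lit 0xbd8d43a5d3786a89316a8346411620) .nil) (nat_lit 5) (nat_lit 16)
  (nat_lit 0x2d5a93d1d3406cf5aa4c818441de20) (.node .nil (nat_lit 23) (nat_lit 1) (nat_lit
  0x136d282427646a85aa8f99ae4195c0) .nil))
def c2_l2 : Lvl := ⟨nat_lit 2, [nat_lit 0x2d5a93d1d3406cf5aa4c818441de20, nat_lit
  0x2d4c984827445aca3d6a9d864b89c0], [nat_lit 0x310c610, nat_lit 0x844208a10], c2_t2⟩
def c2_t3 : T := (.node (.node .nil (nat_lit 1) (nat_lit 0) (nat_lit 0xbdab49ca307b9ac5a928398a418820) .nil)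
  (nat_lit 14) (nat_lit 16) (nat_lit 0x19acb3c9d3505ac4a28f856e428a20) (.node .nil (nat_lit 17) (nat_lit 1)
  (nat_lit 0x2d4c984827445aca3d6a9d864b89c0) .nil))
def c2_l3 : Lvl := ⟨nat_lit 1, [nat_lit 0x19acb3c9d3505ac4a28f856e428a20], [nat_lit 0x188450], c2_t3⟩
def c2 : List Lvl := [c2_l0, c2_l1, c2_l2, c2_l3]
theorem c1_chk : chkM c1 = true := by decide +kernel
theorem c2_chk : chkM c2 = true := by decide +kernel
theorem t15_chk : orbChk apT (gensOf cO) 143212179398400 (2 ^ 48) t15 = true := by decide +kernel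
theorem t14_chk : orbChk apT (gensOf c1) 143212178675088 (2 ^ 48) t14 = true := by decide +kernel

noncomputable def hasO (k : ℕ) : Bool := Nat.beq 8536111 (tfst k) || Nat.beq 8536111 (tsnd k) ||
  Nat.beq 8536111 (Nat.xor (Nat.lor (tfst k) (tsnd k)) 16777215)

theorem hasO_iff {X : Finset (Finset GolayPt)} (hX : X ∈ trios) : O0 ∈ X ↔ hasO (tkey X) = true := by
  rw [mem_trio_iff hX, mask_O0]; simp [hasO, or_assoc]

theorem card15 : {X | X ∈ trios ∧ O0 ∈ X}.ncard = 15 := by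
  rw [ncard_trios_filter (f := hasO) fun x hx => hasO_iff hx]; decide +kernel

theorem inv15 (g : M24) (hg : g ∈ stabilizer M24 O0) {X : Finset (Finset GolayPt)}
    (h : X ∈ {X | X ∈ trios ∧ O0 ∈ X}) : g • X ∈ {X | X ∈ trios ∧ O0 ∈ X} :=
  ⟨trio_smul h.1 g.2, by
    have : g • O0 ∈ g • X := smul_mem_smul_finset h.2
    rwa [mem_stabilizer_iff.1 hg] at this⟩

theorem O0_mem_T0 : O0 ∈ T0 := mem_insert_self _ _

theorem orb15 : orbit (stabilizer M24 O0) T0 = {X | X ∈ trios ∧ O0 ∈ X} := by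
  refine orbit_eq_of_ncard (Set.toFinite _) ⟨T0_mem, O0_mem_T0⟩ (fun g X h => inv15 g.1 g.2 h) ?_
  rw [card15, stab_O0, (acT.orb_sound (chkM_sound cO_chk).1 T0_mem (tkey_T0 ▸ t15_chk)).2.1]
  decide +kernel

theorem h1 : stabilizer M24 O0 ⊓ stabilizer M24 T0 = gen mcode (gensOf c1) := by
  rw [stab_O0]
  exact inf_stab_of_chk acT T0_mem cO_chk c1_chk tkey_T0 t15_chk (by decide +kernel)

noncomputable def Tb : Finset (Finset GolayPt) := (trio (unmask 628112) (unmask 8536111))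
theorem Tb_mem : Tb ∈ trios ∧ tkey Tb = 143212178675088 := (trio_rep (a := 628112) (b := 8536111) (k := 143212178675088) (by decide +kernel))

theorem h2 : stabilizer M24 O0 ⊓ stabilizer M24 T0 ⊓ stabilizer M24 Tb = gen mcode (gensOf c2) := by
  rw [h1]
  exact inf_stab_of_chk acT Tb_mem.1 c1_chk c2_chk Tb_mem.2 t14_chk (by decide +kernel)

theorem orb14 : orbit ↥(stabilizer M24 O0 ⊓ stabilizer M24 T0) Tb =
    {X | X ∈ trios ∧ O0 ∈ X} \ {T0} := by
  have hb : Tb ≠ T0 := fun e => by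
    have := Tb_mem.2; rw [e, tkey_T0] at this; exact absurd this (by norm_num)
  refine orbit_eq_of_ncard (Set.toFinite _) ⟨⟨Tb_mem.1, ?_⟩, hb⟩
    (fun g X h => ⟨inv15 g.1 g.2.1 h.1, fun e => h.2 ?_⟩) ?_
  · rw [hasO_iff Tb_mem.1, Tb_mem.2]; decide +kernel
  · have e1 : g.1 • T0 = T0 := g.2.2
    have e2 : g.1 • X = T0 := e
    exact MulAction.injective g.1 (e2.trans e1.symm)
  · rw [Set.ncard_sdiff_singleton_of_mem (s := {X | X ∈ trios ∧ O0 ∈ X}) ⟨T0_mem, O0_mem_T0⟩, card15, h1,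
      (acT.orb_sound (chkM_sound c1_chk).1 Tb_mem.1 (Tb_mem.2 ▸ t14_chk)).2.1]
    decide +kernel

theorem std2 {X Y : Finset (Finset GolayPt)} (hX : X ∈ trios) (hY : Y ∈ trios) (h1 : O0 ∈ X)
    (h2 : O0 ∈ Y) (hne : X ≠ Y) : ∃ g : M24, g • O0 = O0 ∧ g • T0 = X ∧ g • Tb = Y := by
  obtain ⟨⟨g, hg⟩, e⟩ : X ∈ orbit (stabilizer M24 O0) T0 := by rw [orb15]; exact ⟨hX, h1⟩
  change g • T0 = X at e
  obtain ⟨⟨k, hk⟩, e'⟩ : g⁻¹ • Y ∈ orbit ↥(stabilizer M24 O0 ⊓ stabilizer M24 T0) Tb := by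
    rw [orb14]
    refine ⟨inv15 _ (Subgroup.inv_mem _ hg) ⟨hY, h2⟩, fun h => hne ?_⟩
    have : g⁻¹ • Y = T0 := h
    rw [← e, ← this, smul_inv_smul]
  change k • Tb = _ at e'
  refine ⟨g * k, ?_, ?_, ?_⟩
  · exact (stabilizer M24 O0).mul_mem hg hk.1
  · rw [mul_smul, mem_stabilizer_iff.1 hk.2, e]
  · rw [mul_smul, e', smul_inv_smul]

theorem keys15 {X : Finset (Finset GolayPt)} (hX : X ∈ trios) (h : O0 ∈ X) : tkey X ∈ t15.keys := by
  have : X ∈ orbit (stabilizer M24 O0) T0 := by rw [orb15]; exact ⟨hX, h⟩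
  rw [stab_O0, (acT.orb_sound (chkM_sound cO_chk).1 T0_mem (tkey_T0 ▸ t15_chk)).1] at this
  exact this.2

theorem ker_chk : enum mul (fun p => (t15.all fun k _ _ => Nat.beq (apT p k) k) ==
    fixesAll 8536111 p) c2 one = true := by decide +kernel

theorem ker0 (g : M24) (hg : g • O0 = O0) : (∀ X ∈ trios, O0 ∈ X → g • X = X) ↔
    ∀ p ∈ O0, (g : Equiv.Perm GolayPt) p = p := by
  have key : g ∈ gen mcode (gensOf c2) → ((∀ X ∈ trios, O0 ∈ X → g • X = X) ↔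
      ∀ p ∈ O0, (g : Equiv.Perm GolayPt) p = p) := by
    intro h
    have := (chkM_sound c2_chk).2.1.enum_one gcM acM ker_chk g h
    rw [beq_iff_eq, ← mask_O0, Bool.eq_iff_iff, mcode, fixesAll_iff, T.all_iff] at this
    rw [← this]
    constructor
    · intro h' k a b hm
      have hk := T.mem_keys.2 ⟨a, b, hm⟩
      obtain ⟨o1, -, o3, -⟩ := acT.orb_sound (chkM_sound cO_chk).1 T0_mem (tkey_T0 ▸ t15_chk)
      obtain ⟨X, hX, rfl⟩ := o3 k hk
      have : X ∈ orbit (stabilizer M24 O0) T0 := by rw [stab_O0, o1]; exact ⟨hX, hk⟩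
      rw [orb15] at this
      exact (acT.smul_eq_iff g hX hX).1 (h' X hX this.2)
    · intro h' X hX hO
      obtain ⟨a, b, hm⟩ := T.mem_keys.1 (keys15 hX hO)
      exact (acT.smul_eq_iff g hX hX).2 (h' _ a b hm)
  constructor
  · intro h
    refine (key ?_).1 h
    rw [← h2]
    exact ⟨⟨hg, h _ T0_mem O0_mem_T0⟩, h _ Tb_mem.1 (by
      rw [hasO_iff Tb_mem.1, Tb_mem.2]; decide +kernel)⟩
  · intro h
    refine (key ?_).2 h
    have hc := (chkM_sound cO_chk).2.1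
    have h6 : g ∈ gen mcode (gensOf (cO.drop 6)) := by
      refine hc.mem_drop 6 (stab_O0 ▸ hg) fun L hL x _ e => h x ?_
      have : ∀ x : GolayPt, ∀ L ∈ cO.take 6, idx x = L.b → x ∈ O0 := by decide +kernel
      exact this x L hL e
    refine gen_le (H := gen mcode (gensOf c2)) (fun s hs => ?_) h6
    have : lall (gensOf (cO.drop 6)) (sift mul one ap c2) = true := by decide +kernel
    exact ((chkM_sound c2_chk).2.2.2 s).2 ((lall_iff _ _).1 this _ hs)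


/-- An octad of the length-24 code lies in exactly 15 trios; the stabiliser of the octad in the code's group acts doubly transitively on these 15 trios, and the kernel of this action is the pointwise stabiliser of the octad. -/
theorem result (o : Finset Cfsg.GolayPt) (ho : o ∈ Cfsg.octads) : {T : Finset (Finset Cfsg.GolayPt) | T ∈ Cfsg.trios ∧ o ∈ T}.ncard = 15 ∧ (∀ T₁ T₂ T₁' T₂' : Finset (Finset Cfsg.GolayPt), T₁ ∈ Cfsg.trios → T₂ ∈ Cfsg.trios → T₁' ∈ Cfsg.trios → T₂' ∈ Cfsg.trios → o ∈ T₁ → o ∈ T₂ → o ∈ T₁' → o ∈ T₂' → T₁ ≠ T₂ → T₁' ≠ T₂' → ∃ g ∈ Cfsg.M24, g • o = o ∧ g • T₁ = T₁' ∧ g • T₂ = T₂') ∧ ∀ g ∈ Cfsg.M24, g • o = o → ((∀ T ∈ Cfsg.trios, o ∈ T → g • T = T) ↔ ∀ p ∈ o, g p = p) := by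
  obtain ⟨k, rfl⟩ := exists_smul_O0 ho
  have mem : ∀ X : Finset (Finset GolayPt), k • O0 ∈ X ↔ O0 ∈ k⁻¹ • X := fun X =>
    mem_inv_smul_finset_iff.symm
  refine ⟨?_, fun T₁ T₂ T₁' T₂' a1 a2 a3 a4 b1 b2 b3 b4 c1 c2 => ?_, fun g hg e => ?_⟩
  · rw [← card15, ← Set.ncard_smul_set k {X | X ∈ trios ∧ O0 ∈ X}]
    congr 1
    ext X
    rw [Set.mem_smul_set_iff_inv_smul_mem]
    simp only [Set.mem_ofPred_eq, mem]
    refine and_congr_left fun _ => ⟨fun h => trio_smul h (k⁻¹).2, fun h => ?_⟩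
    simpa using acT.smul_mem k h
  · obtain ⟨g, g1, g2, g3⟩ := std2 (acT.smul_mem k⁻¹ a1) (acT.smul_mem k⁻¹ a2) ((mem _).1 b1)
      ((mem _).1 b2) fun e => c1 (MulAction.injective _ e)
    obtain ⟨h, h1, h2, h3⟩ := std2 (acT.smul_mem k⁻¹ a3) (acT.smul_mem k⁻¹ a4) ((mem _).1 b3)
      ((mem _).1 b4) fun e => c2 (MulAction.injective _ e)
    refine ⟨(k * h * g⁻¹ * k⁻¹ : M24), Subtype.property _, ?_, ?_, ?_⟩
    · rw [← M24_smul_def, mul_smul, mul_smul, mul_smul, inv_smul_smul, inv_smul_eq_iff.2 g1.symm, h1]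
    · rw [← M24_smul_fam, mul_smul, mul_smul, mul_smul, ← g2, inv_smul_smul, h2, smul_inv_smul]
    · rw [← M24_smul_fam, mul_smul, mul_smul, mul_smul, ← g3, inv_smul_smul, h3, smul_inv_smul]
  · set g' : M24 := ⟨g, hg⟩
    have e' : g' • k • O0 = k • O0 := e
    have := ker0 (k⁻¹ * g' * k) (by rw [mul_smul, mul_smul, e', inv_smul_smul])
    have h1 := conj_mem_pstab k (k⁻¹ * g' * k) O0
    rw [mem_pstab, ← this, show k * (k⁻¹ * g' * k) * k⁻¹ = g' by group, mem_pstab] at h1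
    rw [← h1]
    constructor
    · intro h X hX hO
      have := h (k • X) (acT.smul_mem k hX) (smul_mem_smul_finset hO)
      rw [mul_smul, mul_smul, inv_smul_eq_iff]; exact this
    · intro h X hX hO
      have := h (k⁻¹ • X) (acT.smul_mem _ hX) ((mem _).1 hO)
      rw [mul_smul, mul_smul, smul_inv_smul] at this
      exact MulAction.injective k⁻¹ this

end Cfsg.Agent.S5615
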