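import Cfsg.Statements.S5618
import Cfsg.Agent.M24.Dod

set_option autoImplicit false
open scoped Pointwise
open Cfsg

namespace Cfsg.Agent.S5618

open Cfsg.Agent.M24 Finset MulAction
open scoped symmDiff Pointwise

def th : T := (.node (.node (.node (.node (.node (.node (.node (.node .nil (nat_lit 343) (nat_lit 1889)
  (nat_lit 9036) .nil) (nat_lit 591) (nat_lit 1776) (nat_lit 262979) .nil) (nat_lit 797) (nat_lit 2064)
  (nat_lit 591) (.node .nil (nat_lit 858) (nat_lit 2080) (nat_lit 262926) .nil)) (nat_lit 4127) (nat_lit 0)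
  (nat_lit 4127) (.node (.node .nil (nat_lit 4430) (nat_lit 465) (nat_lit 13122) .nil) (nat_lit 4441) (nat_lit
  576) (nat_lit 328268) (.node .nil (nat_lit 4691) (nat_lit 945) (nat_lit 12557) .nil))) (nat_lit 4700)
  (nat_lit 800) (nat_lit 328203) (.node (.node (.node .nil (nat_lit 4875) (nat_lit 1600) (nat_lit 66374) .nil)
  (nat_lit 4886) (nat_lit 881) (nat_lit 4933) (.node .nil (nat_lit 4933) (nat_lit 497) (nat_lit 12873) .nil))
  (nat_lit 8285) (nat_lit 353) (nat_lit 73806) (.node (.node .nil (nat_lit 8478) (nat_lit 1617) (nat_lit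
  66374) .nil) (nat_lit 8523) (nat_lit 1825) (nat_lit 74506) (.node .nil (nat_lit 8731) (nat_lit 1409)
  (nat_lit 65807) .nil)))) (nat_lit 8790) (nat_lit 2017) (nat_lit 74053) (.node (.node (.node (.node (.node
  .nil (nat_lit 8967) (nat_lit 2097) (nat_lit 66377) .nil) (nat_lit 9036) (nat_lit 1441) (nat_lit 74307) .nil)
  (nat_lit 9041) (nat_lit 1585) (nat_lit 74253) (.node .nil (nat_lit 12359) (nat_lit 1648) (nat_lit 328017)
  .nil)) (nat_lit 12378) (nat_lit 1265) (nat_lit 78086) (.node (.node .nil (nat_lit 12557) (nat_lit 544)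
  (nat_lit 66133) .nil) (nat_lit 12563) (nat_lit 960) (nat_lit 65884) (.node .nil (nat_lit 12628) (nat_lit
  737) (nat_lit 78404) .nil))) (nat_lit 12814) (nat_lit 1360) (nat_lit 66323) (.node (.node (.node .nil
  (nat_lit 12821) (nat_lit 1024) (nat_lit 65627) .nil) (nat_lit 12873) (nat_lit 240) (nat_lit 328274) (.node
  .nil (nat_lit 13080) (nat_lit 1553) (nat_lit 70151) .nil)) (nat_lit 13122) (nat_lit 225) (nat_lit 78593)
  (.node (.node .nil (nat_lit 65627) (nat_lit 608) (nat_lit 267080) .nil) (nat_lit 65807) (nat_lit 864)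
  (nat_lit 4933) (.node .nil (nat_lit 65884) (nat_lit 560) (nat_lit 266765) .nil))))) (nat_lit 66078) (nat_lit
  1968) (nat_lit 4875) (.node (.node (.node (.node (.node (.node .nil (nat_lit 66133) (nat_lit 272) (nat_lit
  266315) .nil) (nat_lit 66323) (nat_lit 832) (nat_lit 4430) .nil) (nat_lit 66374) (nat_lit 1056) (nat_lit
  266503) (.node .nil (nat_lit 66377) (nat_lit 1857) (nat_lit 8731) .nil)) (nat_lit 69709) (nat_lit 1104)
  (nat_lit 332353) (.node (.node .nil (nat_lit 69718) (nat_lit 1216) (nat_lit 332041) .nil) (nat_lit 69909)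
  (nat_lit 1313) (nat_lit 4700) (.node .nil (nat_lit 69914) (nat_lit 1425) (nat_lit 4886) .nil))) (nat_lit
  69955) (nat_lit 1168) (nat_lit 332100) (.node (.node (.node .nil (nat_lit 70151) (nat_lit 993) (nat_lit
  4441) .nil) (nat_lit 70169) (nat_lit 33) (nat_lit 4127) (.node .nil (nat_lit 70218) (nat_lit 1088) (nat_lit
  332546) .nil)) (nat_lit 70412) (nat_lit 1505) (nat_lit 4691) (.node (.node .nil (nat_lit 70480) (nat_lit
  416) (nat_lit 331790) .nil) (nat_lit 73751) (nat_lit 977) (nat_lit 65884) (.node .nil (nat_lit 73806)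
  (nat_lit 161) (nat_lit 74066) .nil)))) (nat_lit 74009) (nat_lit 1296) (nat_lit 4700) (.node (.node (.node
  (.node .nil (nat_lit 74053) (nat_lit 1664) (nat_lit 266325) .nil) (nat_lit 74066) (nat_lit 65) (nat_lit
  74516) (.node .nil (nat_lit 74253) (nat_lit 1041) (nat_lit 65627) .nil)) (nat_lit 74307) (nat_lit 896)
  (nat_lit 266578) (.node (.node .nil (nat_lit 74328) (nat_lit 1537) (nat_lit 73751) .nil) (nat_lit 74506)
  (nat_lit 1377) (nat_lit 66323) (.node .nil (nat_lit 74516) (nat_lit 16) (nat_lit 4127) .nil))) (nat_lit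
  77835) (nat_lit 752) (nat_lit 70480) (.node (.node (.node .nil (nat_lit 77852) (nat_lit 80) (nat_lit 70169)
  .nil) (nat_lit 77905) (nat_lit 193) (nat_lit 77852) (.node .nil (nat_lit 78086) (nat_lit 769) (nat_lit
  70480) .nil)) (nat_lit 78152) (nat_lit 1728) (nat_lit 332308) (.node (.node .nil (nat_lit 78354) (nat_lit
  1761) (nat_lit 69909) .nil) (nat_lit 78404) (nat_lit 401) (nat_lit 77905) (.node .nil (nat_lit 78593)
  (nat_lit 97) (nat_lit 70169) .nil)))))) (nat_lit 262238) (nat_lit 1328) (nat_lit 271113) (.node (.node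
  (.node (.node (.node (.node (.node .nil (nat_lit 262427) (nat_lit 1872) (nat_lit 9036) .nil) (nat_lit
  262477) (nat_lit 1456) (nat_lit 270917) .nil) (nat_lit 262679) (nat_lit 1905) (nat_lit 262477) (.node .nil
  (nat_lit 262745) (nat_lit 2032) (nat_lit 270922) .nil)) (nat_lit 262926) (nat_lit 1793) (nat_lit 262979)
  (.node (.node .nil (nat_lit 262979) (nat_lit 1345) (nat_lit 271113) .nil) (nat_lit 262996) (nat_lit 1473)
  (nat_lit 270917) (.node .nil (nat_lit 266315) (nat_lit 129) (nat_lit 274698) .nil))) (nat_lit 266325)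
  (nat_lit 1153) (nat_lit 274508) (.node (.node (.node .nil (nat_lit 266503) (nat_lit 625) (nat_lit 267080)
  .nil) (nat_lit 266524) (nat_lit 1568) (nat_lit 74253) (.node .nil (nat_lit 266578) (nat_lit 512) (nat_lit
  336140) .nil)) (nat_lit 266765) (nat_lit 289) (nat_lit 266315) (.node (.node .nil (nat_lit 266778) (nat_lit
  1073) (nat_lit 266503) .nil) (nat_lit 266822) (nat_lit 1696) (nat_lit 336131) (.node .nil (nat_lit 267025)
  (nat_lit 336) (nat_lit 73806) .nil)))) (nat_lit 267080) (nat_lit 321) (nat_lit 274947) (.node (.node (.node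
  (.node .nil (nat_lit 270351) (nat_lit 1952) (nat_lit 9041) .nil) (nat_lit 270419) (nat_lit 529) (nat_lit
  336140) (.node .nil (nat_lit 270613) (nat_lit 593) (nat_lit 328268) .nil)) (nat_lit 270662) (nat_lit 1008)
  (nat_lit 270613) (.node (.node .nil (nat_lit 270680) (nat_lit 1921) (nat_lit 336390) .nil) (nat_lit 270876)
  (nat_lit 1840) (nat_lit 8731) (.node .nil (nat_lit 270917) (nat_lit 912) (nat_lit 270419) .nil))) (nat_lit
  270922) (nat_lit 1713) (nat_lit 336131) (.node (.node (.node .nil (nat_lit 271113) (nat_lit 817) (nat_lit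
  328203) .nil) (nat_lit 271122) (nat_lit 1984) (nat_lit 8478) (.node .nil (nat_lit 274454) (nat_lit 1185)
  (nat_lit 332100) .nil)) (nat_lit 274457) (nat_lit 433) (nat_lit 331790) (.node (.node .nil (nat_lit 274508)
  (nat_lit 673) (nat_lit 340034) .nil) (nat_lit 274698) (nat_lit 48) (nat_lit 74516) (.node .nil (nat_lit
  274753) (nat_lit 1280) (nat_lit 335956) .nil))))) (nat_lit 274947) (nat_lit 144) (nat_lit 74066) (.node
  (.node (.node (.node (.node (.node .nil (nat_lit 275024) (nat_lit 705) (nat_lit 339973) .nil) (nat_lit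
  275204) (nat_lit 1121) (nat_lit 332353) .nil) (nat_lit 327709) (nat_lit 480) (nat_lit 12873) (.node .nil
  (nat_lit 327751) (nat_lit 1744) (nat_lit 274753) .nil)) (nat_lit 327958) (nat_lit 928) (nat_lit 12557)
  (.node (.node .nil (nat_lit 328010) (nat_lit 1632) (nat_lit 275204) .nil) (nat_lit 328017) (nat_lit 1136)
  (nat_lit 274508) (.node .nil (nat_lit 328203) (nat_lit 448) (nat_lit 13122) .nil))) (nat_lit 328268)
  (nat_lit 304) (nat_lit 274947) (.node (.node (.node .nil (nat_lit 328274) (nat_lit 112) (nat_lit 274698)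
  .nil) (nat_lit 328453) (nat_lit 2000) (nat_lit 12359) (.node .nil (nat_lit 328472) (nat_lit 1808) (nat_lit
  12814) .nil)) (nat_lit 331790) (nat_lit 208) (nat_lit 78593) (.node (.node .nil (nat_lit 331795) (nat_lit
  1937) (nat_lit 266524) .nil) (nat_lit 331864) (nat_lit 1681) (nat_lit 274454) (.node .nil (nat_lit 332041)
  (nat_lit 720) (nat_lit 78404) .nil)))) (nat_lit 332100) (nat_lit 688) (nat_lit 339973) (.node (.node (.node
  (.node .nil (nat_lit 332308) (nat_lit 1248) (nat_lit 77835) .nil) (nat_lit 332353) (nat_lit 656) (nat_lit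
  340034) (.node .nil (nat_lit 332546) (nat_lit 641) (nat_lit 267025) .nil)) (nat_lit 335898) (nat_lit 1489)
  (nat_lit 327958) (.node (.node .nil (nat_lit 335945) (nat_lit 1200) (nat_lit 275024) .nil) (nat_lit 335956)
  (nat_lit 784) (nat_lit 274457) (.node .nil (nat_lit 336131) (nat_lit 1232) (nat_lit 12628) .nil))) (nat_lit
  336140) (nat_lit 257) (nat_lit 328274) (.node (.node (.node .nil (nat_lit 336390) (nat_lit 1520) (nat_lit
  12563) .nil) (nat_lit 336401) (nat_lit 849) (nat_lit 327709) (.node .nil (nat_lit 336704) (nat_lit 1393)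
  (nat_lit 336401) .nil)) (nat_lit 339973) (nat_lit 384) (nat_lit 77905) (.node (.node .nil (nat_lit 340034)
  (nat_lit 368) (nat_lit 340240) .nil) (nat_lit 340240) (nat_lit 176) (nat_lit 77852) (.node .nil (nat_lit
  340488) (nat_lit 2048) (nat_lit 78354) .nil)))))))
def cH_t0 : T := (.node (.node (.node (.node .nil (nat_lit 5) (nat_lit 0) (nat_lit
  0xbdab49ca307b9ac5a928398a418820) .nil) (nat_lit 11) (nat_lit 545) (nat_lit
  0x5d5eeb36728dd222a8c83c28c00c24) .nil) (nat_lit 14) (nat_lit 2) (nat_lit 0x7add7b4226a1502a9d2d54a6009183)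
  (.node (.node .nil (nat_lit 15) (nat_lit 34) (nat_lit 0x8cdf5742c62dda1a2a493a16060883) .nil) (nat_lit 17)
  (nat_lit 1104) (nat_lit 0x5da2fa48a6bcd2471db0522a160043) .nil)) (nat_lit 19) (nat_lit 17) (nat_lit
  0xa4d6f29a32bd501b1d2d541c203064) (.node (.node (.node .nil (nat_lit 20) (nat_lit 1) (nat_lit
  0xaba855a2d08bd2499e4d51ae218580) .nil) (nat_lit 21) (nat_lit 33) (nat_lit 0xa3cb79b5d0b46425a90939aa11b080)
  .nil) (nat_lit 22) (nat_lit 65) (nat_lit 0x716f3ab5668d120b2a083c9e40b043) (.node .nil (nat_lit 23) (nat_lit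
  16) (nat_lit 0x2c6f55a5f07590199db251a8c19040) .nil)))
def cH_l0 : Lvl := ⟨nat_lit 5, [nat_lit 0x2c6f55a5f07590199db251a8c19040, nat_lit
  0xa4d6f29a32bd501b1d2d541c203064], [nat_lit 0, nat_lit 0], cH_t0⟩
def cH_t1 : T := (.node (.node (.node (.node .nil (nat_lit 11) (nat_lit 0) (nat_lit
  0xbdab49ca307b9ac5a928398a418820) .nil) (nat_lit 14) (nat_lit 49) (nat_lit 0x9b9f1a26a6bae44b1d10534a110d80)
  .nil) (nat_lit 15) (nat_lit 66) (nat_lit 0xbce95b49c95c5a47aa063a0ac00823) (.node .nil (nat_lit 17) (nat_lit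
  34) (nat_lit 0x9d22f72568b5641b9ccd540a400d82) .nil)) (nat_lit 19) (nat_lit 17) (nat_lit
  0xbbdd15b6a69d240b29103a4a360444) (.node (.node (.node .nil (nat_lit 20) (nat_lit 1) (nat_lit
  0x9daabbca3073d22a1da8518a00b064) .nil) (nat_lit 21) (nat_lit 1090) (nat_lit
  0x9dd75b49eda452071e06520a223061) .nil) (nat_lit 22) (nat_lit 2) (nat_lit 0xbae2e7b688b56439a8c93c0a02044c)
  (.node .nil (nat_lit 23) (nat_lit 545) (nat_lit 0x5bdd6bb6a6a4d0189e50524a410183) .nil)))
def cH_l1 : Lvl := ⟨nat_lit 11, [nat_lit 0x9daabbca3073d22a1da8518a00b064, nat_lit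
  0xbbdd15b6a69d240b29103a4a360444], [nat_lit 0x210a0210a10, nat_lit 34881], cH_t1⟩
def cH_t2 : T := (.node (.node (.node .nil (nat_lit 1) (nat_lit 0) (nat_lit 0xbdab49ca307b9ac5a928398a418820)
  .nil) (nat_lit 2) (nat_lit 17) (nat_lit 0x8d5d7b41e6a4d005aa4d3a4a22046c) .nil) (nat_lit 3) (nat_lit 2)
  (nat_lit 0xa4ecf726f28d5005a8cd3c0a30904c) (.node .nil (nat_lit 4) (nat_lit 1) (nat_lit
  0xa3ab79a5e68d90c59e4d540a118880) .nil))
def cH_l2 : Lvl := ⟨nat_lit 1, [nat_lit 0xa3ab79a5e68d90c59e4d540a118880, nat_lit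
  0x8d5d7b41e6a4d005aa4d3a4a22046c], [nat_lit 0x883188631, nat_lit 0x4420c6308845010831], cH_t2⟩
def cH_t3 : T := (.node (.node .nil (nat_lit 2) (nat_lit 0) (nat_lit 0xbdab49ca307b9ac5a928398a418820) .nil)
  (nat_lit 3) (nat_lit 1) (nat_lit 0x8da6fac2f2a390c59ccd524a410c20) .nil)
def cH_l3 : Lvl := ⟨nat_lit 2, [nat_lit 0x8da6fac2f2a390c59ccd524a410c20], [nat_lit 2097], cH_t3⟩
def cH : List Lvl := [cH_l0, cH_l1, cH_l2, cH_l3]
theorem cH_chk : chkM cH = true := by decide +kernel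
theorem th_chk : orbChk act (gensOf cD) 4127 (2 ^ 24) th = true := by decide +kernel
theorem th_all : ball (fun x => force (cw x) fun m => bor (!Nat.beq (pc m) 8)
    (force (Nat.land m 340831) fun c => bor (!Nat.beq (pc c) 6) (th.has c))) 12 0 = true := by
  decide +kernel

theorem stab_eq' : stabilizer M24 D0 ⊓ stabilizer M24 (unmask 4127) = gen mcode (gensOf cH) := by
  rw [stab_D0]
  exact inf_stab_of_chk acSM trivial cD_chk cH_chk (mask_unmask (by norm_num)) th_chk
    (by decide +kernel)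

theorem std {d C : Finset GolayPt} (hd : d ∈ dodecads) (hC : C ∈ hexadsOn d) :
    ∃ g : M24, g • D0 = d ∧ g • unmask 4127 = C := by
  obtain ⟨g, rfl⟩ := exists_smul_D0 hd
  obtain ⟨h6, o, ho, rfl⟩ := hC
  have ho' := octad_smul ho (g⁻¹).2
  have e1 : g⁻¹ • (o ∩ g • D0) = (g⁻¹ • o) ∩ D0 := by rw [smul_finset_inter, inv_smul_smul]
  have h1 := forall_cw th_all _ ho'.1
  have h2 : ((g⁻¹ • o) ∩ D0).card = 6 := by rw [← e1, card_smul_finset, h6]
  rw [← mask_D0, ← M24_smul_def] at h1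
  simp only [bor_eq, force_eq, ← mask_inter, ← card_eq_pc, h2, card_smul_finset, ho.2, Nat.beq_refl,
    Bool.not_true, Bool.false_or] at h1
  have : g⁻¹ • (o ∩ g • D0) ∈ orbit (stabilizer M24 D0) (unmask 4127) := by
    rw [stab_D0, (acSM.orb_sound (chkM_sound cD_chk).1 (x₀ := unmask 4127) trivial
      (by rw [mask_unmask (by norm_num)]; exact th_chk)).1, e1]
    exact ⟨trivial, T.has_sound h1⟩
  obtain ⟨⟨k, hk⟩, e⟩ := this
  change k • unmask 4127 = _ at e
  exact ⟨g * k, by rw [mul_smul, mem_stabilizer_iff.1 hk], by rw [mul_smul, e, smul_inv_smul]⟩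

theorem f1 : ∀ g ∈ stabilizer M24 D0 ⊓ stabilizer M24 (unmask 4127),
    (∀ a ∈ unmask 4127, (g : Equiv.Perm GolayPt) a = a) → g = 1 := by
  rw [stab_eq']
  exact faithful_of_enum cH_chk (mask_unmask (by norm_num)) (by decide +kernel)

theorem f2 : ∀ g ∈ stabilizer M24 D0 ⊓ stabilizer M24 (unmask 4127),
    (∀ a ∈ D0 \ unmask 4127, (g : Equiv.Perm GolayPt) a = a) → g = 1 := by
  rw [stab_eq']
  refine faithful_of_enum cH_chk (m := 336704) ?_ (by decide +kernel)
  rw [D0_eq, show unmask 340831 \ unmask 4127 = unmask 336704 by decide +kernel,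
    mask_unmask (by norm_num)]

theorem tr (k : M24) {E : Finset GolayPt}
    (h : ∀ g ∈ stabilizer M24 D0 ⊓ stabilizer M24 (unmask 4127),
      (∀ a ∈ E, (g : Equiv.Perm GolayPt) a = a) → g = 1) :
    ∀ g ∈ stabilizer M24 (k • D0) ⊓ stabilizer M24 (k • unmask 4127),
      (∀ a ∈ k • E, (g : Equiv.Perm GolayPt) a = a) → g = 1 := by
  intro g hg hfix
  have e : k * (k⁻¹ * g * k) * k⁻¹ = g := by group
  have := h (k⁻¹ * g * k) ((conj_mem_inf_stab k _ _ _).2 (by rwa [e]))
    ((conj_mem_pstab k _ E).2 (by rwa [e]))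
  rw [← e, this]; simp


/-- For a dodecad d of the length-24 code and a hexad C on it (a 6-point intersection of d with an octad): the joint stabiliser of d and C in the code's group is isomorphic to the symmetric group of degree 6, and it acts faithfully both on the six points of C and on the six points of d outside C. -/
theorem result (d : Finset Cfsg.GolayPt) (hd : d ∈ Cfsg.dodecads) (C : Finset Cfsg.GolayPt) (hC : C ∈ Cfsg.hexadsOn d) : Nonempty (↥(MulAction.stabilizer Cfsg.M24 d ⊓ MulAction.stabilizer Cfsg.M24 C) ≃* Equiv.Perm (Fin 6)) ∧ (∀ g ∈ MulAction.stabilizer Cfsg.M24 d ⊓ MulAction.stabilizer Cfsg.M24 C, (∀ p ∈ C, ((g : ↥Cfsg.M24) : Equiv.Perm Cfsg.GolayPt) p = p) → g = 1) ∧ ∀ g ∈ MulAction.stabilizer Cfsg.M24 d ⊓ MulAction.stabilizer Cfsg.M24 C, (∀ p ∈ d \ C, ((g : ↥Cfsg.M24) : Equiv.Perm Cfsg.GolayPt) p = p) → g = 1 := by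
  obtain ⟨k, rfl, rfl⟩ := std hd hC
  refine ⟨?_, tr k f1, ?_⟩
  · obtain ⟨e⟩ := nonempty_equiv_perm (stabilizer M24 D0 ⊓ stabilizer M24 (unmask 4127))
      (unmask 4127) (fun g hg => hg.2) (n := 6) (by decide +kernel)
      (by rw [stab_eq']; exact card_of_chk cH_chk (by decide +kernel)) f1
    exact ⟨(equivOfConj k (fun x => conj_mem_inf_stab k x D0 _)).symm.trans e⟩
  · rw [← smul_finset_sdiff]
    exact tr k f2

end Cfsg.Agent.S5618
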