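import Cfsg.Statements.S5619
import Cfsg.Agent.M24.Dod

set_option autoImplicit false
open scoped Pointwise
open Cfsg

namespace Cfsg.Agent.S5619

open Cfsg.Agent.M24 Finset MulAction
open scoped symmDiff Pointwise

def cN_t0 : T := (.node (.node (.node (.node .nil (nat_lit 3) (nat_lit 0) (nat_lit
  0xbdab49ca307b9ac5a928398a418820) .nil) (nat_lit 4) (nat_lit 17) (nat_lit 0xb2dd57c2262d124ba90d3ca6360820)
  .nil) (nat_lit 6) (nat_lit 16) (nat_lit 0xbd9d52b1449d20859cd288ded48820) (.node .nil (nat_lit 8) (nat_lit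
  34) (nat_lit 0x5ddd59a4e87d186b4483534b280820) .nil)) (nat_lit 9) (nat_lit 1) (nat_lit
  0xbda8e7a0ed2d4925c46c5267030820) (.node (.node (.node .nil (nat_lit 12) (nat_lit 2) (nat_lit
  0x5de8e29a329d503b29a93c1ec20820) .nil) (nat_lit 13) (nat_lit 49) (nat_lit 0xb2eb42b4e99b870bc584521e690820)
  .nil) (nat_lit 16) (nat_lit 529) (nat_lit 0xb2e8e991437d4cdb9e508b0a940820) (.node .nil (nat_lit 18)
  (nat_lit 80) (nat_lit 0x5deb478d4c2ba49b1e068926868820) .nil)))
def cN_l0 : Lvl := ⟨nat_lit 3, [nat_lit 0xbd9d52b1449d20859cd288ded48820, nat_lit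
  0xb2dd57c2262d124ba90d3ca6360820], [nat_lit 0, nat_lit 0], cN_t0⟩
def cN : List Lvl := [cN_l0]
theorem cN_chk : chkM cN = true := by decide +kernel

def qc : QuaternionGroup 2 → ℕ
  | .a i => [nat_lit 0xbdab49ca307b9ac5a928398a418820, nat_lit 0x2bd47b11c65c5929d209aa2ed18820, nat_lit 0xbae957b6289ba44b1cd0524ac18820, nat_lit 0x2ccea5b1c9b448d7d506a42f218820].getD i.val 0
  | .xa i => [nat_lit 0x89df3ac2eda150655992591c918820, nat_lit 0x752cb3a4a455cd0acdac7ca2818820, nat_lit 0x8aa6fa22f2a96093ac8db31c618820, nat_lit 0x75576518ac3dd28a3e449b63018820].getD i.val 0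

theorem abstract {H : Type*} [Group H] [Finite H] (hH : Nat.card H = 72) (N : Subgroup H)
    (hN : N.Normal) (h9 : Nat.card N = 9) (h3 : ∀ x ∈ N, x ^ 3 = 1) (f : QuaternionGroup 2 →* H)
    (hf : Function.Injective f) :
    (∀ Q : Sylow 3 H, (Q : Subgroup H).Normal ∧ Nat.card Q = 9 ∧ ∀ x ∈ (Q : Subgroup H), x ^ 3 = 1) ∧
      ∀ P : Sylow 2 H, Nonempty (P ≃* QuaternionGroup 2) := by
  have : Fact (Nat.Prime 3) := ⟨Nat.prime_three⟩
  have e3 : (72 : ℕ).factorization 3 = 2 := by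
    rw [Nat.factorization_def _ Nat.prime_three]; decide +kernel
  have e2 : (72 : ℕ).factorization 2 = 3 := by
    rw [Nat.factorization_def _ Nat.prime_two]; decide +kernel
  constructor
  · intro Q
    have u := Sylow.unique_of_normal (Sylow.ofCard (p := 3) N (by rw [hH, h9, e3]; norm_num)) hN
    have : Q = Sylow.ofCard (p := 3) N (by rw [hH, h9, e3]; norm_num) := Subsingleton.elim _ _
    subst this
    exact ⟨hN, h9, h3⟩
  · intro P
    have hc : Nat.card f.range = 2 ^ (Nat.card H).factorization 2 := by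
      rw [hH, e2, ← Nat.card_congr (MonoidHom.ofInjective hf).toEquiv, Nat.card_eq_fintype_card,
        QuaternionGroup.card]; norm_num
    exact ⟨(Sylow.equiv P (Sylow.ofCard _ hc)).trans (MonoidHom.ofInjective hf).symm⟩

theorem H0_eq : stabilizer M24 D0 ⊓ stabilizer M24 (pt 0) ⊓ stabilizer M24 (pt 1) ⊓
    stabilizer M24 (pt 2) = gen mcode (gensOf (cD.drop 3)) := by
  ext g
  rw [mem_cD_drop (by norm_num)]
  simp only [Subgroup.mem_inf, mem_stabilizer_iff, M24_smul_pt]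
  constructor
  · rintro ⟨⟨⟨h, h0⟩, h1⟩, h2⟩
    refine ⟨h, fun i hi => ?_⟩
    interval_cases i <;> assumption
  · rintro ⟨h, h'⟩
    exact ⟨⟨⟨h, h' 0 (by norm_num)⟩, h' 1 (by norm_num)⟩, h' 2 (by norm_num)⟩

theorem mem_H0 {g : M24} (h : (Nat.beq (act (mcode g) 340831) 340831 && Nat.beq (ap (mcode g) 0) 0 &&
    Nat.beq (ap (mcode g) 1) 1 && Nat.beq (ap (mcode g) 2) 2) = true) :
    g ∈ gen mcode (gensOf (cD.drop 3)) := by
  simp only [Bool.and_eq_true] at h
  rw [← H0_eq]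
  exact ⟨⟨⟨(acSM.smul_eq_iff g trivial trivial).2 (by rw [mask_D0]; exact h.1.1.1),
    (acM.smul_eq_iff g (x := pt 0) (y := pt 0) trivial trivial).2 h.1.1.2⟩,
    (acM.smul_eq_iff g (x := pt 1) (y := pt 1) trivial trivial).2 h.1.2⟩,
    (acM.smul_eq_iff g (x := pt 2) (y := pt 2) trivial trivial).2 h.2⟩

theorem base {H : Type*} [Group H] [Finite H] (e : gen mcode (gensOf (cD.drop 3)) ≃* H) :
    (∀ Q : Sylow 3 H, (Q : Subgroup H).Normal ∧ Nat.card Q = 9 ∧ ∀ x ∈ (Q : Subgroup H), x ^ 3 = 1) ∧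
      ∀ P : Sylow 2 H, Nonempty (P ≃* QuaternionGroup 2) := by
  set H0 := gen mcode (gensOf (cD.drop 3)) with hH0
  set N := gen mcode (gensOf cN) with hN
  have hle : N ≤ H0 := gen_le_of_all (f := fun p => Nat.beq (act p 340831) 340831 && Nat.beq (ap p 0) 0 &&
    Nat.beq (ap p 1) 1 && Nat.beq (ap p 2) 2) (fun g h => mem_H0 h) (by decide +kernel)
  have hn : H0 ≤ Subgroup.normalizer (N : Set M24) :=
    gcM.gen_le_normalizer (f := sift mul one ap cN) (fun g h => ((chkM_sound cN_chk).2.2.2 g).2 h)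
      (by decide +kernel)
  obtain ⟨f, hf⟩ := gcM.exists_hom qc (fun x => exists_mcode (by revert x; decide +kernel))
    (by decide +kernel)
  have hfm : ∀ x, f x ∈ H0 := fun x => mem_H0 (by rw [hf]; revert x; decide +kernel)
  have hfi : Function.Injective f := fun x y h => by
    have := congrArg mcode h
    rw [hf, hf] at this
    exact (show ∀ x y, qc x = qc y → x = y by decide +kernel) x y this
  refine abstract ?_ ((N.subgroupOf H0).map e.toMonoidHom) ?_ ?_ ?_
    (e.toMonoidHom.comp (f.codRestrict H0 hfm)) ?_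
  · rw [← Nat.card_congr e.toEquiv, hH0, ((chkM_sound cD_chk).2.1.drop 3).card]; decide +kernel
  · exact ((Subgroup.normal_subgroupOf_iff_le_normalizer hle).2 hn).map _ e.surjective
  · rw [Subgroup.card_map_of_injective e.injective,
      Nat.card_congr (Subgroup.subgroupOfEquivOfLe hle).toEquiv]
    exact card_of_chk cN_chk (by decide +kernel)
  · rintro _ ⟨x, hx, rfl⟩
    have := (chkM_sound cN_chk).2.1.enum_one gcM acM
      (f := fun p => Nat.beq (cpow mul one p 3) one) (by decide +kernel) x.1 hx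
    rw [gcM.cpow_code, gcM.eq_one_iff] at this
    rw [← map_pow, show x ^ 3 = 1 from Subtype.ext this, map_one]
  · exact e.injective.comp fun x y h => hfi (congrArg Subtype.val h)


/-- In the group of the length-24 code, the subgroup fixing a dodecad setwise and three of its points individually (a group of order 72) has a normal Sylow 3-subgroup that is elementary abelian of order 9, and its Sylow 2-subgroups are quaternion of order 8. -/
theorem result (d : Finset Cfsg.GolayPt) (hd : d ∈ Cfsg.dodecads) (p q r : Cfsg.GolayPt) (hp : p ∈ d) (hq : q ∈ d) (hr : r ∈ d) (hpq : p ≠ q) (hpr : p ≠ r) (hqr : q ≠ r) : (∀ Q : Sylow 3 ↥(MulAction.stabilizer Cfsg.M24 d ⊓ MulAction.stabilizer Cfsg.M24 p ⊓ MulAction.stabilizer Cfsg.M24 q ⊓ MulAction.stabilizer Cfsg.M24 r), (Q : Subgroup ↥(MulAction.stabilizer Cfsg.M24 d ⊓ MulAction.stabilizer Cfsg.M24 p ⊓ MulAction.stabilizer Cfsg.M24 q ⊓ MulAction.stabilizer Cfsg.M24 r)).Normal ∧ Nat.card ↥Q = 9 ∧ ∀ x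 ∈ (Q : Subgroup ↥(MulAction.stabilizer Cfsg.M24 d ⊓ MulAction.stabilizer Cfsg.M24 p ⊓ MulAction.stabilizer Cfsg.M24 q ⊓ MulAction.stabilizer Cfsg.M24 r)), x ^ 3 = 1) ∧ ∀ P : Sylow 2 ↥(MulAction.stabilizer Cfsg.M24 d ⊓ MulAction.stabilizer Cfsg.M24 p ⊓ MulAction.stabilizer Cfsg.M24 q ⊓ MulAction.stabilizer Cfsg.M24 r), Nonempty (↥P ≃* QuaternionGroup 2) := by
  obtain ⟨k, rfl⟩ := exists_smul_D0 hd
  obtain ⟨g, hg, e⟩ := trans_D0 (n := 3) (by norm_num) (x := ![k⁻¹ • p, k⁻¹ • q, k⁻¹ • r])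
    (by
      have := MulAction.injective (β := GolayPt) k⁻¹
      intro i j h
      fin_cases i <;> fin_cases j <;> simp_all [this.eq_iff, eq_comm])
    (by
      intro i
      fin_cases i <;> simpa [inv_smul_mem_iff])
  have e0 : (k * g) • pt 0 = p := by rw [mul_smul, ← eq_inv_smul_iff]; exact e 0
  have e1 : (k * g) • pt 1 = q := by rw [mul_smul, ← eq_inv_smul_iff]; exact e 1
  have e2 : (k * g) • pt 2 = r := by rw [mul_smul, ← eq_inv_smul_iff]; exact e 2
  have eD : (k * g) • D0 = k • D0 := by rw [mul_smul, hg]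
  refine base (equivOfConj (k * g) fun x => ?_)
  rw [← H0_eq, ← e0, ← e1, ← e2, ← eD]
  simp only [Subgroup.mem_inf, ← conj_mem_stabilizer]

end Cfsg.Agent.S5619
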