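import Cfsg.Statements.S5620
import Cfsg.Agent.M24.Dod

set_option autoImplicit false
open scoped Pointwise
open Cfsg

namespace Cfsg.Agent.S5620

open Cfsg.Agent.M24 Finset MulAction
open scoped symmDiff Pointwise

theorem mem12 {x : Equiv.Perm GolayPt} : x ∈ Spor.M12 ↔ x ∈ M24 ∧ x • D0 = D0 := Iff.rfl
theorem mem11 {x : Equiv.Perm GolayPt} :
    x ∈ Spor.M11 ↔ (x ∈ M24 ∧ x • D0 = D0) ∧ x (some 0) = some 0 := Iff.rfl

theorem part3 : ∃ g ∈ M24, g • D0 = univ \ D0 ∧ MulAut.conj g • Spor.M11 =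
    Spor.M12 ⊓ stabilizer (Equiv.Perm GolayPt) (none : GolayPt) := by
  obtain ⟨⟨g, hg⟩, e⟩ := exists_mcode (p := 753263875740405344056188922866903543) (by decide +kernel)
  replace e : pcode g = _ := e
  have h1 : g • D0 = univ \ D0 := mask_inj (by
    rw [← act_mask, mask_compl, e, mask_D0]; decide +kernel)
  have h2 : g (some 0) = none := idx_inj (by rw [← ap_pcode, e]; decide +kernel)
  refine ⟨g, hg, h1, ?_⟩
  ext x
  rw [Subgroup.mem_pointwise_smul_iff_inv_smul_mem, mem11, Subgroup.mem_inf, mem12,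
    ← smul_compl_eq_iff x, ← h1, ← h2]
  simp only [MulAut.smul_def, MulAut.conj_inv_apply]
  have e1 : g⁻¹ * x * g ∈ M24 ↔ x ∈ M24 := by
    refine ⟨fun h => ?_, fun h => M24.mul_mem (M24.mul_mem (M24.inv_mem hg) h) hg⟩
    have := M24.mul_mem (M24.mul_mem hg h) (M24.inv_mem hg)
    rwa [show g * (g⁻¹ * x * g) * g⁻¹ = x by group] at this
  rw [e1]
  simp only [mul_smul, inv_smul_eq_iff, Equiv.Perm.mul_apply, Equiv.Perm.inv_eq_iff_eq]
  rfl


/-- Inside the stabiliser of the dodecad of squares (a Mathieu group of degree 12), the stabiliser of the residue 0 (a point of the dodecad) and the stabiliser of the extra point (a point outside the dodecad) are isomorphic but not conjugate; conjugation by a suitable element of the code's group that maps the dodecad of squares onto its complement carries the first onto the second. -/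
theorem result : Nonempty (↥(Cfsg.Spor.M12 ⊓ MulAction.stabilizer (Equiv.Perm Cfsg.GolayPt) (none : Cfsg.GolayPt)) ≃* ↥Cfsg.Spor.M11) ∧ (¬ ∃ k ∈ Cfsg.Spor.M12, MulAut.conj k • Cfsg.Spor.M11 = Cfsg.Spor.M12 ⊓ MulAction.stabilizer (Equiv.Perm Cfsg.GolayPt) (none : Cfsg.GolayPt)) ∧ ∃ g ∈ Cfsg.M24, g • Cfsg.Spor.squareDodecad = Finset.univ \ Cfsg.Spor.squareDodecad ∧ MulAut.conj g • Cfsg.Spor.M11 = Cfsg.Spor.M12 ⊓ MulAction.stabilizer (Equiv.Perm Cfsg.GolayPt) (none : Cfsg.GolayPt) := by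
  refine ⟨?_, ?_, part3⟩
  · obtain ⟨g, -, -, e⟩ := part3
    rw [← e]
    exact ⟨(Subgroup.equivSMul (MulAut.conj g) Spor.M11).symm⟩
  · rintro ⟨k, hk, e⟩
    obtain ⟨⟨x, hx⟩, ex⟩ := exists_mcode (p := 962176521908652816294369599884895440) (by decide +kernel)
    replace ex : pcode x = _ := ex
    have h1 : x ∈ Spor.M12 ⊓ stabilizer (Equiv.Perm GolayPt) (none : GolayPt) :=
      ⟨⟨hx, mask_inj (by
        change mask (x • D0) = mask D0
        rw [← act_mask, ex, mask_D0]; decide +kernel)⟩,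
        idx_inj (by change idx (x none) = _; rw [← ap_pcode, ex]; decide +kernel)⟩
    rw [← e, Subgroup.mem_pointwise_smul_iff_inv_smul_mem, mem11] at h1
    have h2 := h1.2
    simp only [MulAut.smul_def, MulAut.conj_inv_apply, Equiv.Perm.mul_apply,
      Equiv.Perm.inv_eq_iff_eq] at h2
    have h3 : k (some 0) ∈ D0 := by
      rw [← (mem12.1 hk).2]
      exact smul_mem_smul_finset (by rw [D0_eq]; decide +kernel)
    have h4 : ∀ a ∈ D0, ap 962176521908652816294369599884895440 (idx a) ≠ idx a := by rw [D0_eq]; decide +kernel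
    exact h4 _ h3 (by rw [← ex, ap_pcode, h2])

end Cfsg.Agent.S5620
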