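import Cfsg.Statements.S5623
import Cfsg.Agent.M24.Abstract

set_option autoImplicit false
open Cfsg

namespace Cfsg.Agent.S5623

open Cfsg.Agent.M24 Finset
open scoped symmDiff


/-- Let C be a self-dual binary code of length 24 with minimum weight at least 8 (a 12-dimensional subspace of the 24-dimensional space over the field with two elements, any two of whose words have dot product zero, with no non-zero word of weight below 8 — an abstract extended binary Golay code). Then every coset w + C of C in the ambient space contains either exactly one word of weight at most 4, which then has weight at most 3, or exactly six words of weight at most 4, all of weight exactly 4 and with pairwise disjoint supports (a sextet). -/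
theorem result (C : Submodule (ZMod 2) (Fin 24 → ZMod 2)) (hdim : Module.finrank (ZMod 2) C = 12) (horth : ∀ v ∈ C, ∀ w ∈ C, ∑ i, v i * w i = 0) (hmin : ∀ w ∈ C, w ≠ 0 → 8 ≤ hammingNorm w) (w : Fin 24 → ZMod 2) : (∃ u : Fin 24 → ZMod 2, {u : Fin 24 → ZMod 2 | u - w ∈ C ∧ hammingNorm u ≤ 4} = {u} ∧ hammingNorm u ≤ 3) ∨ ({u : Fin 24 → ZMod 2 | u - w ∈ C ∧ hammingNorm u ≤ 4}.ncard = 6 ∧ ∀ u ∈ {u : Fin 24 → ZMod 2 | u - w ∈ C ∧ hammingNorm u ≤ 4}, hammingNorm u = 4 ∧ ∀ u' ∈ {u : Fin 24 → ZMod 2 | u - w ∈ C ∧ hammingNorm u ≤ 4}, u ≠ u' → Disjoint (Finset.univ.filter fun i => u i ≠ 0) (Finset.univ.filter fun i => u' i ≠ 0)) := by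
  have h := golayFam_of (by simp) C hdim hmin
  have key : ∀ u : Fin 24 → ZMod 2, (u - w ∈ C ∧ hammingNorm u ≤ 4) ↔
      (support₂ u ∈ GolayFam.lows (famOf C) (support₂ w) ∨
        support₂ u ∈ GolayFam.tets (famOf C) (support₂ w)) := by
    intro u
    rw [GolayFam.mem_lows, GolayFam.mem_tets, ← support₂_add, support_mem_famOf, word_sub,
      add_comm u w, hammingNorm_eq]
    constructor
    · rintro ⟨h1, h2⟩
      by_cases h3 : (support₂ u).card = 4
      · exact Or.inr ⟨h3, h1⟩
      · exact Or.inl ⟨by omega, h1⟩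
    · rintro (⟨h1, h2⟩ | ⟨h1, h2⟩) <;> exact ⟨h2, by omega⟩
  rcases h.coset (support₂ w) with ⟨u, hu, ht⟩ | ⟨hl, h6⟩
  · left
    refine ⟨ind u, ?_, ?_⟩
    · ext v
      rw [Set.mem_ofPred_eq, key, hu, ht]
      simp only [mem_singleton, notMem_empty, or_false, Set.mem_singleton_iff]
      exact ⟨fun e => by rw [← e, ind_support], fun e => by rw [e, support_ind]⟩
    · have : u ∈ GolayFam.lows (famOf C) (support₂ w) := by simp [hu]
      rw [hammingNorm_eq, support_ind]
      exact (GolayFam.mem_lows.1 this).1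
  · right
    have key' : ∀ u : Fin 24 → ZMod 2, (u - w ∈ C ∧ hammingNorm u ≤ 4) ↔
        support₂ u ∈ GolayFam.tets (famOf C) (support₂ w) := by
      intro u; rw [key, hl]; simp
    refine ⟨?_, fun u hu => ⟨?_, fun u' hu' hne => ?_⟩⟩
    · rw [← h6, ← Set.ncard_coe_finset, ← Set.ncard_image_of_injective _ support₂_inj]
      congr 1
      ext s
      simp only [Set.mem_image, Set.mem_ofPred_eq, key', mem_coe]
      exact ⟨fun ⟨u, hu, e⟩ => e ▸ hu, fun hs => ⟨ind s, by simpa using hs, by simp⟩⟩
    · rw [hammingNorm_eq]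
      exact (GolayFam.mem_tets.1 ((key' u).1 hu)).1
    · exact h.tets_disj _ ((key' u).1 hu) ((key' u').1 hu') fun e => hne (support₂_inj e)

end Cfsg.Agent.S5623
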