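import Cfsg.Statements.S5624
import Cfsg.Agent.M24.Abstract

set_option autoImplicit false
open Cfsg

namespace Cfsg.Agent.S5624

open Cfsg.Agent.M24 Finset
open scoped symmDiff


/-- Let C be a self-dual binary code of length 24 with minimum weight at least 8 (a 12-dimensional subspace of the 24-dimensional space over the field with two elements, any two of whose words have dot product zero, with no non-zero word of weight below 8 — an abstract extended binary Golay code). Then C is spanned, as a vector space over the field with two elements, by its words of weight 8. -/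
theorem result (C : Submodule (ZMod 2) (Fin 24 → ZMod 2)) (hdim : Module.finrank (ZMod 2) C = 12) (horth : ∀ v ∈ C, ∀ w ∈ C, ∑ i, v i * w i = 0) (hmin : ∀ w ∈ C, w ≠ 0 → 8 ≤ hammingNorm w) : Submodule.span (ZMod 2) {w : Fin 24 → ZMod 2 | w ∈ C ∧ hammingNorm w = 8} = C := by
  have h := golayFam_of (by simp) C hdim hmin
  refine le_antisymm (Submodule.span_le.2 fun w hw => hw.1) fun w hw => ?_
  have key : ∀ s ∈ famOf C,
      ind s ∈ Submodule.span (ZMod 2) {w : Fin 24 → ZMod 2 | w ∈ C ∧ hammingNorm w = 8} := by
    refine h.induction (by rw [ind_empty]; exact Submodule.zero_mem _)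
      (fun o ho h8 => Submodule.subset_span ⟨mem_famOf.1 ho, ?_⟩) fun s _ t _ h1 h2 => ?_
    · rw [hammingNorm_eq, support_ind, h8]
    · rw [ind_symmDiff]; exact Submodule.add_mem _ h1 h2
  simpa using key _ (support_mem_famOf.2 hw)

end Cfsg.Agent.S5624
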