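import Cfsg.Statements.S5625


set_option autoImplicit false
open Cfsg

namespace Cfsg.Agent.S5625

open Finset

section
variable {α : Type*} [Fintype α] [DecidableEq α]

/-- Number of blocks through a set. -/
def lam (F : Finset (Finset α)) (s : Finset α) : ℕ := (F.filter (s ⊆ ·)).card

theorem lam_step {F : Finset (Finset α)} {k : ℕ} (hF : ∀ b ∈ F, b.card = k) (s : Finset α) :
    lam F s * (k - s.card) = ∑ x ∈ univ \ s, lam F (insert x s) := by
  simp only [lam, card_filter]
  rw [sum_comm, sum_mul]
  refine sum_congr rfl fun b hb => ?_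
  by_cases h : s ⊆ b
  · rw [if_pos h, one_mul, ← hF b hb, ← card_sdiff_of_subset h, ← card_filter]
    congr 1
    ext x; simp [insert_subset_iff, h, and_comm]
  · rw [if_neg h, zero_mul, eq_comm]
    exact sum_eq_zero fun x _ => if_neg fun h' => h ((subset_insert x s).trans h')

theorem lam_down {F : Finset (Finset α)} (hα : Fintype.card α = 24) (hF : ∀ b ∈ F, b.card = 8)
    {i m m' : ℕ} (h : ∀ s : Finset α, s.card = i + 1 → lam F s = m) (hi : i < 8)
    (e : m' * (8 - i) = (24 - i) * m) : ∀ s : Finset α, s.card = i → lam F s = m' := by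
  intro s hs
  have := lam_step hF s
  rw [sum_congr rfl fun x hx => h _ (by rw [card_insert_of_notMem (mem_sdiff.1 hx).2, hs]),
    sum_const, card_univ_sdiff, hα, hs, smul_eq_mul, ← e] at this
  exact Nat.eq_of_mul_eq_mul_right (by omega) this

omit [Fintype α] in
theorem sum_choose (F : Finset (Finset α)) (Y : Finset α) (i : ℕ) :
    ∑ b ∈ F, (b ∩ Y).card.choose i = ∑ s ∈ powersetCard i Y, lam F s := by
  simp only [lam, card_filter]
  rw [sum_comm]
  refine sum_congr rfl fun b _ => ?_
  rw [← card_powersetCard, ← card_filter]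
  congr 1
  ext s; simp only [mem_powersetCard, subset_inter_iff, mem_filter]; tauto

omit [Fintype α] in
theorem sum_fiber (F : Finset (Finset α)) {Y : Finset α} (hY : Y.card = 3) (i : ℕ) :
    ∑ b ∈ F, (b ∩ Y).card.choose i =
      ∑ j ∈ range 4, (F.filter fun b => (b ∩ Y).card = j).card * j.choose i := by
  rw [← sum_fiberwise_of_maps_to (s := F) (t := range 4) (g := fun b => (b ∩ Y).card) fun b _ =>
    mem_range.2 (Nat.lt_succ_of_le (hY ▸ card_le_card inter_subset_right))]
  refine sum_congr rfl fun j _ => ?_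
  rw [sum_congr rfl fun b hb => by rw [(mem_filter.1 hb).2], sum_const, smul_eq_mul]

end


/-- In any Steiner system S(5, 8, 24) and for any set Y of three points, the blocks meeting Y in exactly 3, 2, 1 and 0 points number 21, 168, 360 and 210 respectively (so there are 759 blocks in all). -/
theorem result (α : Type*) [Fintype α] [DecidableEq α] (hα : Fintype.card α = 24) (B : Set (Finset α)) (hB : Cfsg.IsSteinerSystem 5 8 B) (Y : Finset α) (hY : Y.card = 3) : {b : Finset α | b ∈ B ∧ (b ∩ Y).card = 3}.ncard = 21 ∧ {b : Finset α | b ∈ B ∧ (b ∩ Y).card = 2}.ncard = 168 ∧ {b : Finset α | b ∈ B ∧ (b ∩ Y).card = 1}.ncard = 360 ∧ {b : Finset α | b ∈ B ∧ (b ∩ Y).card = 0}.ncard = 210 := by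
  classical
  set F := (Set.toFinite B).toFinset
  have hm : ∀ b, b ∈ F ↔ b ∈ B := fun b => Set.Finite.mem_toFinset _
  have hF : ∀ b ∈ F, b.card = 8 := fun b hb => hB.1 b ((hm b).1 hb)
  have l5 : ∀ s : Finset α, s.card = 5 → lam F s = 1 := fun s hs => by
    obtain ⟨b, hb, hu⟩ := hB.2 s hs
    exact card_eq_one.2 ⟨b, by
      ext c
      rw [mem_filter, hm, mem_singleton]
      exact ⟨hu c, fun e => e ▸ hb⟩⟩
  have l4 := lam_down hα hF (m' := 5) l5 (by norm_num) (by norm_num)
  have l3 := lam_down hα hF (m' := 21) l4 (by norm_num) (by norm_num)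
  have l2 := lam_down hα hF (m' := 77) l3 (by norm_num) (by norm_num)
  have l1 := lam_down hα hF (m' := 253) l2 (by norm_num) (by norm_num)
  have l0 := lam_down hα hF (m' := 759) l1 (by norm_num) (by norm_num)
  have key : ∀ i m, (∀ s : Finset α, s.card = i → lam F s = m) →
      ∑ j ∈ range 4, (F.filter fun b => (b ∩ Y).card = j).card * j.choose i = Nat.choose 3 i * m := by
    intro i m h
    rw [← sum_fiber F hY, sum_choose, sum_congr rfl fun s hs => h s (mem_powersetCard.1 hs).2,
      sum_const, card_powersetCard, hY, smul_eq_mul]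
  have e : ∀ j, {b : Finset α | b ∈ B ∧ (b ∩ Y).card = j}.ncard =
      (F.filter fun b => (b ∩ Y).card = j).card := fun j => by
    rw [← Set.ncard_coe_finset]; congr 1; ext b; simp [hm]
  have k0 := key 0 _ l0
  have k1 := key 1 _ l1
  have k2 := key 2 _ l2
  have k3 := key 3 _ l3
  simp only [e]
  simp only [sum_range_succ, range_zero, sum_empty, Nat.choose] at k0 k1 k2 k3
  omega

end Cfsg.Agent.S5625
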