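import Cfsg.Statements.S5627
import Cfsg.Agent.M24.Plane

set_option autoImplicit false
open Cfsg

namespace Cfsg.Agent.S5627

open Cfsg.Agent.M24 Finset MulAction
open scoped symmDiff Pointwise

/-- Independent sets. -/
noncomputable def indep (c : ℕ) : Bool := lall F0 fun m => Nat.ble (pc (Nat.land m c)) 2

theorem indep_iff {S : Finset (Fin 21)} :
    (∀ l ∈ famL F0, (l ∩ S).card ≤ 2) ↔ indep (E21.mask S) = true := by
  simp only [indep, lall_iff, Nat.ble_eq]
  constructor
  · intro h m hm
    have h1 : ∀ m ∈ F0, m < 2 ^ 21 := by decide +kernel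
    have h2 := E21.mask_unmask (h1 m hm)
    rw [← h2, ← E21.mask_inter, ← E21.card_eq_pc (by norm_num)]
    exact h _ (by rwa [famL, Set.mem_ofPred_eq, h2])
  · intro h l hl
    rw [E21.card_eq_pc (by norm_num), E21.mask_inter]; exact h _ hl

def hyp : List ℕ := [nat_lit 0x108423, nat_lit 329763, nat_lit 544803, nat_lit 590403, nat_lit 0x102843,
  nat_lit 168003, nat_lit 0x104283, nat_lit 197763, nat_lit 274563, nat_lit 295683, nat_lit 533763, nat_lit
  149763, nat_lit 279077, nat_lit 165925, nat_lit 0x103025, nat_lit 140357, nat_lit 542789, nat_lit 331845,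
  nat_lit 533125, nat_lit 296069, nat_lit 0x110885, nat_lit 197381, nat_lit 0x104505, nat_lit 561413, nat_lit
  0x110229, nat_lit 148521, nat_lit 534569, nat_lit 270921, nat_lit 558153, nat_lit 0x105049, nat_lit 164489,
  nat_lit 280713, nat_lit 594057, nat_lit 328969, nat_lit 0x108909, nat_lit 143625, nat_lit 557617, nat_lit
  271409, nat_lit 200753, nat_lit 148049, nat_lit 0x110451, nat_lit 297041, nat_lit 541841, nat_lit 141457,
  nat_lit 0x109091, nat_lit 0x102311, nat_lit 592145, nat_lit 282897, nat_lit 6246, nat_lit 0x1400a6, nat_lit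
  49446, nat_lit 73926, nat_lit 655686, nat_lit 1926, nat_lit 84486, nat_lit 791046, nat_lit 0x120c06, nat_lit
  46086, nat_lit 0x186006, nat_lit 491526, nat_lit 0x18006a, nat_lit 82090, nat_lit 3370, nat_lit 4810,
  nat_lit 41290, nat_lit 393610, nat_lit 99850, nat_lit 0x140a0a, nat_lit 660490, nat_lit 30730, nat_lit
  860170, nat_lit 0x12c00a, nat_lit 98418, nat_lit 5298, nat_lit 786738, nat_lit 0x1200d2, nat_lit 2898,
  nat_lit 24978, nat_lit 0x180612, nat_lit 53778, nat_lit 76818, nat_lit 399378, nat_lit 0x14a012, nat_lit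
  737298, nat_lit 24684, nat_lit 2732, nat_lit 0x12012c, nat_lit 786636, nat_lit 5452, nat_lit 98700, nat_lit
  394764, nat_lit 78348, nat_lit 52236, nat_lit 0x18180c, nat_lit 696332, nat_lit 0x15400c, nat_lit 393332,
  nat_lit 41140, nat_lit 4916, nat_lit 3284, nat_lit 82260, nat_lit 0x180194, nat_lit 26132, nat_lit 657940,
  nat_lit 0x141414, nat_lit 104468, nat_lit 0x132014, nat_lit 835604, nat_lit 1656, nat_lit 655544, nat_lit
  74040, nat_lit 49368, nat_lit 0x140158, nat_lit 6552, nat_lit 43544, nat_lit 0x121218, nat_lit 789528,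
  nat_lit 87064, nat_lit 417816, nat_lit 0x198018, nat_lit 789088, nat_lit 86624, nat_lit 44128, nat_lit
  0x121460, nat_lit 0x152060, nat_lit 704608, nat_lit 50848, nat_lit 0x1812a0, nat_lit 396448, nat_lit 80032,
  nat_lit 811168, nat_lit 0x1380a0, nat_lit 0x140720, nat_lit 101152, nat_lit 29984, nat_lit 661792, nat_lit
  0x18a120, nat_lit 475424, nat_lit 657088, nat_lit 27328, nat_lit 103616, nat_lit 0x1418c0, nat_lit 434368,
  nat_lit 0x1940c0, nat_lit 75584, nat_lit 398144, nat_lit 0x180d40, nat_lit 55616, nat_lit 0x126140, nat_lit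
  885056, nat_lit 0x120b80, nat_lit 45952, nat_lit 85376, nat_lit 791936, nat_lit 729472, nat_lit 0x14c180,
  nat_lit 828928, nat_lit 0x134600, nat_lit 0x192a00, nat_lit 444928, nat_lit 0x147200, nat_lit 758272,
  nat_lit 683008, nat_lit 0x158c00, nat_lit 472064, nat_lit 0x18d400, nat_lit 0x12b800, nat_lit 874496]

theorem indep_mono (A S : Finset (Fin 21)) (h : indep (E21.mask (A ∪ S)) = true) :
    indep (E21.mask A) = true :=
  indep_iff.1 fun l hl => (card_le_card (inter_subset_inter_left subset_union_left)).trans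
    (indep_iff.2 h l hl)

noncomputable def f6 (c : ℕ) : Bool := bor (!indep c) (lany hyp (Nat.beq c))
noncomputable def f4 (c : ℕ) : Bool := bor (!indep c) (lany hyp fun m => Nat.beq (Nat.land c m) c)
theorem c6 : cntSubsP indep (fun m => !f6 m) 21 6 0 = 0 := by decide +kernel
theorem c4 : cntSubsP indep (fun m => !f4 m) 21 4 0 = 0 := by decide +kernel
theorem n6 : cntSubsP indep indep 21 6 0 = 168 := by decide +kernel
theorem n4 : cntSubsP indep indep 21 4 0 = 2520 := by decide +kernel
theorem hh : (lall hyp fun a => lall hyp fun b =>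
    bor (Nat.ble (pc (Nat.land a b)) 3) (Nat.beq a b)) = true := by decide +kernel

theorem model (S : Finset (Fin 21)) (h4 : S.card = 4) (hS : indep (E21.mask S) = true) :
    ∃! H : Finset (Fin 21), (H.card = 6 ∧ indep (E21.mask H) = true) ∧ S ⊆ H := by
  have h1 := E21.forall_subs (A := ∅) (f := f6) (k := 6) (by
    rw [← E21.cntSubsP_eq (g := indep) (fun A S h => indep_mono A S (by
      simp only [f6, bor_eq, Bool.not_or, Bool.not_not, Bool.and_eq_true] at h; exact h.1)) le_rfl,
      E21.mask_empty, c6])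
  have h2 := E21.forall_subs (A := ∅) (f := f4) (k := 4) (by
    rw [← E21.cntSubsP_eq (g := indep) (fun A S h => indep_mono A S (by
      simp only [f4, bor_eq, Bool.not_or, Bool.not_not, Bool.and_eq_true] at h; exact h.1)) le_rfl,
      E21.mask_empty, c4]) S h4
  have h3 : ∀ m ∈ hyp, m < 2 ^ 21 ∧ pc m = 6 ∧ indep m = true := by decide +kernel
  simp only [f4, empty_union, hS, bor_eq, Bool.not_true, Bool.false_or, Nat.beq_eq, lany_iff] at h2
  obtain ⟨m, h6, h7⟩ := h2
  obtain ⟨a, b, c⟩ := h3 m h6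
  have e := E21.mask_unmask a
  have hSm := (E21.subset_iff_mask S (E21.unmask m)).2 (by rw [e, h7])
  refine ⟨E21.unmask m, ⟨⟨by rw [E21.card_eq_pc (by norm_num), e, b], by rw [e, c]⟩, hSm⟩,
    fun H ⟨⟨hH, hi⟩, hs⟩ => ?_⟩
  have h8 := h1 H hH
  simp only [f6, empty_union, hi, bor_eq, Bool.not_true, Bool.false_or, lany_iff, Nat.beq_eq,
    exists_eq_right'] at h8
  have h9 := (lall_iff _ _).1 ((lall_iff _ _).1 hh _ h8) _ h6
  rw [← e, ← E21.mask_inter, ← E21.card_eq_pc (by norm_num), bor_eq, Bool.or_eq_true, Nat.ble_eq,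
    Nat.beq_eq] at h9
  have := card_le_card (subset_inter hs hSm)
  exact E21.mask_inj (h9.resolve_left (by omega))


/-- In a projective plane of order 4 (a Steiner system S(2, 5, 21)), call a set of points independent when no line meets it in more than two points. There are exactly 2520 independent 4-sets and exactly 168 independent 6-sets (hyperovals), and every independent 4-set lies in exactly one hyperoval. -/
theorem result {α : Type*} [Fintype α] [DecidableEq α] (hα : Fintype.card α = 21) (L : Set (Finset α)) (hL : Cfsg.IsSteinerSystem 2 5 L) : {S : Finset α | (S.card = 4 ∧ ∀ l ∈ L, (l ∩ S).card ≤ 2)}.ncard = 2520 ∧ {H : Finset α | (H.card = 6 ∧ ∀ l ∈ L, (l ∩ H).card ≤ 2)}.ncard = 168 ∧ ∀ S : Finset α, (S.card = 4 ∧ ∀ l ∈ L, (l ∩ S).card ≤ 2) → ∃! H : Finset α, (H.card = 6 ∧ ∀ l ∈ L, (l ∩ H).card ≤ 2) ∧ S ⊆ H := by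
  obtain ⟨e, he⟩ := plane_std hα hL
  have key : ∀ S : Finset α, (∀ l ∈ L, (l ∩ S).card ≤ 2) ↔ indep (E21.mask (S.image e)) = true := by
    intro S
    rw [← indep_iff, ← he, Set.forall_mem_image]
    simp only [← image_inter _ _ e.injective, card_image_of_injective _ e.injective]
  have cnt : ∀ k, {S : Finset α | S.card = k ∧ ∀ l ∈ L, (l ∩ S).card ≤ 2}.ncard =
      cntSubsP indep indep 21 k 0 := fun k => by
    rw [← E21.mask_empty, E21.cntSubsP_eq indep_mono le_rfl, E21.mask_empty,
      ← E21.ncard_subs (P := fun S => indep (E21.mask S) = true) fun _ _ => Iff.rfl]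
    refine Set.ncard_congr (fun S _ => S.image e) (fun S hS => ⟨by
      rw [card_image_of_injective _ e.injective]; exact hS.1, (key S).1 hS.2⟩)
      (fun S S' _ _ h => image_injective e.injective h) fun S hS => ⟨S.image e.symm, ?_, ?_⟩
    · refine ⟨by rw [card_image_of_injective _ e.symm.injective]; exact hS.1, (key _).2 ?_⟩
      simpa [image_image] using hS.2
    · simp [image_image]
  refine ⟨(cnt 4).trans n4, (cnt 6).trans n6, fun S hS => ?_⟩
  obtain ⟨H, ⟨⟨h1, h2⟩, h3⟩, hu⟩ := model (S.image e)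
    (by rw [card_image_of_injective _ e.injective]; exact hS.1) ((key S).1 hS.2)
  refine ⟨H.image e.symm, ⟨⟨by rw [card_image_of_injective _ e.symm.injective, h1], (key _).2 ?_⟩,
    fun x hx => mem_image.2 ⟨e x, h3 (mem_image_of_mem e hx), e.symm_apply_apply x⟩⟩,
    fun H' ⟨⟨a, b⟩, c⟩ => ?_⟩
  · simpa [image_image] using h2
  · rw [← hu (H'.image e) ⟨⟨by rw [card_image_of_injective _ e.injective, a], (key _).1 b⟩,
      image_subset_image c⟩]
    simp [image_image]

end Cfsg.Agent.S5627
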