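import Cfsg.Statements.S5628
import Cfsg.Agent.M24.Plane

set_option autoImplicit false
open Cfsg

namespace Cfsg.Agent.S5628

open Cfsg.Agent.M24 Finset MulAction
open scoped symmDiff Pointwise

theorem card_H0 : H0.card = 6 := by decide +kernel

theorem rigid {α : Type*} [DecidableEq α] {L : Set (Finset α)} (hL : IsSteinerSystem 2 5 L)
    {H : Finset α} (e : α ≃ Fin 21) (he : H.image e = H0) (h : (fun b => b.image e) '' L = famL FH)
    {g : Equiv.Perm α} (hg : g • L = L) (hH : ∀ a ∈ H, g a = a) : g = 1 := by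
  have h1 : ∀ l ∈ L, 2 ≤ (l ∩ H).card → g • l = l := fun l hl h2 =>
    steiner_unique hL (hg ▸ Set.smul_mem_smul_set hl) hl (h2.trans (card_le_card fun a ha => by
      rw [mem_inter] at ha ⊢
      refine ⟨?_, ha.1⟩
      have : g • a ∈ g • l := smul_mem_smul_finset ha.1
      rwa [Equiv.Perm.smul_def, hH a ha.2] at this))
  have h2 : ∀ x : Fin 21, ∃ a ∈ FH, ∃ b ∈ FH, a < 2 ^ 21 ∧ b < 2 ^ 21 ∧ 2 ≤ pc (Nat.land a 63) ∧
      2 ≤ pc (Nat.land b 63) ∧ Nat.land a b = 2 ^ x.val := by decide +kernel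
  have h3 : ∀ a ∈ FH, a < 2 ^ 21 → 2 ≤ pc (Nat.land a 63) →
      ∃ l : Finset α, E21.mask (l.image e) = a ∧ g • l = l := by
    intro a ha h4 h5
    have h6 : E21.unmask a ∈ famL FH := by rwa [famL, Set.mem_ofPred_eq, E21.mask_unmask h4]
    rw [← h] at h6
    obtain ⟨l, hl, e1⟩ := h6
    have e2 : E21.mask (l.image e) = a := by rw [← E21.mask_unmask h4]; exact congrArg _ e1
    refine ⟨l, e2, h1 l hl ?_⟩
    rw [← card_image_of_injective _ e.injective, image_inter _ _ e.injective, he,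
      E21.card_eq_pc (by norm_num), E21.mask_inter, e2, H0, E21.mask_unmask (by norm_num)]
    exact h5
  ext x
  obtain ⟨a, ha, b, hb, a1, b1, a2, b2, e1⟩ := h2 (e x)
  obtain ⟨l, rfl, hl⟩ := h3 a ha a1 a2
  obtain ⟨l', rfl, hl'⟩ := h3 b hb b1 b2
  rw [← E21.mask_inter, ← image_inter _ _ e.injective] at e1
  have e2 : l ∩ l' = {x} := image_injective e.injective
    (E21.mask_inj (by rw [e1, image_singleton, E21.mask_singleton]; rfl))
  have : g • x ∈ g • (l ∩ l') := smul_mem_smul_finset (e2 ▸ mem_singleton_self x)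
  rw [smul_finset_inter, hl, hl', e2] at this
  exact mem_singleton.1 this


/-- In a projective plane of order 4 (a Steiner system S(2, 5, 21)), every permutation of the six points of a hyperoval (a 6-set met by no line in more than two points) is the restriction of exactly one automorphism of the plane. In particular the stabiliser of a hyperoval in the automorphism group is isomorphic to the symmetric group of degree 6 acting faithfully on the hyperoval. -/
theorem result {α : Type*} [Fintype α] [DecidableEq α] (hα : Fintype.card α = 21) (L : Set (Finset α)) (hL : Cfsg.IsSteinerSystem 2 5 L) (H : Finset α) (hH : (H.card = 6 ∧ ∀ l ∈ L, (l ∩ H).card ≤ 2)) (σ : Equiv.Perm ↥H) : ∃! g : Equiv.Perm α, g ∈ Cfsg.setSystemAut L ∧ ∀ p : ↥H, g p = σ p := by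
  let e₀ := Fintype.equivFinOfCardEq hα
  obtain ⟨τ, hτ⟩ := Equiv.Perm.exists_map_finset_eq (H.image e₀) H0
    (by rw [card_image_of_injective _ e₀.injective, hH.1, card_H0])
  have he : H.image (e₀.trans τ) = H0 := by rw [← hτ, map_eq_image, image_image]; rfl
  have hσ : H.image (Equiv.Perm.ofSubtype σ) = H := by
    refine eq_of_subset_of_card_le (fun x hx => ?_)
      (by rw [card_image_of_injective _ (Equiv.injective _)])
    obtain ⟨y, hy, rfl⟩ := mem_image.1 hx
    rw [Equiv.Perm.ofSubtype_apply_of_mem σ hy]; exact (σ ⟨y, hy⟩).2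
  obtain ⟨e₁, a1, a2⟩ := plane_stdH hL hH.2 _ he
  obtain ⟨e₂, b1, b2⟩ := plane_stdH hL hH.2 ((Equiv.Perm.ofSubtype σ).trans (e₀.trans τ))
    (by rw [← he]; conv_rhs => rw [← hσ, image_image]
        rfl)
  have hg : (e₂.trans e₁.symm : Equiv.Perm α) ∈ setSystemAut L ∧
      ∀ p : H, (e₂.trans e₁.symm) p = σ p := by
    refine ⟨?_, fun p => ?_⟩
    · change (fun b => b.image (e₂.trans e₁.symm)) '' L = L
      rw [image_trans_fam, b2, ← a2, ← image_trans_fam, Equiv.self_trans_symm]
      simp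
    · rw [Equiv.trans_apply, Equiv.symm_apply_eq, b1 p p.2, a1 _ (σ p).2, Equiv.trans_apply,
        Equiv.Perm.ofSubtype_apply_of_mem σ p.2]
  refine ⟨_, hg, fun g h => ?_⟩
  rw [← inv_mul_eq_one]
  refine rigid hL e₁ (by rw [← he]; exact image_congr a1) a2
    ((setSystemAut L).mul_mem ((setSystemAut L).inv_mem h.1) hg.1) fun a ha => ?_
  rw [Equiv.Perm.mul_apply, Equiv.Perm.inv_eq_iff_eq, hg.2 ⟨a, ha⟩, h.2 ⟨a, ha⟩]

end Cfsg.Agent.S5628
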